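import Mathlib
import Cfsg.Prelude.Def_RootSubgroups

set_option autoImplicit false

namespace Cfsg.Agent.Lib.Helper8

open Equiv

set_option maxRecDepth 100000 in
theorem a6_orders : ∀ σ : Perm (Fin 6), Perm.sign σ = 1 →
    σ ^ 4 = 1 ∨ σ ^ 3 = 1 ∨ σ ^ 5 = 1 := by
  decide +kernel

set_option maxRecDepth 100000 in
theorem a6_invol_conj : ∀ σ : Perm (Fin 6), Perm.sign σ = 1 → σ * σ = 1 → σ ≠ 1 →
    ∃ g : Perm (Fin 6), Perm.sign g = 1 ∧ σ = g * (swap 0 1 * swap 2 3) * g⁻¹ := by
  decide +kernel

theorem comm_of_invol_sq {G : Type*} [Group G] {a b : G} (ha : a * a = 1) (hb : b * b = 1)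
    (h : (a * b) ^ 2 = 1) : a * b = b * a := by
  rw [pow_two] at h
  calc a * b = a * b * (a * b * (b * a)) := by
        rw [show a * b * (b * a) = a * (b * b) * a from by group, hb, mul_one, ha, mul_one]
    _ = (a * b * (a * b)) * (b * a) := by group
    _ = b * a := by rw [h, one_mul]

/-- S5057. -/
theorem a6_root :
    Cfsg.IsRootInvolutionClass {g : ↥(alternatingGroup (Fin 6)) | orderOf g = 2} ∧
    ∀ d ∈ {g : ↥(alternatingGroup (Fin 6)) | orderOf g = 2},
      ∀ e ∈ {g : ↥(alternatingGroup (Fin 6)) | orderOf g = 2}, orderOf (d * e) ≤ 5 := by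
  have hord : ∀ x : ↥(alternatingGroup (Fin 6)), x ^ 4 = 1 ∨ x ^ 3 = 1 ∨ x ^ 5 = 1 := by
    intro x
    have hx : Perm.sign (x : Perm (Fin 6)) = 1 := Perm.mem_alternatingGroup.mp x.2
    rcases a6_orders _ hx with h | h | h
    · left; exact Subtype.ext (by rw [Subgroup.coe_pow]; exact h)
    · right; left; exact Subtype.ext (by rw [Subgroup.coe_pow]; exact h)
    · right; right; exact Subtype.ext (by rw [Subgroup.coe_pow]; exact h)
  obtain ⟨t0, ht0⟩ : ∃ t0 : ↥(alternatingGroup (Fin 6)),
      (t0 : Perm (Fin 6)) = swap 0 1 * swap 2 3 :=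
    ⟨⟨swap 0 1 * swap 2 3, by rw [Perm.mem_alternatingGroup]; decide⟩, rfl⟩
  have ht01 : t0 ≠ 1 := by
    intro h
    have := congrArg Subtype.val h
    rw [ht0] at this
    revert this
    decide
  have ht0D : orderOf t0 = 2 := by
    haveI : Fact (Nat.Prime 2) := ⟨Nat.prime_two⟩
    apply orderOf_eq_prime
    · apply Subtype.ext
      rw [Subgroup.coe_pow, ht0]
      decide
    · exact ht01
  have hinv : ∀ d : ↥(alternatingGroup (Fin 6)), orderOf d = 2 → d * d = 1 ∧ d ≠ 1 := by
    intro d hd
    constructor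
    · have := pow_orderOf_eq_one d
      rwa [hd, pow_two] at this
    · intro h
      rw [h, orderOf_one] at hd
      exact absurd hd (by decide)
  have hconj0 : ∀ d : ↥(alternatingGroup (Fin 6)), orderOf d = 2 →
      ∃ g : ↥(alternatingGroup (Fin 6)), d = g * t0 * g⁻¹ := by
    intro d hd
    obtain ⟨h1, h2⟩ := hinv d hd
    obtain ⟨g, hg, hgd⟩ := a6_invol_conj (d : Perm (Fin 6)) (Perm.mem_alternatingGroup.mp d.2)
      (congrArg Subtype.val h1) (fun h => h2 (Subtype.ext h))
    refine ⟨⟨g, Perm.mem_alternatingGroup.mpr hg⟩, Subtype.ext ?_⟩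
    rw [hgd]
    simp [ht0]
  have hconjD : ∀ d : ↥(alternatingGroup (Fin 6)), orderOf d = 2 →
      ∀ g : ↥(alternatingGroup (Fin 6)), orderOf (g * d * g⁻¹) = 2 := by
    intro d hd g
    have := MulEquiv.orderOf_eq (MulAut.conj g) d
    rw [MulAut.conj_apply] at this
    rw [this, hd]
  have hdvd : ∀ x : ↥(alternatingGroup (Fin 6)),
      orderOf x = 1 ∨ orderOf x = 2 ∨ orderOf x = 4 ∨ orderOf x = 3 ∨ orderOf x = 5 := by
    intro x
    rcases hord x with h | h | h
    · have h1 : orderOf x ∣ 2 ^ 2 := orderOf_dvd_of_pow_eq_one h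
      obtain ⟨i, hi, hi'⟩ := (Nat.dvd_prime_pow Nat.prime_two).mp h1
      interval_cases i
      · left; simpa using hi'
      · right; left; simpa using hi'
      · right; right; left; simpa using hi'
    · have h1 : orderOf x ∣ 3 := orderOf_dvd_of_pow_eq_one h
      rcases (Nat.dvd_prime Nat.prime_three).mp h1 with h2 | h2
      · left; exact h2
      · right; right; right; left; exact h2
    · have h1 : orderOf x ∣ 5 := orderOf_dvd_of_pow_eq_one h
      rcases (Nat.dvd_prime Nat.prime_five).mp h1 with h2 | h2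
      · left; exact h2
      · right; right; right; right; exact h2
  refine ⟨⟨⟨fun d hd => hd, ?_, fun d hd g => hconjD d hd g, ?_⟩, ⟨t0, ht0D⟩, ?_⟩, ?_⟩
  · -- generation
    haveI : IsSimpleGroup ↥(alternatingGroup (Fin 6)) :=
      alternatingGroup.isSimpleGroup (by simp)
    have hn : (Subgroup.closure {g : ↥(alternatingGroup (Fin 6)) | orderOf g = 2}).Normal := by
      have h1 : Subgroup.normalClosure {g : ↥(alternatingGroup (Fin 6)) | orderOf g = 2} =
          Subgroup.closure {g : ↥(alternatingGroup (Fin 6)) | orderOf g = 2} := by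
        apply le_antisymm
        · unfold Subgroup.normalClosure
          apply Subgroup.closure_mono
          intro x hx
          rw [Group.mem_conjugatesOfSet_iff] at hx
          obtain ⟨d, hd, hdx⟩ := hx
          rw [isConj_iff] at hdx
          obtain ⟨g, rfl⟩ := hdx
          exact hconjD d hd g
        · exact Subgroup.closure_le_normalClosure
      rw [← h1]
      exact Subgroup.normalClosure_normal
    rcases hn.eq_bot_or_eq_top with h | h
    · exfalso
      have : t0 ∈ Subgroup.closure {g : ↥(alternatingGroup (Fin 6)) | orderOf g = 2} :=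
        Subgroup.subset_closure ht0D
      rw [h, Subgroup.mem_bot] at this
      exact ht01 this
    · exact h
  · -- pair
    intro a ha b hb
    obtain ⟨ha2, -⟩ := hinv a ha
    obtain ⟨hb2, -⟩ := hinv b hb
    rcases hdvd (a * b) with h | h | h | h | h
    · left
      rw [orderOf_eq_one_iff] at h
      exact comm_of_invol_sq ha2 hb2 (by rw [h, one_pow])
    · left
      have := pow_orderOf_eq_one (a * b)
      rw [h] at this
      exact comm_of_invol_sq ha2 hb2 this
    · right; right
      refine ⟨h, ?_⟩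
      show orderOf ((a * b) ^ 2) = 2
      rw [orderOf_pow' _ (by norm_num), h]
      decide
    · right; left
      rw [h]; decide
    · right; left
      rw [h]; decide
  · -- one class
    intro a ha b hb
    obtain ⟨g, hg⟩ := hconj0 a ha
    obtain ⟨k, hk⟩ := hconj0 b hb
    refine ⟨k * g⁻¹, ?_⟩
    rw [hk, hg]; group
  · intro d _ e _
    rcases hdvd (d * e) with h | h | h | h | h <;> rw [h] <;> norm_num

end Cfsg.Agent.Lib.Helper8
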