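import Mathlib

set_option autoImplicit false

namespace Cfsg.Agent.Lib.Helper8

open Equiv

section wreath

variable (p : ℕ) [Fact p.Prime]

/-- The permutations `(x, y) ↦ (x + f y, y + b)` of `ZMod p × ZMod p`: a copy of `C_p ≀ C_p`. -/
def wrSub : Subgroup (Perm (ZMod p × ZMod p)) where
  carrier := {π | ∃ (f : ZMod p → ZMod p) (b : ZMod p), ∀ x y, π (x, y) = (x + f y, y + b)}
  one_mem' := ⟨fun _ => 0, 0, fun x y => by simp⟩
  mul_mem' := by
    rintro π π' ⟨f, b, h⟩ ⟨f', b', h'⟩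
    refine ⟨fun y => f' y + f (y + b'), b' + b, fun x y => ?_⟩
    show π (π' (x, y)) = _
    rw [h', h, add_assoc, add_assoc]
  inv_mem' := by
    rintro π ⟨f, b, h⟩
    refine ⟨fun y => - f (y - b), - b, fun x y => ?_⟩
    rw [Perm.inv_eq_iff_eq, h]
    simp [sub_eq_add_neg]

variable {p}

theorem wr_pow {π : Perm (ZMod p × ZMod p)} {f : ZMod p → ZMod p} {b : ZMod p}
    (h : ∀ x y, π (x, y) = (x + f y, y + b)) (k : ℕ) (x y : ZMod p) :
    (π ^ k) (x, y) = (x + ∑ i ∈ Finset.range k, f (y + i • b), y + k • b) := by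
  induction k with
  | zero => simp
  | succ k ih =>
    rw [pow_succ', Perm.mul_apply, ih, h, Finset.sum_range_succ, add_assoc, add_assoc, succ_nsmul]

theorem wr_pow_sq {π : Perm (ZMod p × ZMod p)} (hπ : π ∈ wrSub p) : π ^ (p ^ 2) = 1 := by
  obtain ⟨f, b, h⟩ := hπ
  have hp0 : ∀ z : ZMod p, p • z = 0 := by
    intro z
    rw [nsmul_eq_mul, CharP.cast_eq_zero, zero_mul]
  have h1 : ∀ x y, (π ^ p) (x, y) = (x + ∑ i ∈ Finset.range p, f (y + i • b), y + 0) := by
    intro x y
    rw [wr_pow h, hp0]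
  have h2 := wr_pow (π := π ^ p) (f := fun y => ∑ i ∈ Finset.range p, f (y + i • b)) (b := 0) h1 p
  rw [sq, pow_mul]
  apply Equiv.ext
  rintro ⟨x, y⟩
  rw [h2]
  simp only [smul_zero, add_zero, Finset.sum_const, Finset.card_range, hp0, Perm.coe_one, id_eq]

theorem wr_isPGroup : IsPGroup p (wrSub p) := by
  rintro ⟨π, hπ⟩
  refine ⟨2, ?_⟩
  apply Subtype.ext
  show π ^ (p ^ 2) = 1
  exact wr_pow_sq hπ

variable (p)

/-- `(x, y) ↦ (x, y + 1)`. -/
def wrσ : Perm (ZMod p × ZMod p) where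
  toFun z := (z.1, z.2 + 1)
  invFun z := (z.1, z.2 - 1)
  left_inv z := by simp
  right_inv z := by simp

/-- `(x, y) ↦ (x + y, y)`. -/
def wrτ : Perm (ZMod p × ZMod p) where
  toFun z := (z.1 + z.2, z.2)
  invFun z := (z.1 - z.2, z.2)
  left_inv z := by simp
  right_inv z := by simp

theorem wrσ_mem : wrσ p ∈ wrSub p := ⟨fun _ => 0, 1, fun x y => by simp [wrσ]⟩

theorem wrτ_mem : wrτ p ∈ wrSub p := ⟨fun y => y, 0, fun x y => by simp [wrτ]⟩

theorem wr_noncomm : wrσ p * wrτ p ≠ wrτ p * wrσ p := by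
  intro h
  have h1 := congrArg (fun e : Perm (ZMod p × ZMod p) => (e (0, 0)).1) h
  simp [wrσ, wrτ] at h1

end wreath

section signfix

variable (α : Type*) [Fintype α] [DecidableEq α]

/-- Extend a permutation to two extra points so as to make it even. -/
def signFix : Perm α →* Perm (α ⊕ Fin 2) where
  toFun π := Perm.sumCongr π (if Perm.sign π = 1 then 1 else Equiv.swap 0 1)
  map_one' := by simp
  map_mul' π π' := by
    have hne : (-1 : ℤˣ) ≠ 1 := by decide
    rw [Perm.sumCongr_mul]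
    congr 1
    rcases Int.units_eq_one_or (Perm.sign π) with h | h <;>
      rcases Int.units_eq_one_or (Perm.sign π') with h' | h' <;>
      simp [Perm.sign_mul, h, h', hne]

variable {α}

theorem signFix_sign (π : Perm α) : Perm.sign (signFix α π) = 1 := by
  have hne : (-1 : ℤˣ) ≠ 1 := by decide
  show Perm.sign (Perm.sumCongr π _) = 1
  rw [Perm.sign_sumCongr]
  rcases Int.units_eq_one_or (Perm.sign π) with h | h
  · rw [if_pos h, h]
    simp
  · rw [if_neg (by rw [h]; exact hne), h, Perm.sign_swap (by decide)]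
    simp

theorem signFix_injective : Function.Injective (signFix α) := by
  intro π π' h
  ext x
  have h1 := congrArg (fun e : Perm (α ⊕ Fin 2) => e (Sum.inl x)) h
  simpa [signFix] using h1

end signfix

end Cfsg.Agent.Lib.Helper8
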