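import Cfsg.Agent.Lib.Helper8.AltSyl

set_option autoImplicit false

namespace Cfsg.Agent.Lib.Helper8

open Equiv
open scoped Pointwise

theorem sign_eq_one_of_odd_pow {α : Type*} [Fintype α] [DecidableEq α] (π : Perm α) {m : ℕ}
    (hm : Odd m) (h : π ^ m = 1) : Perm.sign π = 1 := by
  rcases Int.units_eq_one_or (Perm.sign π) with h1 | h1
  · exact h1
  · have h2 : Perm.sign (π ^ m) = 1 := by rw [h, map_one]
    rw [map_pow, h1, hm.neg_one_pow] at h2
    exact absurd h2 (by decide)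

theorem exists_even_embedding (n p : ℕ) [Fact p.Prime] (hn : 6 ≤ n) (hp : p ^ 2 ≤ n) :
    ∃ h : Perm (ZMod p × ZMod p) →* Perm (Fin n), Function.Injective h ∧
      ∀ π ∈ wrSub p, Perm.sign (h π) = 1 := by
  classical
  by_cases hp2 : p = 2
  · subst hp2
    have hcard : Fintype.card ((ZMod 2 × ZMod 2) ⊕ Fin 2) ≤ Fintype.card (Fin n) := by
      rw [Fintype.card_sum, Fintype.card_prod, ZMod.card, Fintype.card_fin, Fintype.card_fin]
      omega
    obtain ⟨ι⟩ := Function.Embedding.nonempty_of_card_le hcard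
    refine ⟨(Perm.extendDomainHom (Equiv.ofInjective ι ι.injective)).comp
      (signFix (ZMod 2 × ZMod 2)), ?_, fun π _ => ?_⟩
    · exact (Perm.extendDomainHom_injective _).comp signFix_injective
    · show Perm.sign ((signFix (ZMod 2 × ZMod 2) π).extendDomain
        (Equiv.ofInjective ι ι.injective)) = 1
      rw [Perm.sign_extendDomain, signFix_sign]
  · have hcard : Fintype.card (ZMod p × ZMod p) ≤ Fintype.card (Fin n) := by
      rw [Fintype.card_prod, ZMod.card, Fintype.card_fin, ← sq]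
      exact hp
    obtain ⟨ι⟩ := Function.Embedding.nonempty_of_card_le hcard
    refine ⟨Perm.extendDomainHom (Equiv.ofInjective ι ι.injective),
      Perm.extendDomainHom_injective _, fun π hπ => ?_⟩
    show Perm.sign (π.extendDomain (Equiv.ofInjective ι ι.injective)) = 1
    rw [Perm.sign_extendDomain]
    have hodd : Odd p := (Fact.out : p.Prime).odd_of_ne_two hp2
    exact sign_eq_one_of_odd_pow π hodd.pow (wr_pow_sq hπ)

theorem exists_nonabelian (n p : ℕ) [Fact p.Prime] (hn : 6 ≤ n) (hp : p ^ 2 ≤ n) :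
    ∃ Q : Subgroup (alternatingGroup (Fin n)), IsPGroup p Q ∧
      ∃ a ∈ Q, ∃ b ∈ Q, a * b ≠ b * a := by
  obtain ⟨h, hinj, hsign⟩ := exists_even_embedding n p hn hp
  have hmem : ∀ w : wrSub p, (h.comp (wrSub p).subtype) w ∈ alternatingGroup (Fin n) :=
    fun w => Perm.mem_alternatingGroup.mpr (hsign w w.2)
  obtain ⟨h', hh'⟩ : ∃ h' : ↥(wrSub p) →* ↥(alternatingGroup (Fin n)),
      ∀ w, ((h' w : alternatingGroup (Fin n)) : Perm (Fin n)) = h w :=
    ⟨(h.comp (wrSub p).subtype).codRestrict (alternatingGroup (Fin n)) hmem, fun w => rfl⟩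
  have hinj' : Function.Injective h' := by
    intro w w' hw
    have h1 : h w = h w' := by rw [← hh', ← hh', hw]
    exact Subtype.ext (hinj h1)
  refine ⟨h'.range, IsPGroup.of_surjective wr_isPGroup h'.rangeRestrict
    h'.rangeRestrict_surjective, h' ⟨wrσ p, wrσ_mem p⟩, ⟨_, rfl⟩, h' ⟨wrτ p, wrτ_mem p⟩,
    ⟨_, rfl⟩, fun hab => ?_⟩
  rw [← map_mul, ← map_mul] at hab
  have h2 := hinj' hab
  exact wr_noncomm p (congrArg Subtype.val h2)

theorem not_comm_of_sub {G : Type*} [Group G] [Finite G] {p : ℕ} [Fact p.Prime] (S : Sylow p G)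
    (Q : Subgroup G) (hQ : IsPGroup p Q) (a b : G) (ha : a ∈ Q) (hb : b ∈ Q)
    (hab : a * b ≠ b * a) : ¬ IsMulCommutative S := by
  intro hc
  obtain ⟨S', hS'⟩ := hQ.exists_le_sylow
  obtain ⟨g, hg⟩ := MulAction.exists_smul_eq G S' S
  have h1 : ∀ x ∈ Q, g * x * g⁻¹ ∈ S := by
    intro x hx
    have h2 : x ∈ (S' : Subgroup G) := hS' hx
    have h3 : MulAut.conj g • x ∈ MulAut.conj g • (S' : Subgroup G) :=
      Subgroup.smul_mem_pointwise_smul _ _ _ h2
    have h4 : ((g • S' : Sylow p G) : Subgroup G) = MulAut.conj g • (S' : Subgroup G) :=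
      Sylow.coe_subgroup_smul
    rw [hg] at h4
    rw [← h4] at h3
    exact h3
  have h4 := hc.is_comm.comm ⟨g * a * g⁻¹, h1 a ha⟩ ⟨g * b * g⁻¹, h1 b hb⟩
  have h5 : (g * a * g⁻¹) * (g * b * g⁻¹) = (g * b * g⁻¹) * (g * a * g⁻¹) :=
    congrArg Subtype.val h4
  apply hab
  have e1 : a * b = g⁻¹ * ((g * a * g⁻¹) * (g * b * g⁻¹)) * g := by group
  rw [e1, h5]
  group

end Cfsg.Agent.Lib.Helper8
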