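import Cfsg.Agent.Lib.Helper8.AltSyl2

set_option autoImplicit false

namespace Cfsg.Agent.Lib.Helper8

open Equiv

theorem perm_pgroup_comm {α : Type*} [Fintype α] [DecidableEq α] {p : ℕ} [Fact p.Prime]
    (Q : Subgroup (Perm α)) (hQ : IsPGroup p Q) (hn : Fintype.card α < p ^ 2) (a b : Perm α)
    (ha : a ∈ Q) (hb : b ∈ Q) : a * b = b * a := by
  have hpos : 0 < p := (Fact.out : p.Prime).pos
  ext x
  obtain ⟨k, hk⟩ := hQ.card_orbit x
  have hle : Nat.card (MulAction.orbit Q x) ≤ Fintype.card α := by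
    rw [← Nat.card_eq_fintype_card]
    exact Nat.card_le_card_of_injective Subtype.val Subtype.val_injective
  have hk1 : k ≤ 1 := by
    by_contra hcon
    push Not at hcon
    have h1 : p ^ 2 ≤ p ^ k := Nat.pow_le_pow_right hpos hcon
    omega
  have hOp : Nat.card (MulAction.orbit Q x) ≤ p := by
    rw [hk]
    calc p ^ k ≤ p ^ 1 := Nat.pow_le_pow_right hpos hk1
      _ = p := pow_one p
  obtain ⟨ρ, hρ⟩ : ∃ ρ : Q →* Perm (MulAction.orbit Q x), ρ = MulAction.toPermHom Q _ := ⟨_, rfl⟩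
  have hρp : IsPGroup p ρ.range :=
    IsPGroup.of_surjective hQ ρ.rangeRestrict ρ.rangeRestrict_surjective
  obtain ⟨j, hj⟩ := IsPGroup.iff_card.mp hρp
  have hdvd : Nat.card ρ.range ∣ (Nat.card (MulAction.orbit Q x)).factorial := by
    have h1 := Subgroup.card_subgroup_dvd_card ρ.range
    rwa [Nat.card_perm] at h1
  have hj1 : j ≤ 1 := by
    by_contra hcon
    push Not at hcon
    have h1 : p ^ 2 ∣ (Nat.card (MulAction.orbit Q x)).factorial := by
      rw [hj] at hdvd
      exact (pow_dvd_pow p hcon).trans hdvd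
    have h2 : (Nat.card (MulAction.orbit Q x)).factorial ∣ p.factorial :=
      Nat.factorial_dvd_factorial hOp
    have h3 : p ^ 2 ∣ p.factorial := h1.trans h2
    rw [← Nat.mul_factorial_pred (Nat.pos_iff_ne_zero.mp hpos), sq] at h3
    have h4 : p ∣ (p - 1).factorial := (Nat.mul_dvd_mul_iff_left hpos).mp h3
    have h5 := ((Fact.out : p.Prime).dvd_factorial).mp h4
    omega
  have hcomm : ∀ u v : ρ.range, u * v = v * u := by
    rcases Nat.lt_or_ge j 1 with hj0 | hj0
    · have h1 : Nat.card ρ.range = 1 := by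
        have e : j = 0 := by omega
        rw [hj, e, pow_zero]
      haveI : Subsingleton ρ.range := (Nat.card_eq_one_iff_unique.mp h1).1
      intro u v
      exact Subsingleton.elim _ _
    · have h1 : Nat.card ρ.range = p := by
        have e : j = 1 := by omega
        rw [hj, e, pow_one]
      haveI := isCyclic_of_prime_card h1
      intro u v
      exact (IsCyclic.isMulCommutative (α := ρ.range)).is_comm.comm u v
  have h6 := hcomm ⟨ρ ⟨a, ha⟩, ⟨_, rfl⟩⟩ ⟨ρ ⟨b, hb⟩, ⟨_, rfl⟩⟩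
  have h7 : ρ ⟨a, ha⟩ * ρ ⟨b, hb⟩ = ρ ⟨b, hb⟩ * ρ ⟨a, ha⟩ := congrArg Subtype.val h6
  have h8 := congrArg (fun e : Perm (MulAction.orbit Q x) =>
    ((e ⟨x, MulAction.mem_orbit_self x⟩ : MulAction.orbit Q x) : α)) h7
  rw [hρ] at h8
  exact h8

theorem alt_sylow_comm_iff (n p : ℕ) (hn : 6 ≤ n) [Fact p.Prime]
    (S : Sylow p (alternatingGroup (Fin n))) : IsMulCommutative S ↔ n < p ^ 2 := by
  constructor
  · intro hc
    by_contra hcon
    push Not at hcon
    obtain ⟨Q, hQ, a, ha, b, hb, hab⟩ := exists_nonabelian n p hn hcon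
    exact not_comm_of_sub S Q hQ a b ha hb hab hc
  · intro hlt
    refine ⟨⟨fun s t => ?_⟩⟩
    have h1 := perm_pgroup_comm ((S : Subgroup (alternatingGroup (Fin n))).map
      (alternatingGroup (Fin n)).subtype) (S.isPGroup'.map _)
      (by rw [Fintype.card_fin]; exact hlt) ((s : alternatingGroup (Fin n)) : Perm (Fin n))
      ((t : alternatingGroup (Fin n)) : Perm (Fin n)) ⟨s, s.2, rfl⟩ ⟨t, t.2, rfl⟩
    apply Subtype.ext
    apply Subtype.ext
    exact h1

end Cfsg.Agent.Lib.Helper8
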