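import Mathlib
import Cfsg.Agent.Lib.Helper8.GL1
import Cfsg.Agent.Lib.Helper8.Sat
import Cfsg.Agent.Lib.Helper8.Syl
import Cfsg.Agent.Lib.Helper8.Rad

set_option autoImplicit false

namespace Cfsg.Agent.Lib.Helper8

open Cfsg Cfsg.FusionSystem

theorem odd_unit_pow {j u k : ℕ} (hk : Odd k) (h : u ^ k ≡ 1 [MOD 2 ^ j]) :
    u ≡ 1 [MOD 2 ^ j] := by
  have h1 : ((u : ZMod (2 ^ j)) ^ k) = 1 := by
    have := (ZMod.natCast_eq_natCast_iff _ _ _).mpr h
    push_cast at this
    exact this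
  have hk0 : k ≠ 0 := by
    rintro rfl
    exact absurd hk (by decide)
  obtain ⟨ū, hū⟩ : ∃ ū : (ZMod (2 ^ j))ˣ, (ū : ZMod (2 ^ j)) = u :=
    ⟨Units.ofPowEqOne _ k h1 hk0, rfl⟩
  have h2 : ū ^ k = 1 := by
    apply Units.ext
    rw [Units.val_pow_eq_pow_val, hū, h1]; rfl
  have h3 : ū ^ Nat.totient (2 ^ j) = 1 := ZMod.pow_totient ū
  have h4 : ∃ t, Nat.totient (2 ^ j) = 2 ^ t := by
    rcases j with _ | j
    · exact ⟨0, by simp⟩
    · exact ⟨j, by rw [Nat.totient_prime_pow_succ Nat.prime_two]; simp⟩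
  obtain ⟨t, ht⟩ := h4
  rw [ht] at h3
  have h5 : orderOf ū ∣ Nat.gcd k (2 ^ t) :=
    Nat.dvd_gcd (orderOf_dvd_of_pow_eq_one h2) (orderOf_dvd_of_pow_eq_one h3)
  have h6 : Nat.gcd k (2 ^ t) = 1 := Nat.Coprime.pow_right t (Nat.coprime_two_right.mpr hk)
  rw [h6, Nat.dvd_one, orderOf_eq_one_iff] at h5
  rw [h5, Units.val_one] at hū
  have : ((u : ℕ) : ZMod (2 ^ j)) = ((1 : ℕ) : ZMod (2 ^ j)) := by
    rw [← hū]; simp
  exact (ZMod.natCast_eq_natCast_iff _ _ _).mp this

/-- A finite group with a cyclic subgroup of index two and order `2 ^ j` outside of which all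
elements have smaller order has a `2`-group of automorphisms. -/
theorem aut_two_group {D : Type*} [Group D] [Finite D] (c : D) (j : ℕ) (hc : orderOf c = 2 ^ j)
    (hidx : (Subgroup.zpowers c).index = 2)
    (hout : ∀ x : D, x ∉ Subgroup.zpowers c → orderOf x < 2 ^ j) :
    IsPGroup 2 (MulAut D) := by
  haveI : Finite (MulAut D) := finite_mulAut D
  haveI : Fact (Nat.Prime 2) := ⟨Nat.prime_two⟩
  have hD : IsPGroup 2 D := by
    have h1 := Subgroup.card_mul_index (Subgroup.zpowers c)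
    rw [Nat.card_zpowers, hc, hidx] at h1
    exact IsPGroup.of_card (n := j + 1) (by rw [← h1, pow_succ])
  have key : ∀ α : MulAut D, ∀ k : ℕ, Odd k → α ^ k = 1 → α = 1 := by
    intro α k hk hαk
    have h1 : α c ∈ Subgroup.zpowers c := by
      by_contra h
      have := hout _ h
      rw [MulEquiv.orderOf_eq α c, hc] at this
      exact lt_irrefl _ this
    obtain ⟨u, hu⟩ : ∃ u : ℕ, c ^ u = α c := by
      rw [← mem_powers_iff_mem_zpowers] at h1
      exact (Submonoid.mem_powers_iff _ _).mp h1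
    have hiter : ∀ i : ℕ, (α ^ i) c = c ^ (u ^ i) := by
      intro i
      induction i with
      | zero => simp
      | succ i ih =>
        rw [pow_succ', MulAut.mul_apply, ih, map_pow, ← hu, ← pow_mul, pow_succ']
    have h2 := hiter k
    rw [hαk, MulAut.one_apply] at h2
    have h3 : c ^ (u ^ k) = c ^ 1 := by rw [← h2, pow_one]
    rw [pow_eq_pow_iff_modEq, hc] at h3
    have h4 := odd_unit_pow hk h3
    have h5 : c ^ u = c ^ 1 := by
      rw [pow_eq_pow_iff_modEq, hc]; exact h4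
    rw [pow_one, hu] at h5
    have hfixC : ∀ x ∈ Subgroup.zpowers c, α x = x := by
      intro x hx
      obtain ⟨i, rfl⟩ := Subgroup.mem_zpowers_iff.mp hx
      rw [map_zpow, h5]
    ext x
    rw [MulAut.one_apply]
    by_cases hx : x ∈ Subgroup.zpowers c
    · exact hfixC x hx
    · have hαx : α x ∉ Subgroup.zpowers c := by
        intro h
        have := hfixC _ h
        exact hx (α.injective this ▸ h)
      have hz : x⁻¹ * α x ∈ Subgroup.zpowers c := by
        rw [Subgroup.mul_mem_iff_of_index_two hidx, Subgroup.inv_mem_iff]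
        exact ⟨fun h => absurd h hx, fun h => absurd h hαx⟩
      exact coprime_fix hD α (Nat.coprime_two_right.mpr hk) hαk (hfixC _ hz)
  intro α
  obtain ⟨t, m, hm, htm⟩ := Nat.exists_eq_pow_mul_and_not_dvd (orderOf_pos α).ne' 2 (by norm_num)
  refine ⟨t, ?_⟩
  apply key (α ^ 2 ^ t) m (Nat.odd_iff.mpr (by omega))
  rw [← pow_mul, ← htm, pow_orderOf_eq_one]

theorem isPGroup_mulAut_dihedral (j : ℕ) (hj : 2 ≤ j) :
    IsPGroup 2 (MulAut (DihedralGroup (2 ^ j))) := by
  haveI : NeZero (2 ^ j) := ⟨by positivity⟩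
  apply aut_two_group (DihedralGroup.r 1) j DihedralGroup.orderOf_r_one
  · have h1 := Subgroup.card_mul_index (Subgroup.zpowers (DihedralGroup.r (1 : ZMod (2 ^ j))))
    rw [Nat.card_zpowers, DihedralGroup.orderOf_r_one, DihedralGroup.nat_card] at h1
    have : 0 < 2 ^ j := by positivity
    nlinarith
  · intro x hx
    cases x with
    | r i =>
      exfalso
      apply hx
      rw [← ZMod.natCast_zmod_val i, ← DihedralGroup.r_one_pow]
      exact Subgroup.pow_mem _ (Subgroup.mem_zpowers _) _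
    | sr i =>
      rw [DihedralGroup.orderOf_sr]
      calc 2 < 2 ^ 2 := by norm_num
        _ ≤ 2 ^ j := Nat.pow_le_pow_right (by norm_num) hj

theorem isPGroup_mulAut_quaternion (i : ℕ) (hi : 2 ≤ i) :
    IsPGroup 2 (MulAut (QuaternionGroup (2 ^ i))) := by
  haveI : NeZero (2 ^ i) := ⟨by positivity⟩
  have ho : orderOf (QuaternionGroup.a 1 : QuaternionGroup (2 ^ i)) = 2 ^ (i + 1) := by
    rw [QuaternionGroup.orderOf_a_one, pow_succ, mul_comm]
  apply aut_two_group (QuaternionGroup.a 1) (i + 1) ho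
  · have h1 := Subgroup.card_mul_index
      (Subgroup.zpowers (QuaternionGroup.a 1 : QuaternionGroup (2 ^ i)))
    rw [Nat.card_zpowers, ho, Nat.card_eq_fintype_card, QuaternionGroup.card] at h1
    have : 0 < 2 ^ i := by positivity
    rw [pow_succ] at h1
    nlinarith
  · intro x hx
    cases x with
    | a t =>
      exfalso
      apply hx
      rw [← ZMod.natCast_zmod_val t, ← QuaternionGroup.a_one_pow]
      exact Subgroup.pow_mem _ (Subgroup.mem_zpowers _) _
    | xa t =>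
      rw [QuaternionGroup.orderOf_xa]
      calc 4 < 2 ^ (2 + 1) := by norm_num
        _ ≤ 2 ^ (i + 1) := Nat.pow_le_pow_right (by norm_num) (by omega)

variable {Ω : Type*} [Group Ω] {S : Subgroup Ω}

/-- If `Aut(S)` is a `p`-group then `Aut_F(S) = Inn(S)` in a saturated fusion system. -/
theorem aut_eq_inn_of_isPGroup [Finite S] {p : ℕ} [Fact p.Prime] (F : FusionSystem S)
    (hF : F.IsSaturated p) (h : IsPGroup p (MulAut S)) : F.autGroup S = Inn S := by
  obtain ⟨Q, hconj, hfa, -⟩ := hF S le_rfl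
  have hQS : Q = S := by
    have h1 := (fs_isConj_le F hconj).2
    have h2 := fs_isConj_card F hconj
    exact Subgroup.eq_of_le_of_card_ge h1 h2.ge
  subst hQS
  obtain ⟨-, R₀, hR₀⟩ := hfa
  have hsyl : SylIn p (autInducedBy Q Q) (F.autGroup Q) :=
    (sylIn_iff (autInducedBy_le_autGroup F le_rfl)).mpr ⟨R₀, hR₀⟩
  have heq : F.autGroup Q = autInducedBy Q Q :=
    hsyl.2.2 _ (h.to_subgroup _) (autInducedBy_le_autGroup F le_rfl) le_rfl
  apply le_antisymm
  · rw [heq]
    intro α hα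
    obtain ⟨g, hg, hgα⟩ := (mem_autInducedBy_iff Q Q α).mp hα
    refine ⟨⟨g, hg⟩, ?_⟩
    ext x
    rw [hgα x]
    rfl
  · exact inn_le_autGroup F le_rfl

/-- S5112. -/
theorem dihedral_quaternion_aut_inner [Finite S] (n : ℕ) (hn : 4 ≤ n)
    (hshape : Nonempty (S ≃* DihedralGroup (2 ^ (n - 1))) ∨
      Nonempty (S ≃* QuaternionGroup (2 ^ (n - 2))))
    (F : Cfsg.FusionSystem S) (hF : F.IsSaturated 2) : F.autGroup S = Cfsg.Inn S := by
  haveI : Fact (Nat.Prime 2) := ⟨Nat.prime_two⟩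
  apply aut_eq_inn_of_isPGroup F hF
  rcases hshape with ⟨⟨e⟩⟩ | ⟨⟨e⟩⟩
  · exact (isPGroup_mulAut_dihedral (n - 1) (by omega)).of_equiv (MulAut.congr e).symm
  · exact (isPGroup_mulAut_quaternion (n - 2) (by omega)).of_equiv (MulAut.congr e).symm

end Cfsg.Agent.Lib.Helper8
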