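import Cfsg.Agent.Lib.Helper8.Rad
import Cfsg.Agent.Lib.Helper8.HypGen

set_option autoImplicit false
open Cfsg

namespace Cfsg.Agent.Lib.Helper8

/-- A 1-cocycle with values in a normal abelian `p`-subgroup which is trivial on a Sylow
`p`-subgroup is a coboundary. -/
theorem coboundary_of_sylow {G : Type*} [Group G] [Finite G] {p : ℕ} [Fact p.Prime] (T : Sylow p G)
    (A : Subgroup G) [hAn : A.Normal] (hAc : ∀ a ∈ A, ∀ b ∈ A, a * b = b * a) (hAp : IsPGroup p A)
    (f : G → G) (hfA : ∀ g, f g ∈ A) (hf : ∀ g h, f (g * h) = f g * (g * f h * g⁻¹))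
    (hfT : ∀ t ∈ (T : Subgroup G), f t = 1) :
    ∃ b ∈ A, ∀ g, f g = b * (g * b⁻¹ * g⁻¹) := by
  classical
  letI : CommGroup A :=
    { (inferInstance : Group A) with mul_comm := fun a b => Subtype.ext (hAc a a.2 b b.2) }
  letI : Fintype (G ⧸ (T : Subgroup G)) := Fintype.ofFinite _
  obtain ⟨a, ha⟩ : ∃ a : A, a = ∏ x : G ⧸ (T : Subgroup G), (⟨f x.out, hfA _⟩ : A) := ⟨_, rfl⟩
  have key : ∀ g : G, a = (⟨f g, hfA g⟩ : A) ^ (Fintype.card (G ⧸ (T : Subgroup G))) *
      (MulAut.conjNormal g : MulAut A) a := by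
    intro g
    have h1 : ∏ x : G ⧸ (T : Subgroup G), (⟨f (g • x).out, hfA _⟩ : A) = a := by
      rw [ha]
      exact Equiv.prod_comp (MulAction.toPerm g)
        (fun x : G ⧸ (T : Subgroup G) => (⟨f x.out, hfA _⟩ : A))
    have h2 : ∀ x : G ⧸ (T : Subgroup G), (⟨f (g • x).out, hfA _⟩ : A) =
        ⟨f g, hfA g⟩ * (MulAut.conjNormal g : MulAut A) ⟨f x.out, hfA _⟩ := by
      intro x
      apply Subtype.ext
      show f (g • x).out = f g * (g * f x.out * g⁻¹)
      rw [← hf]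
      have h3 : ((g • x).out)⁻¹ * (g * x.out) ∈ (T : Subgroup G) := by
        apply QuotientGroup.eq.mp
        rw [QuotientGroup.out_eq']
        exact (MulAction.Quotient.mk_smul_out (T : Subgroup G) g x).symm
      have e : g * x.out = (g • x).out * (((g • x).out)⁻¹ * (g * x.out)) := by group
      rw [e, hf, hfT _ h3]
      group
    calc a = ∏ x : G ⧸ (T : Subgroup G), (⟨f (g • x).out, hfA _⟩ : A) := h1.symm
      _ = ∏ x : G ⧸ (T : Subgroup G), ((⟨f g, hfA g⟩ : A) *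
            (MulAut.conjNormal g : MulAut A) ⟨f x.out, hfA _⟩) :=
          Finset.prod_congr rfl (fun x _ => h2 x)
      _ = (⟨f g, hfA g⟩ : A) ^ (Fintype.card (G ⧸ (T : Subgroup G))) *
            (MulAut.conjNormal g : MulAut A) a := by
          rw [Finset.prod_mul_distrib, Finset.prod_const, Finset.card_univ, ha, map_prod]
  have hcop : (Nat.card A).Coprime (Fintype.card (G ⧸ (T : Subgroup G))) := by
    obtain ⟨k, hk⟩ := IsPGroup.iff_card.mp hAp
    rw [hk, ← Nat.card_eq_fintype_card, ← Subgroup.index_eq_card]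
    exact Nat.Coprime.pow_left k ((Nat.Prime.coprime_iff_not_dvd Fact.out).mpr T.not_dvd_index)
  obtain ⟨m, hm⟩ : ∃ m : ℕ, Fintype.card (G ⧸ (T : Subgroup G)) * m ≡ 1 [MOD Nat.card A] := by
    rcases Nat.lt_or_ge 1 (Nat.card A) with h | h
    · obtain ⟨m, -, hm⟩ := Nat.exists_mul_mod_eq_one_of_coprime hcop.symm h
      refine ⟨m, ?_⟩
      show _ % _ = 1 % _
      rw [hm, Nat.mod_eq_of_lt h]
    · have h1 : Nat.card A = 1 := le_antisymm h Nat.card_pos
      rw [h1]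
      exact ⟨0, Nat.modEq_one⟩
  refine ⟨((a ^ m : A) : G), (a ^ m : A).2, fun g => ?_⟩
  have h1 : (⟨f g, hfA g⟩ : A) ^ (Fintype.card (G ⧸ (T : Subgroup G))) =
      a * ((MulAut.conjNormal g : MulAut A) a)⁻¹ := by
    rw [eq_mul_inv_iff_mul_eq]
    exact (key g).symm
  have h2 : (⟨f g, hfA g⟩ : A) = a ^ m * ((MulAut.conjNormal g : MulAut A) (a ^ m))⁻¹ := by
    have h3 := pow_eq_self_of_modEq (b := (⟨f g, hfA g⟩ : A)) (pow_card_eq_one') hm
    rw [← h3, pow_mul, h1, mul_pow, inv_pow, map_pow]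
  have h4 := congrArg Subtype.val h2
  have h5 : f g = ((a ^ m : A) : G) * (g * ((a ^ m : A) : G) * g⁻¹)⁻¹ := h4
  rw [h5]
  group

end Cfsg.Agent.Lib.Helper8
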