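import Mathlib

set_option autoImplicit false

namespace Cfsg.Agent.Lib.Helper8

universe u

theorem rep_adjoin_comm8 {F : Type*} [Field F] {H : Type*} [CommGroup H] {V : Type*}
    [AddCommGroup V] [Module F V] (ρ : Representation F H V) :
    (∀ a ∈ Algebra.adjoin F (Set.range ρ), ∀ h : H, a * ρ h = ρ h * a) ∧
    (∀ a ∈ Algebra.adjoin F (Set.range ρ), ∀ b ∈ Algebra.adjoin F (Set.range ρ),
      a * b = b * a) := by
  have h1 : ∀ a ∈ Algebra.adjoin F (Set.range ρ), ∀ h : H, a * ρ h = ρ h * a := by
    intro a ha h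
    have hle : Algebra.adjoin F (Set.range ρ) ≤ Subalgebra.centralizer F (Set.range ρ) := by
      apply Algebra.adjoin_le
      rintro _ ⟨h₁, rfl⟩
      rw [SetLike.mem_coe, Subalgebra.mem_centralizer_iff]
      rintro _ ⟨h₂, rfl⟩
      rw [← map_mul, ← map_mul, mul_comm]
    exact ((Subalgebra.mem_centralizer_iff F).mp (hle ha) (ρ h) ⟨h, rfl⟩).symm
  refine ⟨h1, ?_⟩
  intro a ha b hb
  have hle : Algebra.adjoin F (Set.range ρ) ≤
      Subalgebra.centralizer F (Algebra.adjoin F (Set.range ρ) : Set (Module.End F V)) := by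
    apply Algebra.adjoin_le
    rintro _ ⟨h₁, rfl⟩
    rw [SetLike.mem_coe, Subalgebra.mem_centralizer_iff]
    intro c hc
    exact h1 c hc h₁
  exact (Subalgebra.mem_centralizer_iff F).mp (hle hb) a ha

/-- the algebra generated by an irreducible representation of an abelian group is a field,
and the module is free of rank one over it -/
theorem rep_field8 {F : Type*} [Field F] [Fintype F] {H : Type*} [CommGroup H]
    {V : Type u} [AddCommGroup V] [Module F V] [FiniteDimensional F V]
    (ρ : Representation F H V)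
    (hirr : ∀ U : Submodule F V, (∀ h : H, ∀ u ∈ U, ρ h u ∈ U) → U = ⊥ ∨ U = ⊤)
    (v₀ : V) (hv₀ : v₀ ≠ 0) :
    ∃ (L : Type u) (_ : Field L) (_ : Algebra F L) (_ : Finite L)
      (j : L →ₐ[F] Module.End F V),
      Function.Injective j ∧ j.range = Algebra.adjoin F (Set.range ρ) ∧
      Function.Bijective (fun a : L => j a v₀) := by
  obtain ⟨L', hL'⟩ : ∃ L' : Subalgebra F (Module.End F V),
      L' = Algebra.adjoin F (Set.range ρ) := ⟨_, rfl⟩
  obtain ⟨hc1, hc2⟩ := rep_adjoin_comm8 ρ
  rw [← hL'] at hc1 hc2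
  have hρ : ∀ h, ρ h ∈ L' := fun h => hL' ▸ Algebra.subset_adjoin ⟨h, rfl⟩
  have hinj : ∀ a ∈ L', a ≠ 0 → Function.Injective a := by
    intro a ha hne
    have hU := hirr (LinearMap.ker a) (by
      intro h u hu
      rw [LinearMap.mem_ker] at hu ⊢
      have h0 : a (ρ h u) = ρ h (a u) :=
        congrArg (fun f : Module.End F V => f u) (hc1 a ha h)
      rw [h0, hu, map_zero])
    rcases hU with hU | hU
    · exact LinearMap.ker_eq_bot.mp hU
    · exfalso; apply hne
      exact LinearMap.ker_eq_top.mp hU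
  have hev_inj : ∀ a ∈ L', a v₀ = 0 → a = 0 := by
    intro a ha h0
    by_contra hne
    exact hv₀ (hinj a ha hne (by rw [h0, map_zero]))
  have hev_surj : ∀ v, ∃ a ∈ L', a v₀ = v := by
    have hU := hirr ((Subalgebra.toSubmodule L').map
      (LinearMap.applyₗ v₀ : Module.End F V →ₗ[F] V)) (by
        rintro h _ ⟨a, ha, rfl⟩
        exact ⟨ρ h * a, L'.mul_mem (hρ h) ha, rfl⟩)
    rcases hU with hU | hU
    · exfalso
      have h0 : v₀ ∈ (Subalgebra.toSubmodule L').map
          (LinearMap.applyₗ v₀ : Module.End F V →ₗ[F] V) := ⟨1, L'.one_mem, rfl⟩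
      rw [hU] at h0
      exact hv₀ ((Submodule.mem_bot F).mp h0)
    · intro v
      have h0 : v ∈ (Subalgebra.toSubmodule L').map
          (LinearMap.applyₗ v₀ : Module.End F V →ₗ[F] V) := by
        rw [hU]; trivial
      obtain ⟨a, ha, rfl⟩ := h0
      exact ⟨a, ha, rfl⟩
  have hfield : IsField ↥L' := by
    refine ⟨⟨0, 1, ?_⟩, fun a b => Subtype.ext (hc2 a.1 a.2 b.1 b.2), ?_⟩
    · intro h
      have h1 : (0 : Module.End F V) = 1 := congrArg Subtype.val h
      apply hv₀
      have h2 := congrArg (fun f : Module.End F V => f v₀) h1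
      exact h2.symm
    · intro a ha
      have ha' : (a : Module.End F V) ≠ 0 := fun h => ha (Subtype.ext h)
      have hsurj : Function.Surjective (a : Module.End F V) :=
        LinearMap.surjective_of_injective (hinj a.1 a.2 ha')
      obtain ⟨w, hw⟩ := hsurj v₀
      obtain ⟨b, hb, hbw⟩ := hev_surj w
      refine ⟨⟨b, hb⟩, Subtype.ext ?_⟩
      show (a : Module.End F V) * b = 1
      have h0 : ((a : Module.End F V) * b - 1) v₀ = 0 := by
        rw [LinearMap.sub_apply, Module.End.mul_apply, hbw, hw, Module.End.one_apply, sub_self]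
      have h3 := hev_inj _ (L'.sub_mem (L'.mul_mem a.2 hb) L'.one_mem) h0
      exact sub_eq_zero.mp h3
  haveI : Finite V := Module.finite_of_finite F
  haveI : Finite (Module.End F V) :=
    Finite.of_injective (fun f : Module.End F V => (f : V → V)) DFunLike.coe_injective
  letI : Field ↥L' := hfield.toField
  refine ⟨↥L', inferInstance, inferInstance, inferInstance, L'.val, Subtype.val_injective,
    ?_, ?_⟩
  · rw [Subalgebra.range_val, hL']
  · constructor
    · intro a b hab
      have h0 : ((a : Module.End F V) - b) v₀ = 0 := by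
        rw [LinearMap.sub_apply]; exact sub_eq_zero.mpr hab
      have h3 := hev_inj _ (L'.sub_mem a.2 b.2) h0
      exact Subtype.ext (sub_eq_zero.mp h3)
    · intro v
      obtain ⟨a, ha, hav⟩ := hev_surj v
      exact ⟨⟨a, ha⟩, hav⟩

end Cfsg.Agent.Lib.Helper8
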