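import Mathlib

set_option autoImplicit false

namespace Cfsg.Agent.Lib.Helper8

theorem frob_pow8 (K L : Type*) [Field K] [Fintype K] [Field L] [Algebra K L] [Finite L]
    (k : ℕ) (a : L) :
    (FiniteField.frobeniusAlgEquivOfAlgebraic K L ^ k) a = a ^ (Fintype.card K ^ k) := by
  induction k generalizing a with
  | zero => rw [pow_zero, pow_zero, pow_one]; rfl
  | succ k ih =>
    rw [pow_succ, AlgEquiv.mul_apply, ih]
    have h1 : FiniteField.frobeniusAlgEquivOfAlgebraic K L a = a ^ Fintype.card K := by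
      rw [FiniteField.coe_frobeniusAlgEquivOfAlgebraic]
    rw [h1, ← pow_mul, ← pow_succ']

/-- an involutive automorphism of a finite field extension is trivial or the middle power of
Frobenius -/
theorem galois_invol8 {K L : Type*} [Field K] [Fintype K] [Field L] [Algebra K L] [Finite L]
    (τ : L →ₐ[K] L) (hτ : ∀ a, τ (τ a) = a) :
    (∀ a, τ a = a) ∨ (Even (Module.finrank K L) ∧
      ∀ a, τ a = a ^ (Fintype.card K ^ (Module.finrank K L / 2))) := by
  obtain ⟨τ', hτ'⟩ : ∃ τ' : L ≃ₐ[K] L, ∀ a, τ' a = τ a :=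
    ⟨AlgEquiv.ofAlgHom τ τ (AlgHom.ext hτ) (AlgHom.ext hτ), fun a => rfl⟩
  obtain ⟨i, hi⟩ := (FiniteField.bijective_frobeniusAlgEquivOfAlgebraic_pow K L).2 τ'
  have hi' : FiniteField.frobeniusAlgEquivOfAlgebraic K L ^ (i : ℕ) = τ' := hi
  have h2 : FiniteField.frobeniusAlgEquivOfAlgebraic K L ^ (2 * (i : ℕ)) = 1 := by
    rw [mul_comm, pow_mul, hi', sq]
    apply AlgEquiv.ext
    intro a
    rw [AlgEquiv.mul_apply, hτ', hτ', hτ]
    rfl
  have hdvd : Module.finrank K L ∣ 2 * (i : ℕ) := by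
    have h3 := orderOf_dvd_of_pow_eq_one h2
    rw [FiniteField.orderOf_frobeniusAlgEquivOfAlgebraic K L] at h3
    exact h3
  have hlt : (i : ℕ) < Module.finrank K L := i.2
  obtain ⟨c, hc⟩ := hdvd
  have hc01 : c = 0 ∨ c = 1 := by
    rcases Nat.lt_or_ge c 2 with h | h
    · interval_cases c
      · left; rfl
      · right; rfl
    · exfalso
      have h3 : Module.finrank K L * 2 ≤ Module.finrank K L * c := Nat.mul_le_mul_left _ h
      omega
  rcases hc01 with rfl | rfl
  · left
    intro a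
    have hi0 : (i : ℕ) = 0 := by omega
    rw [← hτ', ← hi', hi0, pow_zero]; rfl
  · right
    refine ⟨⟨(i : ℕ), by omega⟩, ?_⟩
    intro a
    have hhalf : Module.finrank K L / 2 = (i : ℕ) := by omega
    rw [hhalf, ← hτ', ← hi', frob_pow8]

end Cfsg.Agent.Lib.Helper8
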