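import Mathlib
import Cfsg.Agent.Lib.Helper8.Dual1
import Cfsg.Agent.Lib.Helper8.Dual2

set_option autoImplicit false

namespace Cfsg.Agent.Lib.Helper8

theorem selfdual_one8 {F : Type*} [Field F] {H : Type*} [Group H] [Finite H] {V : Type*}
    [AddCommGroup V] [Module F V]
    (ρ : Representation F H V) (hfaith : Function.Injective ρ) (h1 : Module.finrank F V = 1)
    (B : LinearMap.BilinForm F V) (hB : B.Nondegenerate)
    (hinv : ∀ h : H, ∀ x y : V, B (ρ h x) (ρ h y) = B x y) : Nat.card H ≤ 2 := by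
  classical
  have hV : ∃ v₀ : V, v₀ ≠ 0 := by
    by_contra hcon
    push Not at hcon
    have h0 : Module.finrank F V = 0 := by
      haveI : Subsingleton V := ⟨fun a b => by rw [hcon a, hcon b]⟩
      exact Module.finrank_zero_of_subsingleton
    omega
  obtain ⟨v₀, hv₀⟩ := hV
  have hsp : ∀ y : V, ∃ c : F, c • v₀ = y := exists_smul_eq_of_finrank_eq_one h1 hv₀
  have hB0 : B v₀ v₀ ≠ 0 := by
    intro h0
    apply hv₀
    apply hB.1 v₀
    intro y
    obtain ⟨c, rfl⟩ := hsp y
    rw [map_smul, smul_eq_mul, h0, mul_zero]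
  obtain ⟨κ, hκ⟩ : ∃ κ : H → F, ∀ h, κ h • v₀ = ρ h v₀ :=
    ⟨fun h => (hsp (ρ h v₀)).choose, fun h => (hsp (ρ h v₀)).choose_spec⟩
  have hκ2 : ∀ h, κ h = 1 ∨ κ h = -1 := by
    intro h
    have h3 := hinv h v₀ v₀
    rw [← hκ h] at h3
    simp only [map_smul, LinearMap.smul_apply, smul_eq_mul] at h3
    have h2 : κ h * κ h = 1 := by
      have h4 : (κ h * κ h - 1) * B v₀ v₀ = 0 := by linear_combination h3
      rcases mul_eq_zero.mp h4 with h5 | h5
      · exact sub_eq_zero.mp h5
      · exact absurd h5 hB0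
    exact mul_self_eq_one_iff.mp h2
  have hκinj : Function.Injective κ := by
    intro h h' hh
    apply hfaith
    apply LinearMap.ext
    intro y
    obtain ⟨c, rfl⟩ := hsp y
    rw [map_smul, map_smul, ← hκ h, ← hκ h', hh]
  have hcard : Nat.card H ≤ Nat.card (({1, -1} : Finset F)) :=
    Nat.card_le_card_of_injective (fun h => (⟨κ h, by
      rcases hκ2 h with h5 | h5 <;> simp [h5]⟩ : ({1, -1} : Finset F)))
      (fun h h' hh => hκinj (congrArg Subtype.val hh))
  have h6 : Nat.card (({1, -1} : Finset F)) = ({1, -1} : Finset F).card := by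
    rw [Nat.card_eq_fintype_card, Fintype.card_coe]
  rw [h6] at hcard
  exact hcard.trans Finset.card_le_two

theorem selfdual_core8 {F : Type*} [Field F] [Fintype F] {H : Type*} [CommGroup H] [Finite H]
    {V : Type*} [AddCommGroup V] [Module F V] [FiniteDimensional F V]
    (ρ : Representation F H V) (hfaith : Function.Injective ρ)
    (hirr : ∀ U : Submodule F V, (∀ h : H, ∀ u ∈ U, ρ h u ∈ U) → U = ⊥ ∨ U = ⊤)
    {L : Type*} [Field L] [Algebra F L] [Finite L] (j : L →ₐ[F] Module.End F V)
    (hj : Function.Injective j) (hrange : j.range = Algebra.adjoin F (Set.range ρ))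
    (v₀ : V) (hv₀ : v₀ ≠ 0) (hbij : Function.Bijective (fun a : L => j a v₀))
    (hn : 2 ≤ Module.finrank F V) :
    (∃ B : LinearMap.BilinForm F V, B.Nondegenerate ∧
        ∀ h : H, ∀ x y : V, B (ρ h x) (ρ h y) = B x y) ↔
      (Even (Module.finrank F V) ∧
        Nat.card H ∣ Fintype.card F ^ (Module.finrank F V / 2) + 1) := by
  have hmem : ∀ h : H, ∃ a : L, j a = ρ h := by
    intro h
    have h0 : ρ h ∈ j.range := by rw [hrange]; exact Algebra.subset_adjoin ⟨h, rfl⟩
    exact h0
  obtain ⟨lam, hlam⟩ : ∃ lam : H → L, ∀ h, j (lam h) = ρ h :=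
    ⟨fun h => (hmem h).choose, fun h => (hmem h).choose_spec⟩
  have hlam_mul : ∀ h h', lam (h * h') = lam h * lam h' := by
    intro h h'; apply hj; rw [map_mul, hlam, hlam, hlam, map_mul]
  have hlam_one : lam 1 = 1 := by apply hj; rw [hlam, map_one, map_one]
  have hlam_inj : Function.Injective lam := by
    intro h h' hh; apply hfaith; rw [← hlam, ← hlam, hh]
  obtain ⟨lamH, hlamH⟩ : ∃ lamH : H →* L, ∀ h, lamH h = lam h :=
    ⟨{ toFun := lam, map_one' := hlam_one, map_mul' := hlam_mul }, fun h => rfl⟩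
  haveI : IsCyclic H := isCyclic_of_injective_ringHom lamH (by
    intro h h' hh; rw [hlamH, hlamH] at hh; exact hlam_inj hh)
  have hlam_pow : ∀ h (k : ℕ), lam (h ^ k) = lam h ^ k := by
    intro h k; rw [← hlamH, ← hlamH, map_pow]
  obtain ⟨ev, hev⟩ : ∃ ev : L ≃ₗ[F] V, ∀ a, ev a = j a v₀ :=
    ⟨LinearEquiv.ofBijective
      ((LinearMap.applyₗ v₀ : Module.End F V →ₗ[F] V) ∘ₗ j.toLinearMap) hbij, fun a => rfl⟩
  have hrank : Module.finrank F L = Module.finrank F V := LinearEquiv.finrank_eq ev
  have hevρ : ∀ h a, ev (lam h * a) = ρ h (ev a) := by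
    intro h a
    rw [hev, hev, map_mul, hlam]; rfl
  have hρinv : ∀ h y, ρ h (ρ h⁻¹ y) = y := by
    intro h y
    rw [← Module.End.mul_apply, ← map_mul, mul_inv_cancel, map_one, Module.End.one_apply]
  constructor
  · rintro ⟨B, hB, hinv⟩
    have hadj : ∀ a : L, ∃ a' : L, ∀ x y, B (j a x) y = B x (j a' y) := by
      intro a
      have ha : j a ∈ Algebra.adjoin F (Set.range ρ) := by rw [← hrange]; exact ⟨a, rfl⟩
      refine Algebra.adjoin_induction
        (p := fun f _ => ∃ a' : L, ∀ x y, B (f x) y = B x (j a' y)) ?_ ?_ ?_ ?_ ha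
      · rintro _ ⟨h, rfl⟩
        refine ⟨lam h⁻¹, fun x y => ?_⟩
        rw [hlam, ← hinv h x (ρ h⁻¹ y), hρinv]
      · intro c
        refine ⟨algebraMap F L c, fun x y => ?_⟩
        rw [AlgHom.commutes, Module.algebraMap_end_apply, Module.algebraMap_end_apply,
          map_smul, LinearMap.smul_apply, map_smul]
      · rintro f g _ _ ⟨a', ha'⟩ ⟨b', hb'⟩
        refine ⟨a' + b', fun x y => ?_⟩
        rw [LinearMap.add_apply, map_add, LinearMap.add_apply, ha', hb', map_add,
          LinearMap.add_apply, map_add]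
      · rintro f g _ _ ⟨a', ha'⟩ ⟨b', hb'⟩
        refine ⟨b' * a', fun x y => ?_⟩
        rw [Module.End.mul_apply, ha', hb', map_mul, Module.End.mul_apply]
    obtain ⟨τ, hτ⟩ : ∃ τ : L → L, ∀ a x y, B (j a x) y = B x (j (τ a) y) :=
      ⟨fun a => (hadj a).choose, fun a => (hadj a).choose_spec⟩
    have huniq : ∀ b b' : L, (∀ x y, B x (j b y) = B x (j b' y)) → b = b' := by
      intro b b' hbb
      apply hj
      apply LinearMap.ext
      intro y
      have h0 : j b y - j b' y = 0 := by
        apply hB.2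
        intro x
        rw [map_sub, hbb, sub_self]
      exact sub_eq_zero.mp h0
    have hτ_add : ∀ a b, τ (a + b) = τ a + τ b := by
      intro a b
      apply huniq
      intro x y
      rw [← hτ, map_add, LinearMap.add_apply, map_add, LinearMap.add_apply, hτ, hτ, map_add,
        LinearMap.add_apply, map_add]
    have hτ_mul : ∀ a b, τ (a * b) = τ a * τ b := by
      intro a b
      apply huniq
      intro x y
      rw [← hτ, map_mul, Module.End.mul_apply, hτ, hτ, mul_comm (τ a), map_mul,
        Module.End.mul_apply]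
    have hτ_alg : ∀ c : F, τ (algebraMap F L c) = algebraMap F L c := by
      intro c
      apply huniq
      intro x y
      rw [← hτ, AlgHom.commutes, Module.algebraMap_end_apply, Module.algebraMap_end_apply,
        map_smul, LinearMap.smul_apply, map_smul]
    have hτ_lam : ∀ h, τ (lam h) = lam h⁻¹ := by
      intro h
      apply huniq
      intro x y
      rw [← hτ, hlam, hlam, ← hinv h x (ρ h⁻¹ y), hρinv]
    obtain ⟨τA, hτA⟩ : ∃ τA : L →ₐ[F] L, ∀ a, τA a = τ a :=
      ⟨{ toFun := τ
         map_one' := by have h0 := hτ_alg 1; rwa [map_one] at h0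
         map_mul' := hτ_mul
         map_zero' := by have h0 := hτ_alg 0; rwa [map_zero] at h0
         map_add' := hτ_add
         commutes' := hτ_alg }, fun a => rfl⟩
    have hττ : ∀ a, τA (τA a) = a := by
      intro a
      have ha : j a ∈ Algebra.adjoin F (Set.range ρ) := by rw [← hrange]; exact ⟨a, rfl⟩
      have key : ∀ f (_ : f ∈ Algebra.adjoin F (Set.range ρ)), ∀ a : L, j a = f →
          τA (τA a) = a := by
        intro f hf
        refine Algebra.adjoin_induction
          (p := fun f _ => ∀ a : L, j a = f → τA (τA a) = a) ?_ ?_ ?_ ?_ hf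
        · rintro _ ⟨h, rfl⟩ a ha
          have h0 : a = lam h := hj (by rw [ha, hlam])
          rw [h0, hτA, hτA, hτ_lam, hτ_lam, inv_inv]
        · intro c a ha
          have h0 : a = algebraMap F L c := hj (by rw [ha, AlgHom.commutes])
          rw [h0, AlgHom.commutes, AlgHom.commutes]
        · intro f g hf hg ihf ihg a ha
          obtain ⟨a₁, rfl⟩ : ∃ a₁, j a₁ = f := by rw [← hrange] at hf; exact hf
          obtain ⟨a₂, rfl⟩ : ∃ a₂, j a₂ = g := by rw [← hrange] at hg; exact hg
          have h0 : a = a₁ + a₂ := hj (by rw [ha, map_add])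
          rw [h0, map_add, map_add, ihf a₁ rfl, ihg a₂ rfl]
        · intro f g hf hg ihf ihg a ha
          obtain ⟨a₁, rfl⟩ : ∃ a₁, j a₁ = f := by rw [← hrange] at hf; exact hf
          obtain ⟨a₂, rfl⟩ : ∃ a₂, j a₂ = g := by rw [← hrange] at hg; exact hg
          have h0 : a = a₁ * a₂ := hj (by rw [ha, map_mul])
          rw [h0, map_mul, map_mul, ihf a₁ rfl, ihg a₂ rfl]
      exact key _ ha a rfl
    rcases galois_invol8 τA hττ with hid | ⟨heven, hfrob⟩
    · exfalso
      have hpm : ∀ h, lam h = 1 ∨ lam h = -1 := by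
        intro h
        have h1 : lam h⁻¹ = lam h := by rw [← hτ_lam, ← hτA, hid]
        have h2 : lam h * lam h = 1 := by
          nth_rewrite 2 [← h1]
          rw [← hlam_mul, mul_inv_cancel, hlam_one]
        exact mul_self_eq_one_iff.mp h2
      have hU := hirr (Submodule.span F {v₀}) (by
        intro h u hu
        rcases hpm h with h1 | h1
        · have h0 : ρ h u = u := by rw [← hlam, h1, map_one, Module.End.one_apply]
          rw [h0]; exact hu
        · have h0 : ρ h u = -u := by
            rw [← hlam, h1, map_neg, map_one, LinearMap.neg_apply, Module.End.one_apply]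
          rw [h0]; exact Submodule.neg_mem _ hu)
      rcases hU with hU | hU
      · exact hv₀ (Submodule.span_singleton_eq_bot.mp hU)
      · have h1 := finrank_span_singleton (K := F) hv₀
        rw [hU, finrank_top] at h1
        omega
    · rw [hrank] at heven hfrob
      refine ⟨heven, ?_⟩
      obtain ⟨g, hg⟩ := IsCyclic.exists_generator (α := H)
      have hord : orderOf g = Nat.card H := orderOf_eq_card_of_forall_mem_zpowers hg
      rw [← hord]
      apply orderOf_dvd_of_pow_eq_one
      apply hlam_inj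
      rw [hlam_pow, hlam_one, pow_succ, ← hfrob, hτA, hτ_lam, ← hlam_mul, inv_mul_cancel,
        hlam_one]
  · rintro ⟨heven, hdvd⟩
    obtain ⟨i, hi⟩ : ∃ i, Module.finrank F V / 2 = i := ⟨_, rfl⟩
    rw [hi] at hdvd
    obtain ⟨σ, hσ⟩ : ∃ σ : L ≃ₐ[F] L, ∀ a, σ a = a ^ (Fintype.card F ^ i) :=
      ⟨FiniteField.frobeniusAlgEquivOfAlgebraic F L ^ i, fun a => frob_pow8 F L i a⟩
    have hσlam : ∀ h, σ (lam h) * lam h = 1 := by
      intro h
      rw [hσ, ← pow_succ, ← hlam_pow]
      have h0 : h ^ (Fintype.card F ^ i + 1) = 1 := by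
        obtain ⟨c, hc⟩ := hdvd
        rw [hc, pow_mul, pow_card_eq_one', one_pow]
      rw [h0, hlam_one]
    obtain ⟨ℓ, hℓ⟩ := Module.Projective.exists_dual_ne_zero F hv₀
    obtain ⟨B, hBdef⟩ : ∃ B : LinearMap.BilinForm F V,
        ∀ x y, B x y = ℓ (ev (ev.symm x * σ (ev.symm y))) :=
      ⟨LinearMap.mk₂ F (fun x y => ℓ (ev (ev.symm x * σ (ev.symm y))))
        (by intro m₁ m₂ n; simp only [map_add, add_mul])
        (by intro c m n; simp only [map_smul, smul_mul_assoc, smul_eq_mul])
        (by intro m n₁ n₂; simp only [map_add, mul_add])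
        (by intro c m n; simp only [map_smul, mul_smul_comm, smul_eq_mul]), fun x y => rfl⟩
    have hev1 : ev 1 = v₀ := by rw [hev, map_one, Module.End.one_apply]
    refine ⟨B, ⟨?_, ?_⟩, ?_⟩
    · intro x hx
      by_contra hne
      have ha : ev.symm x ≠ 0 := fun h =>
        hne (by rw [← ev.apply_symm_apply x, h, map_zero])
      have h0 := hx (ev (σ.symm ((ev.symm x)⁻¹)))
      rw [hBdef, ev.symm_apply_apply, σ.apply_symm_apply, mul_inv_cancel₀ ha, hev1] at h0
      exact hℓ h0
    · intro y hy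
      by_contra hne
      have ha : ev.symm y ≠ 0 := fun h =>
        hne (by rw [← ev.apply_symm_apply y, h, map_zero])
      have hσa : σ (ev.symm y) ≠ 0 := fun h =>
        ha (by rw [← σ.symm_apply_apply (ev.symm y), h, map_zero])
      have h0 := hy (ev ((σ (ev.symm y))⁻¹))
      rw [hBdef, ev.symm_apply_apply, inv_mul_cancel₀ hσa, hev1] at h0
      exact hℓ h0
    · intro h x y
      have hs : ∀ z, ev.symm (ρ h z) = lam h * ev.symm z := by
        intro z
        apply ev.injective
        rw [ev.apply_symm_apply, hevρ, ev.apply_symm_apply]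
      rw [hBdef, hBdef, hs, hs, map_mul σ]
      have h0 : lam h * ev.symm x * (σ (lam h) * σ (ev.symm y))
          = (σ (lam h) * lam h) * (ev.symm x * σ (ev.symm y)) := by ring
      rw [h0, hσlam, one_mul]

/-- S4967 -/
theorem selfdual_main8 {F : Type*} [Field F] [Fintype F] {H : Type*} [CommGroup H] [Finite H]
    {V : Type*} [AddCommGroup V] [Module F V] [FiniteDimensional F V]
    (ρ : Representation F H V) (hfaith : Function.Injective ρ)
    (hirr : ∀ U : Submodule F V, (∀ h : H, ∀ u ∈ U, ρ h u ∈ U) → U = ⊥ ∨ U = ⊤) :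
    (Module.finrank F V = 1 → (∃ B : LinearMap.BilinForm F V, B.Nondegenerate ∧
        ∀ h : H, ∀ x y : V, B (ρ h x) (ρ h y) = B x y) → Nat.card H ≤ 2) ∧
    (2 ≤ Module.finrank F V → ((∃ B : LinearMap.BilinForm F V, B.Nondegenerate ∧
        ∀ h : H, ∀ x y : V, B (ρ h x) (ρ h y) = B x y) ↔
      (Even (Module.finrank F V) ∧
        Nat.card H ∣ Fintype.card F ^ (Module.finrank F V / 2) + 1))) := by
  refine ⟨fun h1 ⟨B, hB, hinv⟩ => selfdual_one8 ρ hfaith h1 B hB hinv, fun hn => ?_⟩
  have hV : ∃ v₀ : V, v₀ ≠ 0 := by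
    by_contra hcon
    push Not at hcon
    have h0 : Module.finrank F V = 0 := by
      haveI : Subsingleton V := ⟨fun a b => by rw [hcon a, hcon b]⟩
      exact Module.finrank_zero_of_subsingleton
    omega
  obtain ⟨v₀, hv₀⟩ := hV
  obtain ⟨L, instF, instA, instFin, j, hj, hrange, hbij⟩ := rep_field8 ρ hirr v₀ hv₀
  exact selfdual_core8 ρ hfaith hirr j hj hrange v₀ hv₀ hbij hn

end Cfsg.Agent.Lib.Helper8
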