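import Mathlib
import Cfsg.Prelude.Def_Transfer
import Cfsg.Agent.Lib.Lead.PFrat

set_option autoImplicit false

namespace Cfsg.Agent.Lib.Helper8

open scoped commutatorElement

/-- a biadditive map on a coordinate space over the field of two elements -/
structure Coc8 (ι : Type) where
  c : (ι → ZMod 2) → (ι → ZMod 2) → ZMod 2
  add_left : ∀ u u' v, c (u + u') v = c u v + c u' v
  add_right : ∀ u v v', c u (v + v') = c u v + c u v'

theorem Coc8.zero_left8 {ι : Type} (C : Coc8 ι) (v : ι → ZMod 2) : C.c 0 v = 0 := by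
  have h := C.add_left 0 0 v
  rw [add_zero] at h
  linear_combination (-1 : ZMod 2) * h

theorem Coc8.zero_right8 {ι : Type} (C : Coc8 ι) (u : ι → ZMod 2) : C.c u 0 = 0 := by
  have h := C.add_right u 0 0
  rw [add_zero] at h
  linear_combination (-1 : ZMod 2) * h

theorem char2_add_self8 (t : ZMod 2) : t + t = 0 := by
  revert t
  decide

theorem zmod2_ne_zero8 (t : ZMod 2) (h : t ≠ 0) : t = 1 := by
  revert t
  decide

theorem char2_vec8 {ι : Type} (u : ι → ZMod 2) : u + u = 0 := by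
  funext i
  exact char2_add_self8 (u i)

/-- the extension of the coordinate space by the field of two elements defined by a
biadditive map -/
structure E8 {ι : Type} (C : Coc8 ι) : Type where
  a : ZMod 2
  v : ι → ZMod 2

theorem E8.ext8 {ι : Type} {C : Coc8 ι} {x y : E8 C} (h1 : x.a = y.a) (h2 : x.v = y.v) :
    x = y := by
  obtain ⟨a, v⟩ := x
  obtain ⟨a', v'⟩ := y
  dsimp only at h1 h2
  subst h1
  subst h2
  rfl

instance E8.instGroup8 {ι : Type} (C : Coc8 ι) : Group (E8 C) where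
  mul x y := ⟨x.a + y.a + C.c x.v y.v, x.v + y.v⟩
  one := ⟨0, 0⟩
  inv x := ⟨x.a + C.c x.v x.v, x.v⟩
  mul_assoc x y z := by
    apply E8.ext8
    · show x.a + y.a + C.c x.v y.v + z.a + C.c (x.v + y.v) z.v
        = x.a + (y.a + z.a + C.c y.v z.v) + C.c x.v (y.v + z.v)
      rw [C.add_left, C.add_right]
      ring
    · show x.v + y.v + z.v = x.v + (y.v + z.v)
      exact add_assoc _ _ _
  one_mul x := by
    apply E8.ext8
    · show (0 : ZMod 2) + x.a + C.c 0 x.v = x.a
      rw [C.zero_left8]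
      ring
    · show (0 : ι → ZMod 2) + x.v = x.v
      exact zero_add _
  mul_one x := by
    apply E8.ext8
    · show x.a + (0 : ZMod 2) + C.c x.v 0 = x.a
      rw [C.zero_right8]
      ring
    · show x.v + (0 : ι → ZMod 2) = x.v
      exact add_zero _
  inv_mul_cancel x := by
    apply E8.ext8
    · show x.a + C.c x.v x.v + x.a + C.c x.v x.v = 0
      linear_combination char2_add_self8 x.a + char2_add_self8 (C.c x.v x.v)
    · show x.v + x.v = 0
      exact char2_vec8 _

theorem E8.mul_a8 {ι : Type} {C : Coc8 ι} (x y : E8 C) :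
    (x * y).a = x.a + y.a + C.c x.v y.v := rfl

theorem E8.mul_v8 {ι : Type} {C : Coc8 ι} (x y : E8 C) : (x * y).v = x.v + y.v := rfl

theorem E8.one_a8 {ι : Type} {C : Coc8 ι} : (1 : E8 C).a = 0 := rfl

theorem E8.one_v8 {ι : Type} {C : Coc8 ι} : (1 : E8 C).v = 0 := rfl

theorem E8.inv_a8 {ι : Type} {C : Coc8 ι} (x : E8 C) : (x⁻¹).a = x.a + C.c x.v x.v := rfl

theorem E8.inv_v8 {ι : Type} {C : Coc8 ι} (x : E8 C) : (x⁻¹).v = x.v := rfl

/-- the underlying set -/
def E8.equiv8 {ι : Type} (C : Coc8 ι) : E8 C ≃ ZMod 2 × (ι → ZMod 2) where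
  toFun x := (x.a, x.v)
  invFun p := ⟨p.1, p.2⟩
  left_inv x := by cases x; rfl
  right_inv p := by cases p; rfl

instance E8.instFinite8 {ι : Type} [Finite ι] (C : Coc8 ι) : Finite (E8 C) :=
  Finite.of_equiv _ (E8.equiv8 C).symm

theorem E8.card8 {ι : Type} [Fintype ι] (C : Coc8 ι) :
    Nat.card (E8 C) = 2 * 2 ^ Fintype.card ι := by
  rw [Nat.card_congr (E8.equiv8 C), Nat.card_prod, Nat.card_fun, Nat.card_zmod,
    Nat.card_eq_fintype_card (α := ι)]

theorem E8.mem_center8 {ι : Type} (C : Coc8 ι)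
    (hnd : ∀ u, (∀ v, C.c u v + C.c v u = 0) → u = 0) (x : E8 C) :
    x ∈ Subgroup.center (E8 C) ↔ x.v = 0 := by
  rw [Subgroup.mem_center_iff]
  constructor
  · intro h
    apply hnd
    intro v
    have h1 := congrArg E8.a (h ⟨0, v⟩)
    rw [E8.mul_a8, E8.mul_a8] at h1
    dsimp only at h1
    linear_combination (-1 : ZMod 2) * h1 + char2_add_self8 (C.c v x.v)
  · intro h g
    apply E8.ext8
    · rw [E8.mul_a8, E8.mul_a8, h, C.zero_left8, C.zero_right8]
      ring
    · rw [E8.mul_v8, E8.mul_v8, add_comm]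

theorem E8.card_center8 {ι : Type} (C : Coc8 ι)
    (hnd : ∀ u, (∀ v, C.c u v + C.c v u = 0) → u = 0) :
    Nat.card (Subgroup.center (E8 C)) = 2 := by
  have e : Subgroup.center (E8 C) ≃ ZMod 2 :=
    { toFun := fun x => x.1.a
      invFun := fun a => ⟨⟨a, 0⟩, (E8.mem_center8 C hnd _).mpr rfl⟩
      left_inv := by
        intro x
        apply Subtype.ext
        apply E8.ext8
        · rfl
        · exact ((E8.mem_center8 C hnd x.1).mp x.2).symm
      right_inv := fun a => rfl }
  rw [Nat.card_congr e, Nat.card_zmod]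

theorem E8.comm_v8 {ι : Type} {C : Coc8 ι} (x y : E8 C) : (⁅x, y⁆).v = 0 := by
  rw [commutatorElement_def, E8.mul_v8, E8.mul_v8, E8.mul_v8, E8.inv_v8, E8.inv_v8]
  funext i
  simp only [Pi.add_apply, Pi.zero_apply]
  linear_combination char2_add_self8 (x.v i) + char2_add_self8 (y.v i)

theorem E8.comm_a8 {ι : Type} {C : Coc8 ι} (x y : E8 C) :
    (⁅x, y⁆).a = C.c x.v y.v + C.c y.v x.v := by
  have h : ⁅x, y⁆ * (y * x) = x * y := by
    rw [commutatorElement_def]
    group
  have h1 := congrArg E8.a h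
  rw [E8.mul_a8, E8.comm_v8, C.zero_left8, E8.mul_a8, E8.mul_a8] at h1
  linear_combination h1 - char2_add_self8 (C.c y.v x.v)

theorem E8.commutator_eq8 {ι : Type} (C : Coc8 ι)
    (hnd : ∀ u, (∀ v, C.c u v + C.c v u = 0) → u = 0)
    (hne : ∃ u v, C.c u v + C.c v u ≠ 0) :
    commutator (E8 C) = Subgroup.center (E8 C) := by
  apply le_antisymm
  · rw [commutator_def, Subgroup.commutator_le]
    intro x _ y _
    exact (E8.mem_center8 C hnd _).mpr (E8.comm_v8 x y)
  · intro x hx
    have hv := (E8.mem_center8 C hnd x).mp hx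
    obtain ⟨u, v, huv⟩ := hne
    have h1 : C.c u v + C.c v u = 1 := zmod2_ne_zero8 _ huv
    by_cases ha : x.a = 0
    · have h2 : x = 1 := E8.ext8 ha hv
      rw [h2]
      exact Subgroup.one_mem _
    · have ha1 : x.a = 1 := zmod2_ne_zero8 _ ha
      have h2 : x = ⁅(⟨0, u⟩ : E8 C), ⟨0, v⟩⁆ := by
        apply E8.ext8
        · rw [E8.comm_a8, ha1]
          exact h1.symm
        · rw [E8.comm_v8, hv]
      rw [h2, commutator_def]
      exact Subgroup.commutator_mem_commutator (Subgroup.mem_top _) (Subgroup.mem_top _)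

theorem E8.isPGroup8 {ι : Type} [Fintype ι] (C : Coc8 ι) : IsPGroup 2 (E8 C) := by
  apply IsPGroup.of_card (n := Fintype.card ι + 1)
  rw [E8.card8, pow_succ]
  ring

theorem E8.frattini_eq8 {ι : Type} [Fintype ι] (C : Coc8 ι)
    (hnd : ∀ u, (∀ v, C.c u v + C.c v u = 0) → u = 0)
    (hne : ∃ u v, C.c u v + C.c v u ≠ 0) :
    frattini (E8 C) = Subgroup.center (E8 C) := by
  classical
  apply le_antisymm
  · intro x hx
    rw [E8.mem_center8 C hnd]
    funext i
    obtain ⟨M, hM⟩ : ∃ M : Subgroup (E8 C), ∀ g, g ∈ M ↔ g.v i = 0 := by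
      refine ⟨{ carrier := {g | g.v i = 0}
                mul_mem' := ?_
                one_mem' := rfl
                inv_mem' := ?_ }, fun g => Iff.rfl⟩
      · intro a b ha hb
        have ha' : a.v i = 0 := ha
        have hb' : b.v i = 0 := hb
        show (a * b).v i = 0
        rw [E8.mul_v8, Pi.add_apply, ha', hb', add_zero]
      · intro a ha
        have ha' : a.v i = 0 := ha
        show (a⁻¹).v i = 0
        rw [E8.inv_v8]
        exact ha'
    have hco : IsCoatom M := by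
      constructor
      · intro htop
        have h1 : (⟨0, Pi.single i 1⟩ : E8 C) ∈ M := by
          rw [htop]
          exact Subgroup.mem_top _
        rw [hM] at h1
        simp at h1
      · intro K hK
        obtain ⟨hle, k, hkK, hkM⟩ := SetLike.lt_iff_le_and_exists.mp hK
        rw [eq_top_iff]
        intro g _
        by_cases hg : g.v i = 0
        · exact hle ((hM g).mpr hg)
        · have h1 : g * k⁻¹ ∈ M := by
            rw [hM, E8.mul_v8, E8.inv_v8, Pi.add_apply]
            have hk1 : k.v i = 1 := zmod2_ne_zero8 _ (fun h => hkM ((hM k).mpr h))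
            have hg1 : g.v i = 1 := zmod2_ne_zero8 _ hg
            rw [hk1, hg1]
            decide
          have h2 : g = (g * k⁻¹) * k := by group
          rw [h2]
          exact K.mul_mem (hle h1) hkK
    exact (hM x).mp (frattini_le_coatom hco hx)
  · rw [← E8.commutator_eq8 C hnd hne]
    exact (Cfsg.Agent.Lib.Lead.commutator_le_frattini_and_pow_mem (p := 2)
      (E8.isPGroup8 C)).1

theorem E8.rank8 {ι : Type} [Fintype ι] (C : Coc8 ι) (w : ℕ)
    (hex : ∃ U : Submodule (ZMod 2) (ι → ZMod 2), (∀ u ∈ U, C.c u u = 0) ∧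
      Module.finrank (ZMod 2) ↥U = w)
    (hle : ∀ U : Submodule (ZMod 2) (ι → ZMod 2), (∀ u ∈ U, C.c u u = 0) →
      Module.finrank (ZMod 2) ↥U ≤ w) :
    sSup {k : ℕ | ∃ A : Subgroup (E8 C), Cfsg.IsElementaryAbelian 2 A ∧ Nat.card A = 2 ^ k}
      = w + 1 := by
  classical
  apply IsGreatest.csSup_eq
  constructor
  · obtain ⟨U, hU, hUw⟩ := hex
    have hsym : ∀ u ∈ U, ∀ v ∈ U, C.c u v = C.c v u := by
      intro u hu v hv
      have h1 := hU (u + v) (U.add_mem hu hv)
      rw [C.add_left, C.add_right, C.add_right, hU u hu, hU v hv] at h1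
      linear_combination h1 - char2_add_self8 (C.c v u)
    obtain ⟨A, hA⟩ : ∃ A : Subgroup (E8 C), ∀ g, g ∈ A ↔ g.v ∈ U := by
      refine ⟨{ carrier := {g | g.v ∈ U}
                mul_mem' := ?_
                one_mem' := U.zero_mem
                inv_mem' := ?_ }, fun g => Iff.rfl⟩
      · intro a b ha hb
        exact U.add_mem ha hb
      · intro a ha
        exact ha
    refine ⟨A, ⟨⟨⟨fun a b => ?_⟩⟩, ?_⟩, ?_⟩
    · apply Subtype.ext
      apply E8.ext8
      · show (a.1 * b.1).a = (b.1 * a.1).a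
        rw [E8.mul_a8, E8.mul_a8, hsym _ ((hA _).mp a.2) _ ((hA _).mp b.2)]
        ring
      · show (a.1 * b.1).v = (b.1 * a.1).v
        rw [E8.mul_v8, E8.mul_v8, add_comm]
    · intro a ha
      rw [pow_two]
      apply E8.ext8
      · rw [E8.mul_a8, hU _ ((hA a).mp ha), E8.one_a8, add_zero]
        exact char2_add_self8 _
      · rw [E8.mul_v8, E8.one_v8]
        exact char2_vec8 _
    · have e : ↥A ≃ ZMod 2 × ↥U :=
        { toFun := fun x => (x.1.a, ⟨x.1.v, (hA _).mp x.2⟩)
          invFun := fun p => ⟨⟨p.1, p.2.1⟩, (hA _).mpr p.2.2⟩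
          left_inv := fun x => by
            apply Subtype.ext
            apply E8.ext8 <;> rfl
          right_inv := fun p => rfl }
      rw [Nat.card_congr e, Nat.card_prod, Nat.card_zmod,
        Module.natCard_eq_pow_finrank (K := ZMod 2), Nat.card_zmod, hUw, pow_succ]
      ring
  · intro k hk
    obtain ⟨A, ⟨hAc, hA2⟩, hAcard⟩ := hk
    obtain ⟨U, hU⟩ : ∃ U : Submodule (ZMod 2) (ι → ZMod 2),
        ∀ u, u ∈ U ↔ ∃ x ∈ A, x.v = u := by
      refine ⟨{ carrier := {u | ∃ x ∈ A, x.v = u}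
                add_mem' := ?_
                zero_mem' := ⟨1, A.one_mem, rfl⟩
                smul_mem' := ?_ }, fun u => Iff.rfl⟩
      · rintro u v ⟨x, hx, rfl⟩ ⟨y, hy, rfl⟩
        exact ⟨x * y, A.mul_mem hx hy, rfl⟩
      · rintro t u ⟨x, hx, rfl⟩
        by_cases ht : t = 0
        · rw [ht, zero_smul]
          exact ⟨1, A.one_mem, rfl⟩
        · rw [zmod2_ne_zero8 t ht, one_smul]
          exact ⟨x, hx, rfl⟩
    have hUts : ∀ u ∈ U, C.c u u = 0 := by
      intro u hu
      obtain ⟨x, hx, rfl⟩ := (hU u).mp hu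
      have h1 := hA2 x hx
      rw [pow_two] at h1
      have h2 := congrArg E8.a h1
      rw [E8.mul_a8, E8.one_a8] at h2
      linear_combination h2 - char2_add_self8 x.a
    have hfr := hle U hUts
    have hUcard : Nat.card ↥U ≤ 2 ^ w := by
      rw [Module.natCard_eq_pow_finrank (K := ZMod 2), Nat.card_zmod]
      exact Nat.pow_le_pow_right (by norm_num) hfr
    have hinj : Nat.card ↥A ≤ Nat.card (ZMod 2 × ↥U) := by
      apply Nat.card_le_card_of_injective
        (fun x : ↥A => ((x.1.a, ⟨x.1.v, (hU _).mpr ⟨x.1, x.2, rfl⟩⟩) : ZMod 2 × ↥U))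
      intro x y hxy
      apply Subtype.ext
      have h1 := congrArg Prod.fst hxy
      have h2 := congrArg (fun p : ZMod 2 × ↥U => (p.2 : ι → ZMod 2)) hxy
      exact E8.ext8 h1 h2
    rw [Nat.card_prod, Nat.card_zmod, hAcard] at hinj
    have h3 : 2 ^ k ≤ 2 ^ (w + 1) := by
      calc 2 ^ k ≤ 2 * Nat.card ↥U := hinj
        _ ≤ 2 * 2 ^ w := Nat.mul_le_mul_left 2 hUcard
        _ = 2 ^ (w + 1) := by rw [pow_succ]; ring
    exact (Nat.pow_le_pow_iff_right (by norm_num)).mp h3

/-- the extension is extraspecial of the stated order and rank -/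
theorem E8.main8 {ι : Type} [Fintype ι] (C : Coc8 ι) (n w : ℕ)
    (hcard : Fintype.card ι = 2 * n) (hn : 1 ≤ n)
    (hnd : ∀ u, (∀ v, C.c u v + C.c v u = 0) → u = 0)
    (hex : ∃ U : Submodule (ZMod 2) (ι → ZMod 2), (∀ u ∈ U, C.c u u = 0) ∧
      Module.finrank (ZMod 2) ↥U = w)
    (hle : ∀ U : Submodule (ZMod 2) (ι → ZMod 2), (∀ u ∈ U, C.c u u = 0) →
      Module.finrank (ZMod 2) ↥U ≤ w) :
    Cfsg.IsExtraspecial 2 (E8 C) ∧ Nat.card (E8 C) = 2 ^ (2 * n + 1) ∧
      sSup {k : ℕ | ∃ A : Subgroup (E8 C), Cfsg.IsElementaryAbelian 2 A ∧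
        Nat.card A = 2 ^ k} = w + 1 := by
  classical
  have hne : ∃ u v, C.c u v + C.c v u ≠ 0 := by
    have hpos : 0 < Fintype.card ι := by omega
    obtain ⟨i⟩ := Fintype.card_pos_iff.mp hpos
    by_contra hcon
    push Not at hcon
    have h1 := hnd (Pi.single i 1) (fun v => hcon _ v)
    have h2 := congrFun h1 i
    simp at h2
  refine ⟨⟨⟨E8.isPGroup8 C, E8.frattini_eq8 C hnd hne, E8.commutator_eq8 C hnd hne⟩,
    E8.card_center8 C hnd⟩, ?_, E8.rank8 C w hex hle⟩
  rw [E8.card8, hcard, pow_succ]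
  ring

end Cfsg.Agent.Lib.Helper8
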