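import Mathlib
import Cfsg.Prelude.Def_Transfer
import Cfsg.Prelude.Def_Classical
import Cfsg.Agent.Lib.Helper8.Es1
import Cfsg.Agent.S2562

set_option autoImplicit false

namespace Cfsg.Agent.Lib.Helper8

open Cfsg.Agent.S0832 Cfsg.Agent.S2562

/-- the biadditive map of plus type -/
def cocPlus8 (n : ℕ) : Coc8 (Fin n ⊕ Fin n) where
  c u v := ∑ i : Fin n, u (Sum.inl i) * v (Sum.inr i)
  add_left u u' v := by
    simp only [Pi.add_apply, add_mul, Finset.sum_add_distrib]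
  add_right u v v' := by
    simp only [Pi.add_apply, mul_add, Finset.sum_add_distrib]

/-- the biadditive map of minus type -/
def cocMinus8 (k : ℕ) : Coc8 ((Fin k ⊕ Fin k) ⊕ Fin 2) where
  c u v := (∑ i : Fin k, u (Sum.inl (Sum.inl i)) * v (Sum.inl (Sum.inr i)))
    + (u (Sum.inr 0) * v (Sum.inr 0) + u (Sum.inr 0) * v (Sum.inr 1)
      + u (Sum.inr 1) * v (Sum.inr 1))
  add_left u u' v := by
    simp only [Pi.add_apply, add_mul, Finset.sum_add_distrib]
    ring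
  add_right u v v' := by
    simp only [Pi.add_apply, mul_add, Finset.sum_add_distrib]
    ring

theorem cocPlus_nd8 (n : ℕ) (u : Fin n ⊕ Fin n → ZMod 2)
    (h : ∀ v, (cocPlus8 n).c u v + (cocPlus8 n).c v u = 0) : u = 0 := by
  apply (qp_nondeg32 (F := ZMod 2) n).1 u
  intro y
  rw [QuadraticMap.polarBilin_apply_apply, qp_polar32, Finset.sum_add_distrib]
  have h2 : ∑ i, u (Sum.inr i) * y (Sum.inl i) = ∑ i, y (Sum.inl i) * u (Sum.inr i) :=
    Finset.sum_congr rfl (fun i _ => mul_comm _ _)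
  rw [h2]
  exact h y

theorem cocMinus_nd8 (k : ℕ) (u : (Fin k ⊕ Fin k) ⊕ Fin 2 → ZMod 2)
    (h : ∀ v, (cocMinus8 k).c u v + (cocMinus8 k).c v u = 0) : u = 0 := by
  apply (qm_nondeg62 (F := ZMod 2) k 1 1 (by decide)).1 u
  intro y
  rw [QuadraticMap.polarBilin_apply_apply, qm_polar62, Finset.sum_add_distrib]
  have h2 : ∑ i, u (Sum.inl (Sum.inr i)) * y (Sum.inl (Sum.inl i))
      = ∑ i, y (Sum.inl (Sum.inl i)) * u (Sum.inl (Sum.inr i)) :=
    Finset.sum_congr rfl (fun i _ => mul_comm _ _)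
  rw [h2]
  have h1 : (∑ i : Fin k, u (Sum.inl (Sum.inl i)) * y (Sum.inl (Sum.inr i)))
      + (u (Sum.inr 0) * y (Sum.inr 0) + u (Sum.inr 0) * y (Sum.inr 1)
        + u (Sum.inr 1) * y (Sum.inr 1))
      + ((∑ i : Fin k, y (Sum.inl (Sum.inl i)) * u (Sum.inl (Sum.inr i)))
      + (y (Sum.inr 0) * u (Sum.inr 0) + y (Sum.inr 0) * u (Sum.inr 1)
        + y (Sum.inr 1) * u (Sum.inr 1))) = 0 := h y
  linear_combination h1

theorem cocMinus_q8 (k : ℕ) (u : (Fin k ⊕ Fin k) ⊕ Fin 2 → ZMod 2) :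
    (cocMinus8 k).c u u = Cfsg.quadFormMinus k (ZMod 2) 1 1 u := by
  show (∑ i : Fin k, u (Sum.inl (Sum.inl i)) * u (Sum.inl (Sum.inr i)))
    + (u (Sum.inr 0) * u (Sum.inr 0) + u (Sum.inr 0) * u (Sum.inr 1)
      + u (Sum.inr 1) * u (Sum.inr 1)) = _
  unfold Cfsg.quadFormMinus
  ring

theorem cocPlus_q8 (n : ℕ) (u : Fin n ⊕ Fin n → ZMod 2) :
    (cocPlus8 n).c u u = Cfsg.quadFormPlus n (ZMod 2) u := rfl

/-- S5396 -/
theorem extraspecial_ranks8 (n : ℕ) (hn : 1 ≤ n) : ∀ r ∈ ({n, n + 1} : Set ℕ),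
    ∃ (E : Type) (_ : Group E) (_ : Finite E), Cfsg.IsExtraspecial 2 E ∧
      Nat.card E = 2 ^ (2 * n + 1) ∧
      sSup {k : ℕ | ∃ A : Subgroup E, Cfsg.IsElementaryAbelian 2 A ∧ Nat.card A = 2 ^ k}
        = r := by
  intro r hr
  obtain ⟨h1, h2, h3, h4⟩ := Cfsg.Agent.S2562.result n hn
  rcases hr with rfl | hr
  · refine ⟨E8 (cocMinus8 (r - 1)), E8.instGroup8 _, E8.instFinite8 _, ?_⟩
    have hcard : Fintype.card ((Fin (r - 1) ⊕ Fin (r - 1)) ⊕ Fin 2) = 2 * r := by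
      simp only [Fintype.card_sum, Fintype.card_fin]
      omega
    have hmain := E8.main8 (cocMinus8 (r - 1)) r (r - 1) hcard hn (cocMinus_nd8 (r - 1))
      (by
        obtain ⟨U, hU, hUd⟩ := h3
        exact ⟨U, fun u hu => by rw [cocMinus_q8]; exact hU u hu, hUd⟩)
      (fun U hU => h4 U (fun u hu => by rw [← cocMinus_q8]; exact hU u hu))
    have hr1 : r - 1 + 1 = r := by omega
    rw [hr1] at hmain
    exact hmain
  · rw [Set.mem_singleton_iff] at hr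
    subst hr
    refine ⟨E8 (cocPlus8 n), E8.instGroup8 _, E8.instFinite8 _, ?_⟩
    have hcard : Fintype.card (Fin n ⊕ Fin n) = 2 * n := by
      simp only [Fintype.card_sum, Fintype.card_fin]
      omega
    exact E8.main8 (cocPlus8 n) n n hcard hn (cocPlus_nd8 n)
      (by
        obtain ⟨U, hU, hUd⟩ := h1
        exact ⟨U, fun u hu => by rw [cocPlus_q8]; exact hU u hu, hUd⟩)
      (fun U hU => h2 U (fun u hu => by rw [← cocPlus_q8]; exact hU u hu))

end Cfsg.Agent.Lib.Helper8
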