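import Mathlib
import Cfsg.Prelude.Def_FischerSpaces

set_option autoImplicit false
open Cfsg

namespace Cfsg.Agent.Lib.Helper8

open Cfsg.LineSystem

variable {X : Type*}

theorem fis_line_three8 {L : Set (Set X)} (h3 : ∀ l ∈ L, l.ncard = 3) {l : Set X} (hl : l ∈ L)
    {x y : X} (hx : x ∈ l) (hy : y ∈ l) (hxy : x ≠ y) :
    ∃ z, z ≠ x ∧ z ≠ y ∧ z ∈ l ∧ l = {x, y, z} := by
  have hsub : ({x, y} : Set X) ⊆ l := by
    intro w hw
    rcases hw with rfl | rfl
    · exact hx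
    · exact hy
  have h1 : (l \ {x, y}).ncard = 1 := by
    rw [Set.ncard_diff hsub (Set.toFinite _), h3 l hl, Set.ncard_pair hxy]
  obtain ⟨z, hz⟩ := Set.ncard_eq_one.mp h1
  have hzm : z ∈ l \ {x, y} := by rw [hz]; rfl
  refine ⟨z, ?_, ?_, hzm.1, ?_⟩
  · intro h; exact hzm.2 (by rw [h]; simp)
  · intro h; exact hzm.2 (by rw [h]; simp)
  · ext w
    constructor
    · intro hw
      by_cases h : w ∈ ({x, y} : Set X)
      · rcases h with h | h
        · rw [h]; simp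
        · rw [Set.mem_singleton_iff.mp h]; simp
      · have h2 : w ∈ l \ {x, y} := ⟨hw, h⟩
        rw [hz] at h2
        rw [Set.mem_singleton_iff.mp h2]; simp
    · intro hw
      rcases hw with h | h | h
      · rw [h]; exact hx
      · rw [h]; exact hy
      · rw [Set.mem_singleton_iff.mp h]; exact hzm.1

theorem fis_lineMap_spec8 {L : Set (Set X)} (hPL : IsPartialLinear L) {x y z : X}
    (hzx : z ≠ x) (hzy : z ≠ y) (hxy : x ≠ y) (hl : ({x, y, z} : Set X) ∈ L) :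
    lineMap L x y = z := by
  have h : ∃ z : X, z ≠ x ∧ z ≠ y ∧ x ≠ y ∧ ({x, y, z} : Set X) ∈ L := ⟨z, hzx, hzy, hxy, hl⟩
  have e : lineMap L x y = h.choose := by
    unfold lineMap
    exact dif_pos h
  rw [e]
  obtain ⟨h1, h2, -, h4⟩ := h.choose_spec
  have h5 := hPL _ h4 _ hl x y hxy (by simp) (by simp) (by simp) (by simp)
  have h6 : h.choose ∈ ({x, y, z} : Set X) := by rw [← h5]; simp
  rcases h6 with h6 | h6 | h6
  · exact absurd h6 h1
  · exact absurd h6 h2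
  · exact h6

theorem fis_lineMap_not8 {L : Set (Set X)} {x y : X}
    (h : ¬ ∃ z : X, z ≠ x ∧ z ≠ y ∧ x ≠ y ∧ ({x, y, z} : Set X) ∈ L) : lineMap L x y = y := by
  unfold lineMap
  exact dif_neg h

theorem fis_lineMap_cases8 {L : Set (Set X)} (hPL : IsPartialLinear L) (x y : X) :
    ((¬ ∃ z : X, z ≠ x ∧ z ≠ y ∧ x ≠ y ∧ ({x, y, z} : Set X) ∈ L) ∧ lineMap L x y = y) ∨
    ∃ z, z ≠ x ∧ z ≠ y ∧ x ≠ y ∧ ({x, y, z} : Set X) ∈ L ∧ lineMap L x y = z := by
  by_cases h : ∃ z : X, z ≠ x ∧ z ≠ y ∧ x ≠ y ∧ ({x, y, z} : Set X) ∈ L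
  · obtain ⟨z, h1, h2, h3, h4⟩ := h
    exact Or.inr ⟨z, h1, h2, h3, h4, fis_lineMap_spec8 hPL h1 h2 h3 h4⟩
  · exact Or.inl ⟨h, fis_lineMap_not8 h⟩

theorem fis_lineMap_invol8 {L : Set (Set X)} (hPL : IsPartialLinear L) (x : X) :
    Function.Involutive (lineMap L x) := by
  intro y
  rcases fis_lineMap_cases8 hPL x y with ⟨-, h⟩ | ⟨z, h1, h2, h3, h4, h5⟩
  · rw [h, h]
  · rw [h5]
    have e : ({x, z, y} : Set X) = {x, y, z} := by
      ext w; simp only [Set.mem_insert_iff, Set.mem_singleton_iff]; tauto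
    exact fis_lineMap_spec8 hPL (Ne.symm h3) (Ne.symm h2) (Ne.symm h1) (by rw [e]; exact h4)

theorem fis_lineMap_conj8 {L : Set (Set X)} (hPL : IsPartialLinear L) (σ : Equiv.Perm X)
    (hσ : IsIso L L σ) (y w : X) : σ (lineMap L y w) = lineMap L (σ y) (σ w) := by
  rcases fis_lineMap_cases8 hPL y w with ⟨hn, h⟩ | ⟨z, h1, h2, h3, h4, h5⟩
  · rw [h]
    symm
    apply fis_lineMap_not8
    rintro ⟨z', h1, h2, h3, h4⟩
    apply hn
    refine ⟨σ.symm z', ?_, ?_, ?_, ?_⟩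
    · intro h; apply h1; rw [← h]; simp
    · intro h; apply h2; rw [← h]; simp
    · intro h; apply h3; rw [h]
    · apply (hσ _).mpr
      have e : σ '' ({y, w, σ.symm z'} : Set X) = {σ y, σ w, z'} := by
        rw [Set.image_insert_eq, Set.image_pair, Equiv.apply_symm_apply]
      rw [e]; exact h4
  · rw [h5]
    symm
    apply fis_lineMap_spec8 hPL
    · exact fun h => h1 (σ.injective h)
    · exact fun h => h2 (σ.injective h)
    · exact fun h => h3 (σ.injective h)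
    · have e : σ '' ({y, w, z} : Set X) = {σ y, σ w, σ z} := by
        rw [Set.image_insert_eq, Set.image_pair]
      rw [← e]; exact (hσ _).mp h4

theorem fis_conj_perm8 {L : Set (Set X)} (hPL : IsPartialLinear L) (σ τ : Equiv.Perm X)
    (hσ : IsIso L L σ) (hσσ : σ * σ = 1) {y : X} (hτ : ⇑τ = lineMap L y) :
    ⇑(σ * τ * σ) = lineMap L (σ y) := by
  funext w
  have h1 := fis_lineMap_conj8 hPL σ hσ y (σ w)
  have h2 : σ (σ w) = w := congrArg (fun f : Equiv.Perm X => f w) hσσ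
  rw [h2] at h1
  show σ (τ (σ w)) = _
  rw [hτ]; exact h1

end Cfsg.Agent.Lib.Helper8
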