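import Mathlib
import Cfsg.Prelude.Def_FischerSpaces

set_option autoImplicit false
open Cfsg

namespace Cfsg.Agent.Lib.Helper8

theorem fis_affine_ok8 : ∀ (a : Fin 2 → ZMod 3) (τ : (Fin 2 → ZMod 3) → (Fin 2 → ZMod 3)),
      (∀ b c, c ≠ a → c ≠ b → a ≠ b →
        ({a, b, c} : Set (Fin 2 → ZMod 3)) ∈ affinePlaneThree → τ b = c) →
      (∀ b, (¬ ∃ c, c ≠ a ∧ c ≠ b ∧ a ≠ b ∧
        ({a, b, c} : Set (Fin 2 → ZMod 3)) ∈ affinePlaneThree) → τ b = b) →
      ∀ l' ∈ affinePlaneThree, τ '' l' ∈ affinePlaneThree := by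
  intro a τ hi hii l' hl'
  have key : ∀ b, τ b = -a - b := by
    intro b
    by_cases hab : a = b
    · subst hab
      rw [hii a (by rintro ⟨c, -, -, h, -⟩; exact h rfl)]
      funext i
      simp only [Pi.sub_apply, Pi.neg_apply]
      exact (by decide : ∀ t : ZMod 3, t = -t - t) (a i)
    · apply hi b (-a - b)
      · intro h
        apply hab
        funext i
        have h1 := congrFun h i
        simp only [Pi.sub_apply, Pi.neg_apply] at h1
        exact (by decide : ∀ s t : ZMod 3, -s - t = s → s = t) (a i) (b i) h1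
      · intro h
        apply hab
        funext i
        have h1 := congrFun h i
        simp only [Pi.sub_apply, Pi.neg_apply] at h1
        exact (by decide : ∀ s t : ZMod 3, -s - t = t → s = t) (a i) (b i) h1
      · exact hab
      · refine ⟨a, b - a, sub_ne_zero.mpr (Ne.symm hab), ?_⟩
        ext x
        simp only [Set.mem_insert_iff, Set.mem_singleton_iff, Set.mem_setOf_eq]
        constructor
        · rintro (h | h | h)
          · exact ⟨0, by rw [h]; simp⟩
          · exact ⟨1, by rw [h]; simp⟩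
          · refine ⟨2, ?_⟩
            rw [h]
            funext i
            simp only [Pi.sub_apply, Pi.neg_apply, Pi.add_apply, Pi.smul_apply, smul_eq_mul]
            exact (by decide : ∀ s t : ZMod 3, -s - t = s + 2 * (t - s)) _ _
        · rintro ⟨k, hk⟩
          have hk3 : k = 0 ∨ k = 1 ∨ k = 2 :=
            (by decide : ∀ k : ZMod 3, k = 0 ∨ k = 1 ∨ k = 2) k
          rcases hk3 with rfl | rfl | rfl
          · left; rw [hk]; simp
          · right; left; rw [hk]; simp
          · right; right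
            rw [hk]
            funext i
            simp only [Pi.sub_apply, Pi.neg_apply, Pi.add_apply, Pi.smul_apply, smul_eq_mul]
            exact (by decide : ∀ s t : ZMod 3, s + 2 * (t - s) = -s - t) _ _
  obtain ⟨v, w, hw, rfl⟩ := hl'
  refine ⟨-a - v, -w, neg_ne_zero.mpr hw, ?_⟩
  ext y
  simp only [Set.mem_image, Set.mem_setOf_eq]
  constructor
  · rintro ⟨x, ⟨k, rfl⟩, rfl⟩
    refine ⟨k, ?_⟩
    rw [key]
    simp only [smul_neg]; abel
  · rintro ⟨k, rfl⟩
    refine ⟨v + k • w, ⟨k, rfl⟩, ?_⟩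
    rw [key]
    simp only [smul_neg]; abel

/-- `c` is the third point of a line through `a`, `b` in the dual affine plane -/
def fisRA8 (a b c : DualAffinePoint) : Prop :=
  c ≠ a ∧ c ≠ b ∧ a ≠ b ∧ ∃ i : Fin 4, ∀ s : DualAffinePoint, (s = a ∨ s = b ∨ s = c) ↔ i ∉ s.1

instance fisRADec8 (a b c : DualAffinePoint) : Decidable (fisRA8 a b c) := by
  unfold fisRA8; infer_instance

/-- graph of the involution `t(a)` of the dual affine plane -/
def fisRR8 (a b c : DualAffinePoint) : Prop :=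
  fisRA8 a b c ∨ (c = b ∧ ¬ ∃ c' : DualAffinePoint, fisRA8 a b c')

instance fisRRDec8 (a b c : DualAffinePoint) : Decidable (fisRR8 a b c) := by
  unfold fisRR8; infer_instance

set_option maxRecDepth 100000 in
theorem fis_E1_8 : ∀ a b : DualAffinePoint, ∃ c, fisRR8 a b c := by decide

set_option maxRecDepth 100000 in
theorem fis_E3_8 : ∀ a c : DualAffinePoint, ∃ b, fisRR8 a b c := by decide

set_option maxRecDepth 100000 in
theorem fis_E2_8 : ∀ (a : DualAffinePoint) (i : Fin 4), ∃ j : Fin 4,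
    ∀ b c : DualAffinePoint, fisRR8 a b c → (i ∉ b.1 ↔ j ∉ c.1) := by decide

theorem fis_dual_ok8 : ∀ (a : DualAffinePoint) (τ : DualAffinePoint → DualAffinePoint),
      (∀ b c, c ≠ a → c ≠ b → a ≠ b →
        ({a, b, c} : Set DualAffinePoint) ∈ dualAffinePlaneTwo → τ b = c) →
      (∀ b, (¬ ∃ c, c ≠ a ∧ c ≠ b ∧ a ≠ b ∧
        ({a, b, c} : Set DualAffinePoint) ∈ dualAffinePlaneTwo) → τ b = b) →
      ∀ l' ∈ dualAffinePlaneTwo, τ '' l' ∈ dualAffinePlaneTwo := by
  intro a τ hi hii l' hl'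
  have hR : ∀ b c, fisRR8 a b c → τ b = c := by
    rintro b c (⟨h1, h2, h3, i, h4⟩ | ⟨rfl, h⟩)
    · exact hi b c h1 h2 h3 ⟨i, Set.ext fun s => h4 s⟩
    · apply hii
      rintro ⟨c', h1, h2, h3, i, h4⟩
      exact h ⟨c', h1, h2, h3, i, fun s => Set.ext_iff.mp h4 s⟩
  obtain ⟨i, rfl⟩ := hl'
  obtain ⟨j, hj⟩ := fis_E2_8 a i
  refine ⟨j, ?_⟩
  ext s
  constructor
  · rintro ⟨b, hb, rfl⟩
    obtain ⟨c, hc⟩ := fis_E1_8 a b
    rw [hR b c hc]
    exact (hj b c hc).mp hb
  · intro hs
    obtain ⟨b, hb⟩ := fis_E3_8 a s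
    exact ⟨b, (hj b s hb).mpr hs, hR b s hb⟩

end Cfsg.Agent.Lib.Helper8
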