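import Mathlib
import Cfsg.Prelude.Def_FischerSpaces
import Cfsg.Agent.Lib.Helper8.Fis1
import Cfsg.Agent.Lib.Helper8.Fis2

set_option autoImplicit false
open Cfsg

namespace Cfsg.Agent.Lib.Helper8

open Cfsg.LineSystem

variable {X : Type*}

theorem fis_transport8 {Y : Type*} {L : Set (Set X)} (hPL : IsPartialLinear L)
    (h3 : ∀ l ∈ L, l.ncard = 3) {π : Set X} (hπ : IsSubspace L π) {x : X} (hx : x ∈ π)
    {l : Set X} (hl : l ∈ L) (hlπ : l ⊆ π) {M : Set (Set Y)} (e : ↥π ≃ Y)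
    (he : IsIso (restrict L π) M e)
    (hM : ∀ (a : Y) (τ : Y → Y),
      (∀ b c, c ≠ a → c ≠ b → a ≠ b → ({a, b, c} : Set Y) ∈ M → τ b = c) →
      (∀ b, (¬ ∃ c, c ≠ a ∧ c ≠ b ∧ a ≠ b ∧ ({a, b, c} : Set Y) ∈ M) → τ b = b) →
      ∀ l' ∈ M, τ '' l' ∈ M) :
    lineMap L x '' l ∈ L := by
  have hπt : ∀ w ∈ π, lineMap L x w ∈ π := by
    intro w hw
    rcases fis_lineMap_cases8 hPL x w with ⟨-, h⟩ | ⟨z, h1, h2, h3', h4, h5⟩
    · rw [h]; exact hw
    · rw [h5]
      exact hπ _ h4 x hx w hw h3' (by simp) (by simp) (by simp)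
  obtain ⟨a, ha⟩ : ∃ a : Y, a = e ⟨x, hx⟩ := ⟨_, rfl⟩
  obtain ⟨τ, hτ⟩ : ∃ τ : Y → Y,
      ∀ b, τ b = e ⟨lineMap L x (e.symm b).1, hπt _ (e.symm b).2⟩ :=
    ⟨fun b => e ⟨lineMap L x (e.symm b).1, hπt _ (e.symm b).2⟩, fun b => rfl⟩
  have hτe : ∀ p : ↥π, τ (e p) = e ⟨lineMap L x p.1, hπt _ p.2⟩ := by
    intro p
    rw [hτ]
    apply congrArg e
    apply Subtype.ext
    show lineMap L x (e.symm (e p)).1 = lineMap L x p.1
    rw [Equiv.symm_apply_apply]
  have hi : ∀ b c, c ≠ a → c ≠ b → a ≠ b → ({a, b, c} : Set Y) ∈ M → τ b = c := by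
    intro b c hca hcb hab hm
    obtain ⟨w, hw⟩ : ∃ w : ↥π, w = e.symm b := ⟨_, rfl⟩
    obtain ⟨v, hv⟩ : ∃ v : ↥π, v = e.symm c := ⟨_, rfl⟩
    have hwb : e w = b := by rw [hw]; simp
    have hvc : e v = c := by rw [hv]; simp
    have hs : e '' ({⟨x, hx⟩, w, v} : Set ↥π) = {a, b, c} := by
      rw [Set.image_insert_eq, Set.image_pair, ← ha, hwb, hvc]
    have hs2 : ({⟨x, hx⟩, w, v} : Set ↥π) ∈ restrict L π := (he _).mpr (by rw [hs]; exact hm)
    obtain ⟨l₁, hl₁, hl₁π, hl₁e⟩ := hs2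
    have hx1 : x ∈ l₁ := by
      have h0 : (⟨x, hx⟩ : ↥π) ∈ ({⟨x, hx⟩, w, v} : Set ↥π) := by simp
      rw [hl₁e] at h0
      exact h0
    have hw1 : w.1 ∈ l₁ := by
      have h0 : w ∈ ({⟨x, hx⟩, w, v} : Set ↥π) := by simp
      rw [hl₁e] at h0
      exact h0
    have hv1 : v.1 ∈ l₁ := by
      have h0 : v ∈ ({⟨x, hx⟩, w, v} : Set ↥π) := by simp
      rw [hl₁e] at h0
      exact h0
    have hxw : x ≠ w.1 := by
      intro h
      apply hab
      rw [ha, ← hwb]
      apply congrArg e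
      exact Subtype.ext h
    have hvx : v.1 ≠ x := by
      intro h
      apply hca
      rw [ha, ← hvc]
      apply congrArg e
      exact Subtype.ext h
    have hvw : v.1 ≠ w.1 := by
      intro h
      apply hcb
      rw [← hvc, ← hwb]
      apply congrArg e
      exact Subtype.ext h
    obtain ⟨z, hzx, hzw, hzl, hl₁eq⟩ := fis_line_three8 h3 hl₁ hx1 hw1 hxw
    have hvz : v.1 = z := by
      rw [hl₁eq] at hv1
      rcases hv1 with h | h | h
      · exact absurd h hvx
      · exact absurd h hvw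
      · exact h
    have hline : ({x, w.1, v.1} : Set X) ∈ L := by rw [hvz, ← hl₁eq]; exact hl₁
    have ht : lineMap L x w.1 = v.1 := fis_lineMap_spec8 hPL hvx hvw hxw hline
    rw [← hwb, hτe, ← hvc]
    apply congrArg e
    exact Subtype.ext ht
  have hii : ∀ b, (¬ ∃ c, c ≠ a ∧ c ≠ b ∧ a ≠ b ∧ ({a, b, c} : Set Y) ∈ M) → τ b = b := by
    intro b hb
    obtain ⟨w, hw⟩ : ∃ w : ↥π, w = e.symm b := ⟨_, rfl⟩
    have hwb : e w = b := by rw [hw]; simp
    have key : lineMap L x w.1 = w.1 := by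
      rcases fis_lineMap_cases8 hPL x w.1 with ⟨-, h⟩ | ⟨z, h1, h2, h3', h4, h5⟩
      · exact h
      · exfalso
        apply hb
        have hz : z ∈ π := hπ _ h4 x hx w.1 w.2 h3' (by simp) (by simp) (by simp)
        refine ⟨e ⟨z, hz⟩, ?_, ?_, ?_, ?_⟩
        · rw [ha]; intro h; exact h1 (congrArg Subtype.val (e.injective h))
        · rw [← hwb]; intro h; exact h2 (congrArg Subtype.val (e.injective h))
        · rw [ha, ← hwb]; intro h; exact h3' (congrArg Subtype.val (e.injective h))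
        · have hsub : ({x, w.1, z} : Set X) ⊆ π := by
            intro u hu
            rcases hu with h | h | h
            · rw [h]; exact hx
            · rw [h]; exact w.2
            · rw [Set.mem_singleton_iff.mp h]; exact hz
          have hs : ({p : ↥π | (p : X) ∈ ({x, w.1, z} : Set X)} : Set ↥π) ∈ restrict L π :=
            ⟨_, h4, hsub, rfl⟩
          have hs2 := (he _).mp hs
          have e2 : {p : ↥π | (p : X) ∈ ({x, w.1, z} : Set X)} = {⟨x, hx⟩, w, ⟨z, hz⟩} := by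
            ext p
            simp only [Set.mem_setOf_eq, Set.mem_insert_iff, Set.mem_singleton_iff,
              Subtype.ext_iff]
          have e1 : e '' {p : ↥π | (p : X) ∈ ({x, w.1, z} : Set X)} = {a, b, e ⟨z, hz⟩} := by
            rw [e2, Set.image_insert_eq, Set.image_pair, ← ha, hwb]
          rw [← e1]; exact hs2
    rw [← hwb, hτe]
    apply congrArg e
    exact Subtype.ext key
  have hl' : e '' {p : ↥π | (p : X) ∈ l} ∈ M := (he _).mp ⟨l, hl, hlπ, rfl⟩
  have h7 := hM a τ hi hii _ hl'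
  have h8 : τ '' (e '' {p : ↥π | (p : X) ∈ l})
      = e '' {p : ↥π | (p : X) ∈ lineMap L x '' l} := by
    ext q
    constructor
    · rintro ⟨_, ⟨p, hp, rfl⟩, rfl⟩
      refine ⟨⟨lineMap L x p.1, hπt _ p.2⟩, ⟨p.1, hp, rfl⟩, ?_⟩
      rw [hτe]
    · rintro ⟨p', ⟨u, hu, hup⟩, rfl⟩
      refine ⟨e ⟨u, hlπ hu⟩, ⟨⟨u, hlπ hu⟩, hu, rfl⟩, ?_⟩
      rw [hτe]
      apply congrArg e
      exact Subtype.ext hup
  rw [h8] at h7
  obtain ⟨l₂, hl₂, hl₂π, hl₂e⟩ := (he _).mpr h7
  have h9 : lineMap L x '' l = l₂ := by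
    ext u
    constructor
    · rintro ⟨u', hu', rfl⟩
      have hmem : (⟨lineMap L x u', hπt _ (hlπ hu')⟩ : ↥π) ∈
          {p : ↥π | (p : X) ∈ lineMap L x '' l} := ⟨u', hu', rfl⟩
      rw [hl₂e] at hmem
      exact hmem
    · intro hu
      have hmem : (⟨u, hl₂π hu⟩ : ↥π) ∈ {p : ↥π | (p : X) ∈ l₂} := hu
      rw [← hl₂e] at hmem
      exact hmem
  rw [h9]; exact hl₂

theorem fis_exists_other8 {L : Set (Set X)} (h3 : ∀ l ∈ L, l.ncard = 3) {l : Set X} (hl : l ∈ L)
    (x : X) : ∃ y ∈ l, y ≠ x := by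
  by_contra hcon
  push Not at hcon
  have hsub : l ⊆ {x} := fun y hy => hcon y hy
  have h1 := Set.ncard_le_ncard hsub (Set.finite_singleton x)
  rw [h3 l hl, Set.ncard_singleton] at h1
  omega

theorem fis_image_line8 {L : Set (Set X)} (hL : IsFischerSpace L) (x : X) {l : Set X}
    (hl : l ∈ L) : lineMap L x '' l ∈ L := by
  obtain ⟨hPL, h3, hpl⟩ := hL
  by_cases hxl : x ∈ l
  · obtain ⟨y, hy, hyx⟩ := fis_exists_other8 h3 hl x
    obtain ⟨z, hzx, hzy, hzl, hleq⟩ := fis_line_three8 h3 hl hxl hy (Ne.symm hyx)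
    have hline : ({x, y, z} : Set X) ∈ L := by rw [← hleq]; exact hl
    have h1 : lineMap L x x = x := fis_lineMap_not8 (fun ⟨_, _, _, h, _⟩ => h rfl)
    have h2 : lineMap L x y = z := fis_lineMap_spec8 hPL hzx hzy (Ne.symm hyx) hline
    have h3' : lineMap L x z = y := by
      have h0 := fis_lineMap_invol8 hPL x y
      rw [h2] at h0
      exact h0
    have e : lineMap L x '' l = l := by
      rw [hleq, Set.image_insert_eq, Set.image_pair, h1, h2, h3']
      ext w; simp only [Set.mem_insert_iff, Set.mem_singleton_iff]; tauto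
    rw [e]; exact hl
  · by_cases hfix : ∀ y ∈ l, lineMap L x y = y
    · have e : lineMap L x '' l = l := by
        ext w
        constructor
        · rintro ⟨y, hy, rfl⟩
          rw [hfix y hy]; exact hy
        · intro hw
          exact ⟨w, hw, hfix w hw⟩
      rw [e]; exact hl
    · push Not at hfix
      obtain ⟨y, hy, hne⟩ := hfix
      rcases fis_lineMap_cases8 hPL x y with ⟨-, h⟩ | ⟨z, h1, h2, h3', h4, h5⟩
      · exact absurd h hne
      · have hlm : l ≠ ({x, y, z} : Set X) := by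
          intro h; apply hxl; rw [h]; simp
        have hne' : (l ∩ ({x, y, z} : Set X)).Nonempty := ⟨y, hy, by simp⟩
        have hsub : l ∪ {x, y, z} ⊆ span L (l ∪ {x, y, z}) := by
          intro u hu
          exact Set.mem_sInter.mpr (fun T hT => hT.1 hu)
        have hπ : IsSubspace L (span L (l ∪ {x, y, z})) := by
          intro l₁ hl₁ u hu v hv huv hul hvl w hw
          apply Set.mem_sInter.mpr
          intro T hT
          exact hT.2 l₁ hl₁ u (Set.mem_sInter.mp hu T hT) v (Set.mem_sInter.mp hv T hT)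
            huv hul hvl hw
        have hxπ : x ∈ span L (l ∪ {x, y, z}) := hsub (Or.inr (by simp))
        have hlπ : l ⊆ span L (l ∪ {x, y, z}) := fun u hu => hsub (Or.inl hu)
        rcases hpl l hl _ h4 hlm hne' with ⟨e, he⟩ | ⟨e, he⟩
        · exact fis_transport8 hPL h3 hπ hxπ hl hlπ e he fis_dual_ok8
        · exact fis_transport8 hPL h3 hπ hxπ hl hlπ e he fis_affine_ok8

/-- S5366 -/
theorem fis_main8 (L : Set (Set X)) (hL : IsFischerSpace L) (hnd : IsNondegenerate L) :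
    (∀ x : X, ∃ σ : Equiv.Perm X, ⇑σ = lineMap L x ∧ orderOf σ = 2 ∧ IsIso L L σ) ∧
    IsThreeTranspositionSet {σ : Equiv.Perm X | ∃ x : X, ⇑σ = lineMap L x} := by
  have hPL := hL.1
  have h3 := hL.2.1
  have hinv : ∀ x, Function.Involutive (lineMap L x) := fis_lineMap_invol8 hPL
  have hsq : ∀ (σ : Equiv.Perm X) (x : X), ⇑σ = lineMap L x → σ * σ = 1 := by
    intro σ x hσ
    ext w
    show σ (σ w) = w
    rw [hσ]
    exact hinv x w
  have hiso : ∀ (σ : Equiv.Perm X) (x : X), ⇑σ = lineMap L x → IsIso L L σ := by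
    intro σ x hσ l
    rw [hσ]
    constructor
    · exact fun hl => fis_image_line8 hL x hl
    · intro hl
      have h0 := fis_image_line8 hL x hl
      have e : lineMap L x '' (lineMap L x '' l) = l := by
        rw [Set.image_image]
        have h1 : (fun y => lineMap L x (lineMap L x y)) = id := funext (hinv x)
        rw [h1, Set.image_id]
      rw [e] at h0
      exact h0
  have hord : ∀ (σ : Equiv.Perm X) (x : X), ⇑σ = lineMap L x → orderOf σ = 2 := by
    intro σ x hσ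
    apply orderOf_eq_prime
    · rw [sq]; exact hsq σ x hσ
    · intro h1
      obtain ⟨l, hl, hxl⟩ := hnd x
      obtain ⟨y, hy, hyx⟩ := fis_exists_other8 h3 hl x
      obtain ⟨z, hzx, hzy, hzl, hleq⟩ := fis_line_three8 h3 hl hxl hy (Ne.symm hyx)
      have hline : ({x, y, z} : Set X) ∈ L := by rw [← hleq]; exact hl
      have h2 : lineMap L x y = z := fis_lineMap_spec8 hPL hzx hzy (Ne.symm hyx) hline
      have h4 : σ y = y := by rw [h1]; rfl
      rw [hσ, h2] at h4
      exact hzy h4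
  refine ⟨?_, ?_, ?_⟩
  · intro x
    exact ⟨(hinv x).toPerm _, rfl, hord _ x rfl, hiso _ x rfl⟩
  · rintro σ ⟨x, hσ⟩
    exact hord σ x hσ
  · rintro σ ⟨x, hσ⟩ τ ⟨y, hτ⟩
    have hσσ := hsq σ x hσ
    have hττ := hsq τ y hτ
    have hc1 := fis_conj_perm8 hPL σ τ (hiso σ x hσ) hσσ hτ
    have hc2 := fis_conj_perm8 hPL τ σ (hiso τ y hτ) hττ hσ
    rw [hσ] at hc1
    rw [hτ] at hc2
    rcases fis_lineMap_cases8 hPL x y with ⟨-, h⟩ | ⟨z, h1, h2, h3', h4, h5⟩
    · left
      rw [h] at hc1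
      have h6 : σ * τ * σ = τ := DFunLike.coe_injective (hc1.trans hτ.symm)
      calc (σ * τ) ^ 2 = (σ * τ * σ) * τ := by rw [sq]; simp only [mul_assoc]
        _ = τ * τ := by rw [h6]
        _ = 1 := hττ
    · right
      have e : ({y, x, z} : Set X) = {x, y, z} := by
        ext w; simp only [Set.mem_insert_iff, Set.mem_singleton_iff]; tauto
      have h6 : lineMap L y x = z :=
        fis_lineMap_spec8 hPL h2 h1 (Ne.symm h3') (by rw [e]; exact h4)
      rw [h5] at hc1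
      rw [h6] at hc2
      have h7 : τ * σ * τ = σ * τ * σ := DFunLike.coe_injective (hc2.trans hc1.symm)
      have h8 : σ * τ * σ * (σ * τ * σ) = σ * (τ * (σ * σ) * τ) * σ := by group
      calc (σ * τ) ^ 3 = (σ * τ * σ) * (τ * σ * τ) := by
            rw [pow_succ, sq]; simp only [mul_assoc]
        _ = (σ * τ * σ) * (σ * τ * σ) := by rw [h7]
        _ = 1 := by rw [h8, hσσ, mul_one, hττ, mul_one, hσσ]

end Cfsg.Agent.Lib.Helper8
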