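import Mathlib
import Cfsg.Prelude.Def_FusionSystem
import Cfsg.Agent.Lib.Helper8.Park2

set_option autoImplicit false
open Cfsg

namespace Cfsg.Agent.Lib.Helper8

section general

variable {A : Type*} [Group A]

/-- relational composition of subgroups of `A × A` -/
def gcomp8 (Γ' Γ : Subgroup (A × A)) : Subgroup (A × A) where
  carrier := {x | ∃ m : A, (x.1, m) ∈ Γ' ∧ (m, x.2) ∈ Γ}
  mul_mem' := by
    rintro ⟨a, b⟩ ⟨a', b'⟩ ⟨m, h1, h2⟩ ⟨m', h1', h2'⟩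
    exact ⟨m * m', Γ'.mul_mem h1 h1', Γ.mul_mem h2 h2'⟩
  one_mem' := ⟨1, Γ'.one_mem, Γ.one_mem⟩
  inv_mem' := by
    rintro ⟨a, b⟩ ⟨m, h1, h2⟩
    exact ⟨m⁻¹, Γ'.inv_mem h1, Γ.inv_mem h2⟩

theorem mem_gcomp8 {Γ' Γ : Subgroup (A × A)} {a b : A} :
    (a, b) ∈ gcomp8 Γ' Γ ↔ ∃ m, (a, m) ∈ Γ' ∧ (m, b) ∈ Γ := Iff.rfl

/-- the transposed subgroup -/
def gswap8 (Γ : Subgroup (A × A)) : Subgroup (A × A) where
  carrier := {x | (x.2, x.1) ∈ Γ}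
  mul_mem' := by
    rintro ⟨a, b⟩ ⟨a', b'⟩ h h'
    exact Γ.mul_mem h h'
  one_mem' := Γ.one_mem
  inv_mem' := by
    rintro ⟨a, b⟩ h
    exact Γ.inv_mem h

theorem mem_gswap8 {Γ : Subgroup (A × A)} {a b : A} : (a, b) ∈ gswap8 Γ ↔ (b, a) ∈ Γ := Iff.rfl

theorem gswap_gswap8 (Γ : Subgroup (A × A)) : gswap8 (gswap8 Γ) = Γ := by
  ext ⟨a, b⟩
  rfl

/-- image under a pair of automorphisms -/
def gmap8 (α β : MulAut A) (Γ : Subgroup (A × A)) : Subgroup (A × A) where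
  carrier := {x | (α⁻¹ x.1, β⁻¹ x.2) ∈ Γ}
  mul_mem' := by
    rintro ⟨a, b⟩ ⟨a', b'⟩ h h'
    have h3 := Γ.mul_mem h h'
    show (α⁻¹ (a * a'), β⁻¹ (b * b')) ∈ Γ
    rw [map_mul, map_mul]; exact h3
  one_mem' := by
    show (α⁻¹ 1, β⁻¹ 1) ∈ Γ
    rw [map_one, map_one]; exact Γ.one_mem
  inv_mem' := by
    rintro ⟨a, b⟩ h
    have h3 := Γ.inv_mem h
    show (α⁻¹ a⁻¹, β⁻¹ b⁻¹) ∈ Γ
    rw [map_inv, map_inv]; exact h3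

theorem mem_gmap8 {α β : MulAut A} {Γ : Subgroup (A × A)} {a b : A} :
    (a, b) ∈ gmap8 α β Γ ↔ (α⁻¹ a, β⁻¹ b) ∈ Γ := Iff.rfl

theorem mem_gmap_one8 {α : MulAut A} {Γ : Subgroup (A × A)} {a b : A} :
    (a, b) ∈ gmap8 α 1 Γ ↔ (α⁻¹ a, b) ∈ Γ := Iff.rfl

theorem gmap_one8 (Γ : Subgroup (A × A)) : gmap8 1 1 Γ = Γ := by
  ext ⟨a, b⟩
  rfl

theorem gmap_gmap8 (α β α' β' : MulAut A) (Γ : Subgroup (A × A)) :
    gmap8 α β (gmap8 α' β' Γ) = gmap8 (α * α') (β * β') Γ := by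
  ext ⟨a, b⟩
  rw [mem_gmap8, mem_gmap8, mem_gmap8, mul_inv_rev, mul_inv_rev]
  rfl

theorem gcomp_gmap8 (α β γ : MulAut A) (Γ' Γ : Subgroup (A × A)) :
    gcomp8 (gmap8 α β Γ') (gmap8 β γ Γ) = gmap8 α γ (gcomp8 Γ' Γ) := by
  ext ⟨a, c⟩
  rw [mem_gcomp8, mem_gmap8, mem_gcomp8]
  constructor
  · rintro ⟨m, h1, h2⟩
    exact ⟨β⁻¹ m, h1, h2⟩
  · rintro ⟨m, h1, h2⟩
    refine ⟨β m, ?_, ?_⟩
    · rw [mem_gmap8, MulAut.inv_apply_self]; exact h1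
    · rw [mem_gmap8, MulAut.inv_apply_self]; exact h2

theorem gswap_gmap8 (α β : MulAut A) (Γ : Subgroup (A × A)) :
    gswap8 (gmap8 α β Γ) = gmap8 β α (gswap8 Γ) := by
  ext ⟨a, b⟩
  rfl

theorem gmap_mono8 (α β : MulAut A) {Γ' Γ : Subgroup (A × A)} (h : Γ' ≤ Γ) :
    gmap8 α β Γ' ≤ gmap8 α β Γ := fun _ hx => h hx

end general

variable {Ω : Type*} [Group Ω] {S : Subgroup Ω}

/-- the graph `{(φ x, x)}` of a homomorphism -/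
def graph8 (P : Subgroup Ω) (φ : P →* Ω) : Subgroup (↥S × ↥S) where
  carrier := {x | ∃ h : (x.2 : Ω) ∈ P, φ ⟨x.2, h⟩ = (x.1 : Ω)}
  mul_mem' := by
    rintro ⟨a, b⟩ ⟨a', b'⟩ ⟨h, e⟩ ⟨h', e'⟩
    refine ⟨P.mul_mem h h', ?_⟩
    show φ ⟨(b : Ω) * b', _⟩ = (a : Ω) * a'
    rw [← e, ← e', ← map_mul]; rfl
  one_mem' := ⟨P.one_mem, map_one φ⟩
  inv_mem' := by
    rintro ⟨a, b⟩ ⟨h, e⟩
    refine ⟨P.inv_mem h, ?_⟩
    show φ ⟨(b : Ω)⁻¹, _⟩ = (a : Ω)⁻¹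
    rw [← e, ← map_inv]; rfl

theorem mem_graph8 {P : Subgroup Ω} {φ : P →* Ω} {a b : ↥S} :
    (a, b) ∈ (graph8 P φ : Subgroup (↥S × ↥S)) ↔ ∃ h : (b : Ω) ∈ P, φ ⟨b, h⟩ = (a : Ω) := Iff.rfl

theorem fgraph_mono8 {E F : FusionSystem S} (hEF : ∀ P, E.Hom P ⊆ F.Hom P)
    {Γ : Subgroup (↥S × ↥S)} (h : IsFGraph8 E Γ) : IsFGraph8 F Γ := by
  obtain ⟨V, χ, hχ, hg⟩ := h
  exact ⟨V, χ, hEF V hχ, hg⟩

theorem graph_fgraph8 (F : FusionSystem S) {P : Subgroup Ω} {φ : P →* Ω} (hφ : φ ∈ F.Hom P) :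
    IsFGraph8 F (graph8 P φ) :=
  ⟨P, φ, hφ, fun _ _ => Iff.rfl⟩

theorem mem_of_graph8 (F : FusionSystem S) {P : Subgroup Ω} (hP : P ≤ S) {φ : P →* Ω}
    (hφS : ∀ x, φ x ∈ S) (h : IsFGraph8 F (graph8 P φ)) : φ ∈ F.Hom P :=
  mem_of_graph_le8 F hP φ hφS h (fun u => ⟨u.2, rfl⟩)

theorem fgraph_comp8 (F : FusionSystem S) {Γ' Γ : Subgroup (↥S × ↥S)} (h' : IsFGraph8 F Γ')
    (h : IsFGraph8 F Γ) : IsFGraph8 F (gcomp8 Γ' Γ) := by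
  obtain ⟨V', χ', hχ', hg'⟩ := h'
  obtain ⟨V, χ, hχ, hg⟩ := h
  have hVS : V ≤ S := (F.le_of_mem hχ).1
  have hχS : ∀ v : V, χ v ∈ S := (F.le_of_mem hχ).2
  obtain ⟨W, hW⟩ : ∃ W : Subgroup Ω, W = (V'.comap χ).map V.subtype := ⟨_, rfl⟩
  have hmemW : ∀ b : Ω, b ∈ W ↔ ∃ h : b ∈ V, χ ⟨b, h⟩ ∈ V' := by
    intro b
    rw [hW]
    constructor
    · rintro ⟨v, hv, rfl⟩
      exact ⟨v.2, hv⟩
    · rintro ⟨h, hv⟩
      exact ⟨⟨b, h⟩, hv, rfl⟩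
  have hWV : W ≤ V := fun b hb => ((hmemW b).mp hb).1
  have h1 : ∀ w : W, (χ.comp (Subgroup.inclusion hWV)) w ∈ V' :=
    fun w => ((hmemW w).mp w.2).2
  refine ⟨W, χ'.comp ((χ.comp (Subgroup.inclusion hWV)).codRestrict V' h1),
    F.comp_mem (fs_restrict F hWV hχ) hχ' h1, fun a b => ?_⟩
  rw [mem_gcomp8]
  constructor
  · rintro ⟨m, hm1, hm2⟩
    obtain ⟨hmV', e1⟩ := (hg' a m).mp hm1
    obtain ⟨hbV, e2⟩ := (hg m b).mp hm2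
    have hbW : (b : Ω) ∈ W := (hmemW _).mpr ⟨hbV, by rw [e2]; exact hmV'⟩
    refine ⟨hbW, ?_⟩
    show χ' ⟨χ ⟨b, _⟩, _⟩ = a
    rw [← e1]
    congr 1
    exact Subtype.ext e2
  · rintro ⟨hbW, e⟩
    obtain ⟨hbV, hv⟩ := (hmemW _).mp hbW
    exact ⟨⟨χ ⟨b, hbV⟩, hχS _⟩, (hg' _ _).mpr ⟨hv, e⟩, (hg _ _).mpr ⟨hbV, rfl⟩⟩

theorem fgraph_swap8 (F : FusionSystem S) {Γ : Subgroup (↥S × ↥S)} (h : IsFGraph8 F Γ) :
    IsFGraph8 F (gswap8 Γ) := by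
  obtain ⟨V, χ, hχ, hg⟩ := h
  obtain ⟨ψ, hψ, hψe, hψr⟩ := fs_inv F hχ
  have hψ' : ∀ (y : Ω) (hy : y ∈ χ.range) (u : V), χ u = y → ψ ⟨y, hy⟩ = (u : Ω) := by
    intro y hy u e
    subst e
    exact hψe u
  refine ⟨χ.range, ψ, hψ, fun a b => ?_⟩
  rw [mem_gswap8]
  constructor
  · intro hba
    obtain ⟨haV, e⟩ := (hg b a).mp hba
    exact ⟨⟨⟨a, haV⟩, e⟩, hψ' _ _ ⟨a, haV⟩ e⟩
  · rintro ⟨hbr, e⟩
    obtain ⟨v, hv⟩ : ∃ v, χ v = (b : Ω) := id hbr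
    have e2 := hψ' _ hbr v hv
    have hav : (a : Ω) = v := e.symm.trans e2
    refine (hg b a).mpr ⟨by rw [hav]; exact v.2, ?_⟩
    rw [← hv]
    congr 1
    exact Subtype.ext hav

theorem fgraph_post8 (F : FusionSystem S) {α : MulAut ↥S} (hα : α ∈ F.autGroup S)
    {Γ : Subgroup (↥S × ↥S)} (h : IsFGraph8 F Γ) : IsFGraph8 F (gmap8 α 1 Γ) := by
  obtain ⟨V, χ, hχ, hg⟩ := h
  have hχS : ∀ v : V, χ v ∈ S := (F.le_of_mem hχ).2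
  have hα' := (mem_autGroup_iff F le_rfl α).mp hα
  refine ⟨V, (S.subtype.comp α.toMonoidHom).comp (χ.codRestrict S hχS),
    F.comp_mem hχ hα' hχS, fun a b => ?_⟩
  rw [mem_gmap_one8]
  constructor
  · intro hab
    obtain ⟨hbV, e⟩ := (hg _ _).mp hab
    refine ⟨hbV, ?_⟩
    show ((α ⟨χ ⟨b, _⟩, _⟩ : ↥S) : Ω) = a
    have e2 : (⟨χ ⟨(b : Ω), hbV⟩, hχS _⟩ : ↥S) = α⁻¹ a := Subtype.ext e
    rw [e2, MulAut.apply_inv_self]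
  · rintro ⟨hbV, e⟩
    refine (hg _ _).mpr ⟨hbV, ?_⟩
    have e2 : α ⟨χ ⟨(b : Ω), hbV⟩, hχS _⟩ = a := Subtype.ext e
    rw [← e2, MulAut.inv_apply_self]

theorem fgraph_gmap8 (F : FusionSystem S) {α β : MulAut ↥S} (hα : α ∈ F.autGroup S)
    (hβ : β ∈ F.autGroup S) {Γ : Subgroup (↥S × ↥S)} (h : IsFGraph8 F Γ) :
    IsFGraph8 F (gmap8 α β Γ) := by
  have h1 := fgraph_swap8 F (fgraph_post8 F hβ (fgraph_swap8 F h))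
  rw [gswap_gmap8, gswap_gswap8] at h1
  have h2 := fgraph_post8 F hα h1
  rw [gmap_gmap8, mul_one, one_mul] at h2
  exact h2

/-- the graph of conjugation by `g` on `S` -/
def ginn8 (g : ↥S) : Subgroup (↥S × ↥S) := gmap8 (MulAut.conj g) 1 (diag8 S)

theorem conj_mem_autGroup8 (E : FusionSystem S) (g : ↥S) : MulAut.conj g ∈ E.autGroup S := by
  rw [mem_autGroup_iff E le_rfl]
  have h2 : S.subtype.comp (MulAut.conj g).toMonoidHom = conjHom S (g : Ω) := by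
    ext x
    rfl
  rw [h2]
  exact E.conj_mem le_rfl g.2

theorem ginn_fgraph8 (E : FusionSystem S) (g : ↥S) : IsFGraph8 E (ginn8 g) :=
  fgraph_post8 E (conj_mem_autGroup8 E g) (diag_fgraph8 E)

theorem gmap_diag8 (γ : MulAut ↥S) : gmap8 γ γ (diag8 S) = diag8 S := by
  ext ⟨a, b⟩
  rw [mem_gmap8, mem_diag8, mem_diag8]
  exact ⟨fun h => γ⁻¹.injective h, fun h => by rw [h]⟩

theorem gmap_ginn8 (γ : MulAut ↥S) (g : ↥S) : gmap8 γ γ (ginn8 g) = ginn8 (γ g) := by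
  unfold ginn8
  rw [gmap_gmap8, mul_one]
  have e : γ * MulAut.conj g = MulAut.conj (γ g) * γ := by
    ext x
    show ((γ (g * x * g⁻¹) : ↥S) : Ω) = ((γ g * γ x * (γ g)⁻¹ : ↥S) : Ω)
    rw [map_mul, map_mul, map_inv]
  rw [e]
  have e2 := gmap_gmap8 (MulAut.conj (γ g)) 1 γ γ (diag8 S)
  rw [one_mul] at e2
  rw [← e2, gmap_diag8]

theorem graph_conj_le8 {P : Subgroup Ω} (g : Ω) (hg : g ∈ S) :
    (graph8 P (conjHom P g) : Subgroup (↥S × ↥S)) ≤ ginn8 (⟨g, hg⟩ : ↥S) := by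
  rintro ⟨a, b⟩ ⟨hb, e⟩
  show ((MulAut.conj (⟨g, hg⟩ : ↥S))⁻¹ a, b) ∈ diag8 S
  rw [mem_diag8]
  have e2 : a = MulAut.conj (⟨g, hg⟩ : ↥S) b := Subtype.ext e.symm
  rw [e2, MulAut.inv_apply_self]

/-- graphs all of whose `Aut_F(S)`-conjugates are graphs of `E` -/
def Core8 (F E : FusionSystem S) : Set (Subgroup (↥S × ↥S)) :=
  {Γ | ∀ γ ∈ F.autGroup S, IsFGraph8 E (gmap8 γ γ Γ)}

/-- graphs of the form `α ∘ φ₀` -/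
def KCls8 (F E : FusionSystem S) : Set (Subgroup (↥S × ↥S)) :=
  {Γ | ∃ α ∈ F.autGroup S, ∃ Γ₀ ∈ Core8 F E, Γ = gmap8 α 1 Γ₀}

theorem core_fgraph8 {F E : FusionSystem S} {Γ : Subgroup (↥S × ↥S)} (h : Γ ∈ Core8 F E) :
    IsFGraph8 E Γ := by
  have h1 := h 1 (F.autGroup S).one_mem
  rwa [gmap_one8] at h1

theorem core_gmap8 {F E : FusionSystem S} {Γ : Subgroup (↥S × ↥S)} (h : Γ ∈ Core8 F E)
    {δ : MulAut ↥S} (hδ : δ ∈ F.autGroup S) : gmap8 δ δ Γ ∈ Core8 F E := by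
  intro γ hγ
  rw [gmap_gmap8]
  exact h _ ((F.autGroup S).mul_mem hγ hδ)

theorem core_comp8 {F E : FusionSystem S} {Γ' Γ : Subgroup (↥S × ↥S)} (h' : Γ' ∈ Core8 F E)
    (h : Γ ∈ Core8 F E) : gcomp8 Γ' Γ ∈ Core8 F E := by
  intro γ hγ
  rw [← gcomp_gmap8]
  exact fgraph_comp8 E (h' γ hγ) (h γ hγ)

theorem core_swap8 {F E : FusionSystem S} {Γ : Subgroup (↥S × ↥S)} (h : Γ ∈ Core8 F E) :
    gswap8 Γ ∈ Core8 F E := by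
  intro γ hγ
  rw [← gswap_gmap8]
  exact fgraph_swap8 E (h γ hγ)

theorem core_of_le8 {F E : FusionSystem S} {Γ' Γ : Subgroup (↥S × ↥S)} (h : Γ ∈ Core8 F E)
    (hle : Γ' ≤ Γ) : Γ' ∈ Core8 F E := by
  intro γ hγ
  exact fgraph_of_le8 E (h γ hγ) (gmap_mono8 γ γ hle)

theorem core_ginn8 (F E : FusionSystem S) (g : ↥S) : ginn8 g ∈ Core8 F E := by
  intro γ _
  rw [gmap_ginn8]
  exact ginn_fgraph8 E _

theorem core_diag8 (F E : FusionSystem S) : diag8 S ∈ Core8 F E := by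
  intro γ _
  rw [gmap_diag8]
  exact diag_fgraph8 E

theorem kcls_fgraph8 {F E : FusionSystem S} (hEF : ∀ P, E.Hom P ⊆ F.Hom P)
    {Γ : Subgroup (↥S × ↥S)} (h : Γ ∈ KCls8 F E) : IsFGraph8 F Γ := by
  obtain ⟨α, hα, Γ₀, hΓ₀, rfl⟩ := h
  exact fgraph_post8 F hα (fgraph_mono8 hEF (core_fgraph8 hΓ₀))

theorem kcls_of_core8 {F E : FusionSystem S} {Γ : Subgroup (↥S × ↥S)} (h : Γ ∈ Core8 F E) :
    Γ ∈ KCls8 F E :=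
  ⟨1, (F.autGroup S).one_mem, Γ, h, (gmap_one8 Γ).symm⟩

theorem kcls_comp8 {F E : FusionSystem S} {Γ' Γ : Subgroup (↥S × ↥S)} (h' : Γ' ∈ KCls8 F E)
    (h : Γ ∈ KCls8 F E) : gcomp8 Γ' Γ ∈ KCls8 F E := by
  obtain ⟨β, hβ, Γ₀', hΓ₀', rfl⟩ := h'
  obtain ⟨α, hα, Γ₀, hΓ₀, rfl⟩ := h
  refine ⟨β * α, (F.autGroup S).mul_mem hβ hα, gcomp8 (gmap8 α⁻¹ α⁻¹ Γ₀') Γ₀,
    core_comp8 (core_gmap8 hΓ₀' ((F.autGroup S).inv_mem hα)) hΓ₀, ?_⟩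
  rw [← gcomp_gmap8 (β * α) α 1, gmap_gmap8, mul_assoc, mul_inv_cancel, mul_one]

theorem kcls_swap8 {F E : FusionSystem S} {Γ : Subgroup (↥S × ↥S)} (h : Γ ∈ KCls8 F E) :
    gswap8 Γ ∈ KCls8 F E := by
  obtain ⟨α, hα, Γ₀, hΓ₀, rfl⟩ := h
  refine ⟨α⁻¹, (F.autGroup S).inv_mem hα, gmap8 α α (gswap8 Γ₀),
    core_gmap8 (core_swap8 hΓ₀) hα, ?_⟩
  rw [gswap_gmap8, gmap_gmap8, inv_mul_cancel, one_mul]

theorem kcls_of_le8 {F E : FusionSystem S} {Γ' Γ : Subgroup (↥S × ↥S)} (h : Γ ∈ KCls8 F E)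
    (hle : Γ' ≤ Γ) : Γ' ∈ KCls8 F E := by
  obtain ⟨α, hα, Γ₀, hΓ₀, rfl⟩ := h
  refine ⟨α, hα, gmap8 α⁻¹ 1 Γ', core_of_le8 hΓ₀ ?_, ?_⟩
  · have h1 := gmap_mono8 α⁻¹ 1 hle
    rw [gmap_gmap8, inv_mul_cancel, one_mul, gmap_one8] at h1
    exact h1
  · rw [gmap_gmap8, mul_inv_cancel, one_mul, gmap_one8]

theorem graph_aut8 (α : MulAut ↥S) :
    (graph8 S (S.subtype.comp α.toMonoidHom) : Subgroup (↥S × ↥S)) = gmap8 α 1 (diag8 S) := by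
  ext ⟨a, b⟩
  rw [mem_graph8, mem_gmap_one8, mem_diag8]
  constructor
  · rintro ⟨hb, e⟩
    have e2 : α b = a := Subtype.ext e
    rw [← e2, MulAut.inv_apply_self]
  · intro e
    refine ⟨b.2, ?_⟩
    show ((α b : ↥S) : Ω) = a
    rw [← e, MulAut.apply_inv_self]

theorem graph_comp8 {P Q : Subgroup Ω} (φ : P →* Ω) (ψ : Q →* Ω) (h : ∀ x, φ x ∈ Q)
    (hφS : ∀ x, φ x ∈ S) :
    (graph8 P (ψ.comp (φ.codRestrict Q h)) : Subgroup (↥S × ↥S)) =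
      gcomp8 (graph8 Q ψ) (graph8 P φ) := by
  ext ⟨a, b⟩
  rw [mem_graph8, mem_gcomp8]
  constructor
  · rintro ⟨hb, e⟩
    exact ⟨⟨φ ⟨b, hb⟩, hφS _⟩, ⟨h _, e⟩, ⟨hb, rfl⟩⟩
  · rintro ⟨m, ⟨hm, e1⟩, ⟨hb, e2⟩⟩
    refine ⟨hb, ?_⟩
    show ψ ⟨φ ⟨b, hb⟩, _⟩ = a
    rw [← e1]
    congr 1
    exact Subtype.ext e2

/-- the fusion system of composites `α ∘ φ₀` -/
def ksys8 (F E : FusionSystem S) (hEF : ∀ P, E.Hom P ⊆ F.Hom P) : FusionSystem S where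
  Hom P := {φ | P ≤ S ∧ (∀ x, φ x ∈ S) ∧ (graph8 P φ : Subgroup (↥S × ↥S)) ∈ KCls8 F E}
  le_of_mem := fun h => ⟨h.1, h.2.1⟩
  injective_of_mem := by
    rintro P φ ⟨hP, hφS, hg⟩
    exact F.injective_of_mem (mem_of_graph8 F hP hφS (kcls_fgraph8 hEF hg))
  conj_mem := by
    intro P g hP hg
    refine ⟨hP, fun x => S.mul_mem (S.mul_mem hg (hP x.2)) (S.inv_mem hg), ?_⟩
    exact kcls_of_le8 (kcls_of_core8 (core_ginn8 F E ⟨g, hg⟩)) (graph_conj_le8 g hg)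
  comp_mem := by
    rintro P Q φ ψ ⟨hP, hφS, hgφ⟩ ⟨hQ, hψS, hgψ⟩ h
    refine ⟨hP, fun x => hψS _, ?_⟩
    rw [graph_comp8 φ ψ h hφS]
    exact kcls_comp8 hgψ hgφ
  inv_mem := by
    rintro P φ ⟨hP, hφS, hgφ⟩
    have hφF := mem_of_graph8 F hP hφS (kcls_fgraph8 hEF hgφ)
    obtain ⟨ψ, hψ, hψe, hψr⟩ := fs_inv F hφF
    have hψ' : ∀ (y : Ω) (hy : y ∈ φ.range) (u : P), φ u = y → ψ ⟨y, hy⟩ = (u : Ω) := by
      intro y hy u e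
      subst e
      exact hψe u
    refine ⟨ψ, ⟨?_, ?_, ?_⟩, hψe⟩
    · rintro _ ⟨x, rfl⟩
      exact hφS x
    · intro y
      exact (F.le_of_mem hψ).2 y
    · have e : (graph8 φ.range ψ : Subgroup (↥S × ↥S)) = gswap8 (graph8 P φ) := by
        ext ⟨a, b⟩
        rw [mem_graph8, mem_gswap8, mem_graph8]
        constructor
        · rintro ⟨hbr, e⟩
          obtain ⟨v, hv⟩ : ∃ v, φ v = (b : Ω) := id hbr
          have e2 := hψ' _ hbr v hv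
          have hav : (a : Ω) = v := e.symm.trans e2
          refine ⟨by rw [hav]; exact v.2, ?_⟩
          rw [← hv]
          congr 1
          exact Subtype.ext hav
        · rintro ⟨haP, e⟩
          exact ⟨⟨⟨a, haP⟩, e⟩, hψ' _ _ ⟨a, haP⟩ e⟩
      rw [e]
      exact kcls_swap8 hgφ

end Cfsg.Agent.Lib.Helper8
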