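import Mathlib
import Cfsg.Prelude.Def_FusionSystem
import Cfsg.Agent.Lib.Helper8.Fr1
import Cfsg.Agent.Lib.Helper8.Alp
import Cfsg.Agent.Lib.Helper8.Ess
import Cfsg.Agent.Lib.Helper8.Centric

set_option autoImplicit false
open Cfsg

namespace Cfsg.Agent.Lib.Helper8

theorem pclosure_normal8 {A : Type*} [Group A] (p : ℕ) :
    (Subgroup.closure {x : A | ∃ k : ℕ, orderOf x = p ^ k}).Normal := by
  constructor
  intro n hn g
  induction hn using Subgroup.closure_induction with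
  | mem x hx =>
    obtain ⟨k, hk⟩ := hx
    apply Subgroup.subset_closure
    refine ⟨k, ?_⟩
    rw [← hk]
    exact MulEquiv.orderOf_eq (MulAut.conj g) x
  | one =>
    rw [mul_one, mul_inv_cancel]
    exact Subgroup.one_mem _
  | mul x y _ _ hx hy =>
    have e : g * (x * y) * g⁻¹ = (g * x * g⁻¹) * (g * y * g⁻¹) := by group
    rw [e]
    exact Subgroup.mul_mem _ hx hy
  | inv x _ hx =>
    have e : g * x⁻¹ * g⁻¹ = (g * x * g⁻¹)⁻¹ := by group
    rw [e]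
    exact Subgroup.inv_mem _ hx

theorem frattini_pclosure8 {A : Type*} [Group A] [Finite A] (p : ℕ) [Fact p.Prime]
    (T : Sylow p A) (a : A) :
    ∃ c ∈ Subgroup.normalizer ((T : Subgroup A) : Set A),
      ∃ b ∈ Subgroup.closure {x : A | ∃ k : ℕ, orderOf x = p ^ k}, a = c * b := by
  haveI hN : (Subgroup.closure {x : A | ∃ k : ℕ, orderOf x = p ^ k}).Normal :=
    pclosure_normal8 p
  have hTN : (T : Subgroup A) ≤ Subgroup.closure {x : A | ∃ k : ℕ, orderOf x = p ^ k} := by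
    intro x hx
    apply Subgroup.subset_closure
    obtain ⟨k, hk⟩ := T.isPGroup' ⟨x, hx⟩
    have hk' : x ^ p ^ k = 1 := congrArg Subtype.val hk
    exact exists_orderOf_eq_prime_pow_iff.mpr ⟨k, hk'⟩
  have h1 := Sylow.normalizer_sup_eq_top' T hTN
  have h2 : a ∈ Subgroup.normalizer ((T : Subgroup A) : Set A) ⊔
      Subgroup.closure {x : A | ∃ k : ℕ, orderOf x = p ^ k} := by
    have h0 : a ∈ (⊤ : Subgroup A) := Subgroup.mem_top a
    rw [← h1] at h0
    exact h0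
  have h3 : a ∈ ((Subgroup.normalizer ((T : Subgroup A) : Set A) ⊔
      Subgroup.closure {x : A | ∃ k : ℕ, orderOf x = p ^ k} : Subgroup A) : Set A) := h2
  rw [Subgroup.mul_normal] at h3
  obtain ⟨c, hc, b, hb, hcb⟩ := Set.mem_mul.mp h3
  exact ⟨c, hc, b, hb, hcb.symm⟩

open scoped Pointwise in
theorem exists_conj_mem_sylow8 {A : Type*} [Group A] [Finite A] (p : ℕ) [Fact p.Prime]
    (T : Sylow p A) (a : A) (k : ℕ) (ha : orderOf a = p ^ k) :
    ∃ g : A, g * a * g⁻¹ ∈ (T : Subgroup A) := by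
  have hz : IsPGroup p (Subgroup.zpowers a) := by
    apply IsPGroup.of_card (n := k)
    rw [Nat.card_zpowers, ha]
  obtain ⟨Q, hQ⟩ := hz.exists_le_sylow
  obtain ⟨g, hg⟩ := MulAction.exists_smul_eq A Q T
  refine ⟨g, ?_⟩
  have h1 : a ∈ (Q : Subgroup A) := hQ (Subgroup.mem_zpowers a)
  have h2 : MulAut.conj g • a ∈ MulAut.conj g • (Q : Subgroup A) :=
    Subgroup.smul_mem_pointwise_smul a (MulAut.conj g) (Q : Subgroup A) h1
  rw [← hg]
  exact h2

variable {Ω : Type*} [Group Ω] {S : Subgroup Ω}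

theorem pclosure_transport8 (F : FusionSystem S) (p : ℕ) {R R' : Subgroup Ω} {φ : R →* Ω}
    (hφ : φ ∈ F.Hom R) (hR' : φ.range = R') {β : MulAut R}
    (hβ : β ∈ (Subgroup.closure {a : ↥(F.autGroup R) | ∃ k : ℕ, orderOf a = p ^ k}).map
      (F.autGroup R).subtype) :
    MulAut.congr (fsEquiv F hφ hR') β ∈
      (Subgroup.closure {a : ↥(F.autGroup R') | ∃ k : ℕ, orderOf a = p ^ k}).map
        (F.autGroup R').subtype := by
  obtain ⟨β₀, hβ₀, rfl⟩ := hβ
  induction hβ₀ using Subgroup.closure_induction with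
  | mem x hx =>
    obtain ⟨k, hk⟩ := hx
    refine ⟨⟨MulAut.congr (fsEquiv F hφ hR') x, congr_mem_autGroup F hφ hR' x.2⟩,
      Subgroup.subset_closure ⟨k, ?_⟩, rfl⟩
    rw [← hk, ← Subgroup.orderOf_coe, ← Subgroup.orderOf_coe]
    exact MulEquiv.orderOf_eq (MulAut.congr (fsEquiv F hφ hR')) _
  | one =>
    rw [map_one, map_one]
    exact Subgroup.one_mem _
  | mul x y _ _ hx hy =>
    rw [map_mul, map_mul]
    exact Subgroup.mul_mem _ hx hy
  | inv x _ hx =>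
    rw [map_inv, map_inv]
    exact Subgroup.inv_mem _ hx

theorem gmap_graph_aut8 (F : FusionSystem S) {R : Subgroup Ω} (hRS : R ≤ S) {γ : MulAut ↥S}
    (hγ : γ ∈ F.autGroup S) (β : MulAut R) :
    ∃ (R' : Subgroup Ω) (φ : R →* Ω) (hφ : φ ∈ F.Hom R) (hR' : φ.range = R'),
      gmap8 γ γ (graph8 R (R.subtype.comp β.toMonoidHom)) =
        (graph8 R' (R'.subtype.comp (MulAut.congr (fsEquiv F hφ hR') β).toMonoidHom) :
          Subgroup (↥S × ↥S)) := by
  obtain ⟨φ, hφdef⟩ : ∃ φ : R →* Ω,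
      φ = (S.subtype.comp γ.toMonoidHom).comp (Subgroup.inclusion hRS) := ⟨_, rfl⟩
  have hφ : φ ∈ F.Hom R := by
    rw [hφdef]
    exact fs_restrict F hRS ((mem_autGroup_iff F le_rfl γ).mp hγ)
  have hφv : ∀ x : R, φ x = ((γ ⟨x, hRS x.2⟩ : ↥S) : Ω) := by
    intro x; rw [hφdef]; rfl
  refine ⟨φ.range, φ, hφ, rfl, ?_⟩
  obtain ⟨e, he⟩ : ∃ e : R ≃* ↥φ.range, e = fsEquiv F hφ rfl := ⟨_, rfl⟩
  rw [← he]
  have hev : ∀ x : R, ((e x : ↥φ.range) : Ω) = ((γ ⟨x, hRS x.2⟩ : ↥S) : Ω) := by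
    intro x
    rw [he, fsEquiv_apply, hφv]
  ext ⟨a, b⟩
  rw [mem_gmap8, mem_graph8, mem_graph8]
  constructor
  · rintro ⟨h, hval⟩
    have ex : ((e ⟨((γ⁻¹ b : ↥S) : Ω), h⟩ : ↥φ.range) : Ω) = b := by
      rw [hev]
      have e1 : (⟨((γ⁻¹ b : ↥S) : Ω), hRS h⟩ : ↥S) = γ⁻¹ b := rfl
      rw [e1, MulAut.apply_inv_self]
    have hb' : (b : Ω) ∈ φ.range := by
      rw [← ex]; exact (e _).2
    refine ⟨hb', ?_⟩
    have esym : e.symm ⟨(b : Ω), hb'⟩ = ⟨((γ⁻¹ b : ↥S) : Ω), h⟩ := by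
      rw [MulEquiv.symm_apply_eq]
      exact Subtype.ext ex.symm
    show ((e (β (e.symm ⟨(b : Ω), hb'⟩)) : ↥φ.range) : Ω) = a
    rw [esym, hev]
    have e2 : (⟨((β ⟨((γ⁻¹ b : ↥S) : Ω), h⟩ : R) : Ω), hRS (β ⟨((γ⁻¹ b : ↥S) : Ω), h⟩).2⟩ : ↥S) =
        γ⁻¹ a := Subtype.ext hval
    rw [e2, MulAut.apply_inv_self]
  · rintro ⟨h', hval⟩
    obtain ⟨x, hx⟩ : ∃ x, φ x = (b : Ω) := id h'
    have hγx : γ ⟨x, hRS x.2⟩ = b := Subtype.ext ((hφv x).symm.trans hx)
    have hbx : γ⁻¹ b = ⟨x, hRS x.2⟩ := by rw [← hγx, MulAut.inv_apply_self]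
    have h : ((γ⁻¹ b : ↥S) : Ω) ∈ R := by rw [hbx]; exact x.2
    refine ⟨h, ?_⟩
    have hxe : (⟨((γ⁻¹ b : ↥S) : Ω), h⟩ : R) = x := by
      apply Subtype.ext
      show ((γ⁻¹ b : ↥S) : Ω) = x
      rw [hbx]
    have ex : e x = ⟨(b : Ω), h'⟩ := by
      apply Subtype.ext
      rw [hev, hγx]
    have esym : e.symm ⟨(b : Ω), h'⟩ = x := by
      rw [MulEquiv.symm_apply_eq]
      exact ex.symm
    have hval' : ((e (β (e.symm ⟨(b : Ω), h'⟩)) : ↥φ.range) : Ω) = a := hval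
    rw [esym, hev] at hval'
    have e3 : γ ⟨((β x : R) : Ω), hRS (β x).2⟩ = a := Subtype.ext hval'
    show ((β ⟨((γ⁻¹ b : ↥S) : Ω), h⟩ : R) : Ω) = ((γ⁻¹ a : ↥S) : Ω)
    rw [hxe, ← e3, MulAut.inv_apply_self]

theorem pclosure_core8 (F E : FusionSystem S) (p : ℕ)
    (h : ∀ P : Subgroup Ω, F.IsCentric P →
      (Subgroup.closure {α : ↥(F.autGroup P) | ∃ k : ℕ, orderOf α = p ^ k}).map
        (F.autGroup P).subtype ≤ E.autGroup P)
    {R : Subgroup Ω} (hcen : F.IsCentric R) {β : MulAut R}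
    (hβ : β ∈ (Subgroup.closure {a : ↥(F.autGroup R) | ∃ k : ℕ, orderOf a = p ^ k}).map
      (F.autGroup R).subtype) :
    (graph8 R (R.subtype.comp β.toMonoidHom) : Subgroup (↥S × ↥S)) ∈ Core8 F E := by
  intro γ hγ
  obtain ⟨R', φ, hφ, hR', e⟩ := gmap_graph_aut8 F hcen.1 hγ β
  rw [e]
  have hcen' : F.IsCentric R' := centric_conj F hcen ⟨φ, hφ, hR'⟩
  have h1 := h R' hcen' (pclosure_transport8 F p hφ hR' hβ)
  exact graph_fgraph8 E ((mem_autGroup_iff E hcen'.1 _).mp h1)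

theorem norm_ext8 [Finite S] {p : ℕ} [Fact p.Prime] (hS : IsPGroup p S) (F : FusionSystem S)
    (K : FusionSystem S) {R : Subgroup Ω} (hRS : R ≤ S) (hrec : F.IsReceptive R)
    (IH : ∀ (Q : Subgroup Ω) (φ : Q →* Ω), φ ∈ F.Hom Q → Nat.card R < Nat.card Q → φ ∈ K.Hom Q)
    (hlt : Nat.card R < Nat.card S) (c : ↥(F.autGroup R))
    (hc : c ∈ Subgroup.normalizer
      (((autInducedBy S R).subgroupOf (F.autGroup R) : Subgroup ↥(F.autGroup R)) :
        Set ↥(F.autGroup R))) :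
    R.subtype.comp (c : MulAut R).toMonoidHom ∈ K.Hom R := by
  have hφ : R.subtype.comp (c : MulAut R).toMonoidHom ∈ F.Hom R :=
    (mem_autGroup_iff F hRS _).mp c.2
  have hr := range_subtype_comp_aut (c : MulAut R)
  obtain ⟨ψ, hψ, hψα⟩ := hrec.2 R _ hφ hr
  have hNle : FusionSystem.normalizerIn S R ≤
      FusionSystem.extender S R (R.subtype.comp (c : MulAut R).toMonoidHom) := by
    intro g hg
    apply Subgroup.subset_closure
    refine ⟨hg.1, hg.2, ?_⟩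
    obtain ⟨cg, hcg⟩ : ∃ cg : ↥(F.autGroup R), cg = normAut F hRS ⟨g, hg⟩ := ⟨_, rfl⟩
    have hcgv : ∀ x : R, (((cg : MulAut R) x : R) : Ω) = g * x * g⁻¹ := by
      intro x; rw [hcg]; rfl
    have hcgm : cg ∈ (autInducedBy S R).subgroupOf (F.autGroup R) :=
      (mem_autInducedBy_iff S R _).mpr ⟨g, hg.1, hcgv⟩
    have h1 := (Subgroup.mem_normalizer_iff.mp hc cg).mp hcgm
    have h1' : ((c * cg * c⁻¹ : ↥(F.autGroup R)) : MulAut R) ∈ autInducedBy S R := h1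
    obtain ⟨h, hhS, hh⟩ := (mem_autInducedBy_iff S R _).mp h1'
    refine ⟨h, hhS, fun x hx => ?_⟩
    have h2 := hh ((c : MulAut R) x)
    have h3 : ((c * cg * c⁻¹ : ↥(F.autGroup R)) : MulAut R) ((c : MulAut R) x) =
        (c : MulAut R) ((cg : MulAut R) x) := by
      show (c : MulAut R) ((cg : MulAut R) ((c : MulAut R)⁻¹ ((c : MulAut R) x))) = _
      rw [MulAut.inv_apply_self]
    rw [h3] at h2
    have h4 : (cg : MulAut R) x = ⟨g * x * g⁻¹, hx⟩ := Subtype.ext (hcgv x)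
    rw [h4] at h2
    exact h2
  have hfin : Finite (FusionSystem.extender S R (R.subtype.comp (c : MulAut R).toMonoidHom)) :=
    finite_of_le (F.le_of_mem hψ).1
  have hcard : Nat.card R <
      Nat.card (FusionSystem.extender S R (R.subtype.comp (c : MulAut R).toMonoidHom)) :=
    lt_of_lt_of_le (card_lt_card_normalizerIn hS hRS hlt) (Subgroup.card_le_of_le hNle)
  have hψK := IH _ ψ hψ hcard
  have hRle : R ≤ FusionSystem.extender S R (R.subtype.comp (c : MulAut R).toMonoidHom) :=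
    fs_le_extender F hφ
  have h3 := fs_restrict K hRle hψK
  have h4 : ψ.comp (Subgroup.inclusion hRle) = R.subtype.comp (c : MulAut R).toMonoidHom := by
    ext x
    exact hψα x x.2 (hRle x.2)
  rwa [h4] at h3

theorem frattini_le8 [Finite S] {p : ℕ} [Fact p.Prime] (hS : IsPGroup p S) (F : FusionSystem S)
    (hF : F.IsSaturated p) (E : FusionSystem S) (hEF : ∀ P, E.Hom P ⊆ F.Hom P)
    (h : ∀ P : Subgroup Ω, F.IsCentric P →
      (Subgroup.closure {α : ↥(F.autGroup P) | ∃ k : ℕ, orderOf α = p ^ k}).map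
        (F.autGroup P).subtype ≤ E.autGroup P) :
    F ≤ ksys8 F E hEF := by
  apply alperin_ind_centric hS F hF
  intro R hfa hrec hcen IH α hα
  have hRS := hcen.1
  have : Finite R := finite_of_le hRS
  have : Finite (MulAut R) := finite_mulAut R
  have hαA : α ∈ F.autGroup R := (mem_autGroup_iff F hRS α).mpr hα
  obtain ⟨-, T₀, hT₀⟩ := hfa
  obtain ⟨c, hc, b, hb, hcb⟩ := frattini_pclosure8 p T₀ (⟨α, hαA⟩ : ↥(F.autGroup R))
  rw [hT₀] at hc
  have hbK : R.subtype.comp (b : MulAut R).toMonoidHom ∈ (ksys8 F E hEF).Hom R :=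
    ⟨hRS, fun x => hRS ((b : MulAut R) x).2,
      kcls_of_core8 (pclosure_core8 F E p h hcen ⟨b, hb, rfl⟩)⟩
  have hcK : R.subtype.comp (c : MulAut R).toMonoidHom ∈ (ksys8 F E hEF).Hom R := by
    by_cases hlt : Nat.card R < Nat.card S
    · exact norm_ext8 hS F (ksys8 F E hEF) hRS hrec IH hlt c hc
    · have hRS' : R = S := Subgroup.eq_of_le_of_card_ge hRS (not_lt.mp hlt)
      subst hRS'
      refine ⟨le_rfl, fun x => ((c : MulAut R) x).2, ?_⟩
      rw [graph_aut8]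
      exact ⟨c, c.2, diag8 R, core_diag8 F E, rfl⟩
  have h1 : ∀ z : R, (R.subtype.comp (b : MulAut R).toMonoidHom) z ∈ R :=
    fun z => ((b : MulAut R) z).2
  have h2 := (ksys8 F E hEF).comp_mem hbK hcK h1
  have h3 : (R.subtype.comp (c : MulAut R).toMonoidHom).comp
      ((R.subtype.comp (b : MulAut R).toMonoidHom).codRestrict R h1) =
      R.subtype.comp α.toMonoidHom := by
    ext z
    have e : α = (c : MulAut R) * (b : MulAut R) := congrArg Subtype.val hcb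
    rw [e]
    rfl
  rwa [h3] at h2

end Cfsg.Agent.Lib.Helper8
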