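import Mathlib
import Cfsg.Prelude.Def_FusionSystem
import Cfsg.Agent.Lib.Helper8.Fr2

set_option autoImplicit false
open Cfsg

namespace Cfsg.Agent.Lib.Helper8

variable {Ω : Type*} [Group Ω] {S : Subgroup Ω}

theorem frattini_dec8 [Finite S] {p : ℕ} [Fact p.Prime] (hS : IsPGroup p S) (F : FusionSystem S)
    (hF : F.IsSaturated p) (E : FusionSystem S) (hEF : ∀ P, E.Hom P ⊆ F.Hom P)
    (h : ∀ P : Subgroup Ω, F.IsCentric P →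
      (Subgroup.closure {α : ↥(F.autGroup P) | ∃ k : ℕ, orderOf α = p ^ k}).map
        (F.autGroup P).subtype ≤ E.autGroup P)
    (P : Subgroup Ω) (φ : P →* Ω) (hφ : φ ∈ F.Hom P) :
    ∃ α ∈ F.autGroup S, ∃ φ₀ ∈ E.Hom P, ∀ (x : P) (hx : φ₀ x ∈ S),
      φ x = ((α ⟨φ₀ x, hx⟩ : S) : Ω) := by
  obtain ⟨hP, hφS, α, hα, Γ₀, hΓ₀, e⟩ := frattini_le8 hS F hF E hEF h P hφ
  obtain ⟨V, χ, hχ, hg⟩ := core_fgraph8 hΓ₀
  have hVS : V ≤ S := (E.le_of_mem hχ).1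
  have hχS : ∀ v : V, χ v ∈ S := (E.le_of_mem hχ).2
  have hmem : ∀ a b : ↥S, (a, b) ∈ (graph8 P φ : Subgroup (↥S × ↥S)) ↔ (α⁻¹ a, b) ∈ Γ₀ := by
    intro a b
    rw [e]
    exact mem_gmap_one8
  have hVP : V = P := by
    ext x
    constructor
    · intro hx
      have h1 : ((⟨χ ⟨x, hx⟩, hχS _⟩ : ↥S), (⟨x, hVS hx⟩ : ↥S)) ∈ Γ₀ :=
        (hg _ _).mpr ⟨hx, rfl⟩
      have h2 : ((α ⟨χ ⟨x, hx⟩, hχS _⟩ : ↥S), (⟨x, hVS hx⟩ : ↥S)) ∈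
          (graph8 P φ : Subgroup (↥S × ↥S)) := by
        rw [hmem, MulAut.inv_apply_self]
        exact h1
      exact h2.1
    · intro hx
      have h1 : ((⟨φ ⟨x, hx⟩, hφS _⟩ : ↥S), (⟨x, hP hx⟩ : ↥S)) ∈
          (graph8 P φ : Subgroup (↥S × ↥S)) := ⟨hx, rfl⟩
      rw [hmem] at h1
      exact ((hg _ _).mp h1).1
  subst hVP
  refine ⟨α, hα, χ, hχ, fun x hx => ?_⟩
  have h1 : ((⟨φ x, hφS _⟩ : ↥S), (⟨x, hVS x.2⟩ : ↥S)) ∈
      (graph8 V φ : Subgroup (↥S × ↥S)) := ⟨x.2, rfl⟩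
  rw [hmem] at h1
  obtain ⟨h2, h3⟩ := (hg _ _).mp h1
  have h4 : (⟨χ x, hx⟩ : ↥S) = α⁻¹ ⟨φ x, hφS _⟩ := Subtype.ext h3
  rw [h4, MulAut.apply_inv_self]

theorem frattini_centric8 [Finite S] {p : ℕ} [Fact p.Prime] (hS : IsPGroup p S)
    (F : FusionSystem S) (hF : F.IsSaturated p) (E : FusionSystem S)
    (hEF : ∀ P, E.Hom P ⊆ F.Hom P)
    (h : ∀ P : Subgroup Ω, F.IsCentric P →
      (Subgroup.closure {α : ↥(F.autGroup P) | ∃ k : ℕ, orderOf α = p ^ k}).map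
        (F.autGroup P).subtype ≤ E.autGroup P)
    (P : Subgroup Ω) : E.IsCentric P ↔ F.IsCentric P := by
  constructor
  · rintro ⟨hP, hcen⟩
    refine ⟨hP, ?_⟩
    rintro Q ⟨φ, hφ, rfl⟩
    obtain ⟨α, hα, φ₀, hφ₀, hdec⟩ := frattini_dec8 hS F hF E hEF h P φ hφ
    have hφ₀S : ∀ x : P, φ₀ x ∈ S := (E.le_of_mem hφ₀).2
    have hQ₀ := hcen φ₀.range ⟨φ₀, hφ₀, rfl⟩
    intro c hc
    obtain ⟨hcS, hcC⟩ := hc
    have hcC' : ∀ y ∈ φ.range, y * c = c * y := Subgroup.mem_centralizer_iff.mp hcC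
    obtain ⟨c', hc'⟩ : ∃ c' : ↥S, c' = α⁻¹ ⟨c, hcS⟩ := ⟨_, rfl⟩
    have hαc' : α c' = ⟨c, hcS⟩ := by rw [hc', MulAut.apply_inv_self]
    have h1 : (c' : Ω) ∈ FusionSystem.centralizerIn S φ₀.range := by
      refine ⟨c'.2, ?_⟩
      show (c' : Ω) ∈ Subgroup.centralizer (φ₀.range : Set Ω)
      rw [Subgroup.mem_centralizer_iff]
      rintro _ ⟨x, rfl⟩
      have h2 := hcC' (φ x) ⟨x, rfl⟩
      rw [hdec x (hφ₀S x)] at h2
      have h3 : α ⟨φ₀ x, hφ₀S x⟩ * α c' = α c' * α ⟨φ₀ x, hφ₀S x⟩ := by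
        rw [hαc']
        exact Subtype.ext h2
      rw [← map_mul, ← map_mul] at h3
      exact congrArg Subtype.val (α.injective h3)
    obtain ⟨x, hx⟩ := hQ₀ h1
    refine ⟨x, ?_⟩
    rw [hdec x (hφ₀S x)]
    have h4 : (⟨φ₀ x, hφ₀S x⟩ : ↥S) = c' := Subtype.ext hx
    rw [h4, hαc']
  · rintro ⟨hP, hcen⟩
    refine ⟨hP, ?_⟩
    rintro Q ⟨φ, hφ, rfl⟩
    exact hcen φ.range ⟨φ, hEF P hφ, rfl⟩

theorem frattini_pelt8 [Finite S] {p : ℕ} [Fact p.Prime] (hS : IsPGroup p S)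
    (F : FusionSystem S) (hF : F.IsSaturated p) (E : FusionSystem S)
    (hEF : ∀ P, E.Hom P ⊆ F.Hom P)
    (h : ∀ P : Subgroup Ω, F.IsCentric P →
      (Subgroup.closure {α : ↥(F.autGroup P) | ∃ k : ℕ, orderOf α = p ^ k}).map
        (F.autGroup P).subtype ≤ E.autGroup P)
    (P : Subgroup Ω) (hP : P ≤ S) (a : ↥(F.autGroup P)) (k : ℕ) (hk : orderOf a = p ^ k) :
    (a : MulAut P) ∈ E.autGroup P := by
  obtain ⟨R, ⟨φ, hφ, hφR⟩, hfa, hrec⟩ := hF P hP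
  have hRS : R ≤ S := hfa.1
  have : Finite R := finite_of_le hRS
  have : Finite (MulAut R) := finite_mulAut R
  obtain ⟨e, he⟩ : ∃ e : P ≃* R, e = fsEquiv F hφ hφR := ⟨_, rfl⟩
  have hev : ∀ x : P, ((e x : R) : Ω) = φ x := by
    intro x; rw [he]; rfl
  obtain ⟨a', ha'⟩ : ∃ a' : ↥(F.autGroup R), (a' : MulAut R) = MulAut.congr e (a : MulAut P) := by
    refine ⟨⟨MulAut.congr e (a : MulAut P), ?_⟩, rfl⟩
    rw [he]
    exact congr_mem_autGroup F hφ hφR a.2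
  have hord : orderOf a' = p ^ k := by
    rw [← hk, ← Subgroup.orderOf_coe, ← Subgroup.orderOf_coe, ha']
    exact MulEquiv.orderOf_eq (MulAut.congr e) _
  obtain ⟨-, T₀, hT₀⟩ := hfa
  obtain ⟨g, hg⟩ := exists_conj_mem_sylow8 p T₀ a' k hord
  rw [hT₀] at hg
  have hg' : ((g * a' * g⁻¹ : ↥(F.autGroup R)) : MulAut R) ∈ autInducedBy S R := hg
  obtain ⟨s, hs, hsv⟩ := (mem_autInducedBy_iff S R _).mp hg'
  -- the map ψ = g ∘ φ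
  have hφRx : ∀ x : P, φ x ∈ R := fun x => fs_mem_of_range hφR x
  have hψ := F.comp_mem hφ ((mem_autGroup_iff F hRS (g : MulAut R)).mp g.2) hφRx
  obtain ⟨ψ, hψdef⟩ : ∃ ψ : P →* Ω,
      ψ = (R.subtype.comp (g : MulAut R).toMonoidHom).comp (φ.codRestrict R hφRx) := ⟨_, rfl⟩
  rw [← hψdef] at hψ
  have hψv : ∀ x : P, ψ x = (((g : MulAut R) (e x) : R) : Ω) := by
    intro x
    rw [hψdef]
    show (((g : MulAut R) ⟨φ x, hφRx x⟩ : R) : Ω) = (((g : MulAut R) (e x) : R) : Ω)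
    congr 2
    exact Subtype.ext (hev x).symm
  have hrel : ∀ x : P, ψ ((a : MulAut P) x) = s * ψ x * s⁻¹ := by
    intro x
    rw [hψv, hψv, ← hsv]
    have h1 : ((g * a' * g⁻¹ : ↥(F.autGroup R)) : MulAut R) ((g : MulAut R) (e x)) =
        (g : MulAut R) (e ((a : MulAut P) x)) := by
      show (g : MulAut R) ((a' : MulAut R) ((g : MulAut R)⁻¹ ((g : MulAut R) (e x)))) = _
      rw [MulAut.inv_apply_self, ha']
      show (g : MulAut R) (e ((a : MulAut P) (e.symm (e x)))) = _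
      rw [MulEquiv.symm_apply_apply]
    rw [h1]
  obtain ⟨α, hα, ψ₀, hψ₀, hdec⟩ := frattini_dec8 hS F hF E hEF h P ψ hψ
  have hψ₀S : ∀ x : P, ψ₀ x ∈ S := (E.le_of_mem hψ₀).2
  obtain ⟨t, ht⟩ : ∃ t : ↥S, t = α⁻¹ ⟨s, hs⟩ := ⟨_, rfl⟩
  have hαt : α t = ⟨s, hs⟩ := by rw [ht, MulAut.apply_inv_self]
  have hrel₀ : ∀ x : P, ψ₀ ((a : MulAut P) x) = (t : Ω) * ψ₀ x * (t : Ω)⁻¹ := by
    intro x
    have h1 := hrel x
    rw [hdec _ (hψ₀S _), hdec x (hψ₀S x)] at h1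
    have h2 : α ⟨ψ₀ ((a : MulAut P) x), hψ₀S _⟩ = α (t * ⟨ψ₀ x, hψ₀S x⟩ * t⁻¹) := by
      rw [map_mul, map_mul, map_inv, hαt]
      exact Subtype.ext h1
    exact congrArg Subtype.val (α.injective h2)
  -- assemble `a` inside `E`
  rw [mem_autGroup_iff E hP]
  have hQ₀S : ψ₀.range ≤ S := by
    rintro _ ⟨x, rfl⟩
    exact hψ₀S x
  have hθ := E.conj_mem hQ₀S t.2
  obtain ⟨ψ₀', hψ₀', hψ₀'e, -⟩ := fs_inv E hψ₀
  have hinv : ∀ (y : Ω) (hy : y ∈ ψ₀.range) (u : P), ψ₀ u = y → ψ₀' ⟨y, hy⟩ = (u : Ω) := by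
    intro y hy u e1
    subst e1
    exact hψ₀'e u
  have h1 : ∀ x : P, ψ₀ x ∈ ψ₀.range := fun x => ⟨x, rfl⟩
  have step1 := E.comp_mem hψ₀ hθ h1
  have h2 : ∀ x : P, ((conjHom ψ₀.range (t : Ω)).comp (ψ₀.codRestrict ψ₀.range h1)) x ∈
      ψ₀.range := by
    intro x
    show (t : Ω) * ψ₀ x * (t : Ω)⁻¹ ∈ ψ₀.range
    rw [← hrel₀ x]
    exact ⟨_, rfl⟩
  have step2 := E.comp_mem step1 hψ₀' h2
  have heq : ψ₀'.comp (((conjHom ψ₀.range (t : Ω)).comp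
      (ψ₀.codRestrict ψ₀.range h1)).codRestrict ψ₀.range h2) =
      P.subtype.comp (a : MulAut P).toMonoidHom := by
    ext x
    show ψ₀' ⟨(t : Ω) * ψ₀ x * (t : Ω)⁻¹, _⟩ = (((a : MulAut P) x : P) : Ω)
    exact hinv _ _ ((a : MulAut P) x) (hrel₀ x)
  rwa [heq] at step2

theorem frattini_main8 [Finite S] {p : ℕ} [Fact p.Prime] (hS : IsPGroup p S)
    (F : FusionSystem S) (hF : F.IsSaturated p) (E : FusionSystem S)
    (hEF : E.IsSubsystemOf F)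
    (h : ∀ P : Subgroup Ω, F.IsCentric P →
      (Subgroup.closure {α : ↥(F.autGroup P) | ∃ k : ℕ, orderOf α = p ^ k}).map
        (F.autGroup P).subtype ≤ E.autGroup P) :
    E.HasPrimeToPIndexIn F p ∧
    (∀ (P : Subgroup Ω) (φ : P →* Ω), φ ∈ F.Hom P → ∃ α ∈ F.autGroup S, ∃ φ₀ ∈ E.Hom P,
      ∀ (x : P) (hx : φ₀ x ∈ S), φ x = ((α ⟨φ₀ x, hx⟩ : S) : Ω)) ∧
    ∀ P : Subgroup Ω, E.IsCentric P ↔ F.IsCentric P := by
  refine ⟨⟨hEF, fun P hP => ?_⟩, frattini_dec8 hS F hF E hEF h,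
    frattini_centric8 hS F hF E hEF h⟩
  rw [Subgroup.map_le_iff_le_comap, Subgroup.closure_le]
  rintro a ⟨k, hk⟩
  exact frattini_pelt8 hS F hF E hEF h P hP a k hk

end Cfsg.Agent.Lib.Helper8
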