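import Mathlib

set_option autoImplicit false

namespace Cfsg.Agent.Lib.Helper8

/-- S4965: the split extension has the largest class number. -/
theorem class_le_split {X : Type*} [Group X] [Finite X] (V : Subgroup X) [V.Normal]
    (hab : ∀ a ∈ V, ∀ b ∈ V, a * b = b * a) (φ : X ⧸ V →* MulAut ↥V)
    (hφ : ∀ (x : X) (v : ↥V), ((φ (QuotientGroup.mk x) v : ↥V) : X) = x * v * x⁻¹) :
    Nat.card (ConjClasses X) ≤ Nat.card (ConjClasses (SemidirectProduct ↥V (X ⧸ V) φ)) := by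
  classical
  haveI : Finite (SemidirectProduct ↥V (X ⧸ V) φ) :=
    Finite.of_equiv _ SemidirectProduct.equivProd.symm
  have hex : ∀ ab : (X ⧸ V) × (X ⧸ V), ∃ q : X × X,
      (∃ q' : X × X, Commute q'.1 q'.2 ∧ (q'.1 : X ⧸ V) = ab.1 ∧ (q'.2 : X ⧸ V) = ab.2) →
        (Commute q.1 q.2 ∧ (q.1 : X ⧸ V) = ab.1 ∧ (q.2 : X ⧸ V) = ab.2) := by
    intro ab
    by_cases h : ∃ q' : X × X, Commute q'.1 q'.2 ∧ (q'.1 : X ⧸ V) = ab.1 ∧ (q'.2 : X ⧸ V) = ab.2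
    · obtain ⟨q, hq⟩ := h
      exact ⟨q, fun _ => hq⟩
    · exact ⟨(1, 1), fun h' => absurd h' h⟩
  choose lift hlift using hex
  have hmemV : ∀ x x₀ : X, (x₀ : X ⧸ V) = (x : X ⧸ V) → x * x₀⁻¹ ∈ V := by
    intro x x₀ h
    have h1 := QuotientGroup.eq.mp h
    have h2 := ‹V.Normal›.conj_mem _ h1 x₀
    have e : x₀ * (x₀⁻¹ * x) * x₀⁻¹ = x * x₀⁻¹ := by group
    rw [e] at h2
    exact h2
  obtain ⟨r, hr⟩ : ∃ r : X → ↥V, ∀ x (hx : x ∈ V), r x = ⟨x, hx⟩ :=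
    ⟨fun x => if h : x ∈ V then ⟨x, h⟩ else 1, fun x hx => dif_pos hx⟩
  obtain ⟨g, hg⟩ : ∃ g : X × X →
      (SemidirectProduct ↥V (X ⧸ V) φ) × (SemidirectProduct ↥V (X ⧸ V) φ),
      ∀ p : X × X, g p =
        (⟨r (p.1 * (lift ((p.1 : X ⧸ V), (p.2 : X ⧸ V))).1⁻¹), (p.1 : X ⧸ V)⟩,
          ⟨r (p.2 * (lift ((p.1 : X ⧸ V), (p.2 : X ⧸ V))).2⁻¹), (p.2 : X ⧸ V)⟩) :=
    ⟨_, fun _ => rfl⟩
  have hcomm : ∀ p : X × X, Commute p.1 p.2 → Commute (g p).1 (g p).2 := by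
    rintro ⟨x, y⟩ hxy
    obtain ⟨h0, h1, h2⟩ := hlift ((x : X ⧸ V), (y : X ⧸ V)) ⟨(x, y), hxy, rfl, rfl⟩
    rw [hg]
    obtain ⟨q, hq⟩ : ∃ q, q = lift ((x : X ⧸ V), (y : X ⧸ V)) := ⟨_, rfl⟩
    simp only at h0 h1 h2 ⊢
    rw [← hq] at h0 h1 h2 ⊢
    obtain ⟨x₀, y₀⟩ := q
    simp only at h0 h1 h2 ⊢
    have hu := hr _ (hmemV x x₀ h1)
    have hw := hr _ (hmemV y y₀ h2)
    rw [hu, hw]
    show (⟨⟨x * x₀⁻¹, _⟩, (x : X ⧸ V)⟩ : SemidirectProduct ↥V (X ⧸ V) φ) * ⟨⟨y * y₀⁻¹, _⟩, (y : X ⧸ V)⟩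
      = ⟨⟨y * y₀⁻¹, _⟩, (y : X ⧸ V)⟩ * ⟨⟨x * x₀⁻¹, _⟩, (x : X ⧸ V)⟩
    apply SemidirectProduct.ext
    · rw [SemidirectProduct.mul_left, SemidirectProduct.mul_left]
      apply Subtype.ext
      rw [Subgroup.coe_mul, Subgroup.coe_mul]
      show x * x₀⁻¹ * ((φ (x : X ⧸ V) ⟨y * y₀⁻¹, _⟩ : ↥V) : X)
        = y * y₀⁻¹ * ((φ (y : X ⧸ V) ⟨x * x₀⁻¹, _⟩ : ↥V) : X)
      rw [← h1, ← h2, hφ, hφ]
      have e1 : x * x₀⁻¹ * (x₀ * (y * y₀⁻¹) * x₀⁻¹) = (x * y) * (x₀ * y₀)⁻¹ := by group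
      have e2 : y * y₀⁻¹ * (y₀ * (x * x₀⁻¹) * y₀⁻¹) = (y * x) * (y₀ * x₀)⁻¹ := by group
      show x * x₀⁻¹ * (x₀ * (y * y₀⁻¹) * x₀⁻¹) = y * y₀⁻¹ * (y₀ * (x * x₀⁻¹) * y₀⁻¹)
      rw [e1, e2, hxy.eq, h0.eq]
    · rw [SemidirectProduct.mul_right, SemidirectProduct.mul_right]
      show (x : X ⧸ V) * (y : X ⧸ V) = (y : X ⧸ V) * (x : X ⧸ V)
      rw [← QuotientGroup.mk_mul, ← QuotientGroup.mk_mul, hxy.eq]
  have hinj : ∀ p p' : X × X, Commute p.1 p.2 → Commute p'.1 p'.2 → g p = g p' → p = p' := by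
    rintro ⟨x, y⟩ ⟨x', y'⟩ hxy hxy' hgg
    obtain ⟨-, h1, h2⟩ := hlift ((x : X ⧸ V), (y : X ⧸ V)) ⟨(x, y), hxy, rfl, rfl⟩
    obtain ⟨-, h1', h2'⟩ := hlift ((x' : X ⧸ V), (y' : X ⧸ V)) ⟨(x', y'), hxy', rfl, rfl⟩
    rw [hg, hg] at hgg
    simp only [Prod.mk.injEq] at hgg
    obtain ⟨e1, e2⟩ := hgg
    have ea : (x : X ⧸ V) = (x' : X ⧸ V) := congrArg SemidirectProduct.right e1
    have eb : (y : X ⧸ V) = (y' : X ⧸ V) := congrArg SemidirectProduct.right e2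
    have el : lift ((x' : X ⧸ V), (y' : X ⧸ V)) = lift ((x : X ⧸ V), (y : X ⧸ V)) := by
      rw [ea, eb]
    simp only at h1 h2 h1' h2'
    rw [el] at e1 e2 h1' h2'
    have eu := congrArg SemidirectProduct.left e1
    have ew := congrArg SemidirectProduct.left e2
    simp only at eu ew
    obtain ⟨q, hq⟩ : ∃ q, q = lift ((x : X ⧸ V), (y : X ⧸ V)) := ⟨_, rfl⟩
    rw [← hq] at eu ew h1 h2 h1' h2'
    have hu := hr _ (hmemV x q.1 h1)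
    have hu' := hr _ (hmemV x' q.1 h1')
    have hw := hr _ (hmemV y q.2 h2)
    have hw' := hr _ (hmemV y' q.2 h2')
    rw [hu, hu'] at eu
    rw [hw, hw'] at ew
    have eu' := congrArg Subtype.val eu
    have ew' := congrArg Subtype.val ew
    simp only at eu' ew'
    rw [mul_left_inj] at eu' ew'
    rw [eu', ew']
  have hle : Nat.card {p : X × X // Commute p.1 p.2}
      ≤ Nat.card {q : (SemidirectProduct ↥V (X ⧸ V) φ) × (SemidirectProduct ↥V (X ⧸ V) φ) //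
        Commute q.1 q.2} := by
    apply Nat.card_le_card_of_injective (fun p => ⟨g p.1, hcomm p.1 p.2⟩)
    intro p p' h
    apply Subtype.ext
    exact hinj p.1 p'.1 p.2 p'.2 (congrArg Subtype.val h)
  rw [card_comm_eq_card_conjClasses_mul_card, card_comm_eq_card_conjClasses_mul_card,
    SemidirectProduct.card, Subgroup.card_eq_card_quotient_mul_card_subgroup V,
    mul_comm (Nat.card ↥V)] at hle
  exact Nat.le_of_mul_le_mul_right hle (Nat.mul_pos Nat.card_pos Nat.card_pos)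

end Cfsg.Agent.Lib.Helper8
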