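import Mathlib

set_option autoImplicit false

namespace Cfsg.Agent.Lib.Helper8

/-- Counting solutions of `u · α(w) = w · β(u)` in a finite abelian group on which the commuting
automorphisms `α`, `β` act, `α` of order prime to the group order. -/
theorem coprime_sol_count {A : Type*} [CommGroup A] [Finite A] (α β : MulAut A)
    (hαβ : ∀ a, α (β a) = β (α a)) (n : ℕ) (hn : ∀ a, (α ^ n) a = a)
    (hcop : n.Coprime (Nat.card A)) :
    Nat.card {p : A × A // p.1 * α p.2 = p.2 * β p.1}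
      = Nat.card A * Nat.card {a : A // α a = a ∧ β a = a} := by
  obtain ⟨δ, hδ⟩ : ∃ δ : A →* A, ∀ v, δ v = v / α v :=
    ⟨MonoidHom.mk' (fun v => v / α v) (by intro a b; rw [map_mul, div_mul_div_comm]),
      fun _ => rfl⟩
  obtain ⟨ε, hε⟩ : ∃ ε : A →* A, ∀ v, ε v = v / β v :=
    ⟨MonoidHom.mk' (fun v => v / β v) (by intro a b; rw [map_mul, div_mul_div_comm]),
      fun _ => rfl⟩
  have hδε : ∀ v, δ (ε v) = ε (δ v) := by
    intro v
    rw [hδ, hε, hε, hδ, map_div, map_div, hαβ, div_div_div_comm]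
  have hT : ∀ u w : A, u * α w = w * β u ↔ ε u = δ w := by
    intro u w
    rw [hε, hδ, div_eq_div_iff_mul_eq_mul]
  have hKI : Nat.card δ.ker * Nat.card δ.range = Nat.card A := by
    have h1 := Subgroup.card_eq_card_quotient_mul_card_subgroup δ.ker
    have h2 := Nat.card_congr (QuotientGroup.quotientKerEquivRange δ).toEquiv
    rw [h2] at h1
    rw [h1, mul_comm]
  have hfixK : ∀ v, v ∈ δ.ker ↔ α v = v := by
    intro v
    rw [MonoidHom.mem_ker, hδ, div_eq_one, eq_comm]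
  have hfixE : ∀ v, ε v = 1 ↔ β v = v := by
    intro v
    rw [hε, div_eq_one, eq_comm]
  have hdisj : ∀ v, v ∈ δ.ker → v ∈ δ.range → v = 1 := by
    rintro v hvK ⟨w, hw⟩
    have hαv : α v = v := (hfixK v).mp hvK
    have hpow : ∀ k : ℕ, (α ^ k) v = v := by
      intro k
      induction k with
      | zero => rw [pow_zero, MulAut.one_apply]
      | succ k ih => rw [pow_succ, MulAut.mul_apply, hαv, ih]
    have hk : ∀ k : ℕ, v ^ k = w / (α ^ k) w := by
      intro k
      induction k with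
      | zero => rw [pow_zero, pow_zero, MulAut.one_apply, div_self']
      | succ k ih =>
        rw [pow_succ, ih, pow_succ α k, MulAut.mul_apply]
        have e : v = (α ^ k) w / (α ^ k) (α w) := by
          rw [← map_div, ← hδ, hw, hpow k]
        conv_lhs => rw [e]
        rw [div_mul_div_cancel]
    have hvn : v ^ n = 1 := by rw [hk n, hn w, div_self']
    have h1 : orderOf v ∣ n := orderOf_dvd_of_pow_eq_one hvn
    have h2 : orderOf v ∣ Nat.card A := orderOf_dvd_natCard v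
    have h3 : orderOf v ∣ 1 := by
      have := Nat.dvd_gcd h1 h2
      rwa [Nat.Coprime.gcd_eq_one hcop] at this
    exact orderOf_eq_one_iff.mp (Nat.dvd_one.mp h3)
  have hdecomp : ∀ u : A, ∃ k ∈ δ.ker, ∃ i ∈ δ.range, u = k * i := by
    have hinj : Function.Injective (fun p : ↥δ.ker × ↥δ.range => (p.1 : A) * (p.2 : A)) := by
      rintro ⟨k, i⟩ ⟨k', i'⟩ h
      simp only at h
      have h1 : (k' : A)⁻¹ * k = i' * (i : A)⁻¹ := by
        rw [inv_mul_eq_iff_eq_mul, ← mul_assoc, ← h, mul_inv_cancel_right]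
      have h2 : (k' : A)⁻¹ * k = 1 := by
        apply hdisj
        · exact δ.ker.mul_mem (δ.ker.inv_mem k'.2) k.2
        · rw [h1]
          exact δ.range.mul_mem i'.2 (δ.range.inv_mem i.2)
      have h3 : (k : A) = k' := by
        rw [inv_mul_eq_one] at h2
        exact h2.symm
      have h4 : (i : A) = i' := by
        rw [h3] at h
        exact mul_left_cancel h
      exact Prod.ext (Subtype.ext h3) (Subtype.ext h4)
    have hbij := hinj.bijective_of_nat_card_le (by rw [Nat.card_prod, hKI])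
    intro u
    obtain ⟨⟨k, i⟩, hki⟩ := hbij.2 u
    exact ⟨k, k.2, i, i.2, hki.symm⟩
  have hεK : ∀ k ∈ δ.ker, ε k ∈ δ.ker := by
    intro k hk
    rw [MonoidHom.mem_ker, hδε, MonoidHom.mem_ker.mp hk, map_one]
  have hεI : ∀ i ∈ δ.range, ε i ∈ δ.range := by
    rintro i ⟨w, rfl⟩
    exact ⟨ε w, hδε w⟩
  obtain ⟨w₁, hw₁⟩ : ∃ w₁ : ↥δ.range → A, ∀ i : ↥δ.range, δ (w₁ i) = ε (i : A) := by
    have : ∀ i : ↥δ.range, ∃ w, δ w = ε (i : A) := fun i => hεI i i.2
    choose w₁ hw₁ using this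
    exact ⟨w₁, hw₁⟩
  have hmem : ∀ q : ({c : A // α c = c ∧ β c = c} × ↥δ.range) × ↥δ.ker,
      ((q.1.1 : A) * (q.1.2 : A)) * α ((q.2 : A) * w₁ q.1.2)
        = ((q.2 : A) * w₁ q.1.2) * β ((q.1.1 : A) * (q.1.2 : A)) := by
    rintro ⟨⟨c, i⟩, k⟩
    rw [hT, map_mul, map_mul, (hfixE c.1).mpr c.2.2, one_mul, MonoidHom.mem_ker.mp k.2, one_mul,
      hw₁]
  have hΦinj : Function.Injective
      (fun q : ({c : A // α c = c ∧ β c = c} × ↥δ.range) × ↥δ.ker =>
        (⟨((q.1.1 : A) * (q.1.2 : A), (q.2 : A) * w₁ q.1.2), hmem q⟩ :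
          {p : A × A // p.1 * α p.2 = p.2 * β p.1})) := by
    rintro ⟨⟨c, i⟩, k⟩ ⟨⟨c', i'⟩, k'⟩ h
    have h' := congrArg Subtype.val h
    simp only [Prod.mk.injEq] at h'
    obtain ⟨e1, e2⟩ := h'
    have hcK : (c : A) ∈ δ.ker := (hfixK c.1).mpr c.2.1
    have hc'K : (c' : A) ∈ δ.ker := (hfixK c'.1).mpr c'.2.1
    have h1 : (c' : A)⁻¹ * c = i' * (i : A)⁻¹ := by
      rw [inv_mul_eq_iff_eq_mul, ← mul_assoc, ← e1, mul_inv_cancel_right]
    have h2 : (c' : A)⁻¹ * c = 1 := by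
      apply hdisj
      · exact δ.ker.mul_mem (δ.ker.inv_mem hc'K) hcK
      · rw [h1]
        exact δ.range.mul_mem i'.2 (δ.range.inv_mem i.2)
    have h3 : (c : A) = c' := by
      rw [inv_mul_eq_one] at h2
      exact h2.symm
    have h4 : (i : A) = i' := by
      rw [h3] at e1
      exact mul_left_cancel e1
    have h5 : i = i' := Subtype.ext h4
    rw [h5] at e2
    have h6 : (k : A) = k' := mul_right_cancel e2
    exact Prod.ext (Prod.ext (Subtype.ext h3) h5) (Subtype.ext h6)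
  have hΦsurj : Function.Surjective
      (fun q : ({c : A // α c = c ∧ β c = c} × ↥δ.range) × ↥δ.ker =>
        (⟨((q.1.1 : A) * (q.1.2 : A), (q.2 : A) * w₁ q.1.2), hmem q⟩ :
          {p : A × A // p.1 * α p.2 = p.2 * β p.1})) := by
    rintro ⟨⟨u, w⟩, huw⟩
    have huw' : ε u = δ w := (hT u w).mp huw
    obtain ⟨k, hk, i, hi, rfl⟩ := hdecomp u
    have hεk : ε k = 1 := by
      apply hdisj
      · exact hεK k hk
      · have e : ε k = δ w * (ε i)⁻¹ := by
          rw [← huw', map_mul, mul_inv_cancel_right]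
        rw [e]
        exact δ.range.mul_mem ⟨w, rfl⟩ (δ.range.inv_mem (hεI i hi))
    have hw : δ (w / w₁ ⟨i, hi⟩) = 1 := by
      rw [map_div, hw₁, ← huw', map_mul, hεk, one_mul, div_self']
    refine ⟨((⟨k, (hfixK k).mp hk, (hfixE k).mp hεk⟩, ⟨i, hi⟩), ⟨w / w₁ ⟨i, hi⟩, hw⟩), ?_⟩
    apply Subtype.ext
    simp only [Prod.mk.injEq, div_mul_cancel, and_self]
  rw [← Nat.card_congr (Equiv.ofBijective _ ⟨hΦinj, hΦsurj⟩), Nat.card_prod, Nat.card_prod,
    ← hKI]
  ring

end Cfsg.Agent.Lib.Helper8
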