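import Mathlib
import Cfsg.Agent.Lib.Helper8.KGV2
import Cfsg.Agent.Lib.Helper6.SubOrbit

set_option autoImplicit false

namespace Cfsg.Agent.Lib.Helper8

theorem card_pairs_eq_sum8 {α β : Type*} [Fintype α] [Fintype β] (P : α → β → Prop)
    [∀ a b, Decidable (P a b)] :
    Nat.card {p : α × β // P p.1 p.2} = ∑ a : α, ∑ b : β, if P a b then 1 else 0 := by
  rw [Nat.card_eq_fintype_card, Fintype.card_subtype, Finset.card_filter, Fintype.sum_prod_type]

theorem compl_unique8 {X : Type*} [Group X] (V G : Subgroup X)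
    (hGV : Subgroup.IsComplement' V G)
    (v1 v2 g1 g2 : X) (hv1 : v1 ∈ V) (hv2 : v2 ∈ V) (hg1 : g1 ∈ G) (hg2 : g2 ∈ G)
    (h : v1 * g1 = v2 * g2) : v1 = v2 ∧ g1 = g2 := by
  have := hGV.1 (a₁ := (⟨v1, hv1⟩, ⟨g1, hg1⟩)) (a₂ := (⟨v2, hv2⟩, ⟨g2, hg2⟩)) h
  simp only [Prod.mk.injEq, Subtype.mk.injEq] at this
  exact this

theorem compl_sum8 {X : Type*} [Group X] [Fintype X] (V G : Subgroup X) [Fintype V] [Fintype G]
    (hGV : Subgroup.IsComplement' V G) (F : X → ℕ) :
    ∑ x : X, F x = ∑ v : V, ∑ g : G, F ((v : X) * (g : X)) := by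
  rw [← Fintype.sum_prod_type' (f := fun (v : V) (g : G) => F ((v : X) * (g : X)))]
  exact (Fintype.sum_equiv (Equiv.ofBijective (fun p : V × G => (p.1 : X) * (p.2 : X)) hGV)
    _ _ (fun p => rfl)).symm

theorem compl_sum2_8 {X : Type*} [Group X] [Fintype X] (V G : Subgroup X) [Fintype V]
    [Fintype G] (hGV : Subgroup.IsComplement' V G) (F : X → X → ℕ) :
    ∑ x : X, ∑ y : X, F x y
      = ∑ g : G, ∑ h : G, ∑ u : V, ∑ w : V, F ((u : X) * g) ((w : X) * h) := by
  have h1 : ∀ g : G, ∑ u : V, ∑ y : X, F ((u : X) * g) y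
      = ∑ h : G, ∑ u : V, ∑ w : V, F ((u : X) * g) ((w : X) * h) := by
    intro g
    have h2 : ∀ u : V, ∑ y : X, F ((u : X) * g) y
        = ∑ h : G, ∑ w : V, F ((u : X) * g) ((w : X) * h) := by
      intro u
      rw [compl_sum8 V G hGV (fun y => F ((u : X) * g) y)]
      exact Finset.sum_comm
    rw [Finset.sum_congr rfl (fun u _ => h2 u)]
    exact Finset.sum_comm
  rw [compl_sum8 V G hGV (fun x => ∑ y : X, F x y), Finset.sum_comm]
  exact Finset.sum_congr rfl (fun g _ => h1 g)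

theorem compl_comm_iff8 {X : Type*} [Group X] (V G : Subgroup X) [V.Normal]
    (hGV : Subgroup.IsComplement' V G) (u w : V) (g h : G) :
    (u : X) * g * (w * h) = w * h * (u * g) ↔
    (g * h = h * g ∧ u * MulAut.conjNormal (g : X) w = w * MulAut.conjNormal (h : X) u) := by
  have e1 : (u : X) * g * (w * h)
      = ((u * MulAut.conjNormal (g : X) w : V) : X) * ((g * h : G) : X) := by
    rw [Subgroup.coe_mul, Subgroup.coe_mul, MulAut.conjNormal_apply]; group
  have e2 : (w : X) * h * (u * g)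
      = ((w * MulAut.conjNormal (h : X) u : V) : X) * ((h * g : G) : X) := by
    rw [Subgroup.coe_mul, Subgroup.coe_mul, MulAut.conjNormal_apply]; group
  rw [e1, e2]
  constructor
  · intro hh
    have := compl_unique8 V G hGV _ _ _ _ (SetLike.coe_mem _) (SetLike.coe_mem _)
      (SetLike.coe_mem _) (SetLike.coe_mem _) hh
    exact ⟨Subtype.ext this.2, Subtype.ext this.1⟩
  · rintro ⟨h1, h2⟩
    rw [h1, h2]

theorem coprime_sol_count8 {A : Type*} [Group A] [Finite A] (hcomm : ∀ a b : A, a * b = b * a)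
    (α β : MulAut A)
    (hαβ : ∀ a, α (β a) = β (α a)) (n : ℕ) (hn : ∀ a, (α ^ n) a = a)
    (hcop : n.Coprime (Nat.card A)) :
    Nat.card {p : A × A // p.1 * α p.2 = p.2 * β p.1}
      = Nat.card A * Nat.card {a : A // α a = a ∧ β a = a} := by
  letI : CommGroup A := { (inferInstance : Group A) with mul_comm := hcomm }
  exact coprime_sol_count α β hαβ n hn hcop

theorem conj_comm_iff8 {X : Type*} [Group X] (g x a : X) :
    g * (x * a * x⁻¹) = x * a * x⁻¹ * g ↔ x⁻¹ * g * x * a = a * (x⁻¹ * g * x) := by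
  constructor
  · intro h
    have h2 : x⁻¹ * (g * (x * a * x⁻¹)) * x = x⁻¹ * (x * a * x⁻¹ * g) * x := by rw [h]
    calc x⁻¹ * g * x * a = x⁻¹ * (g * (x * a * x⁻¹)) * x := by group
      _ = x⁻¹ * (x * a * x⁻¹ * g) * x := h2
      _ = a * (x⁻¹ * g * x) := by group
  · intro h
    have h2 : x * (x⁻¹ * g * x * a) * x⁻¹ = x * (a * (x⁻¹ * g * x)) * x⁻¹ := by rw [h]
    calc g * (x * a * x⁻¹) = x * (x⁻¹ * g * x * a) * x⁻¹ := by group
      _ = x * (a * (x⁻¹ * g * x)) * x⁻¹ := h2
      _ = x * a * x⁻¹ * g := by group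

theorem kgv_main8 {X : Type*} [Group X] [Fintype X] [DecidableEq X] (V : Subgroup X) [V.Normal]
    [Fintype V]
    (hab : ∀ a ∈ V, ∀ b ∈ V, a * b = b * a) (G : Subgroup X) [Fintype G]
    (hGV : Subgroup.IsComplement' V G) (hcop : (Nat.card V).Coprime (Nat.card G)) :
    Nat.card (ConjClasses X) * Nat.card X =
      Nat.card V * ∑ a : V, ∑ g : G, ∑ h : G,
        if (g * h = h * g ∧ MulAut.conjNormal (g : X) a = a ∧ MulAut.conjNormal (h : X) a = a)
          then 1 else 0 := by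
  have h0 : Nat.card {p : X × X // p.1 * p.2 = p.2 * p.1}
      = Nat.card (ConjClasses X) * Nat.card X := card_comm_eq_card_conjClasses_mul_card X
  rw [← h0,
    card_pairs_eq_sum8 (fun x y : X => x * y = y * x), compl_sum2_8 V G hGV]
  have key : ∀ g h : G, (∑ u : V, ∑ w : V,
      if (u : X) * g * ((w : X) * h) = (w : X) * h * ((u : X) * g) then 1 else 0)
      = Nat.card V * ∑ a : V, if (g * h = h * g ∧ MulAut.conjNormal (g : X) a = a
          ∧ MulAut.conjNormal (h : X) a = a) then 1 else 0 := by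
    intro g h
    by_cases hc : g * h = h * g
    · have h1 : ∀ u w : V, (if (u : X) * g * ((w : X) * h) = (w : X) * h * ((u : X) * g)
          then 1 else 0 : ℕ)
          = if u * MulAut.conjNormal (g : X) w = w * MulAut.conjNormal (h : X) u
            then 1 else 0 := by
        intro u w
        refine if_congr ?_ rfl rfl
        have := compl_comm_iff8 V G hGV u w g h
        exact ⟨fun hh => (this.mp hh).2, fun hh => this.mpr ⟨hc, hh⟩⟩
      rw [Finset.sum_congr rfl (fun u _ => Finset.sum_congr rfl (fun w _ => h1 u w)),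
        ← card_pairs_eq_sum8 (fun u w : V =>
          u * MulAut.conjNormal (g : X) w = w * MulAut.conjNormal (h : X) u)]
      have hcomm : ∀ a b : V, a * b = b * a := fun a b => Subtype.ext (hab a a.2 b b.2)
      have hαβ : ∀ a : V, MulAut.conjNormal (g : X) (MulAut.conjNormal (h : X) a)
          = MulAut.conjNormal (h : X) (MulAut.conjNormal (g : X) a) := by
        intro a
        rw [← MulAut.mul_apply, ← MulAut.mul_apply, ← map_mul, ← map_mul]
        have : (g : X) * h = h * g := congrArg Subtype.val hc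
        rw [this]
      have hn : ∀ a : V, ((MulAut.conjNormal (g : X) : MulAut V) ^ (Nat.card G)) a = a := by
        intro a
        rw [← map_pow]
        have : (g : X) ^ Nat.card G = 1 := by
          have := pow_card_eq_one' (G := G) (x := g)
          have h2 := congrArg Subtype.val this
          rwa [Subgroup.coe_pow] at h2
        rw [this, map_one, MulAut.one_apply]
      rw [coprime_sol_count8 hcomm _ _ hαβ (Nat.card G) hn hcop.symm]
      congr 1
      rw [Nat.card_eq_fintype_card, Fintype.card_subtype, Finset.card_filter]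
      exact Finset.sum_congr rfl
        (fun a _ => if_congr ⟨fun hh => ⟨hc, hh⟩, fun hh => hh.2⟩ rfl rfl)
    · rw [Finset.sum_eq_zero, Finset.sum_eq_zero, mul_zero]
      · intro a _
        rw [if_neg]
        exact fun hh => hc hh.1
      · intro u _
        apply Finset.sum_eq_zero
        intro w _
        rw [if_neg]
        intro hh
        exact hc ((compl_comm_iff8 V G hGV u w g h).mp hh).1
  rw [Finset.sum_congr rfl (fun g _ => Finset.sum_congr rfl (fun h _ => key g h))]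
  simp_rw [← Finset.mul_sum]
  congr 1
  rw [Finset.sum_comm (s := (Finset.univ : Finset V))]
  refine Finset.sum_congr rfl (fun g _ => ?_)
  exact Finset.sum_comm

theorem cp_sub8 {X : Type*} [Group X] [Finite X] [DecidableEq X] (G : Subgroup X) [Fintype G]
    (a : X) :
    (∑ g : G, ∑ h : G,
      (if (g * h = h * g ∧ (g : X) * a = a * g ∧ (h : X) * a = a * h) then 1 else 0 : ℕ))
    = Nat.card (ConjClasses ↥(G ⊓ Subgroup.centralizer ({a} : Set X)))
        * Nat.card ↥(G ⊓ Subgroup.centralizer ({a} : Set X)) := by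
  rw [← card_comm_eq_card_conjClasses_mul_card, ← card_pairs_eq_sum8
    (fun g h : G => g * h = h * g ∧ (g : X) * a = a * g ∧ (h : X) * a = a * h)]
  apply Nat.card_congr
  exact {
    toFun := fun p => ⟨(⟨p.1.1.1, Subgroup.mem_inf.mpr ⟨p.1.1.2,
        Subgroup.mem_centralizer_singleton_iff.mpr p.2.2.1⟩⟩,
      ⟨p.1.2.1, Subgroup.mem_inf.mpr ⟨p.1.2.2,
        Subgroup.mem_centralizer_singleton_iff.mpr p.2.2.2⟩⟩),
      Subtype.ext (by have := congrArg Subtype.val p.2.1; exact this)⟩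
    invFun := fun q => ⟨(⟨q.1.1.1, (Subgroup.mem_inf.mp q.1.1.2).1⟩,
      ⟨q.1.2.1, (Subgroup.mem_inf.mp q.1.2.2).1⟩),
      Subtype.ext (by have := congrArg Subtype.val q.2; exact this),
      Subgroup.mem_centralizer_singleton_iff.mp (Subgroup.mem_inf.mp q.1.1.2).2,
      Subgroup.mem_centralizer_singleton_iff.mp (Subgroup.mem_inf.mp q.1.2.2).2⟩
    left_inv := fun p => rfl
    right_inv := fun q => rfl }

theorem cp_conj8 {X : Type*} [Group X] [DecidableEq X] (G : Subgroup X) [Fintype G] (a : X)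
    (x : G) :
    (∑ g : G, ∑ h : G, (if (g * h = h * g ∧ (g : X) * (x * a * (x : X)⁻¹) = (x * a * (x : X)⁻¹) * g
      ∧ (h : X) * (x * a * (x : X)⁻¹) = (x * a * (x : X)⁻¹) * h) then 1 else 0 : ℕ))
    = ∑ g : G, ∑ h : G,
      (if (g * h = h * g ∧ (g : X) * a = a * g ∧ (h : X) * a = a * h) then 1 else 0) := by
  refine Fintype.sum_equiv (MulAut.conj x⁻¹).toEquiv _ _ (fun g => ?_)
  refine Fintype.sum_equiv (MulAut.conj x⁻¹).toEquiv _ _ (fun h => ?_)
  refine if_congr ?_ rfl rfl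
  have e1 : ∀ k : G, (((MulAut.conj x⁻¹).toEquiv k : G) : X) = (x : X)⁻¹ * k * x := by
    intro k
    show ((MulAut.conj x⁻¹ k : G) : X) = _
    rw [MulAut.conj_apply, inv_inv, Subgroup.coe_mul, Subgroup.coe_mul, Subgroup.coe_inv]
  rw [e1, e1, ← conj_comm_iff8, ← conj_comm_iff8]
  have e2 : (MulAut.conj x⁻¹).toEquiv g * (MulAut.conj x⁻¹).toEquiv h
      = (MulAut.conj x⁻¹).toEquiv h * (MulAut.conj x⁻¹).toEquiv g ↔ g * h = h * g := by
    show MulAut.conj x⁻¹ g * MulAut.conj x⁻¹ h = MulAut.conj x⁻¹ h * MulAut.conj x⁻¹ g ↔ _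
    rw [← map_mul, ← map_mul, EmbeddingLike.apply_eq_iff_eq]
  rw [e2]

theorem orbit_sum8 {X : Type*} [Group X] [Finite X] (V : Subgroup X) [V.Normal] [Fintype V]
    (G : Subgroup X) (S : Finset X) (hSV : ∀ s ∈ S, s ∈ V)
    (hrep : ∀ v ∈ V, ∃! s, s ∈ S ∧ ∃ g ∈ G, g * v * g⁻¹ = s)
    (φ : X → ℕ) (hφ : ∀ a : X, ∀ g ∈ G, φ (g * a * g⁻¹) = φ a) :
    ∑ a : V, φ a = ∑ s ∈ S, Set.ncard {y : X | ∃ n ∈ G, y = n * s * n⁻¹} * φ s := by
  classical
  choose r hr hru using hrep
  have h1 : ∑ a : V, φ a = ∑ s ∈ S, ∑ a ∈ Finset.univ.filter (fun a : V => r a a.2 = s), φ (a : X) :=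
    (Finset.sum_fiberwise_of_maps_to (fun (a : V) _ => (hr a a.2).1) _).symm
  rw [h1]
  refine Finset.sum_congr rfl (fun s hs => ?_)
  have h2 : ∀ a ∈ Finset.univ.filter (fun a : V => r a a.2 = s), φ (a : X) = φ s := by
    intro a ha
    rw [Finset.mem_filter] at ha
    obtain ⟨g, hg, hga⟩ := (hr a a.2).2
    rw [← ha.2, ← hga, hφ _ g hg]
  rw [Finset.sum_congr rfl h2, Finset.sum_const, smul_eq_mul]
  congr 1
  have h3 : {y : X | ∃ n ∈ G, y = n * s * n⁻¹}
      = Subtype.val '' ((Finset.univ.filter (fun a : V => r a a.2 = s) : Finset V) : Set V) := by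
    ext y
    simp only [Set.mem_setOf_eq, Set.mem_image, Finset.coe_filter, Finset.mem_univ, true_and]
    constructor
    · rintro ⟨n, hn, rfl⟩
      have hyV : n * s * n⁻¹ ∈ V := Subgroup.Normal.conj_mem inferInstance s (hSV s hs) n
      refine ⟨⟨_, hyV⟩, ?_, rfl⟩
      exact (hru _ hyV s ⟨hs, n⁻¹, G.inv_mem hn, by group⟩).symm
    · rintro ⟨a, ha, rfl⟩
      obtain ⟨g, hg, hga⟩ := (hr a a.2).2
      refine ⟨g⁻¹, G.inv_mem hg, ?_⟩
      rw [← ha, ← hga]; group
  rw [h3, Set.ncard_image_of_injective _ Subtype.val_injective, Set.ncard_coe_finset]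

theorem kgv_final8 {X : Type*} [Group X] [Finite X] (V : Subgroup X) [V.Normal]
    (hab : ∀ a ∈ V, ∀ b ∈ V, a * b = b * a) (G : Subgroup X)
    (hGV : Subgroup.IsComplement' V G) (hcop : (Nat.card V).Coprime (Nat.card G))
    (S : Finset X) (hSV : ∀ s ∈ S, s ∈ V)
    (hrep : ∀ v ∈ V, ∃! s, s ∈ S ∧ ∃ g ∈ G, g * v * g⁻¹ = s) :
    Nat.card (ConjClasses X)
      = ∑ s ∈ S, Nat.card (ConjClasses ↥(G ⊓ Subgroup.centralizer ({s} : Set X))) := by
  classical
  haveI := Fintype.ofFinite X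
  haveI : Fintype V := Fintype.ofFinite V
  haveI : Fintype G := Fintype.ofFinite G
  have hm := kgv_main8 V hab G hGV hcop
  obtain ⟨φ, hφdef⟩ : ∃ φ : X → ℕ, ∀ a, φ a = ∑ g : G, ∑ h : G,
      (if (g * h = h * g ∧ (g : X) * a = a * g ∧ (h : X) * a = a * h) then 1 else 0) :=
    ⟨_, fun _ => rfl⟩
  have h1 : ∀ a : V, (∑ g : G, ∑ h : G, if (g * h = h * g ∧ MulAut.conjNormal (g : X) a = a
      ∧ MulAut.conjNormal (h : X) a = a) then 1 else 0) = φ a := by
    intro a
    rw [hφdef]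
    have e : ∀ k : G, MulAut.conjNormal (k : X) a = a ↔ (k : X) * a = a * k := by
      intro k
      rw [Subtype.ext_iff, MulAut.conjNormal_apply, mul_inv_eq_iff_eq_mul]
    refine Finset.sum_congr rfl (fun g _ => Finset.sum_congr rfl (fun h _ => if_congr ?_ rfl rfl))
    rw [e, e]
  rw [Finset.sum_congr rfl (fun a _ => h1 a)] at hm
  have hinv : ∀ a : X, ∀ g ∈ G, φ (g * a * g⁻¹) = φ a := by
    intro a g hg
    rw [hφdef, hφdef]
    exact cp_conj8 G a ⟨g, hg⟩
  rw [orbit_sum8 V G S hSV hrep φ hinv] at hm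
  have h2 : ∀ s ∈ S, Set.ncard {y : X | ∃ n ∈ G, y = n * s * n⁻¹} * φ s
      = Nat.card G * Nat.card (ConjClasses ↥(G ⊓ Subgroup.centralizer ({s} : Set X))) := by
    intro s _
    rw [hφdef, cp_sub8 G s, mul_comm (Nat.card (ConjClasses _)), ← mul_assoc,
      Helper6.ncard_conj_orbit_mul]
  rw [Finset.sum_congr rfl h2, ← Finset.mul_sum, ← mul_assoc] at hm
  have hX : Nat.card V * Nat.card G = Nat.card X := Subgroup.IsComplement'.card_mul_card hGV
  rw [hX, mul_comm] at hm
  exact Nat.eq_of_mul_eq_mul_left Nat.card_pos hm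

end Cfsg.Agent.Lib.Helper8
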