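import Cfsg.Agent.Lib.Helper8.Cobound

set_option autoImplicit false
open Cfsg

namespace Cfsg.Agent.Lib.Helper8

/-- An automorphism of a finite group `G` with `C_G(O_p(G)) ≤ O_p(G)` that fixes a Sylow
`p`-subgroup pointwise is conjugation by an element of `O_p(G)` centralizing that Sylow subgroup. -/
theorem aut_fix_sylow {G : Type*} [Group G] [Finite G] {p : ℕ} [Fact p.Prime] (T : Sylow p G)
    (hc : Subgroup.centralizer ((pCore p G : Subgroup G) : Set G) ≤ pCore p G) (ψ : G ≃* G)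
    (hψ : ∀ t ∈ (T : Subgroup G), ψ t = t) :
    ∃ b ∈ pCore p G, (∀ t ∈ (T : Subgroup G), b * t = t * b) ∧ ∀ g, ψ g = b * g * b⁻¹ := by
  have hQn := pCore_normal p G
  have hQT := pCore_le_sylow' T
  haveI hAn : (Subgroup.centralizer ((pCore p G : Subgroup G) : Set G)).Normal := by
    constructor
    intro a ha g
    rw [Subgroup.mem_centralizer_iff] at ha ⊢
    intro q hq
    have h1 := ha (g⁻¹ * q * g⁻¹⁻¹) (hQn.conj_mem q hq g⁻¹)
    calc q * (g * a * g⁻¹) = g * ((g⁻¹ * q * g⁻¹⁻¹) * a) * g⁻¹ := by group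
      _ = g * (a * (g⁻¹ * q * g⁻¹⁻¹)) * g⁻¹ := by rw [h1]
      _ = g * a * g⁻¹ * q := by group
  have hAc : ∀ a ∈ Subgroup.centralizer ((pCore p G : Subgroup G) : Set G),
      ∀ b ∈ Subgroup.centralizer ((pCore p G : Subgroup G) : Set G), a * b = b * a := by
    intro a ha b hb
    exact (Subgroup.mem_centralizer_iff.mp hb) a (hc ha)
  have hAp : IsPGroup p ↥(Subgroup.centralizer ((pCore p G : Subgroup G) : Set G)) :=
    (pCore_isPGroup p G).to_le hc
  have hfA : ∀ g, ψ g * g⁻¹ ∈ Subgroup.centralizer ((pCore p G : Subgroup G) : Set G) := by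
    intro g
    rw [Subgroup.mem_centralizer_iff]
    intro q hq
    have h0 : g⁻¹ * q * g ∈ pCore p G := by
      have h := hQn.conj_mem q hq g⁻¹
      rwa [inv_inv] at h
    have h1 : ψ (g⁻¹ * q * g) = g⁻¹ * q * g := hψ _ (hQT h0)
    rw [map_mul, map_mul, map_inv, hψ q (hQT hq)] at h1
    calc q * (ψ g * g⁻¹) = ψ g * ((ψ g)⁻¹ * q * ψ g) * g⁻¹ := by group
      _ = ψ g * (g⁻¹ * q * g) * g⁻¹ := by rw [h1]
      _ = ψ g * g⁻¹ * q := by group
  obtain ⟨b, hb, hbe⟩ := coboundary_of_sylow T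
    (Subgroup.centralizer ((pCore p G : Subgroup G) : Set G)) hAc hAp (fun g => ψ g * g⁻¹) hfA
    (fun g h => by
      show ψ (g * h) * (g * h)⁻¹ = ψ g * g⁻¹ * (g * (ψ h * h⁻¹) * g⁻¹)
      rw [map_mul]
      group)
    (fun t ht => by
      show ψ t * t⁻¹ = 1
      rw [hψ t ht, mul_inv_cancel])
  have hconj : ∀ g, ψ g = b * g * b⁻¹ := by
    intro g
    have h1 : ψ g * g⁻¹ = b * (g * b⁻¹ * g⁻¹) := hbe g
    calc ψ g = ψ g * g⁻¹ * g := by group
      _ = b * (g * b⁻¹ * g⁻¹) * g := by rw [h1]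
      _ = b * g * b⁻¹ := by group
  refine ⟨b, hc hb, fun t ht => ?_, hconj⟩
  have h1 := hconj t
  rw [hψ t ht] at h1
  calc b * t = b * t * b⁻¹ * b := by group
    _ = t * b := by rw [← h1]

end Cfsg.Agent.Lib.Helper8
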