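import Mathlib

set_option autoImplicit false

namespace Cfsg.Agent.Lib.Helper8

open scoped commutatorElement

/-- If `⁅N, N⁆` lies in the third term of the lower central series of `P`, then the lower
central series of `N` runs one step ahead of that of `P`. -/
theorem lcs_shift {P : Type*} [Group P] (N : Subgroup P)
    (h : ⁅N, N⁆ ≤ (⊤ : Subgroup P).lowerCentralSeries 2) (k : ℕ) :
    N.lowerCentralSeries (k + 1) ≤ (⊤ : Subgroup P).lowerCentralSeries (k + 2) := by
  induction k with
  | zero => simpa using h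
  | succ k ih =>
    rw [Subgroup.lowerCentralSeries_succ, Subgroup.lowerCentralSeries_succ _ (k + 2)]
    exact Subgroup.commutator_mono ih le_top

/-- The normal closure of an abelian subgroup has commutator subgroup inside `γ₃`. -/
theorem normalClosure_comm_le {P : Type*} [Group P] (E : Subgroup P)
    (hE : ∀ x ∈ E, ∀ y ∈ E, x * y = y * x) :
    ⁅Subgroup.normalClosure (E : Set P), Subgroup.normalClosure (E : Set P)⁆ ≤
      (⊤ : Subgroup P).lowerCentralSeries 2 := by
  obtain ⟨M, hMdef⟩ : ∃ M, M = (⊤ : Subgroup P).lowerCentralSeries 2 := ⟨_, rfl⟩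
  haveI hMn : M.Normal := by
    rw [hMdef]; infer_instance
  rw [← hMdef]
  obtain ⟨Z, hZdef⟩ : ∃ Z, Z = (Subgroup.center (P ⧸ M)).comap (QuotientGroup.mk' M) := ⟨_, rfl⟩
  haveI hZn : Z.Normal := by
    rw [hZdef]; infer_instance
  have hZmem : ∀ z ∈ Z, ∀ g : P, (QuotientGroup.mk' M z) * (QuotientGroup.mk' M g) =
      (QuotientGroup.mk' M g) * (QuotientGroup.mk' M z) := by
    intro z hz g
    rw [hZdef, Subgroup.mem_comap, Subgroup.mem_center_iff] at hz
    exact (hz _).symm
  have hcZ : commutator P ≤ Z := by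
    rw [commutator_def, Subgroup.commutator_le]
    intro x _ y _
    rw [hZdef, Subgroup.mem_comap, Subgroup.mem_center_iff]
    intro g
    obtain ⟨g, rfl⟩ := QuotientGroup.mk'_surjective M g
    have h1 : ⁅⁅x, y⁆, g⁆ ∈ M := by
      rw [hMdef]
      have : (⊤ : Subgroup P).lowerCentralSeries 2 = ⁅⁅(⊤ : Subgroup P), ⊤⁆, ⊤⁆ := rfl
      rw [this]
      exact Subgroup.commutator_mem_commutator
        (Subgroup.commutator_mem_commutator (Subgroup.mem_top x) (Subgroup.mem_top y))
        (Subgroup.mem_top g)
    have h2 : QuotientGroup.mk' M ⁅⁅x, y⁆, g⁆ = 1 := by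
      rw [QuotientGroup.mk'_apply, QuotientGroup.eq_one_iff]; exact h1
    rw [map_commutatorElement, commutatorElement_eq_one_iff_mul_comm] at h2
    exact h2.symm
  obtain ⟨H, hHdef⟩ : ∃ H, H = E ⊔ Z := ⟨_, rfl⟩
  have hcH : commutator P ≤ H := hcZ.trans (hHdef ▸ le_sup_right)
  haveI hHn : H.Normal := by
    refine ⟨fun x hx g => ?_⟩
    have h1 : g * x * g⁻¹ = ⁅g, x⁆ * x := by
      rw [commutatorElement_def]; group
    rw [h1]
    refine H.mul_mem (hcH ?_) hx
    rw [commutator_def]
    exact Subgroup.commutator_mem_commutator (Subgroup.mem_top g) (Subgroup.mem_top x)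
  have hEH : (E : Set P) ⊆ H := fun x hx => by
    rw [hHdef]; exact (le_sup_left : E ≤ E ⊔ Z) hx
  have hNH : Subgroup.normalClosure (E : Set P) ≤ H := Subgroup.normalClosure_le_normal hEH
  have hHc : ∀ x ∈ H, ∀ y ∈ H, ⁅x, y⁆ ∈ M := by
    intro x hx y hy
    rw [hHdef, ← SetLike.mem_coe, Subgroup.mul_normal, Set.mem_mul] at hx hy
    obtain ⟨e, he, z, hz, rfl⟩ := hx
    obtain ⟨e', he', z', hz', rfl⟩ := hy
    rw [← QuotientGroup.eq_one_iff, ← QuotientGroup.mk'_apply, map_commutatorElement,
      commutatorElement_eq_one_iff_mul_comm, map_mul, map_mul]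
    have hee : QuotientGroup.mk' M e * QuotientGroup.mk' M e' =
        QuotientGroup.mk' M e' * QuotientGroup.mk' M e := by
      rw [← map_mul, ← map_mul, hE e he e' he']
    have h1 := hZmem z hz
    have h2 := hZmem z' hz'
    calc QuotientGroup.mk' M e * QuotientGroup.mk' M z *
          (QuotientGroup.mk' M e' * QuotientGroup.mk' M z')
        = QuotientGroup.mk' M e * (QuotientGroup.mk' M z * QuotientGroup.mk' M e') *
            QuotientGroup.mk' M z' := by group
      _ = QuotientGroup.mk' M e * (QuotientGroup.mk' M e' * QuotientGroup.mk' M z) *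
            QuotientGroup.mk' M z' := by rw [h1 e']
      _ = (QuotientGroup.mk' M e * QuotientGroup.mk' M e') *
            (QuotientGroup.mk' M z * QuotientGroup.mk' M z') := by group
      _ = (QuotientGroup.mk' M e' * QuotientGroup.mk' M e) *
            (QuotientGroup.mk' M z' * QuotientGroup.mk' M z) := by
          rw [hee]
          have h3 : QuotientGroup.mk' M z' * QuotientGroup.mk' M z =
              QuotientGroup.mk' M z * QuotientGroup.mk' M z' := h2 z
          rw [h3]
      _ = QuotientGroup.mk' M e' * (QuotientGroup.mk' M e * QuotientGroup.mk' M z') *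
            QuotientGroup.mk' M z := by group
      _ = QuotientGroup.mk' M e' * (QuotientGroup.mk' M z' * QuotientGroup.mk' M e) *
            QuotientGroup.mk' M z := by rw [h2 e]
      _ = QuotientGroup.mk' M e' * QuotientGroup.mk' M z' *
          (QuotientGroup.mk' M e * QuotientGroup.mk' M z) := by group
  rw [Subgroup.commutator_le]
  intro x hx y hy
  exact hHc x (hNH hx) y (hNH hy)

/-- The normal closure of an abelian subgroup of a non-abelian nilpotent group has smaller
nilpotency class. -/
theorem normalClosure_class_lt {P : Type*} [Group P] [Group.IsNilpotent P]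
    (hna : ¬ IsMulCommutative P) (E : Subgroup P) (hE : IsMulCommutative ↥E) :
    Group.nilpotencyClass ↥(Subgroup.normalClosure (E : Set P)) < Group.nilpotencyClass P := by
  have hE' : ∀ x ∈ E, ∀ y ∈ E, x * y = y * x := by
    intro x hx y hy
    have := hE.is_comm.comm ⟨x, hx⟩ ⟨y, hy⟩
    exact congrArg Subtype.val this
  have hc2 : 2 ≤ Group.nilpotencyClass P := by
    by_contra hlt
    push Not at hlt
    apply hna
    have h1 : (⊤ : Subgroup P).lowerCentralSeries 1 = ⊥ := by
      rw [Subgroup.lowerCentralSeries_eq_bot_iff_nilpotencyClass_le]; omega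
    refine ⟨⟨fun a b => ?_⟩⟩
    have h2 : ⁅a, b⁆ ∈ (⊤ : Subgroup P).lowerCentralSeries 1 :=
      Subgroup.commutator_mem_commutator (Subgroup.mem_top a) (Subgroup.mem_top b)
    rw [h1, Subgroup.mem_bot, commutatorElement_eq_one_iff_mul_comm] at h2
    exact h2
  obtain ⟨c, hc⟩ : ∃ c, Group.nilpotencyClass P = c + 2 := ⟨Group.nilpotencyClass P - 2, by omega⟩
  have h3 := lcs_shift _ (normalClosure_comm_le E hE') c
  have h4 : (⊤ : Subgroup P).lowerCentralSeries (c + 2) = ⊥ := by
    rw [← hc]; exact Subgroup.lowerCentralSeries_nilpotencyClass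
  rw [h4, le_bot_iff, ← Subgroup.top_subtype_lowerCentralSeries] at h3
  have h5 : (⊤ : Subgroup ↥(Subgroup.normalClosure (E : Set P))).lowerCentralSeries (c + 1) = ⊥ := by
    rwa [Subgroup.map_eq_bot_iff_of_injective _ (Subgroup.subtype_injective _)] at h3
  rw [Subgroup.lowerCentralSeries_eq_bot_iff_nilpotencyClass_le] at h5
  omega

end Cfsg.Agent.Lib.Helper8
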