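import Mathlib
import Cfsg.Agent.Lib.Lead.SpTransv

set_option autoImplicit false

namespace Cfsg.Agent.Lib.Helper8

open Matrix Cfsg.Agent.Lib.Lead

section sp8

variable {l : Type*} [DecidableEq l] [Fintype l] {F : Type*} [Field F]

/-- Matrices agreeing on all vectors are equal. -/
theorem mat_ext_mulVec8 {n : Type*} [Fintype n] [DecidableEq n] (M N : Matrix n n F)
    (h : ∀ v, M *ᵥ v = N *ᵥ v) : M = N := by
  apply Matrix.toLin'.injective
  apply LinearMap.ext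
  intro v
  rw [Matrix.toLin'_apply, Matrix.toLin'_apply, h]

theorem sp_ext8 (g h : symplecticGroup l F)
    (hv : ∀ v, (g : Matrix (l ⊕ l) (l ⊕ l) F) *ᵥ v = (h : Matrix (l ⊕ l) (l ⊕ l) F) *ᵥ v) :
    g = h :=
  Subtype.ext (mat_ext_mulVec8 _ _ hv)

theorem sp_mul_mulVec8 (a b : symplecticGroup l F) (v : l ⊕ l → F) :
    ((a * b : symplecticGroup l F) : Matrix (l ⊕ l) (l ⊕ l) F) *ᵥ v =
      (a : Matrix (l ⊕ l) (l ⊕ l) F) *ᵥ ((b : Matrix (l ⊕ l) (l ⊕ l) F) *ᵥ v) := by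
  show ((a : Matrix (l ⊕ l) (l ⊕ l) F) * (b : Matrix (l ⊕ l) (l ⊕ l) F)) *ᵥ v = _
  rw [mulVec_mulVec]

theorem sp_one_mulVec8 (v : l ⊕ l → F) :
    ((1 : symplecticGroup l F) : Matrix (l ⊕ l) (l ⊕ l) F) *ᵥ v = v := by
  show (1 : Matrix (l ⊕ l) (l ⊕ l) F) *ᵥ v = v
  rw [one_mulVec]

theorem sp_mul_inv_mulVec8 (g : symplecticGroup l F) (v : l ⊕ l → F) :
    (g : Matrix (l ⊕ l) (l ⊕ l) F) *ᵥ (((g⁻¹ : symplecticGroup l F) :
      Matrix (l ⊕ l) (l ⊕ l) F) *ᵥ v) = v := by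
  rw [← sp_mul_mulVec8, mul_inv_cancel, sp_one_mulVec8]

theorem sp_inv_mul_mulVec8 (g : symplecticGroup l F) (v : l ⊕ l → F) :
    ((g⁻¹ : symplecticGroup l F) : Matrix (l ⊕ l) (l ⊕ l) F) *ᵥ
      ((g : Matrix (l ⊕ l) (l ⊕ l) F) *ᵥ v) = v := by
  rw [← sp_mul_mulVec8, inv_mul_cancel, sp_one_mulVec8]

theorem spB_sub_right8 (x y z : l ⊕ l → F) : spB x (y - z) = spB x y - spB x z := by
  unfold spB
  rw [mulVec_sub, dotProduct_sub]

theorem spB_neg_right8 (x y : l ⊕ l → F) : spB x (-y) = - spB x y := by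
  unfold spB
  rw [mulVec_neg, dotProduct_neg]

theorem spB_zero_right8 (x : l ⊕ l → F) : spB x 0 = 0 := by
  unfold spB
  rw [mulVec_zero, dotProduct_zero]

/-- Symplectic maps preserve the form. -/
theorem spB_map8 (g : symplecticGroup l F) (v w : l ⊕ l → F) :
    spB ((g : Matrix (l ⊕ l) (l ⊕ l) F) *ᵥ v) ((g : Matrix (l ⊕ l) (l ⊕ l) F) *ᵥ w) =
      spB v w := by
  have h := (SymplecticGroup.mem_iff' (l := l) (R := F)).mp g.2
  have e : spB v w = v ⬝ᵥ (((g : Matrix (l ⊕ l) (l ⊕ l) F))ᵀ * J l F *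
      (g : Matrix (l ⊕ l) (l ⊕ l) F)) *ᵥ w := by
    rw [h]
    rfl
  rw [e, Matrix.mul_assoc, ← mulVec_mulVec, dotProduct_mulVec, vecMul_transpose, ← mulVec_mulVec]
  rfl

theorem spB_inv_left8 (g : symplecticGroup l F) (v w : l ⊕ l → F) :
    spB (((g⁻¹ : symplecticGroup l F) : Matrix (l ⊕ l) (l ⊕ l) F) *ᵥ v) w =
      spB v ((g : Matrix (l ⊕ l) (l ⊕ l) F) *ᵥ w) := by
  have h := spB_map8 g (((g⁻¹ : symplecticGroup l F) : Matrix (l ⊕ l) (l ⊕ l) F) *ᵥ v) w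
  rw [sp_mul_inv_mulVec8] at h
  exact h.symm

/-- The transvection `v ↦ v + c f(v,p) p` as an element of the symplectic group. -/
def spg8 (p : l ⊕ l → F) (c : F) : symplecticGroup l F := ⟨spT p (-c), spT_mem p (-c)⟩

theorem spg_mulVec8 (p : l ⊕ l → F) (c : F) (v : l ⊕ l → F) :
    ((spg8 p c : symplecticGroup l F) : Matrix (l ⊕ l) (l ⊕ l) F) *ᵥ v =
      v + (c * spB v p) • p := by
  show spT p (-c) *ᵥ v = _
  rw [spT_mulVec, spB_swap p v, neg_mul_neg]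

theorem spg_mul8 (p : l ⊕ l → F) (c c' : F) : spg8 p c * spg8 p c' = spg8 p (c + c') := by
  apply sp_ext8
  intro v
  rw [sp_mul_mulVec8, spg_mulVec8, spg_mulVec8, spg_mulVec8, spB_add_left, spB_smul_left, spB_self,
    mul_zero, add_zero, add_assoc, ← add_smul]
  congr 2
  ring

theorem spg_zero8 (p : l ⊕ l → F) : spg8 p 0 = 1 := by
  apply sp_ext8
  intro v
  rw [spg_mulVec8, sp_one_mulVec8, zero_mul, zero_smul, add_zero]

theorem spg_inv8 (p : l ⊕ l → F) (c : F) : (spg8 p c)⁻¹ = spg8 p (-c) := by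
  apply inv_eq_of_mul_eq_one_right
  rw [spg_mul8, add_neg_cancel, spg_zero8]

theorem spg_zero_vec8 (c : F) : spg8 (0 : l ⊕ l → F) c = 1 := by
  apply sp_ext8
  intro v
  rw [spg_mulVec8, sp_one_mulVec8, smul_zero, add_zero]

theorem spg_ne_one8 (p : l ⊕ l → F) (hp : p ≠ 0) (c : F) (hc : c ≠ 0) : spg8 p c ≠ 1 := by
  intro h
  obtain ⟨x, hx⟩ := exists_spB_ne p hp
  have h1 := congrArg (fun g : symplecticGroup l F => (g : Matrix (l ⊕ l) (l ⊕ l) F) *ᵥ x) h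
  simp only [spg_mulVec8, sp_one_mulVec8] at h1
  have h2 : (c * spB x p) • p = 0 := by
    have h3 : x + (c * spB x p) • p = x + 0 := by rw [h1, add_zero]
    exact add_left_cancel h3
  rcases smul_eq_zero.mp h2 with h4 | h4
  · exact (mul_ne_zero hc hx) h4
  · exact hp h4

/-- The generating set of the transvection group with centre `p`. -/
def spS8 (p : l ⊕ l → F) : Set (symplecticGroup l F) :=
  {g | ∃ c : F, ∀ v : l ⊕ l → F,
    (g : Matrix (l ⊕ l) (l ⊕ l) F) *ᵥ v = v + (c * (v ⬝ᵥ (J l F *ᵥ p))) • p}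

/-- The transvection group with centre `p`. -/
def spTg8 (p : l ⊕ l → F) : Subgroup (symplecticGroup l F) := Subgroup.closure (spS8 p)

theorem mem_spTg8 (p : l ⊕ l → F) (g : symplecticGroup l F) :
    g ∈ spTg8 p ↔ ∃ c : F, ∀ v, (g : Matrix (l ⊕ l) (l ⊕ l) F) *ᵥ v = v + (c * spB v p) • p := by
  constructor
  · intro hg
    have hg' : g ∈ Subgroup.closure (spS8 p) := hg
    refine Subgroup.closure_induction (p := fun (g : symplecticGroup l F) _ => ∃ c : F, ∀ v,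
      (g : Matrix (l ⊕ l) (l ⊕ l) F) *ᵥ v = v + (c * spB v p) • p) ?_ ?_ ?_ ?_ hg'
    · intro x hx
      exact hx
    · exact ⟨0, fun v => by rw [zero_mul, zero_smul, add_zero, sp_one_mulVec8]⟩
    · rintro x y _ _ ⟨c, hc⟩ ⟨c', hc'⟩
      refine ⟨c + c', fun v => ?_⟩
      rw [sp_mul_mulVec8, hc', hc, spB_add_left, spB_smul_left, spB_self, mul_zero, add_zero,
        add_assoc, ← add_smul]
      congr 2
      ring
    · rintro x _ ⟨c, hc⟩
      refine ⟨-c, fun v => ?_⟩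
      obtain ⟨w, hw⟩ : ∃ w, w = ((x⁻¹ : symplecticGroup l F) :
          Matrix (l ⊕ l) (l ⊕ l) F) *ᵥ v := ⟨_, rfl⟩
      have h1 : (x : Matrix (l ⊕ l) (l ⊕ l) F) *ᵥ w = v := by
        rw [hw, sp_mul_inv_mulVec8]
      rw [hc] at h1
      have h2 : spB w p = spB v p := by
        have h3 := congrArg (fun z => spB z p) h1
        simp only [spB_add_left, spB_smul_left, spB_self, mul_zero, add_zero] at h3
        exact h3
      rw [← hw]
      rw [h2] at h1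
      have h4 : w = v - (c * spB v p) • p := eq_sub_of_add_eq h1
      rw [h4, neg_mul, neg_smul, sub_eq_add_neg]
  · rintro ⟨c, hc⟩
    exact Subgroup.subset_closure ⟨c, hc⟩

theorem spg_mem8 (p : l ⊕ l → F) (c : F) : spg8 p c ∈ spTg8 p :=
  (mem_spTg8 p _).mpr ⟨c, spg_mulVec8 p c⟩

theorem eq_spg_of_mem8 (p : l ⊕ l → F) (g : symplecticGroup l F) (hg : g ∈ spTg8 p) :
    ∃ c : F, g = spg8 p c := by
  obtain ⟨c, hc⟩ := (mem_spTg8 p g).mp hg
  exact ⟨c, sp_ext8 _ _ (fun v => by rw [hc, spg_mulVec8])⟩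

theorem spTg_smul8 (p : l ⊕ l → F) (a : F) (ha : a ≠ 0) : spTg8 (a • p) = spTg8 p := by
  ext g
  rw [mem_spTg8, mem_spTg8]
  constructor
  · rintro ⟨c, hc⟩
    refine ⟨c * a * a, fun v => ?_⟩
    rw [hc, spB_smul_right, smul_smul]
    congr 2
    ring
  · rintro ⟨c, hc⟩
    refine ⟨c / (a * a), fun v => ?_⟩
    rw [hc, spB_smul_right, smul_smul]
    congr 2
    field_simp

theorem spTg_conj8 (p : l ⊕ l → F) (g : symplecticGroup l F) :
    (spTg8 p).map (MulAut.conj g).toMonoidHom =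
      spTg8 ((g : Matrix (l ⊕ l) (l ⊕ l) F) *ᵥ p) := by
  ext h
  rw [Subgroup.mem_map, mem_spTg8]
  constructor
  · rintro ⟨x, hx, rfl⟩
    obtain ⟨c, hc⟩ := (mem_spTg8 p x).mp hx
    refine ⟨c, fun v => ?_⟩
    show ((g * x * g⁻¹ : symplecticGroup l F) : Matrix (l ⊕ l) (l ⊕ l) F) *ᵥ v = _
    rw [sp_mul_mulVec8, sp_mul_mulVec8, hc, mulVec_add, mulVec_smul, sp_mul_inv_mulVec8,
      spB_inv_left8]
  · rintro ⟨c, hc⟩
    refine ⟨g⁻¹ * h * g, (mem_spTg8 p _).mpr ⟨c, fun v => ?_⟩, ?_⟩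
    · rw [sp_mul_mulVec8, sp_mul_mulVec8, hc, mulVec_add, mulVec_smul, sp_inv_mul_mulVec8,
        sp_inv_mul_mulVec8, spB_map8]
    · show g * (g⁻¹ * h * g) * g⁻¹ = h
      group

theorem spTg_comm8 (p : l ⊕ l → F) (a b : symplecticGroup l F) (ha : a ∈ spTg8 p)
    (hb : b ∈ spTg8 p) : a * b = b * a := by
  obtain ⟨c, rfl⟩ := eq_spg_of_mem8 p a ha
  obtain ⟨c', rfl⟩ := eq_spg_of_mem8 p b hb
  rw [spg_mul8, spg_mul8, add_comm]

theorem spTg_ne_bot8 (p : l ⊕ l → F) (hp : p ≠ 0) : spTg8 p ≠ ⊥ := by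
  intro h
  have h1 : spg8 p 1 ∈ spTg8 p := spg_mem8 p 1
  rw [h, Subgroup.mem_bot] at h1
  exact spg_ne_one8 p hp 1 one_ne_zero h1

end sp8

end Cfsg.Agent.Lib.Helper8
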