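import Mathlib
import Cfsg.Prelude.Def_Classical
import Cfsg.Agent.Lib.Helper8.SP1

set_option autoImplicit false

namespace Cfsg.Agent.Lib.Helper8

open Matrix

/-- The isometry group of the hyperbolic quadratic form, as a type. -/
abbrev IO8 (N : ℕ) (F : Type*) [Field F] : Type _ :=
  ↥(Cfsg.isometryGroup F (Cfsg.quadFormPlus N F))

section or8a

variable {N : ℕ} {F : Type*} [Field F]

/-- The polar form of the hyperbolic quadratic form. -/
def qB8 (u v : Fin N ⊕ Fin N → F) : F := u ⬝ᵥ (v ∘ Sum.swap)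

theorem qB_add_left8 (u u' v : Fin N ⊕ Fin N → F) : qB8 (u + u') v = qB8 u v + qB8 u' v :=
  add_dotProduct _ _ _

theorem qB_smul_left8 (c : F) (u v : Fin N ⊕ Fin N → F) : qB8 (c • u) v = c * qB8 u v :=
  smul_dotProduct _ _ _

theorem qB_add_right8 (u v v' : Fin N ⊕ Fin N → F) : qB8 u (v + v') = qB8 u v + qB8 u v' :=
  dotProduct_add _ _ _

theorem qB_smul_right8 (c : F) (u v : Fin N ⊕ Fin N → F) : qB8 u (c • v) = c * qB8 u v :=
  dotProduct_smul _ _ _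

theorem qB_sub_left8 (u u' v : Fin N ⊕ Fin N → F) : qB8 (u - u') v = qB8 u v - qB8 u' v :=
  sub_dotProduct _ _ _

theorem qB_sub_right8 (u v v' : Fin N ⊕ Fin N → F) : qB8 u (v - v') = qB8 u v - qB8 u v' :=
  dotProduct_sub _ _ _

theorem qB_neg_left8 (u v : Fin N ⊕ Fin N → F) : qB8 (-u) v = - qB8 u v :=
  neg_dotProduct _ _

theorem qB_neg_right8 (u v : Fin N ⊕ Fin N → F) : qB8 u (-v) = - qB8 u v :=
  dotProduct_neg _ _

theorem qB_zero_left8 (v : Fin N ⊕ Fin N → F) : qB8 0 v = 0 :=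
  zero_dotProduct _

theorem qB_zero_right8 (u : Fin N ⊕ Fin N → F) : qB8 u 0 = 0 :=
  dotProduct_zero _

theorem qB_comm8 (u v : Fin N ⊕ Fin N → F) : qB8 u v = qB8 v u := by
  unfold qB8
  simp only [dotProduct, Function.comp_apply]
  apply Fintype.sum_equiv (Equiv.sumComm _ _)
  intro a
  simp only [Equiv.sumComm_apply, Sum.swap_swap]
  ring

theorem Q_add8 (u v : Fin N ⊕ Fin N → F) :
    Cfsg.quadFormPlus N F (u + v) =
      Cfsg.quadFormPlus N F u + Cfsg.quadFormPlus N F v + qB8 u v := by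
  unfold Cfsg.quadFormPlus qB8
  simp only [dotProduct, Fintype.sum_sum_type, Function.comp_apply, Sum.swap_inl, Sum.swap_inr,
    Pi.add_apply]
  rw [← Finset.sum_add_distrib, ← Finset.sum_add_distrib, ← Finset.sum_add_distrib]
  apply Finset.sum_congr rfl
  intro i _
  ring

theorem Q_smul8 (c : F) (v : Fin N ⊕ Fin N → F) :
    Cfsg.quadFormPlus N F (c • v) = c * c * Cfsg.quadFormPlus N F v := by
  unfold Cfsg.quadFormPlus
  simp only [Pi.smul_apply, smul_eq_mul]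
  rw [Finset.mul_sum]
  apply Finset.sum_congr rfl
  intro i _
  ring

theorem Q_zero8 : Cfsg.quadFormPlus N F (0 : Fin N ⊕ Fin N → F) = 0 := by
  unfold Cfsg.quadFormPlus
  simp

theorem qB_self8 (u : Fin N ⊕ Fin N → F) (h : Cfsg.quadFormPlus N F u = 0) : qB8 u u = 0 := by
  have h1 := Q_add8 u u
  have h2 : u + u = (2 : F) • u := by rw [two_smul]
  rw [h2, Q_smul8, h] at h1
  linear_combination -h1

/-- The condition in the statement is the vanishing of the polar form. -/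
theorem Q_polar8 (v p : Fin N ⊕ Fin N → F) :
    Cfsg.quadFormPlus N F (v + p) - Cfsg.quadFormPlus N F v - Cfsg.quadFormPlus N F p =
      qB8 v p := by
  rw [Q_add8]
  ring

theorem qB_single8 (x : Fin N ⊕ Fin N → F) (a : Fin N ⊕ Fin N) :
    qB8 x (Pi.single (Sum.swap a) 1) = x a := by
  unfold qB8
  have e : ((Pi.single (Sum.swap a) (1 : F) : Fin N ⊕ Fin N → F) ∘ Sum.swap) =
      Pi.single a 1 := by
    funext b
    simp only [Function.comp_apply, Pi.single_apply]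
    by_cases hb : b = a
    · rw [hb, if_pos rfl, if_pos rfl]
    · rw [if_neg hb, if_neg]
      intro h
      apply hb
      have := congrArg Sum.swap h
      rw [Sum.swap_swap, Sum.swap_swap] at this
      exact this
  rw [e, dotProduct_single, mul_one]

theorem qB_nondeg8 (x : Fin N ⊕ Fin N → F) (h : ∀ z, qB8 x z = 0) : x = 0 := by
  funext a
  have h1 := h (Pi.single (Sum.swap a) 1)
  rw [qB_single8] at h1
  exact h1

theorem io_ext8 (g h : IO8 N F) (hv : ∀ v, g.1.1 *ᵥ v = h.1.1 *ᵥ v) : g = h :=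
  Subtype.ext (Units.ext (mat_ext_mulVec8 _ _ hv))

theorem io_mul_mulVec8 (a b : IO8 N F) (v : Fin N ⊕ Fin N → F) :
    (a * b).1.1 *ᵥ v = a.1.1 *ᵥ (b.1.1 *ᵥ v) := by
  show (a.1.1 * b.1.1) *ᵥ v = _
  rw [mulVec_mulVec]

theorem io_one_mulVec8 (v : Fin N ⊕ Fin N → F) : (1 : IO8 N F).1.1 *ᵥ v = v := by
  show (1 : Matrix (Fin N ⊕ Fin N) (Fin N ⊕ Fin N) F) *ᵥ v = v
  rw [one_mulVec]

theorem io_mul_inv_mulVec8 (g : IO8 N F) (v : Fin N ⊕ Fin N → F) :
    g.1.1 *ᵥ ((g⁻¹).1.1 *ᵥ v) = v := by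
  rw [← io_mul_mulVec8, mul_inv_cancel, io_one_mulVec8]

theorem io_inv_mul_mulVec8 (g : IO8 N F) (v : Fin N ⊕ Fin N → F) :
    (g⁻¹).1.1 *ᵥ (g.1.1 *ᵥ v) = v := by
  rw [← io_mul_mulVec8, inv_mul_cancel, io_one_mulVec8]

theorem io_Q_map8 (g : IO8 N F) (v : Fin N ⊕ Fin N → F) :
    Cfsg.quadFormPlus N F (g.1.1 *ᵥ v) = Cfsg.quadFormPlus N F v := g.2 v v

theorem io_B_map8 (g : IO8 N F) (v w : Fin N ⊕ Fin N → F) :
    qB8 (g.1.1 *ᵥ v) (g.1.1 *ᵥ w) = qB8 v w := by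
  have h1 := Q_add8 (g.1.1 *ᵥ v) (g.1.1 *ᵥ w)
  rw [← mulVec_add, io_Q_map8, io_Q_map8, io_Q_map8, Q_add8] at h1
  linear_combination -h1

theorem io_B_inv_left8 (g : IO8 N F) (v w : Fin N ⊕ Fin N → F) :
    qB8 ((g⁻¹).1.1 *ᵥ v) w = qB8 v (g.1.1 *ᵥ w) := by
  have h := io_B_map8 g ((g⁻¹).1.1 *ᵥ v) w
  rw [io_mul_inv_mulVec8] at h
  exact h.symm

/-- Build an isometry from a matrix with a two-sided inverse preserving the form. -/
def ioMk8 (A A' : Matrix (Fin N ⊕ Fin N) (Fin N ⊕ Fin N) F) (h1 : A * A' = 1) (h2 : A' * A = 1)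
    (hQ : ∀ v, Cfsg.quadFormPlus N F (A *ᵥ v) = Cfsg.quadFormPlus N F v) : IO8 N F :=
  ⟨⟨A, A', h1, h2⟩, fun u _ => hQ u⟩

theorem ioMk_val8 (A A' : Matrix (Fin N ⊕ Fin N) (Fin N ⊕ Fin N) F) (h1 : A * A' = 1)
    (h2 : A' * A = 1)
    (hQ : ∀ v, Cfsg.quadFormPlus N F (A *ᵥ v) = Cfsg.quadFormPlus N F v) :
    (ioMk8 A A' h1 h2 hQ).1.1 = A := rfl

end or8a

end Cfsg.Agent.Lib.Helper8
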