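import Mathlib
import Cfsg.Prelude.Def_Classical
import Cfsg.Prelude.Def_RootSubgroups
import Cfsg.Agent.Lib.Helper8.OR1

set_option autoImplicit false

namespace Cfsg.Agent.Lib.Helper8

open Matrix

section or8b

variable {N : ℕ} {F : Type*} [Field F]

/-- A singular line with a chosen basis, together with dual vectors. -/
structure GoodLine8 (p r : Fin N ⊕ Fin N → F) : Prop where
  qp : Cfsg.quadFormPlus N F p = 0
  qr : Cfsg.quadFormPlus N F r = 0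
  bpr : qB8 p r = 0
  dual : ∃ u₁ u₂ : Fin N ⊕ Fin N → F,
    qB8 u₁ p = 1 ∧ qB8 u₁ r = 0 ∧ qB8 u₂ p = 0 ∧ qB8 u₂ r = 1

theorem GoodLine8.bpp {p r : Fin N ⊕ Fin N → F} (h : GoodLine8 p r) : qB8 p p = 0 :=
  qB_self8 p h.qp

theorem GoodLine8.brr {p r : Fin N ⊕ Fin N → F} (h : GoodLine8 p r) : qB8 r r = 0 :=
  qB_self8 r h.qr

theorem GoodLine8.brp {p r : Fin N ⊕ Fin N → F} (h : GoodLine8 p r) : qB8 r p = 0 := by
  rw [qB_comm8]
  exact h.bpr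

theorem GoodLine8.r_ne {p r : Fin N ⊕ Fin N → F} (h : GoodLine8 p r) : r ≠ 0 := by
  obtain ⟨u₁, u₂, -, -, -, h22⟩ := h.dual
  intro h0
  rw [h0, qB_zero_right8] at h22
  exact zero_ne_one h22

theorem Q_comb8 (p r : Fin N ⊕ Fin N → F) (hp : Cfsg.quadFormPlus N F p = 0)
    (hr : Cfsg.quadFormPlus N F r = 0) (hpr : qB8 p r = 0) (s t : F) :
    Cfsg.quadFormPlus N F (s • p + t • r) = 0 := by
  rw [Q_add8, Q_smul8, Q_smul8, hp, hr, qB_smul_left8, qB_smul_right8, hpr]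
  ring

/-- The matrix of the Siegel transvection `v ↦ v + a (B(v,p) r - B(v,r) p)`. -/
def sgM8 (p r : Fin N ⊕ Fin N → F) (a : F) : Matrix (Fin N ⊕ Fin N) (Fin N ⊕ Fin N) F :=
  1 + a • (vecMulVec r (p ∘ Sum.swap) - vecMulVec p (r ∘ Sum.swap))

theorem sgM_mulVec8 (p r : Fin N ⊕ Fin N → F) (a : F) (v : Fin N ⊕ Fin N → F) :
    sgM8 p r a *ᵥ v = v + a • (qB8 v p • r - qB8 v r • p) := by
  unfold sgM8
  rw [add_mulVec, one_mulVec, smul_mulVec, sub_mulVec, vecMulVec_mulVec, vecMulVec_mulVec,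
    op_smul_eq_smul, op_smul_eq_smul, dotProduct_comm (p ∘ Sum.swap) v,
    dotProduct_comm (r ∘ Sum.swap) v]
  rfl

theorem sgM_mul8 (p r : Fin N ⊕ Fin N → F) (hpp : qB8 p p = 0) (hrr : qB8 r r = 0)
    (hpr : qB8 p r = 0) (a b : F) : sgM8 p r a * sgM8 p r b = sgM8 p r (a + b) := by
  have hrp : qB8 r p = 0 := by rw [qB_comm8]; exact hpr
  apply mat_ext_mulVec8
  intro v
  rw [← mulVec_mulVec, sgM_mulVec8, sgM_mulVec8, sgM_mulVec8]
  simp only [qB_add_left8, qB_sub_left8, qB_smul_left8, hpp, hrr, hpr, hrp]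
  module

theorem sgM_zero8 (p r : Fin N ⊕ Fin N → F) : sgM8 p r 0 = 1 := by
  unfold sgM8
  rw [zero_smul, add_zero]

theorem sgM_Q8 (p r : Fin N ⊕ Fin N → F) (hp : Cfsg.quadFormPlus N F p = 0)
    (hr : Cfsg.quadFormPlus N F r = 0) (hpr : qB8 p r = 0) (a : F) (v : Fin N ⊕ Fin N → F) :
    Cfsg.quadFormPlus N F (sgM8 p r a *ᵥ v) = Cfsg.quadFormPlus N F v := by
  have e : qB8 v p • r - qB8 v r • p = (-(qB8 v r)) • p + (qB8 v p) • r := by module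
  rw [sgM_mulVec8, Q_add8, Q_smul8, e, Q_comb8 p r hp hr hpr, qB_smul_right8, qB_add_right8,
    qB_smul_right8, qB_smul_right8]
  ring

open Classical in
/-- The Siegel transvection as an isometry. -/
noncomputable def sg8 (p r : Fin N ⊕ Fin N → F) (a : F) : IO8 N F :=
  if h : Cfsg.quadFormPlus N F p = 0 ∧ Cfsg.quadFormPlus N F r = 0 ∧ qB8 p r = 0 then
    ioMk8 (sgM8 p r a) (sgM8 p r (-a))
      (by rw [sgM_mul8 p r (qB_self8 p h.1) (qB_self8 r h.2.1) h.2.2, add_neg_cancel, sgM_zero8])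
      (by rw [sgM_mul8 p r (qB_self8 p h.1) (qB_self8 r h.2.1) h.2.2, neg_add_cancel, sgM_zero8])
      (fun v => sgM_Q8 p r h.1 h.2.1 h.2.2 a v)
  else 1

theorem sg_mulVec8 {p r : Fin N ⊕ Fin N → F} (h : GoodLine8 p r) (a : F)
    (v : Fin N ⊕ Fin N → F) :
    (sg8 p r a).1.1 *ᵥ v = v + a • (qB8 v p • r - qB8 v r • p) := by
  unfold sg8
  rw [dif_pos ⟨h.qp, h.qr, h.bpr⟩, ioMk_val8]
  exact sgM_mulVec8 p r a v

/-- The generating set of the Siegel transvection group of the line `⟨p, r⟩`. -/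
def sgS8 (p r : Fin N ⊕ Fin N → F) : Set (IO8 N F) :=
  {σ | ∀ v : Fin N ⊕ Fin N → F,
    Cfsg.quadFormPlus N F (v + p) - Cfsg.quadFormPlus N F v - Cfsg.quadFormPlus N F p = 0 →
    Cfsg.quadFormPlus N F (v + r) - Cfsg.quadFormPlus N F v - Cfsg.quadFormPlus N F r = 0 →
    σ.1.1 *ᵥ v = v}

/-- The Siegel transvection group of the line `⟨p, r⟩`. -/
def sgT8 (p r : Fin N ⊕ Fin N → F) : Subgroup (IO8 N F) := Subgroup.closure (sgS8 p r)

theorem sgS_char8 {p r : Fin N ⊕ Fin N → F} (h : GoodLine8 p r) (σ : IO8 N F)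
    (hσ : σ ∈ sgS8 p r) :
    ∃ a : F, ∀ v, σ.1.1 *ᵥ v = v + a • (qB8 v p • r - qB8 v r • p) := by
  obtain ⟨u₁, u₂, h11, h12, h21, h22⟩ := h.dual
  have fix : ∀ w, qB8 w p = 0 → qB8 w r = 0 → σ.1.1 *ᵥ w = w := by
    intro w hw1 hw2
    exact hσ w (by rw [Q_polar8]; exact hw1) (by rw [Q_polar8]; exact hw2)
  have hperp : ∀ v, qB8 (v - qB8 v p • u₁ - qB8 v r • u₂) p = 0 ∧
      qB8 (v - qB8 v p • u₁ - qB8 v r • u₂) r = 0 := by
    intro v
    constructor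
    · rw [qB_sub_left8, qB_sub_left8, qB_smul_left8, qB_smul_left8, h11, h21]
      ring
    · rw [qB_sub_left8, qB_sub_left8, qB_smul_left8, qB_smul_left8, h12, h22]
      ring
  obtain ⟨x₁, hx₁⟩ : ∃ x₁, x₁ = σ.1.1 *ᵥ u₁ - u₁ := ⟨_, rfl⟩
  obtain ⟨x₂, hx₂⟩ : ∃ x₂, x₂ = σ.1.1 *ᵥ u₂ - u₂ := ⟨_, rfl⟩
  have hσ1 : σ.1.1 *ᵥ u₁ = u₁ + x₁ := by rw [hx₁]; abel
  have hσ2 : σ.1.1 *ᵥ u₂ = u₂ + x₂ := by rw [hx₂]; abel
  have hσv : ∀ v, σ.1.1 *ᵥ v = v + qB8 v p • x₁ + qB8 v r • x₂ := by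
    intro v
    have h1 := fix _ (hperp v).1 (hperp v).2
    rw [mulVec_sub, mulVec_sub, mulVec_smul, mulVec_smul, hσ1, hσ2] at h1
    have h2 : σ.1.1 *ᵥ v = v - qB8 v p • u₁ - qB8 v r • u₂ + qB8 v p • (u₁ + x₁) +
        qB8 v r • (u₂ + x₂) := by
      rw [← h1]
      abel
    rw [h2]
    module
  have hspan : ∀ x : Fin N ⊕ Fin N → F,
      (∀ w, qB8 w p = 0 → qB8 w r = 0 → qB8 x w = 0) →
      x = qB8 x u₁ • p + qB8 x u₂ • r := by
    intro x hx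
    have h0 : x - (qB8 x u₁ • p + qB8 x u₂ • r) = 0 := by
      apply qB_nondeg8
      intro z
      have h1 := hx _ (hperp z).1 (hperp z).2
      rw [qB_sub_right8, qB_sub_right8, qB_smul_right8, qB_smul_right8] at h1
      rw [qB_sub_left8, qB_add_left8, qB_smul_left8, qB_smul_left8, qB_comm8 p z, qB_comm8 r z]
      linear_combination h1
    exact sub_eq_zero.mp h0
  have hx1 : ∀ w, qB8 w p = 0 → qB8 w r = 0 → qB8 x₁ w = 0 := by
    intro w hw1 hw2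
    have h1 := io_B_map8 σ u₁ w
    rw [fix w hw1 hw2] at h1
    rw [hx₁, qB_sub_left8, h1, sub_self]
  have hx2 : ∀ w, qB8 w p = 0 → qB8 w r = 0 → qB8 x₂ w = 0 := by
    intro w hw1 hw2
    have h1 := io_B_map8 σ u₂ w
    rw [fix w hw1 hw2] at h1
    rw [hx₂, qB_sub_left8, h1, sub_self]
  obtain ⟨c11, hc11⟩ : ∃ c, c = qB8 x₁ u₁ := ⟨_, rfl⟩
  obtain ⟨c12, hc12⟩ : ∃ c, c = qB8 x₁ u₂ := ⟨_, rfl⟩
  obtain ⟨c21, hc21⟩ : ∃ c, c = qB8 x₂ u₁ := ⟨_, rfl⟩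
  obtain ⟨c22, hc22⟩ : ∃ c, c = qB8 x₂ u₂ := ⟨_, rfl⟩
  have e1 : x₁ = c11 • p + c12 • r := by rw [hc11, hc12]; exact hspan x₁ hx1
  have e2 : x₂ = c21 • p + c22 • r := by rw [hc21, hc22]; exact hspan x₂ hx2
  have hQx : ∀ s t : F, Cfsg.quadFormPlus N F (s • x₁ + t • x₂) = 0 := by
    intro s t
    have e : s • x₁ + t • x₂ = (s * c11 + t * c21) • p + (s * c12 + t * c22) • r := by
      rw [e1, e2]
      module
    rw [e]
    exact Q_comb8 p r h.qp h.qr h.bpr _ _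
  have q1 : Cfsg.quadFormPlus N F x₁ = 0 := by
    have h1 := hQx 1 0
    rw [one_smul, zero_smul, add_zero] at h1
    exact h1
  have q2 : Cfsg.quadFormPlus N F x₂ = 0 := by
    have h1 := hQx 0 1
    rw [one_smul, zero_smul, zero_add] at h1
    exact h1
  have q12 : Cfsg.quadFormPlus N F (x₁ + x₂) = 0 := by
    have h1 := hQx 1 1
    rw [one_smul, one_smul] at h1
    exact h1
  have k1 := io_Q_map8 σ u₁
  rw [hσ1, Q_add8, q1] at k1
  have k2 := io_Q_map8 σ u₂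
  rw [hσ2, Q_add8, q2] at k2
  have k3 := io_Q_map8 σ (u₁ + u₂)
  have hσ12 : σ.1.1 *ᵥ (u₁ + u₂) = (u₁ + u₂) + (x₁ + x₂) := by
    rw [mulVec_add, hσ1, hσ2]
    abel
  rw [hσ12, Q_add8, q12, qB_add_left8, qB_add_right8, qB_add_right8] at k3
  have a1 : c11 = 0 := by
    rw [hc11, qB_comm8]
    linear_combination k1
  have a2 : c22 = 0 := by
    rw [hc22, qB_comm8]
    linear_combination k2
  have a3 : c21 = -c12 := by
    have b1 : qB8 u₁ x₁ = c11 := by rw [hc11, qB_comm8]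
    have b2 : qB8 u₁ x₂ = c21 := by rw [hc21, qB_comm8]
    have b3 : qB8 u₂ x₁ = c12 := by rw [hc12, qB_comm8]
    have b4 : qB8 u₂ x₂ = c22 := by rw [hc22, qB_comm8]
    rw [b1, b2, b3, b4, a1, a2] at k3
    linear_combination k3
  refine ⟨c12, fun v => ?_⟩
  rw [hσv v, e1, e2, a1, a2, a3]
  module

theorem mem_sgT8 {p r : Fin N ⊕ Fin N → F} (h : GoodLine8 p r) (g : IO8 N F) :
    g ∈ sgT8 p r ↔ ∃ a : F, ∀ v, g.1.1 *ᵥ v = v + a • (qB8 v p • r - qB8 v r • p) := by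
  have hpp := h.bpp
  have hrr := h.brr
  have hrp := h.brp
  have hpr := h.bpr
  constructor
  · intro hg
    have hg' : g ∈ Subgroup.closure (sgS8 p r) := hg
    refine Subgroup.closure_induction (p := fun (g : IO8 N F) _ => ∃ a : F, ∀ v,
      g.1.1 *ᵥ v = v + a • (qB8 v p • r - qB8 v r • p)) ?_ ?_ ?_ ?_ hg'
    · intro x hx
      exact sgS_char8 h x hx
    · exact ⟨0, fun v => by rw [zero_smul, add_zero, io_one_mulVec8]⟩
    · rintro x y _ _ ⟨a, ha⟩ ⟨b, hb⟩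
      refine ⟨a + b, fun v => ?_⟩
      rw [io_mul_mulVec8, hb, ha]
      simp only [qB_add_left8, qB_sub_left8, qB_smul_left8, hpp, hrr, hpr, hrp]
      module
    · rintro x _ ⟨a, ha⟩
      refine ⟨-a, fun v => ?_⟩
      obtain ⟨w, hw⟩ : ∃ w, w = (x⁻¹).1.1 *ᵥ v := ⟨_, rfl⟩
      have h1 : x.1.1 *ᵥ w = v := by rw [hw, io_mul_inv_mulVec8]
      rw [ha] at h1
      have h2 : qB8 w p = qB8 v p := by
        have h3 : qB8 (w + a • (qB8 w p • r - qB8 w r • p)) p = qB8 v p := by rw [h1]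
        simp only [qB_add_left8, qB_sub_left8, qB_smul_left8, hpp, hrp] at h3
        linear_combination h3
      have h2' : qB8 w r = qB8 v r := by
        have h3 : qB8 (w + a • (qB8 w p • r - qB8 w r • p)) r = qB8 v r := by rw [h1]
        simp only [qB_add_left8, qB_sub_left8, qB_smul_left8, hrr, hpr] at h3
        linear_combination h3
      rw [← hw]
      rw [h2, h2'] at h1
      have h4 : w = v - a • (qB8 v p • r - qB8 v r • p) := eq_sub_of_add_eq h1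
      rw [h4]
      module
  · rintro ⟨a, ha⟩
    refine Subgroup.subset_closure (fun v hv1 hv2 => ?_)
    rw [Q_polar8] at hv1 hv2
    rw [ha v, hv1, hv2, zero_smul, zero_smul, sub_zero, smul_zero, add_zero]

theorem sg_mem8 {p r : Fin N ⊕ Fin N → F} (h : GoodLine8 p r) (a : F) :
    sg8 p r a ∈ sgT8 p r :=
  (mem_sgT8 h _).mpr ⟨a, sg_mulVec8 h a⟩

theorem eq_sg_of_mem8 {p r : Fin N ⊕ Fin N → F} (h : GoodLine8 p r) (g : IO8 N F)
    (hg : g ∈ sgT8 p r) : ∃ a : F, g = sg8 p r a := by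
  obtain ⟨a, ha⟩ := (mem_sgT8 h g).mp hg
  exact ⟨a, io_ext8 _ _ (fun v => by rw [ha, sg_mulVec8 h])⟩

theorem sg_mul8 {p r : Fin N ⊕ Fin N → F} (h : GoodLine8 p r) (a b : F) :
    sg8 p r a * sg8 p r b = sg8 p r (a + b) := by
  apply io_ext8
  intro v
  rw [io_mul_mulVec8, sg_mulVec8 h, sg_mulVec8 h, sg_mulVec8 h]
  simp only [qB_add_left8, qB_sub_left8, qB_smul_left8, h.bpp, h.brr, h.bpr, h.brp]
  module

theorem sg_zero8 {p r : Fin N ⊕ Fin N → F} (h : GoodLine8 p r) : sg8 p r 0 = 1 := by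
  apply io_ext8
  intro v
  rw [sg_mulVec8 h, io_one_mulVec8, zero_smul, add_zero]

theorem sg_inv8 {p r : Fin N ⊕ Fin N → F} (h : GoodLine8 p r) (a : F) :
    (sg8 p r a)⁻¹ = sg8 p r (-a) := by
  apply inv_eq_of_mul_eq_one_right
  rw [sg_mul8 h, add_neg_cancel, sg_zero8 h]

theorem sg_ne_one8 {p r : Fin N ⊕ Fin N → F} (h : GoodLine8 p r) (a : F) (ha : a ≠ 0) :
    sg8 p r a ≠ 1 := by
  intro he
  obtain ⟨u₁, u₂, h11, h12, -, -⟩ := h.dual
  have h1 : (sg8 p r a).1.1 *ᵥ u₁ = (1 : IO8 N F).1.1 *ᵥ u₁ := by rw [he]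
  rw [sg_mulVec8 h, io_one_mulVec8, h11, h12, one_smul, zero_smul, sub_zero] at h1
  have h2 : a • r = 0 := by
    have h3 : u₁ + a • r = u₁ + 0 := by rw [h1, add_zero]
    exact add_left_cancel h3
  rcases smul_eq_zero.mp h2 with h4 | h4
  · exact ha h4
  · exact h.r_ne h4

theorem sgT_comm8 {p r : Fin N ⊕ Fin N → F} (h : GoodLine8 p r) (a b : IO8 N F)
    (ha : a ∈ sgT8 p r) (hb : b ∈ sgT8 p r) : a * b = b * a := by
  obtain ⟨c, rfl⟩ := eq_sg_of_mem8 h a ha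
  obtain ⟨c', rfl⟩ := eq_sg_of_mem8 h b hb
  rw [sg_mul8 h, sg_mul8 h, add_comm]

theorem sgT_ne_bot8 {p r : Fin N ⊕ Fin N → F} (h : GoodLine8 p r) : sgT8 p r ≠ ⊥ := by
  intro h0
  have h1 : sg8 p r 1 ∈ sgT8 p r := sg_mem8 h 1
  rw [h0, Subgroup.mem_bot] at h1
  exact sg_ne_one8 h 1 one_ne_zero h1

theorem goodLine_basis8 {p r : Fin N ⊕ Fin N → F} (h : GoodLine8 p r) (α β γ δ : F)
    (hdet : α * δ - β * γ ≠ 0) : GoodLine8 (α • p + β • r) (γ • p + δ • r) := by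
  obtain ⟨u₁, u₂, h11, h12, h21, h22⟩ := h.dual
  obtain ⟨D, hD⟩ : ∃ D, D = (α * δ - β * γ)⁻¹ := ⟨_, rfl⟩
  have hDD : (α * δ - β * γ) * D = 1 := by rw [hD, mul_inv_cancel₀ hdet]
  refine ⟨Q_comb8 p r h.qp h.qr h.bpr α β, Q_comb8 p r h.qp h.qr h.bpr γ δ, ?_, ?_⟩
  · simp only [qB_add_left8, qB_add_right8, qB_smul_left8, qB_smul_right8, h.bpp, h.brr, h.bpr,
      h.brp]
    ring
  · refine ⟨(δ * D) • u₁ + (-γ * D) • u₂, (-β * D) • u₁ + (α * D) • u₂, ?_, ?_, ?_, ?_⟩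
    · simp only [qB_add_left8, qB_add_right8, qB_smul_left8, qB_smul_right8, h11, h12, h21, h22]
      linear_combination hDD
    · simp only [qB_add_left8, qB_add_right8, qB_smul_left8, qB_smul_right8, h11, h12, h21, h22]
      ring
    · simp only [qB_add_left8, qB_add_right8, qB_smul_left8, qB_smul_right8, h11, h12, h21, h22]
      ring
    · simp only [qB_add_left8, qB_add_right8, qB_smul_left8, qB_smul_right8, h11, h12, h21, h22]
      linear_combination hDD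

theorem sgT_basis8 {p r : Fin N ⊕ Fin N → F} (h : GoodLine8 p r) (α β γ δ : F)
    (hdet : α * δ - β * γ ≠ 0) : sgT8 (α • p + β • r) (γ • p + δ • r) = sgT8 p r := by
  have h' := goodLine_basis8 h α β γ δ hdet
  ext g
  rw [mem_sgT8 h', mem_sgT8 h]
  constructor
  · rintro ⟨a, ha⟩
    refine ⟨a * (α * δ - β * γ), fun v => ?_⟩
    rw [ha]
    simp only [qB_add_right8, qB_smul_right8]
    module
  · rintro ⟨a, ha⟩
    refine ⟨a / (α * δ - β * γ), fun v => ?_⟩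
    rw [ha]
    simp only [qB_add_right8, qB_smul_right8]
    have e : (α * qB8 v p + β * qB8 v r) • (γ • p + δ • r) -
        (γ * qB8 v p + δ * qB8 v r) • (α • p + β • r) =
        (α * δ - β * γ) • (qB8 v p • r - qB8 v r • p) := by module
    rw [e, smul_smul, div_mul_cancel₀ _ hdet]

theorem goodLine_map8 {p r : Fin N ⊕ Fin N → F} (h : GoodLine8 p r) (g : IO8 N F) :
    GoodLine8 (g.1.1 *ᵥ p) (g.1.1 *ᵥ r) := by
  obtain ⟨u₁, u₂, h11, h12, h21, h22⟩ := h.dual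
  exact ⟨by rw [io_Q_map8]; exact h.qp, by rw [io_Q_map8]; exact h.qr,
    by rw [io_B_map8]; exact h.bpr, g.1.1 *ᵥ u₁, g.1.1 *ᵥ u₂, by rw [io_B_map8]; exact h11,
    by rw [io_B_map8]; exact h12, by rw [io_B_map8]; exact h21, by rw [io_B_map8]; exact h22⟩

theorem sgT_conj8 {p r : Fin N ⊕ Fin N → F} (h : GoodLine8 p r) (g : IO8 N F) :
    Cfsg.conjBy (sgT8 p r) g = sgT8 (g.1.1 *ᵥ p) (g.1.1 *ᵥ r) := by
  have h' := goodLine_map8 h g
  ext x
  rw [Subgroup.mem_map, mem_sgT8 h']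
  constructor
  · rintro ⟨y, hy, rfl⟩
    obtain ⟨a, ha⟩ := (mem_sgT8 h y).mp hy
    refine ⟨a, fun v => ?_⟩
    show (g * y * g⁻¹).1.1 *ᵥ v = _
    rw [io_mul_mulVec8, io_mul_mulVec8, ha, mulVec_add, mulVec_smul, mulVec_sub, mulVec_smul,
      mulVec_smul, io_mul_inv_mulVec8, io_B_inv_left8, io_B_inv_left8]
  · rintro ⟨a, ha⟩
    refine ⟨g⁻¹ * x * g, (mem_sgT8 h _).mpr ⟨a, fun v => ?_⟩, ?_⟩
    · rw [io_mul_mulVec8, io_mul_mulVec8, ha, mulVec_add, mulVec_smul, mulVec_sub, mulVec_smul,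
        mulVec_smul, io_inv_mul_mulVec8, io_inv_mul_mulVec8, io_inv_mul_mulVec8, io_B_map8,
        io_B_map8]
    · show g * (g⁻¹ * x * g) * g⁻¹ = x
      group

end or8b

end Cfsg.Agent.Lib.Helper8
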