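import Mathlib
import Cfsg.Prelude.Def_Classical
import Cfsg.Prelude.Def_RootSubgroups
import Cfsg.Agent.Lib.Helper8.OR2

set_option autoImplicit false

namespace Cfsg.Agent.Lib.Helper8

open Matrix

open scoped commutatorElement

section or8c

variable {N : ℕ} {F : Type*} [Field F]

/-- Perpendicular lines: the Siegel transvections commute. -/
theorem sg_comm_perp8 {p r p' r' : Fin N ⊕ Fin N → F} (h : GoodLine8 p r)
    (h' : GoodLine8 p' r') (m11 : qB8 p p' = 0) (m12 : qB8 p r' = 0) (m21 : qB8 r p' = 0)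
    (m22 : qB8 r r' = 0) (a b : F) :
    sg8 p r a * sg8 p' r' b = sg8 p' r' b * sg8 p r a := by
  have n11 : qB8 p' p = 0 := by rw [qB_comm8]; exact m11
  have n12 : qB8 r' p = 0 := by rw [qB_comm8]; exact m12
  have n21 : qB8 p' r = 0 := by rw [qB_comm8]; exact m21
  have n22 : qB8 r' r = 0 := by rw [qB_comm8]; exact m22
  apply io_ext8
  intro v
  simp only [io_mul_mulVec8, sg_mulVec8 h, sg_mulVec8 h', qB_add_left8, qB_sub_left8,
    qB_smul_left8, n11, n12, n21, n22, m11, m12, m21, m22]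
  module

/-- Lines meeting in a point, normal form: the Siegel transvections commute. -/
theorem sg_comm_meet8 {x y y' : Fin N ⊕ Fin N → F} (c : F) (h : GoodLine8 x y)
    (h' : GoodLine8 (c • x) y') (hxy' : qB8 x y' = 0) (hyy' : qB8 y y' = 1) (a b : F) :
    sg8 x y a * sg8 (c • x) y' b = sg8 (c • x) y' b * sg8 x y a := by
  have n1 : qB8 y' x = 0 := by rw [qB_comm8]; exact hxy'
  have n2 : qB8 y' y = 1 := by rw [qB_comm8]; exact hyy'
  apply io_ext8
  intro v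
  simp only [io_mul_mulVec8, sg_mulVec8 h, sg_mulVec8 h', qB_add_left8, qB_sub_left8,
    qB_smul_left8, qB_smul_right8, h.bpp, h.brr, h.bpr, h.brp, h'.brr, hxy', hyy', n1, n2]
  module

/-- The commutator relation for two lines in the commutator-case normal form. -/
theorem sg_comm_rel8 {x y x' y' : Fin N ⊕ Fin N → F} (h : GoodLine8 x y)
    (h' : GoodLine8 x' y') (h'' : GoodLine8 x x') (hxy' : qB8 x y' = 0) (hyx' : qB8 y x' = 0)
    (hyy' : qB8 y y' = 1) (a b : F) :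
    sg8 x y a * sg8 x' y' b = sg8 x x' (a * b) * (sg8 x' y' b * sg8 x y a) := by
  have n1 : qB8 y' x = 0 := by rw [qB_comm8]; exact hxy'
  have n2 : qB8 x' y = 0 := by rw [qB_comm8]; exact hyx'
  have n3 : qB8 y' y = 1 := by rw [qB_comm8]; exact hyy'
  apply io_ext8
  intro v
  simp only [io_mul_mulVec8, sg_mulVec8 h, sg_mulVec8 h', sg_mulVec8 h'', qB_add_left8,
    qB_sub_left8, qB_smul_left8, h.bpp, h.brr, h.bpr, h.brp, h'.bpp, h'.brr, h'.bpr, h'.brp,
    h''.bpr, h''.brp, hxy', hyx', hyy', n1, n2, n3]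
  module

theorem sg_commutator8 {x y x' y' : Fin N ⊕ Fin N → F} (h : GoodLine8 x y)
    (h' : GoodLine8 x' y') (h'' : GoodLine8 x x') (hxy' : qB8 x y' = 0) (hyx' : qB8 y x' = 0)
    (hyy' : qB8 y y' = 1) (a b : F) :
    ⁅sg8 x y a, sg8 x' y' b⁆ = sg8 x x' (a * b) := by
  rw [commutatorElement_def, sg_comm_rel8 h h' h'' hxy' hyx' hyy' a b]
  group

/-- Opposite lines in normal form: the two groups are different. -/
theorem sgT_ne_opp8 {p r p' r' : Fin N ⊕ Fin N → F} (h : GoodLine8 p r)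
    (h' : GoodLine8 p' r') (m11 : qB8 p p' = 1) (m12 : qB8 p r' = 0) :
    sgT8 p r ≠ sgT8 p' r' := by
  intro heq
  have h1 : sg8 p r 1 ∈ sgT8 p' r' := heq ▸ sg_mem8 h 1
  obtain ⟨a', ha'⟩ := (mem_sgT8 h' _).mp h1
  have h2 := ha' p
  rw [sg_mulVec8 h, h.bpp, h.bpr, m11, m12, zero_smul, zero_smul, sub_zero, smul_zero, add_zero,
    one_smul, zero_smul, sub_zero] at h2
  have h3 : a' • r' = 0 := by
    have h4 : p + 0 = p + a' • r' := by
      rw [add_zero]
      exact h2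
    exact (add_left_cancel h4).symm
  have ha0 : a' = 0 := by
    rcases smul_eq_zero.mp h3 with h4 | h4
    · exact h4
    · exact absurd h4 h'.r_ne
  apply sg_ne_one8 h 1 one_ne_zero
  apply io_ext8
  intro v
  rw [ha' v, ha0, zero_smul, add_zero, io_one_mulVec8]

theorem sg_rankOneCond8 {p r p' r' : Fin N ⊕ Fin N → F} (h : GoodLine8 p r)
    (h' : GoodLine8 p' r') (m11 : qB8 p p' = 1) (m12 : qB8 p r' = 0) (m21 : qB8 r p' = 0)
    (m22 : qB8 r r' = 1) : Cfsg.RankOneCondition (sgT8 p r) (sgT8 p' r') := by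
  have n11 : qB8 p' p = 1 := by rw [qB_comm8]; exact m11
  have n12 : qB8 r' p = 0 := by rw [qB_comm8]; exact m12
  have n21 : qB8 p' r = 0 := by rw [qB_comm8]; exact m21
  have n22 : qB8 r' r = 1 := by rw [qB_comm8]; exact m22
  intro a ha ha1
  obtain ⟨a₀, rfl⟩ := eq_sg_of_mem8 h a ha
  have ha0 : a₀ ≠ 0 := by
    intro h0
    apply ha1
    rw [h0, sg_zero8 h]
  obtain ⟨c, hc⟩ : ∃ c, c = a₀⁻¹ := ⟨_, rfl⟩
  have hca : c * a₀ = 1 := by rw [hc, inv_mul_cancel₀ ha0]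
  have hc0 : c ≠ 0 := by
    rw [hc]
    exact inv_ne_zero ha0
  refine ⟨sg8 p' r' (-c), sg_mem8 h' _, sg_ne_one8 h' _ (neg_ne_zero.mpr hc0), ?_⟩
  rw [sgT_conj8 h, sgT_conj8 h', sg_inv8 h', sg_inv8 h]
  have hL := goodLine_map8 h' (sg8 p r (-a₀))
  have eP : (sg8 p r (-a₀)).1.1 *ᵥ p' = p' - a₀ • r := by
    rw [sg_mulVec8 h, n11, n21]
    module
  have eR : (sg8 p r (-a₀)).1.1 *ᵥ r' = r' + a₀ • p := by
    rw [sg_mulVec8 h, n12, n22]
    module
  have e1 : (sg8 p' r' (- -c)).1.1 *ᵥ p = (0 : F) • ((sg8 p r (-a₀)).1.1 *ᵥ p') +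
      c • ((sg8 p r (-a₀)).1.1 *ᵥ r') := by
    rw [eP, eR, sg_mulVec8 h', m11, m12, smul_add c, smul_smul, hca]
    module
  have e2 : (sg8 p' r' (- -c)).1.1 *ᵥ r = (-c) • ((sg8 p r (-a₀)).1.1 *ᵥ p') +
      (0 : F) • ((sg8 p r (-a₀)).1.1 *ᵥ r') := by
    rw [eP, eR, sg_mulVec8 h', m21, m22, smul_sub (-c), smul_smul, neg_mul, hca]
    module
  rw [e1, e2]
  exact sgT_basis8 hL 0 c (-c) 0 (by
    have : (0 : F) * 0 - c * -c = c * c := by ring
    rw [this]
    exact mul_ne_zero hc0 hc0)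

theorem sgT_nilp8 {p r : Fin N ⊕ Fin N → F} (h : GoodLine8 p r) :
    Group.IsNilpotent (sgT8 p r) := by
  letI : CommGroup (sgT8 p r) := { (inferInstance : Group (sgT8 p r)) with
    mul_comm := fun a b => Subtype.ext (sgT_comm8 h a.1 b.1 a.2 b.2) }
  exact CommGroup.isNilpotent

theorem sg_rankOnePair8 {p r p' r' : Fin N ⊕ Fin N → F} (h : GoodLine8 p r)
    (h' : GoodLine8 p' r') (m11 : qB8 p p' = 1) (m12 : qB8 p r' = 0) (m21 : qB8 r p' = 0)
    (m22 : qB8 r r' = 1) : Cfsg.IsRankOnePair (sgT8 p r) (sgT8 p' r') := by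
  have n11 : qB8 p' p = 1 := by rw [qB_comm8]; exact m11
  have n12 : qB8 r' p = 0 := by rw [qB_comm8]; exact m12
  have n21 : qB8 p' r = 0 := by rw [qB_comm8]; exact m21
  have n22 : qB8 r' r = 1 := by rw [qB_comm8]; exact m22
  exact ⟨sgT_ne_opp8 h h' m11 m12, sgT_nilp8 h, sgT_nilp8 h',
    sg_rankOneCond8 h h' m11 m12 m21 m22, sg_rankOneCond8 h' h n11 n21 n12 n22⟩

end or8c

end Cfsg.Agent.Lib.Helper8
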