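import Mathlib
import Cfsg.Agent.Lib.Helper8.SP1

set_option autoImplicit false

namespace Cfsg.Agent.Lib.Helper8

open Matrix Cfsg.Agent.Lib.Lead

section sp8b

variable {l : Type*} [DecidableEq l] [Fintype l] {F : Type*} [Field F]

/-- The fixed space of a symplectic map. -/
def spFix8 (g : symplecticGroup l F) : Submodule F (l ⊕ l → F) where
  carrier := {v | (g : Matrix (l ⊕ l) (l ⊕ l) F) *ᵥ v = v}
  add_mem' := by
    intro a b ha hb
    have ha' : (g : Matrix (l ⊕ l) (l ⊕ l) F) *ᵥ a = a := ha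
    have hb' : (g : Matrix (l ⊕ l) (l ⊕ l) F) *ᵥ b = b := hb
    show (g : Matrix (l ⊕ l) (l ⊕ l) F) *ᵥ (a + b) = a + b
    rw [mulVec_add, ha', hb']
  zero_mem' := mulVec_zero _
  smul_mem' := by
    intro c a ha
    have ha' : (g : Matrix (l ⊕ l) (l ⊕ l) F) *ᵥ a = a := ha
    show (g : Matrix (l ⊕ l) (l ⊕ l) F) *ᵥ (c • a) = c • a
    rw [mulVec_smul, ha']

theorem mem_spFix8 (g : symplecticGroup l F) (v : l ⊕ l → F) :
    v ∈ spFix8 g ↔ (g : Matrix (l ⊕ l) (l ⊕ l) F) *ᵥ v = v := Iff.rfl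

theorem sp_step8 (T : Subgroup (symplecticGroup l F))
    (hT : ∀ (u : l ⊕ l → F) (c : F), spg8 u c ∈ T)
    (g : symplecticGroup l F) (v : l ⊕ l → F)
    (hv : (g : Matrix (l ⊕ l) (l ⊕ l) F) *ᵥ v ≠ v) :
    ∃ τ ∈ T, spFix8 g ≤ spFix8 (τ * g) ∧ v ∈ spFix8 (τ * g) := by
  obtain ⟨gv, hgv⟩ : ∃ gv, gv = (g : Matrix (l ⊕ l) (l ⊕ l) F) *ᵥ v := ⟨_, rfl⟩
  rw [← hgv] at hv
  have hfix : ∀ w x, (g : Matrix (l ⊕ l) (l ⊕ l) F) *ᵥ w = w →
      spB w ((g : Matrix (l ⊕ l) (l ⊕ l) F) *ᵥ x) = spB w x := by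
    intro w x hw
    have h := spB_map8 g w x
    rw [hw] at h
    exact h
  by_cases h0 : spB gv v ≠ 0
  · refine ⟨spg8 (gv - v) (spB gv v)⁻¹, hT _ _, ?_, ?_⟩
    · intro w hw
      rw [mem_spFix8] at hw ⊢
      rw [sp_mul_mulVec8, hw, spg_mulVec8, spB_sub_right8, hgv, hfix w v hw, sub_self, mul_zero,
        zero_smul, add_zero]
    · rw [mem_spFix8, sp_mul_mulVec8, ← hgv, spg_mulVec8, spB_sub_right8, spB_self, zero_sub,
        mul_neg, inv_mul_cancel₀ h0, neg_smul, one_smul]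
      abel
  · push Not at h0
    have hne : v - gv ≠ 0 := sub_ne_zero.mpr (Ne.symm hv)
    obtain ⟨x2, hx2⟩ := exists_spB_ne (v - gv) hne
    obtain ⟨x1, hx1⟩ : ∃ x1, spB ((g : Matrix (l ⊕ l) (l ⊕ l) F) *ᵥ x1 - x1) v ≠ 0 := by
      refine ⟨((g⁻¹ : symplecticGroup l F) : Matrix (l ⊕ l) (l ⊕ l) F) *ᵥ x2, ?_⟩
      rw [sp_mul_inv_mulVec8, spB_sub_left, spB_inv_left8, ← hgv, ← spB_sub_right8]
      exact hx2
    obtain ⟨x, hxa, hxb⟩ : ∃ x, spB ((g : Matrix (l ⊕ l) (l ⊕ l) F) *ᵥ x - x) v ≠ 0 ∧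
        spB x (v - gv) ≠ 0 := by
      by_cases h1 : spB x1 (v - gv) ≠ 0
      · exact ⟨x1, hx1, h1⟩
      · by_cases h2 : spB ((g : Matrix (l ⊕ l) (l ⊕ l) F) *ᵥ x2 - x2) v ≠ 0
        · exact ⟨x2, h2, hx2⟩
        · push Not at h1 h2
          refine ⟨x1 + x2, ?_, ?_⟩
          · have e : (g : Matrix (l ⊕ l) (l ⊕ l) F) *ᵥ (x1 + x2) - (x1 + x2) =
                ((g : Matrix (l ⊕ l) (l ⊕ l) F) *ᵥ x1 - x1) +
                  ((g : Matrix (l ⊕ l) (l ⊕ l) F) *ᵥ x2 - x2) := by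
              rw [mulVec_add]
              abel
            rw [e, spB_add_left, h2, add_zero]
            exact hx1
          · rw [spB_add_left, h1, zero_add]
            exact hx2
    obtain ⟨gx, hgx⟩ : ∃ gx, gx = (g : Matrix (l ⊕ l) (l ⊕ l) F) *ᵥ x := ⟨_, rfl⟩
    rw [← hgx] at hxa
    obtain ⟨s, hs⟩ : ∃ s, s = gx - x := ⟨_, rfl⟩
    obtain ⟨z, hz⟩ : ∃ z, z = v + s := ⟨_, rfl⟩
    have e1 : spB gv gx = spB v x := by
      rw [hgv, hgx]
      exact spB_map8 g v x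
    have e2 : spB v x = - spB x v := spB_swap v x
    have e3 : spB gv x = - spB x gv := spB_swap gv x
    have hk1 : spB gv (z - gv) = - spB x (v - gv) := by
      rw [hz, hs]
      simp only [spB_sub_right8, spB_add_right, spB_self, h0, e1]
      linear_combination e2 - e3
    have hk2 : spB z (v - z) = spB (gx - x) v := by
      rw [spB_sub_right8, spB_self, sub_zero, hz, spB_add_left, spB_self, zero_add, hs]
    have hκ1 : spB gv (z - gv) ≠ 0 := by
      rw [hk1]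
      exact neg_ne_zero.mpr hxb
    have hκ2 : spB z (v - z) ≠ 0 := by
      rw [hk2]
      exact hxa
    have hτ1 : ((spg8 (z - gv) (spB gv (z - gv))⁻¹ : symplecticGroup l F) :
        Matrix (l ⊕ l) (l ⊕ l) F) *ᵥ gv = z := by
      rw [spg_mulVec8, inv_mul_cancel₀ hκ1, one_smul]
      abel
    have hτ2 : ((spg8 (v - z) (spB z (v - z))⁻¹ : symplecticGroup l F) :
        Matrix (l ⊕ l) (l ⊕ l) F) *ᵥ z = v := by
      rw [spg_mulVec8, inv_mul_cancel₀ hκ2, one_smul]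
      abel
    have hW : ∀ w, (g : Matrix (l ⊕ l) (l ⊕ l) F) *ᵥ w = w →
        spB w (z - gv) = 0 ∧ spB w (v - z) = 0 := by
      intro w hw
      have a1 : spB w gx = spB w x := by
        rw [hgx]
        exact hfix w x hw
      have a2 : spB w gv = spB w v := by
        rw [hgv]
        exact hfix w v hw
      constructor
      · rw [hz, hs]
        simp only [spB_sub_right8, spB_add_right, a1, a2]
        ring
      · rw [hz, hs]
        simp only [spB_sub_right8, spB_add_right, a1]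
        ring
    refine ⟨spg8 (v - z) (spB z (v - z))⁻¹ * spg8 (z - gv) (spB gv (z - gv))⁻¹,
      T.mul_mem (hT _ _) (hT _ _), ?_, ?_⟩
    · intro w hw
      rw [mem_spFix8] at hw ⊢
      have t1 : ((spg8 (z - gv) (spB gv (z - gv))⁻¹ : symplecticGroup l F) :
          Matrix (l ⊕ l) (l ⊕ l) F) *ᵥ w = w := by
        rw [spg_mulVec8, (hW w hw).1, mul_zero, zero_smul, add_zero]
      have t2 : ((spg8 (v - z) (spB z (v - z))⁻¹ : symplecticGroup l F) :
          Matrix (l ⊕ l) (l ⊕ l) F) *ᵥ w = w := by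
        rw [spg_mulVec8, (hW w hw).2, mul_zero, zero_smul, add_zero]
      rw [sp_mul_mulVec8, sp_mul_mulVec8, hw, t1, t2]
    · rw [mem_spFix8, sp_mul_mulVec8, sp_mul_mulVec8, ← hgv, hτ1, hτ2]

/-- The symplectic group is generated by transvections. -/
theorem sp_gen8 (T : Subgroup (symplecticGroup l F))
    (hT : ∀ (u : l ⊕ l → F) (c : F), spg8 u c ∈ T) : T = ⊤ := by
  have key : ∀ (W : Submodule F (l ⊕ l → F)) (g : symplecticGroup l F),
      spFix8 g = W → g ∈ T := by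
    intro W
    refine WellFoundedGT.induction
      (motive := fun W => ∀ g : symplecticGroup l F, spFix8 g = W → g ∈ T) W ?_
    intro W ih g hg
    by_cases hall : ∀ v, (g : Matrix (l ⊕ l) (l ⊕ l) F) *ᵥ v = v
    · have h1 : g = 1 := sp_ext8 g 1 (fun v => by rw [hall v, sp_one_mulVec8])
      rw [h1]
      exact T.one_mem
    · push Not at hall
      obtain ⟨v, hv⟩ := hall
      obtain ⟨τ, hτ, hle, hvmem⟩ := sp_step8 T hT g v hv
      have hlt : W < spFix8 (τ * g) := by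
        rw [← hg]
        refine lt_of_le_of_ne hle ?_
        intro heq
        have h2 : v ∈ spFix8 g := by
          rw [heq]
          exact hvmem
        exact hv h2
      have h1 := ih (spFix8 (τ * g)) hlt (τ * g) rfl
      have h3 : g = τ⁻¹ * (τ * g) := by group
      rw [h3]
      exact T.mul_mem (T.inv_mem hτ) h1
  rw [eq_top_iff]
  intro g _
  exact key _ g rfl

end sp8b

end Cfsg.Agent.Lib.Helper8
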