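import Mathlib
import Cfsg.Prelude.Def_RootSubgroups
import Cfsg.Agent.Lib.Helper8.SP2

set_option autoImplicit false

namespace Cfsg.Agent.Lib.Helper8

open Matrix Cfsg.Agent.Lib.Lead

open scoped commutatorElement

section sp8c

variable {l : Type*} [DecidableEq l] [Fintype l] {F : Type*} [Field F]

theorem spTg_conj_eq8 (p : l ⊕ l → F) (g : symplecticGroup l F) :
    Cfsg.conjBy (spTg8 p) g = spTg8 ((g : Matrix (l ⊕ l) (l ⊕ l) F) *ᵥ p) := spTg_conj8 p g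

theorem spg_comm_of8 (p r : l ⊕ l → F) (h : spB p r = 0) (c c' : F) :
    spg8 p c * spg8 r c' = spg8 r c' * spg8 p c := by
  have h' : spB r p = 0 := by rw [spB_swap, h, neg_zero]
  apply sp_ext8
  intro v
  simp only [sp_mul_mulVec8, spg_mulVec8, spB_add_left, spB_smul_left, h, h', mul_zero, add_zero]
  abel

theorem spTg_comm_bot8 (p r : l ⊕ l → F) (h : spB p r = 0) : ⁅spTg8 p, spTg8 r⁆ = ⊥ := by
  rw [Subgroup.commutator_eq_bot_iff_le_centralizer]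
  intro a ha
  rw [Subgroup.mem_centralizer_iff]
  intro b hb
  obtain ⟨c, rfl⟩ := eq_spg_of_mem8 p a ha
  obtain ⟨c', rfl⟩ := eq_spg_of_mem8 r b hb
  exact (spg_comm_of8 p r h c c').symm

theorem spTg_ne8 (p r : l ⊕ l → F) (hp : p ≠ 0) (hr : r ≠ 0) (h : spB p r ≠ 0) :
    spTg8 p ≠ spTg8 r := by
  intro heq
  have h1 : spg8 p 1 ∈ spTg8 r := heq ▸ spg_mem8 p 1
  obtain ⟨c', hc'⟩ := (mem_spTg8 r _).mp h1
  have h2 := hc' p
  rw [spg_mulVec8, spB_self, mul_zero, zero_smul, add_zero] at h2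
  have h3 : (c' * spB p r) • r = 0 := by
    have h4 : p + 0 = p + (c' * spB p r) • r := by
      rw [add_zero]
      exact h2
    exact (add_left_cancel h4).symm
  have hc0 : c' = 0 := by
    rcases smul_eq_zero.mp h3 with h4 | h4
    · rcases mul_eq_zero.mp h4 with h5 | h5
      · exact h5
      · exact absurd h5 h
    · exact absurd h4 hr
  apply spg_ne_one8 p hp 1 one_ne_zero
  apply sp_ext8
  intro v
  rw [hc' v, hc0, zero_mul, zero_smul, add_zero, sp_one_mulVec8]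

theorem sp_rankOneCond8 (p r : l ⊕ l → F) (hr : r ≠ 0) (h : spB p r ≠ 0) :
    Cfsg.RankOneCondition (spTg8 p) (spTg8 r) := by
  intro a ha ha1
  obtain ⟨c, rfl⟩ := eq_spg_of_mem8 p a ha
  have hc : c ≠ 0 := by
    intro h0
    apply ha1
    rw [h0, spg_zero8]
  obtain ⟨ε, hε⟩ : ∃ ε, ε = spB p r := ⟨_, rfl⟩
  rw [← hε] at h
  have hε' : spB r p = -ε := by rw [spB_swap, hε]
  obtain ⟨c', hc'⟩ : ∃ c', c' = -(c * ε * ε)⁻¹ := ⟨_, rfl⟩
  have hc'0 : c' ≠ 0 := by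
    rw [hc']
    exact neg_ne_zero.mpr (inv_ne_zero (mul_ne_zero (mul_ne_zero hc h) h))
  refine ⟨spg8 r c', spg_mem8 r c', spg_ne_one8 r hr c' hc'0, ?_⟩
  rw [spTg_conj_eq8, spTg_conj_eq8, spg_inv8, spg_inv8, spg_mulVec8, spg_mulVec8, ← hε, hε']
  have e : r + (-c * -ε) • p = (c * ε) • (p + (-c' * ε) • r) := by
    rw [smul_add, smul_smul, hc']
    have h5 : c * ε * (- -(c * ε * ε)⁻¹ * ε) = 1 := by
      field_simp
    rw [h5, one_smul, neg_mul_neg, add_comm]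
  rw [e, spTg_smul8 _ _ (mul_ne_zero hc h)]

theorem spTg_nilp8 (p : l ⊕ l → F) : Group.IsNilpotent (spTg8 p) := by
  letI : CommGroup (spTg8 p) := { (inferInstance : Group (spTg8 p)) with
    mul_comm := fun a b => Subtype.ext (spTg_comm8 p a.1 b.1 a.2 b.2) }
  exact CommGroup.isNilpotent

theorem spTg_isComm8 (p : l ⊕ l → F) : IsMulCommutative (spTg8 p) :=
  ⟨⟨fun a b => Subtype.ext (spTg_comm8 p a.1 b.1 a.2 b.2)⟩⟩

theorem sp_rankOnePair8 (p r : l ⊕ l → F) (hp : p ≠ 0) (hr : r ≠ 0) (h : spB p r ≠ 0) :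
    Cfsg.IsRankOnePair (spTg8 p) (spTg8 r) := by
  have h' : spB r p ≠ 0 := by
    rw [spB_swap]
    exact neg_ne_zero.mpr h
  exact ⟨spTg_ne8 p r hp hr h, spTg_nilp8 p, spTg_nilp8 r, sp_rankOneCond8 p r hr h,
    sp_rankOneCond8 r p hp h'⟩

theorem sp_rankOne_ne8 (p r : l ⊕ l → F) (hp : p ≠ 0)
    (h : Cfsg.IsRankOnePair (spTg8 p) (spTg8 r)) : spB p r ≠ 0 := by
  intro h0
  have h0' : spB r p = 0 := by rw [spB_swap, h0, neg_zero]
  obtain ⟨b, hb, -, hconj⟩ := h.cond_left (spg8 p 1) (spg_mem8 p 1)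
    (spg_ne_one8 p hp 1 one_ne_zero)
  obtain ⟨c', rfl⟩ := eq_spg_of_mem8 r b hb
  rw [spTg_conj_eq8, spTg_conj_eq8, spg_inv8, spg_inv8, spg_mulVec8, spg_mulVec8, h0, h0',
    mul_zero, mul_zero, zero_smul, zero_smul, add_zero, add_zero] at hconj
  exact h.ne hconj

theorem sp_exists_mid8 (p r : l ⊕ l → F) (hp : p ≠ 0) (hr : r ≠ 0) :
    ∃ z : l ⊕ l → F, z ≠ 0 ∧ spB p z ≠ 0 ∧ spB z r ≠ 0 := by
  obtain ⟨x, hx⟩ := exists_spB_ne p hp
  obtain ⟨y, hy⟩ := exists_spB_ne r hr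
  have key : ∃ z, spB z p ≠ 0 ∧ spB z r ≠ 0 := by
    by_cases h1 : spB x r ≠ 0
    · exact ⟨x, hx, h1⟩
    · by_cases h2 : spB y p ≠ 0
      · exact ⟨y, h2, hy⟩
      · push Not at h1 h2
        refine ⟨x + y, ?_, ?_⟩
        · rw [spB_add_left, h2, add_zero]
          exact hx
        · rw [spB_add_left, h1, zero_add]
          exact hy
  obtain ⟨z, hz1, hz2⟩ := key
  refine ⟨z, ?_, ?_, hz2⟩
  · intro h0
    rw [h0] at hz2
    apply hz2
    unfold spB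
    rw [zero_dotProduct]
  · rw [spB_swap]
    exact neg_ne_zero.mpr hz1

theorem sp_conj_class8 (p r : l ⊕ l → F) (hp : p ≠ 0) (hr : r ≠ 0) :
    ∃ g : symplecticGroup l F, spTg8 r = Cfsg.conjBy (spTg8 p) g := by
  obtain ⟨g, hg⟩ := sp_trans p r hp hr
  exact ⟨g, by rw [spTg_conj_eq8, hg]⟩

theorem sp_not_commCase8 (p r q : l ⊕ l → F) (hp : p ≠ 0) (hq : q ≠ 0)
    (h : spB p r ≠ 0) (hcomm : ⁅spTg8 p, spTg8 r⁆ = spTg8 q)
    (hcent : ∀ c ∈ ⁅spTg8 p, spTg8 r⁆, ∀ x ∈ spTg8 p ⊔ spTg8 r, c * x = x * c) : False := by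
  have ht : spg8 q 1 ∈ ⁅spTg8 p, spTg8 r⁆ := by
    rw [hcomm]
    exact spg_mem8 q 1
  have key : ∀ u : l ⊕ l → F, spg8 q 1 * spg8 u 1 = spg8 u 1 * spg8 q 1 → spB u q = 0 := by
    intro u hu
    have e1 : ((spg8 u 1 : symplecticGroup l F) : Matrix (l ⊕ l) (l ⊕ l) F) *ᵥ q =
        q + spB q u • u := by
      rw [spg_mulVec8, one_mul]
    have e2 : ((spg8 q 1 : symplecticGroup l F) : Matrix (l ⊕ l) (l ⊕ l) F) *ᵥ q = q := by
      rw [spg_mulVec8, spB_self, mul_zero, zero_smul, add_zero]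
    have e3 : ((spg8 q 1 * spg8 u 1 : symplecticGroup l F) : Matrix (l ⊕ l) (l ⊕ l) F) *ᵥ q =
        q + spB q u • u + (spB q u * spB u q) • q := by
      rw [sp_mul_mulVec8, e1, spg_mulVec8, one_mul, spB_add_left, spB_smul_left, spB_self,
        zero_add]
    have e4 : ((spg8 u 1 * spg8 q 1 : symplecticGroup l F) : Matrix (l ⊕ l) (l ⊕ l) F) *ᵥ q =
        q + spB q u • u := by
      rw [sp_mul_mulVec8, e2, e1]
    rw [hu, e4] at e3
    have e5 : (spB q u * spB u q) • q = 0 := by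
      have e6 : q + spB q u • u + 0 = q + spB q u • u + (spB q u * spB u q) • q := by
        rw [add_zero]
        exact e3
      exact (add_left_cancel e6).symm
    rcases smul_eq_zero.mp e5 with h6 | h6
    · rcases mul_eq_zero.mp h6 with h7 | h7
      · rw [spB_swap, h7, neg_zero]
      · exact h7
    · exact absurd h6 hq
  have hpq : spB p q = 0 :=
    key p (hcent _ ht (spg8 p 1) (Subgroup.mem_sup_left (spg_mem8 p 1)))
  have hrq : spB r q = 0 :=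
    key r (hcent _ ht (spg8 r 1) (Subgroup.mem_sup_right (spg_mem8 r 1)))
  have hk0 : ⁅spg8 p 1, spg8 r 1⁆ ∈ spTg8 q := by
    rw [← hcomm]
    exact Subgroup.commutator_mem_commutator (spg_mem8 p 1) (spg_mem8 r 1)
  obtain ⟨c'', hk⟩ := (mem_spTg8 q _).mp hk0
  have hid : ⁅spg8 p 1, spg8 r 1⁆ * (spg8 r 1 * spg8 p 1) = spg8 p 1 * spg8 r 1 := by
    rw [commutatorElement_def]
    group
  have ea : ((spg8 p 1 : symplecticGroup l F) : Matrix (l ⊕ l) (l ⊕ l) F) *ᵥ p = p := by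
    rw [spg_mulVec8, spB_self, mul_zero, zero_smul, add_zero]
  have eb : ((spg8 r 1 : symplecticGroup l F) : Matrix (l ⊕ l) (l ⊕ l) F) *ᵥ p =
      p + spB p r • r := by
    rw [spg_mulVec8, one_mul]
  have lhs : ((⁅spg8 p 1, spg8 r 1⁆ : symplecticGroup l F) : Matrix (l ⊕ l) (l ⊕ l) F) *ᵥ
      (p + spB p r • r) = p + spB p r • r := by
    rw [hk, spB_add_left, spB_smul_left, hpq, hrq, mul_zero, add_zero, mul_zero, zero_smul,
      add_zero]
  have rhs : ((spg8 p 1 : symplecticGroup l F) : Matrix (l ⊕ l) (l ⊕ l) F) *ᵥ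
      (p + spB p r • r) = p + spB p r • r + (spB p r * spB r p) • p := by
    rw [spg_mulVec8, one_mul, spB_add_left, spB_smul_left, spB_self, zero_add]
  have e7 : ((⁅spg8 p 1, spg8 r 1⁆ * (spg8 r 1 * spg8 p 1) : symplecticGroup l F) :
      Matrix (l ⊕ l) (l ⊕ l) F) *ᵥ p =
      ((spg8 p 1 * spg8 r 1 : symplecticGroup l F) : Matrix (l ⊕ l) (l ⊕ l) F) *ᵥ p := by
    rw [hid]
  rw [sp_mul_mulVec8, sp_mul_mulVec8, sp_mul_mulVec8, ea, eb, lhs, rhs] at e7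
  have e8 : (spB p r * spB r p) • p = 0 := by
    have e9 : p + spB p r • r + 0 = p + spB p r • r + (spB p r * spB r p) • p := by
      rw [add_zero]
      exact e7
    exact (add_left_cancel e9).symm
  rcases smul_eq_zero.mp e8 with h6 | h6
  · rcases mul_eq_zero.mp h6 with h7 | h7
    · exact h h7
    · apply h
      rw [spB_swap, h7, neg_zero]
  · exact hp h6

end sp8c

end Cfsg.Agent.Lib.Helper8
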