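import Mathlib
import Cfsg.Prelude.Def_RootSubgroups
import Cfsg.Agent.Lib.Helper3.SLGen2
import Cfsg.Agent.Lib.Helper8.SP3

set_option autoImplicit false

namespace Cfsg.Agent.Lib.Helper8

open Matrix Cfsg.Agent.Lib.Lead

section sp8d

variable {l : Type*} [DecidableEq l] [Fintype l] {F : Type*} [Field F]

/-- The matrix of the action of a `2 × 2` matrix on the hyperbolic plane `⟨p, r⟩`. -/
def spPhi8 (p r : l ⊕ l → F) (M : Matrix (Fin 2) (Fin 2) F) : Matrix (l ⊕ l) (l ⊕ l) F :=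
  1 + vecMulVec ((M 0 0 - 1) • p + M 1 0 • r) (J l F *ᵥ r) -
    vecMulVec (M 0 1 • p + (M 1 1 - 1) • r) (J l F *ᵥ p)

theorem spPhi_mulVec8 (p r : l ⊕ l → F) (M : Matrix (Fin 2) (Fin 2) F) (v : l ⊕ l → F) :
    spPhi8 p r M *ᵥ v = v + spB v r • ((M 0 0 - 1) • p + M 1 0 • r) -
      spB v p • (M 0 1 • p + (M 1 1 - 1) • r) := by
  unfold spPhi8
  rw [sub_mulVec, add_mulVec, one_mulVec, vecMulVec_mulVec, vecMulVec_mulVec, op_smul_eq_smul,
    op_smul_eq_smul, dotProduct_comm (J l F *ᵥ r) v, dotProduct_comm (J l F *ᵥ p) v]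
  rfl

theorem spPhi_mul8 (p r : l ⊕ l → F) (hpr : spB p r = 1) (M N : Matrix (Fin 2) (Fin 2) F) :
    spPhi8 p r (M * N) = spPhi8 p r M * spPhi8 p r N := by
  have hrp : spB r p = -1 := by rw [spB_swap, hpr]
  apply mat_ext_mulVec8
  intro v
  rw [← mulVec_mulVec, spPhi_mulVec8, spPhi_mulVec8, spPhi_mulVec8]
  simp only [spB_add_left, spB_sub_left, spB_smul_left, spB_self, hpr, hrp, Matrix.mul_apply,
    Fin.sum_univ_two]
  module

theorem spPhi_one8 (p r : l ⊕ l → F) : spPhi8 p r 1 = 1 := by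
  apply mat_ext_mulVec8
  intro v
  rw [spPhi_mulVec8, one_mulVec]
  simp

theorem sp_mem_of_spB8 (A : Matrix (l ⊕ l) (l ⊕ l) F)
    (h : ∀ v w, spB (A *ᵥ v) (A *ᵥ w) = spB v w) : A ∈ symplecticGroup l F := by
  rw [SymplecticGroup.mem_iff']
  apply mat_ext_mulVec8
  intro w
  funext i
  have h1 := h (Pi.single i 1) w
  have e : spB (A *ᵥ Pi.single i 1) (A *ᵥ w) =
      (Pi.single i (1 : F) : l ⊕ l → F) ⬝ᵥ (Aᵀ * J l F * A) *ᵥ w := by
    rw [Matrix.mul_assoc, ← mulVec_mulVec, dotProduct_mulVec, vecMul_transpose, ← mulVec_mulVec]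
    rfl
  rw [e] at h1
  unfold spB at h1
  rw [single_dotProduct, single_dotProduct, one_mul, one_mul] at h1
  exact h1

theorem spPhi_spB8 (p r : l ⊕ l → F) (hpr : spB p r = 1) (M : Matrix (Fin 2) (Fin 2) F)
    (hM : M 0 0 * M 1 1 - M 0 1 * M 1 0 = 1) (v w : l ⊕ l → F) :
    spB (spPhi8 p r M *ᵥ v) (spPhi8 p r M *ᵥ w) = spB v w := by
  have hrp : spB r p = -1 := by rw [spB_swap, hpr]
  have e1 : spB p w = - spB w p := spB_swap p w
  have e2 : spB r w = - spB w r := spB_swap r w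
  rw [spPhi_mulVec8, spPhi_mulVec8]
  simp only [spB_add_left, spB_sub_left, spB_smul_left, spB_add_right, spB_sub_right8,
    spB_smul_right, spB_self, hpr, hrp, e1, e2]
  linear_combination (spB w r * spB v p - spB v r * spB w p) * hM

/-- The homomorphism from `SL₂(F)` attached to a hyperbolic pair. -/
noncomputable def spHom8 (p r : l ⊕ l → F) (hpr : spB p r = 1) :
    Matrix.SpecialLinearGroup (Fin 2) F →* symplecticGroup l F where
  toFun M := ⟨spPhi8 p r (M : Matrix (Fin 2) (Fin 2) F),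
    sp_mem_of_spB8 _ (spPhi_spB8 p r hpr _ (by
      have h := M.2
      rw [Matrix.det_fin_two] at h
      exact h))⟩
  map_one' := Subtype.ext (spPhi_one8 p r)
  map_mul' M N := Subtype.ext (spPhi_mul8 p r hpr _ _)

theorem spHom_mulVec8 (p r : l ⊕ l → F) (hpr : spB p r = 1)
    (M : Matrix.SpecialLinearGroup (Fin 2) F) (v : l ⊕ l → F) :
    ((spHom8 p r hpr M : symplecticGroup l F) : Matrix (l ⊕ l) (l ⊕ l) F) *ᵥ v =
      v + spB v r • (((M : Matrix (Fin 2) (Fin 2) F) 0 0 - 1) • p +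
        (M : Matrix (Fin 2) (Fin 2) F) 1 0 • r) -
      spB v p • ((M : Matrix (Fin 2) (Fin 2) F) 0 1 • p +
        ((M : Matrix (Fin 2) (Fin 2) F) 1 1 - 1) • r) :=
  spPhi_mulVec8 p r _ v

theorem spHom_upper8 (p r : l ⊕ l → F) (hpr : spB p r = 1)
    (g : Matrix.SpecialLinearGroup (Fin 2) F)
    (h10 : (g : Matrix (Fin 2) (Fin 2) F) 1 0 = 0) (h00 : (g : Matrix (Fin 2) (Fin 2) F) 0 0 = 1)
    (h11 : (g : Matrix (Fin 2) (Fin 2) F) 1 1 = 1) :
    spHom8 p r hpr g = spg8 p (-((g : Matrix (Fin 2) (Fin 2) F) 0 1)) := by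
  apply sp_ext8
  intro v
  rw [spHom_mulVec8, spg_mulVec8, h10, h00, h11]
  module

theorem spHom_lower8 (p r : l ⊕ l → F) (hpr : spB p r = 1)
    (g : Matrix.SpecialLinearGroup (Fin 2) F)
    (h01 : (g : Matrix (Fin 2) (Fin 2) F) 0 1 = 0) (h00 : (g : Matrix (Fin 2) (Fin 2) F) 0 0 = 1)
    (h11 : (g : Matrix (Fin 2) (Fin 2) F) 1 1 = 1) :
    spHom8 p r hpr g = spg8 r ((g : Matrix (Fin 2) (Fin 2) F) 1 0) := by
  apply sp_ext8
  intro v
  rw [spHom_mulVec8, spg_mulVec8, h01, h00, h11]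
  module

/-- upper unitriangular element -/
def slU8 (c : F) : Matrix.SpecialLinearGroup (Fin 2) F :=
  ⟨!![1, c; 0, 1], by simp [Matrix.det_fin_two]⟩

/-- lower unitriangular element -/
def slL8 (c : F) : Matrix.SpecialLinearGroup (Fin 2) F :=
  ⟨!![1, 0; c, 1], by simp [Matrix.det_fin_two]⟩

theorem spHom_slU8 (p r : l ⊕ l → F) (hpr : spB p r = 1) (c : F) :
    spHom8 p r hpr (slU8 c) = spg8 p (-c) :=
  spHom_upper8 p r hpr (slU8 c) rfl rfl rfl

theorem spHom_slL8 (p r : l ⊕ l → F) (hpr : spB p r = 1) (c : F) :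
    spHom8 p r hpr (slL8 c) = spg8 r c :=
  spHom_lower8 p r hpr (slL8 c) rfl rfl rfl

theorem spHom_ker8 (p r : l ⊕ l → F) (hpr : spB p r = 1)
    (M : Matrix.SpecialLinearGroup (Fin 2) F) (hM : spHom8 p r hpr M = 1) : M = 1 := by
  have hrp : spB r p = -1 := by rw [spB_swap, hpr]
  have h1 := spHom_mulVec8 p r hpr M p
  have h2 := spHom_mulVec8 p r hpr M r
  rw [hM, sp_one_mulVec8, hpr, spB_self, one_smul, zero_smul, sub_zero] at h1
  rw [hM, sp_one_mulVec8, hrp, spB_self, zero_smul, add_zero, neg_smul, one_smul,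
    sub_neg_eq_add] at h2
  have e1 : ((M : Matrix (Fin 2) (Fin 2) F) 0 0 - 1) • p +
      (M : Matrix (Fin 2) (Fin 2) F) 1 0 • r = 0 := by
    have e : p + 0 = p + (((M : Matrix (Fin 2) (Fin 2) F) 0 0 - 1) • p +
        (M : Matrix (Fin 2) (Fin 2) F) 1 0 • r) := by
      rw [add_zero]
      exact h1
    exact (add_left_cancel e).symm
  have e2 : (M : Matrix (Fin 2) (Fin 2) F) 0 1 • p +
      ((M : Matrix (Fin 2) (Fin 2) F) 1 1 - 1) • r = 0 := by
    have e : r + 0 = r + ((M : Matrix (Fin 2) (Fin 2) F) 0 1 • p +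
        ((M : Matrix (Fin 2) (Fin 2) F) 1 1 - 1) • r) := by
      rw [add_zero]
      exact h2
    exact (add_left_cancel e).symm
  have a1 := congrArg (fun z => spB z r) e1
  have a2 := congrArg (fun z => spB z p) e1
  have a3 := congrArg (fun z => spB z r) e2
  have a4 := congrArg (fun z => spB z p) e2
  have z0 : ∀ y : l ⊕ l → F, spB 0 y = 0 := fun y => by
    unfold spB
    rw [zero_dotProduct]
  simp only [spB_add_left, spB_smul_left, spB_self, hpr, hrp, z0, mul_zero, mul_one, add_zero,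
    zero_add, mul_neg, neg_eq_zero] at a1 a2 a3 a4
  have h00 : (M : Matrix (Fin 2) (Fin 2) F) 0 0 = 1 := sub_eq_zero.mp a1
  have h11 : (M : Matrix (Fin 2) (Fin 2) F) 1 1 = 1 := sub_eq_zero.mp a4
  ext i j
  fin_cases i <;> fin_cases j <;> simp [h00, h11, a2, a3]

theorem sp_psl2pair8 (p r : l ⊕ l → F) (hpr : spB p r = 1) :
    Cfsg.IsPSL2PairOver F (spTg8 p) (spTg8 r) := by
  refine ⟨spHom8 p r hpr, ?_, ?_, ?_, ?_⟩
  · apply le_antisymm
    · rintro _ ⟨M, rfl⟩
      have htop : (spTg8 p ⊔ spTg8 r).comap (spHom8 p r hpr) = ⊤ := by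
        apply Cfsg.Agent.Lib.Helper3.slg_top_gen
        intro i j hij c
        rw [Subgroup.mem_comap]
        fin_cases i <;> fin_cases j
        · exact absurd rfl hij
        · apply Subgroup.mem_sup_left
          rw [spHom_upper8 p r hpr _ (by simp [Matrix.SpecialLinearGroup.transvection_coe,
            Matrix.one_apply, Matrix.single_apply]) (by simp [Matrix.SpecialLinearGroup.transvection_coe,
            Matrix.one_apply, Matrix.single_apply]) (by simp [Matrix.SpecialLinearGroup.transvection_coe,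
            Matrix.one_apply, Matrix.single_apply])]
          exact spg_mem8 _ _
        · apply Subgroup.mem_sup_right
          rw [spHom_lower8 p r hpr _ (by simp [Matrix.SpecialLinearGroup.transvection_coe,
            Matrix.one_apply, Matrix.single_apply]) (by simp [Matrix.SpecialLinearGroup.transvection_coe,
            Matrix.one_apply, Matrix.single_apply]) (by simp [Matrix.SpecialLinearGroup.transvection_coe,
            Matrix.one_apply, Matrix.single_apply])]
          exact spg_mem8 _ _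
        · exact absurd rfl hij
      have hM : M ∈ (spTg8 p ⊔ spTg8 r).comap (spHom8 p r hpr) := by
        rw [htop]
        exact Subgroup.mem_top M
      exact hM
    · apply sup_le
      · intro g hg
        obtain ⟨c, rfl⟩ := eq_spg_of_mem8 p g hg
        exact ⟨slU8 (-c), by rw [spHom_slU8, neg_neg]⟩
      · intro g hg
        obtain ⟨c, rfl⟩ := eq_spg_of_mem8 r g hg
        exact ⟨slL8 c, spHom_slL8 p r hpr c⟩
  · intro M hM
    rw [spHom_ker8 p r hpr M hM]
    exact Subgroup.one_mem _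
  · apply le_antisymm
    · rw [Subgroup.map_le_iff_le_comap]
      unfold Cfsg.upperUnipotentSL2
      rw [Subgroup.closure_le]
      rintro g ⟨h10, h00, h11⟩
      show spHom8 p r hpr g ∈ spTg8 p
      rw [spHom_upper8 p r hpr g h10 h00 h11]
      exact spg_mem8 _ _
    · intro g hg
      obtain ⟨c, rfl⟩ := eq_spg_of_mem8 p g hg
      exact ⟨slU8 (-c), Subgroup.subset_closure ⟨rfl, rfl, rfl⟩, by
        show spHom8 p r hpr (slU8 (-c)) = _
        rw [spHom_slU8, neg_neg]⟩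
  · apply le_antisymm
    · rw [Subgroup.map_le_iff_le_comap]
      unfold Cfsg.lowerUnipotentSL2
      rw [Subgroup.closure_le]
      rintro g ⟨h01, h00, h11⟩
      show spHom8 p r hpr g ∈ spTg8 r
      rw [spHom_lower8 p r hpr g h01 h00 h11]
      exact spg_mem8 _ _
    · intro g hg
      obtain ⟨c, rfl⟩ := eq_spg_of_mem8 r g hg
      exact ⟨slL8 c, Subgroup.subset_closure ⟨rfl, rfl, rfl⟩, spHom_slL8 p r hpr c⟩

end sp8d

end Cfsg.Agent.Lib.Helper8
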