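import Mathlib
import Cfsg.Prelude.Def_Classical
import Cfsg.Prelude.Def_RootSubgroups
import Cfsg.Agent.Lib.Helper3.SLGen2
import Cfsg.Agent.Lib.Helper8.SP4
import Cfsg.Agent.Lib.Helper8.OR3

set_option autoImplicit false

namespace Cfsg.Agent.Lib.Helper8

open Matrix

section or8d

variable {N : ℕ} {F : Type*} [Field F]

/-- A hyperbolic quadruple: two opposite singular lines with dual bases. -/
structure OppPair8 (p r p' r' : Fin N ⊕ Fin N → F) : Prop where
  l1 : GoodLine8 p r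
  l2 : GoodLine8 p' r'
  m11 : qB8 p p' = 1
  m12 : qB8 p r' = 0
  m21 : qB8 r p' = 0
  m22 : qB8 r r' = 1

/-- The matrix of the action of a `2 × 2` matrix on the space spanned by a hyperbolic quadruple. -/
def orPhi8 (p r p' r' : Fin N ⊕ Fin N → F) (M : Matrix (Fin 2) (Fin 2) F) :
    Matrix (Fin N ⊕ Fin N) (Fin N ⊕ Fin N) F :=
  1 + vecMulVec ((M 0 0 - 1) • p + (-M 1 0) • r') (p' ∘ Sum.swap)
    + vecMulVec ((M 0 0 - 1) • r + M 1 0 • p') (r' ∘ Sum.swap)
    + vecMulVec (M 0 1 • r + (M 1 1 - 1) • p') (p ∘ Sum.swap)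
    + vecMulVec ((-M 0 1) • p + (M 1 1 - 1) • r') (r ∘ Sum.swap)

theorem orPhi_mulVec8 (p r p' r' : Fin N ⊕ Fin N → F) (M : Matrix (Fin 2) (Fin 2) F)
    (v : Fin N ⊕ Fin N → F) :
    orPhi8 p r p' r' M *ᵥ v = v + qB8 v p' • ((M 0 0 - 1) • p + (-M 1 0) • r')
      + qB8 v r' • ((M 0 0 - 1) • r + M 1 0 • p')
      + qB8 v p • (M 0 1 • r + (M 1 1 - 1) • p')
      + qB8 v r • ((-M 0 1) • p + (M 1 1 - 1) • r') := by
  unfold orPhi8
  rw [add_mulVec, add_mulVec, add_mulVec, add_mulVec, one_mulVec, vecMulVec_mulVec,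
    vecMulVec_mulVec, vecMulVec_mulVec, vecMulVec_mulVec, op_smul_eq_smul, op_smul_eq_smul,
    op_smul_eq_smul, op_smul_eq_smul, dotProduct_comm (p' ∘ Sum.swap) v,
    dotProduct_comm (r' ∘ Sum.swap) v, dotProduct_comm (p ∘ Sum.swap) v,
    dotProduct_comm (r ∘ Sum.swap) v]
  rfl

theorem orPhi_mul8 {p r p' r' : Fin N ⊕ Fin N → F} (h : OppPair8 p r p' r')
    (M M' : Matrix (Fin 2) (Fin 2) F) :
    orPhi8 p r p' r' (M * M') = orPhi8 p r p' r' M * orPhi8 p r p' r' M' := by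
  have n11 : qB8 p' p = 1 := by rw [qB_comm8]; exact h.m11
  have n12 : qB8 r' p = 0 := by rw [qB_comm8]; exact h.m12
  have n21 : qB8 p' r = 0 := by rw [qB_comm8]; exact h.m21
  have n22 : qB8 r' r = 1 := by rw [qB_comm8]; exact h.m22
  apply mat_ext_mulVec8
  intro v
  rw [← mulVec_mulVec, orPhi_mulVec8, orPhi_mulVec8, orPhi_mulVec8]
  simp only [qB_add_left8, qB_smul_left8, h.l1.bpp, h.l1.brr, h.l1.bpr, h.l1.brp, h.l2.bpp,
    h.l2.brr, h.l2.bpr, h.l2.brp, h.m11, h.m12, h.m21, h.m22, n11, n12, n21, n22,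
    Matrix.mul_apply, Fin.sum_univ_two]
  module

theorem orPhi_one8 (p r p' r' : Fin N ⊕ Fin N → F) : orPhi8 p r p' r' 1 = 1 := by
  apply mat_ext_mulVec8
  intro v
  rw [orPhi_mulVec8, one_mulVec]
  simp

theorem orPhi_Q8 {p r p' r' : Fin N ⊕ Fin N → F} (h : OppPair8 p r p' r')
    (M : Matrix (Fin 2) (Fin 2) F) (hM : M 0 0 * M 1 1 - M 0 1 * M 1 0 = 1)
    (v : Fin N ⊕ Fin N → F) :
    Cfsg.quadFormPlus N F (orPhi8 p r p' r' M *ᵥ v) = Cfsg.quadFormPlus N F v := by
  have n11 : qB8 p' p = 1 := by rw [qB_comm8]; exact h.m11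
  have n12 : qB8 r' p = 0 := by rw [qB_comm8]; exact h.m12
  have n21 : qB8 p' r = 0 := by rw [qB_comm8]; exact h.m21
  have n22 : qB8 r' r = 1 := by rw [qB_comm8]; exact h.m22
  rw [orPhi_mulVec8]
  simp only [Q_add8, Q_smul8, qB_add_left8, qB_smul_left8, qB_add_right8, qB_smul_right8,
    h.l1.qp, h.l1.qr, h.l2.qp, h.l2.qr, h.l1.bpp, h.l1.brr, h.l1.bpr, h.l1.brp, h.l2.bpp,
    h.l2.brr, h.l2.bpr, h.l2.brp, h.m11, h.m12, h.m21, h.m22, n11, n12, n21, n22]
  linear_combination (qB8 v p' * qB8 v p + qB8 v r' * qB8 v r) * hM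

theorem sl_inv_mul8 (M : Matrix.SpecialLinearGroup (Fin 2) F) :
    (M.1 * (M⁻¹).1 = 1) ∧ ((M⁻¹).1 * M.1 = 1) := by
  constructor
  · have h : (M * M⁻¹).1 = 1 := by rw [mul_inv_cancel]; rfl
    exact h
  · have h : (M⁻¹ * M).1 = 1 := by rw [inv_mul_cancel]; rfl
    exact h

/-- The homomorphism from `SL₂(F)` attached to a hyperbolic quadruple. -/
noncomputable def orHom8 {p r p' r' : Fin N ⊕ Fin N → F} (h : OppPair8 p r p' r') :
    Matrix.SpecialLinearGroup (Fin 2) F →* IO8 N F where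
  toFun M := ioMk8 (orPhi8 p r p' r' M.1) (orPhi8 p r p' r' (M⁻¹).1)
    (by rw [← orPhi_mul8 h, (sl_inv_mul8 M).1, orPhi_one8])
    (by rw [← orPhi_mul8 h, (sl_inv_mul8 M).2, orPhi_one8])
    (fun v => orPhi_Q8 h M.1 (by
      have hd := M.2
      rw [Matrix.det_fin_two] at hd
      exact hd) v)
  map_one' := Subtype.ext (Units.ext (orPhi_one8 p r p' r'))
  map_mul' M M' := Subtype.ext (Units.ext (orPhi_mul8 h M.1 M'.1))

theorem orHom_mulVec8 {p r p' r' : Fin N ⊕ Fin N → F} (h : OppPair8 p r p' r')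
    (M : Matrix.SpecialLinearGroup (Fin 2) F) (v : Fin N ⊕ Fin N → F) :
    (orHom8 h M).1.1 *ᵥ v = v + qB8 v p' • ((M.1 0 0 - 1) • p + (-M.1 1 0) • r')
      + qB8 v r' • ((M.1 0 0 - 1) • r + M.1 1 0 • p')
      + qB8 v p • (M.1 0 1 • r + (M.1 1 1 - 1) • p')
      + qB8 v r • ((-M.1 0 1) • p + (M.1 1 1 - 1) • r') :=
  orPhi_mulVec8 p r p' r' _ v

theorem orHom_upper8 {p r p' r' : Fin N ⊕ Fin N → F} (h : OppPair8 p r p' r')
    (g : Matrix.SpecialLinearGroup (Fin 2) F)
    (h10 : g.1 1 0 = 0) (h00 : g.1 0 0 = 1) (h11 : g.1 1 1 = 1) :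
    orHom8 h g = sg8 p r (g.1 0 1) := by
  apply io_ext8
  intro v
  rw [orHom_mulVec8, sg_mulVec8 h.l1, h10, h00, h11]
  module

theorem orHom_lower8 {p r p' r' : Fin N ⊕ Fin N → F} (h : OppPair8 p r p' r')
    (g : Matrix.SpecialLinearGroup (Fin 2) F)
    (h01 : g.1 0 1 = 0) (h00 : g.1 0 0 = 1) (h11 : g.1 1 1 = 1) :
    orHom8 h g = sg8 p' r' (-(g.1 1 0)) := by
  apply io_ext8
  intro v
  rw [orHom_mulVec8, sg_mulVec8 h.l2, h01, h00, h11]
  module

theorem orHom_slU8 {p r p' r' : Fin N ⊕ Fin N → F} (h : OppPair8 p r p' r') (c : F) :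
    orHom8 h (slU8 c) = sg8 p r c :=
  orHom_upper8 h (slU8 c) rfl rfl rfl

theorem orHom_slL8 {p r p' r' : Fin N ⊕ Fin N → F} (h : OppPair8 p r p' r') (c : F) :
    orHom8 h (slL8 c) = sg8 p' r' (-c) :=
  orHom_lower8 h (slL8 c) rfl rfl rfl

theorem orHom_ker8 {p r p' r' : Fin N ⊕ Fin N → F} (h : OppPair8 p r p' r')
    (M : Matrix.SpecialLinearGroup (Fin 2) F) (hM : orHom8 h M = 1) : M = 1 := by
  have n11 : qB8 p' p = 1 := by rw [qB_comm8]; exact h.m11
  have n12 : qB8 r' p = 0 := by rw [qB_comm8]; exact h.m12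
  have n21 : qB8 p' r = 0 := by rw [qB_comm8]; exact h.m21
  have n22 : qB8 r' r = 1 := by rw [qB_comm8]; exact h.m22
  have h1 := orHom_mulVec8 h M p'
  have h2 := orHom_mulVec8 h M r
  rw [hM, io_one_mulVec8, h.l2.bpp, h.l2.bpr, n11, n21, zero_smul, zero_smul, zero_smul, one_smul,
    add_zero, add_zero, add_zero] at h1
  rw [hM, io_one_mulVec8, h.m21, h.m22, h.l1.brp, h.l1.brr, zero_smul, zero_smul, zero_smul,
    one_smul, add_zero, add_zero, add_zero] at h2
  have e1 : M.1 0 1 • r + (M.1 1 1 - 1) • p' = 0 := by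
    have e : p' + 0 = p' + (M.1 0 1 • r + (M.1 1 1 - 1) • p') := by
      rw [add_zero]
      exact h1
    exact (add_left_cancel e).symm
  have e2 : (M.1 0 0 - 1) • r + M.1 1 0 • p' = 0 := by
    have e : r + 0 = r + ((M.1 0 0 - 1) • r + M.1 1 0 • p') := by
      rw [add_zero]
      exact h2
    exact (add_left_cancel e).symm
  have a1 := congrArg (fun z => qB8 z r') e1
  have a2 := congrArg (fun z => qB8 z p) e1
  have a3 := congrArg (fun z => qB8 z r') e2
  have a4 := congrArg (fun z => qB8 z p) e2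
  simp only [qB_add_left8, qB_smul_left8, h.m22, h.l2.bpr, h.l1.brp, n11, qB_zero_left8, mul_zero,
    mul_one, add_zero, zero_add] at a1 a2 a3 a4
  have h00 : M.1 0 0 = 1 := sub_eq_zero.mp a3
  have h11 : M.1 1 1 = 1 := sub_eq_zero.mp a2
  ext i k
  fin_cases i <;> fin_cases k <;> simp [h00, h11, a1, a4]

theorem or_psl2pair8 {p r p' r' : Fin N ⊕ Fin N → F} (h : OppPair8 p r p' r') :
    Cfsg.IsPSL2PairOver F (sgT8 p r) (sgT8 p' r') := by
  refine ⟨orHom8 h, ?_, ?_, ?_, ?_⟩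
  · apply le_antisymm
    · rintro _ ⟨M, rfl⟩
      have htop : (sgT8 p r ⊔ sgT8 p' r').comap (orHom8 h) = ⊤ := by
        apply Cfsg.Agent.Lib.Helper3.slg_top_gen
        intro i k hik c
        rw [Subgroup.mem_comap]
        fin_cases i <;> fin_cases k
        · exact absurd rfl hik
        · apply Subgroup.mem_sup_left
          rw [orHom_upper8 h _
            (by simp [Matrix.SpecialLinearGroup.transvection_coe, Matrix.one_apply,
              Matrix.single_apply])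
            (by simp [Matrix.SpecialLinearGroup.transvection_coe, Matrix.one_apply,
              Matrix.single_apply])
            (by simp [Matrix.SpecialLinearGroup.transvection_coe, Matrix.one_apply,
              Matrix.single_apply])]
          exact sg_mem8 h.l1 _
        · apply Subgroup.mem_sup_right
          rw [orHom_lower8 h _
            (by simp [Matrix.SpecialLinearGroup.transvection_coe, Matrix.one_apply,
              Matrix.single_apply])
            (by simp [Matrix.SpecialLinearGroup.transvection_coe, Matrix.one_apply,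
              Matrix.single_apply])
            (by simp [Matrix.SpecialLinearGroup.transvection_coe, Matrix.one_apply,
              Matrix.single_apply])]
          exact sg_mem8 h.l2 _
        · exact absurd rfl hik
      have hM : M ∈ (sgT8 p r ⊔ sgT8 p' r').comap (orHom8 h) := by
        rw [htop]
        exact Subgroup.mem_top M
      exact hM
    · apply sup_le
      · intro g hg
        obtain ⟨c, rfl⟩ := eq_sg_of_mem8 h.l1 g hg
        exact ⟨slU8 c, orHom_slU8 h c⟩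
      · intro g hg
        obtain ⟨c, rfl⟩ := eq_sg_of_mem8 h.l2 g hg
        exact ⟨slL8 (-c), by rw [orHom_slL8, neg_neg]⟩
  · intro M hM
    rw [orHom_ker8 h M hM]
    exact Subgroup.one_mem _
  · apply le_antisymm
    · rw [Subgroup.map_le_iff_le_comap]
      unfold Cfsg.upperUnipotentSL2
      rw [Subgroup.closure_le]
      rintro g ⟨h10, h00, h11⟩
      show orHom8 h g ∈ sgT8 p r
      rw [orHom_upper8 h g h10 h00 h11]
      exact sg_mem8 h.l1 _
    · intro g hg
      obtain ⟨c, rfl⟩ := eq_sg_of_mem8 h.l1 g hg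
      exact ⟨slU8 c, Subgroup.subset_closure ⟨rfl, rfl, rfl⟩, orHom_slU8 h c⟩
  · apply le_antisymm
    · rw [Subgroup.map_le_iff_le_comap]
      unfold Cfsg.lowerUnipotentSL2
      rw [Subgroup.closure_le]
      rintro g ⟨h01, h00, h11⟩
      show orHom8 h g ∈ sgT8 p' r'
      rw [orHom_lower8 h g h01 h00 h11]
      exact sg_mem8 h.l2 _
    · intro g hg
      obtain ⟨c, rfl⟩ := eq_sg_of_mem8 h.l2 g hg
      exact ⟨slL8 (-c), Subgroup.subset_closure ⟨rfl, rfl, rfl⟩, by
        show orHom8 h (slL8 (-c)) = _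
        rw [orHom_slL8, neg_neg]⟩

end or8d

end Cfsg.Agent.Lib.Helper8
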