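import Mathlib
import Cfsg.Prelude.Def_Classical
import Cfsg.Prelude.Def_RootSubgroups
import Cfsg.Agent.Lib.Helper8.OR4

set_option autoImplicit false

namespace Cfsg.Agent.Lib.Helper8

open Matrix

open scoped commutatorElement

section or8e

variable {N : ℕ} {F : Type*} [Field F]

/-- Coordinate vectors. -/
def dv8 (a : Fin N ⊕ Fin N) : Fin N ⊕ Fin N → F := Pi.single a 1

theorem qB_dv_right8 (x : Fin N ⊕ Fin N → F) (c : Fin N ⊕ Fin N) :
    qB8 x (dv8 c) = x (Sum.swap c) := by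
  have h := qB_single8 x (Sum.swap c)
  rw [Sum.swap_swap] at h
  exact h

theorem qB_dv_left8 (x : Fin N ⊕ Fin N → F) (c : Fin N ⊕ Fin N) :
    qB8 (dv8 c) x = x (Sum.swap c) := by
  rw [qB_comm8, qB_dv_right8]

theorem exists_minor8 {p r : Fin N ⊕ Fin N → F} (h : LinearIndependent F ![p, r]) :
    ∃ a b, p a * r b - p b * r a ≠ 0 := by
  rw [LinearIndependent.pair_iff] at h
  by_contra hcon
  push Not at hcon
  have hp : p ≠ 0 := by
    intro h0
    have h1 := h 1 0 (by rw [h0, smul_zero, zero_smul, add_zero])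
    exact one_ne_zero h1.1
  obtain ⟨a, ha⟩ : ∃ a, p a ≠ 0 := by
    by_contra h1
    push Not at h1
    exact hp (funext h1)
  have h2 := h (r a / p a) (-1) (by
    funext b
    have h3 := hcon a b
    simp only [Pi.add_apply, Pi.smul_apply, smul_eq_mul, Pi.zero_apply]
    field_simp
    linear_combination -h3)
  have h4 : (-1 : F) = 0 := h2.2
  exact one_ne_zero (neg_eq_zero.mp h4)

theorem goodLine_of_indep8 {p r : Fin N ⊕ Fin N → F} (hli : LinearIndependent F ![p, r])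
    (hp : Cfsg.quadFormPlus N F p = 0) (hr : Cfsg.quadFormPlus N F r = 0)
    (hpr : Cfsg.quadFormPlus N F (p + r) = 0) : GoodLine8 p r := by
  have hB : qB8 p r = 0 := by
    have h1 := Q_add8 p r
    rw [hp, hr, hpr] at h1
    linear_combination -h1
  obtain ⟨a, b, hd⟩ := exists_minor8 hli
  obtain ⟨D, hD⟩ : ∃ D, D = (p a * r b - p b * r a)⁻¹ := ⟨_, rfl⟩
  have hDD : (p a * r b - p b * r a) * D = 1 := by rw [hD, mul_inv_cancel₀ hd]
  refine ⟨hp, hr, hB, (r b * D) • dv8 (Sum.swap a) + (-r a * D) • dv8 (Sum.swap b),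
    (-p b * D) • dv8 (Sum.swap a) + (p a * D) • dv8 (Sum.swap b), ?_, ?_, ?_, ?_⟩
  · simp only [qB_add_left8, qB_smul_left8, qB_dv_left8, Sum.swap_swap]
    linear_combination hDD
  · simp only [qB_add_left8, qB_smul_left8, qB_dv_left8, Sum.swap_swap]
    ring
  · simp only [qB_add_left8, qB_smul_left8, qB_dv_left8, Sum.swap_swap]
    ring
  · simp only [qB_add_left8, qB_smul_left8, qB_dv_left8, Sum.swap_swap]
    linear_combination hDD

theorem indep_of_goodLine8 {p r : Fin N ⊕ Fin N → F} (h : GoodLine8 p r) :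
    LinearIndependent F ![p, r] := by
  obtain ⟨u₁, u₂, h11, h12, h21, h22⟩ := h.dual
  rw [LinearIndependent.pair_iff]
  intro s t hst
  have a1 := congrArg (fun z => qB8 u₁ z) hst
  have a2 := congrArg (fun z => qB8 u₂ z) hst
  simp only [qB_add_right8, qB_smul_right8, h11, h12, h21, h22, qB_zero_right8, mul_one, mul_zero,
    add_zero, zero_add] at a1 a2
  exact ⟨a1, a2⟩

/-- The set of Siegel transvection groups, in the form of the statement. -/
def sgSig8 (N : ℕ) (F : Type*) [Field F] : Set (Subgroup (IO8 N F)) :=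
  {A | ∃ p r : Fin N ⊕ Fin N → F, LinearIndependent F ![p, r] ∧
    Cfsg.quadFormPlus N F p = 0 ∧ Cfsg.quadFormPlus N F r = 0 ∧
    Cfsg.quadFormPlus N F (p + r) = 0 ∧ A = sgT8 p r}

theorem mem_sgSig8 (A : Subgroup (IO8 N F)) :
    A ∈ sgSig8 N F ↔ ∃ p r : Fin N ⊕ Fin N → F, GoodLine8 p r ∧ A = sgT8 p r := by
  constructor
  · rintro ⟨p, r, hli, hp, hr, hpr, rfl⟩
    exact ⟨p, r, goodLine_of_indep8 hli hp hr hpr, rfl⟩
  · rintro ⟨p, r, h, rfl⟩
    refine ⟨p, r, indep_of_goodLine8 h, h.qp, h.qr, ?_, rfl⟩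
    rw [Q_add8, h.qp, h.qr, h.bpr]
    ring

theorem goodLine_swap8 {p r : Fin N ⊕ Fin N → F} (h : GoodLine8 p r) : GoodLine8 r p := by
  have h1 := goodLine_basis8 h 0 1 1 0 (by norm_num)
  rw [zero_smul, one_smul, zero_add, one_smul, zero_smul, add_zero] at h1
  exact h1

theorem sgT_swap8 {p r : Fin N ⊕ Fin N → F} (h : GoodLine8 p r) : sgT8 r p = sgT8 p r := by
  have h1 := sgT_basis8 h 0 1 1 0 (by norm_num)
  rw [zero_smul, one_smul, zero_add, one_smul, zero_smul, add_zero] at h1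
  exact h1

theorem sg_opp_of_det8 {p r p' r' : Fin N ⊕ Fin N → F} (h : GoodLine8 p r)
    (h' : GoodLine8 p' r') (hdet : qB8 p p' * qB8 r r' - qB8 p r' * qB8 r p' ≠ 0) :
    Cfsg.IsRankOnePair (sgT8 p r) (sgT8 p' r') ∧
      Cfsg.IsPSL2PairOver F (sgT8 p r) (sgT8 p' r') := by
  obtain ⟨m11, hm11⟩ : ∃ m, m = qB8 p p' := ⟨_, rfl⟩
  obtain ⟨m12, hm12⟩ : ∃ m, m = qB8 p r' := ⟨_, rfl⟩
  obtain ⟨m21, hm21⟩ : ∃ m, m = qB8 r p' := ⟨_, rfl⟩
  obtain ⟨m22, hm22⟩ : ∃ m, m = qB8 r r' := ⟨_, rfl⟩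
  rw [← hm11, ← hm12, ← hm21, ← hm22] at hdet
  obtain ⟨D, hD⟩ : ∃ D, D = (m11 * m22 - m12 * m21)⁻¹ := ⟨_, rfl⟩
  have hDD : (m11 * m22 - m12 * m21) * D = 1 := by rw [hD, mul_inv_cancel₀ hdet]
  have hD0 : D ≠ 0 := by
    rw [hD]
    exact inv_ne_zero hdet
  have hbd : (m22 * D) * (m11 * D) - (-m21 * D) * (-m12 * D) ≠ 0 := by
    have e : (m22 * D) * (m11 * D) - (-m21 * D) * (-m12 * D) = D := by
      linear_combination D * hDD
    rw [e]
    exact hD0
  have hg := goodLine_basis8 h' (m22 * D) (-m21 * D) (-m12 * D) (m11 * D) hbd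
  have ht := sgT_basis8 h' (m22 * D) (-m21 * D) (-m12 * D) (m11 * D) hbd
  have hopp : OppPair8 p r ((m22 * D) • p' + (-m21 * D) • r')
      ((-m12 * D) • p' + (m11 * D) • r') := by
    refine ⟨h, hg, ?_, ?_, ?_, ?_⟩
    · simp only [qB_add_right8, qB_smul_right8, ← hm11, ← hm12, ← hm21, ← hm22]
      linear_combination hDD
    · simp only [qB_add_right8, qB_smul_right8, ← hm11, ← hm12, ← hm21, ← hm22]
      ring
    · simp only [qB_add_right8, qB_smul_right8, ← hm11, ← hm12, ← hm21, ← hm22]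
      ring
    · simp only [qB_add_right8, qB_smul_right8, ← hm11, ← hm12, ← hm21, ← hm22]
      linear_combination hDD
  rw [← ht]
  exact ⟨sg_rankOnePair8 h hg hopp.m11 hopp.m12 hopp.m21 hopp.m22, or_psl2pair8 hopp⟩

/-- The set of Siegel transvection groups, through good lines. -/
def sgSigG8 (N : ℕ) (F : Type*) [Field F] : Set (Subgroup (IO8 N F)) :=
  {A | ∃ p r : Fin N ⊕ Fin N → F, GoodLine8 p r ∧ A = sgT8 p r}

theorem sgSig_eq8 : sgSig8 N F = sgSigG8 N F := by
  ext A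
  exact mem_sgSig8 A

theorem sg_rank1_normal8 {x y x' y' : Fin N ⊕ Fin N → F} (h : GoodLine8 x y)
    (h' : GoodLine8 x' y') (hxx' : qB8 x x' = 0) (hxy' : qB8 x y' = 0) (hyx' : qB8 y x' = 0)
    (hyy' : qB8 y y' = 1) :
    ⁅sgT8 x y, sgT8 x' y'⁆ = ⊥ ∨
      Cfsg.RootCommutatorCase (sgSigG8 N F) (sgT8 x y) (sgT8 x' y') := by
  by_cases hdep : ∃ c : F, x' = c • x
  · obtain ⟨c, hc⟩ := hdep
    left
    rw [hc] at h' ⊢
    rw [Subgroup.commutator_eq_bot_iff_le_centralizer]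
    intro a ha
    rw [Subgroup.mem_centralizer_iff]
    intro b hb
    obtain ⟨a₀, rfl⟩ := eq_sg_of_mem8 h a ha
    obtain ⟨b₀, rfl⟩ := eq_sg_of_mem8 h' b hb
    exact (sg_comm_meet8 c h h' hxy' hyy' a₀ b₀).symm
  · right
    push Not at hdep
    have hx0 : x ≠ 0 := (goodLine_swap8 h).r_ne
    have hli : LinearIndependent F ![x, x'] := by
      rw [LinearIndependent.pair_iff]
      intro s t hst
      have ht : t = 0 := by
        by_contra ht
        apply hdep (-s / t)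
        have h1 : t • x' = (-s) • x := by
          rw [neg_smul]
          exact eq_neg_of_add_eq_zero_right hst
        calc x' = t⁻¹ • (t • x') := by rw [smul_smul, inv_mul_cancel₀ ht, one_smul]
          _ = (-s / t) • x := by
            rw [h1, smul_smul]
            congr 1
            field_simp
      refine ⟨?_, ht⟩
      rw [ht, zero_smul, add_zero] at hst
      rcases smul_eq_zero.mp hst with h1 | h1
      · exact h1
      · exact absurd h1 hx0
    have h'' : GoodLine8 x x' := goodLine_of_indep8 hli h.qp h'.qp (by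
      rw [Q_add8, h.qp, h'.qp, hxx']
      ring)
    have hcomm : ⁅sgT8 x y, sgT8 x' y'⁆ = sgT8 x x' := by
      apply le_antisymm
      · rw [Subgroup.commutator_le]
        intro a ha b hb
        obtain ⟨a₀, rfl⟩ := eq_sg_of_mem8 h a ha
        obtain ⟨b₀, rfl⟩ := eq_sg_of_mem8 h' b hb
        rw [sg_commutator8 h h' h'' hxy' hyx' hyy']
        exact sg_mem8 h'' _
      · intro g hg
        obtain ⟨c, rfl⟩ := eq_sg_of_mem8 h'' g hg
        have e := sg_commutator8 h h' h'' hxy' hyx' hyy' 1 c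
        rw [one_mul] at e
        rw [← e]
        exact Subgroup.commutator_mem_commutator (sg_mem8 h 1) (sg_mem8 h' c)
    refine ⟨?_, ?_, ?_, ?_⟩
    · rw [hcomm]
      exact ⟨x, x', h'', rfl⟩
    · rw [hcomm]
      have hle : sgT8 x y ⊔ sgT8 x' y' ≤ Subgroup.centralizer (sgT8 x x' : Set (IO8 N F)) := by
        apply sup_le
        · intro a ha
          rw [Subgroup.mem_centralizer_iff]
          intro c hc
          obtain ⟨a₀, rfl⟩ := eq_sg_of_mem8 h a ha
          obtain ⟨c₀, rfl⟩ := eq_sg_of_mem8 h'' c hc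
          exact (sg_comm_perp8 h h'' h.bpp hxx' h.brp hyx' a₀ c₀).symm
        · intro b hb
          rw [Subgroup.mem_centralizer_iff]
          intro c hc
          obtain ⟨b₀, rfl⟩ := eq_sg_of_mem8 h' b hb
          obtain ⟨c₀, rfl⟩ := eq_sg_of_mem8 h'' c hc
          exact (sg_comm_perp8 h' h'' (by rw [qB_comm8]; exact hxx') h'.bpp
            (by rw [qB_comm8]; exact hxy') h'.brp b₀ c₀).symm
      intro c hc z hz
      have h1 := hle hz
      rw [Subgroup.mem_centralizer_iff] at h1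
      exact h1 c hc
    · intro a ha ha1
      obtain ⟨a₀, rfl⟩ := eq_sg_of_mem8 h a ha
      have ha0 : a₀ ≠ 0 := by
        intro h0
        apply ha1
        rw [h0, sg_zero8 h]
      rw [hcomm]
      apply le_antisymm
      · rw [Subgroup.closure_le]
        rintro _ ⟨b, hb, rfl⟩
        obtain ⟨b₀, rfl⟩ := eq_sg_of_mem8 h' b hb
        have e := sg_commutator8 h h' h'' hxy' hyx' hyy' a₀ b₀
        rw [commutatorElement_def] at e
        show sg8 x y a₀ * sg8 x' y' b₀ * (sg8 x y a₀)⁻¹ * (sg8 x' y' b₀)⁻¹ ∈ sgT8 x x'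
        rw [e]
        exact sg_mem8 h'' _
      · intro g hg
        obtain ⟨c, rfl⟩ := eq_sg_of_mem8 h'' g hg
        apply Subgroup.subset_closure
        refine ⟨sg8 x' y' (c / a₀), sg_mem8 h' _, ?_⟩
        have e := sg_commutator8 h h' h'' hxy' hyx' hyy' a₀ (c / a₀)
        have e2 : a₀ * (c / a₀) = c := by field_simp
        rw [commutatorElement_def, e2] at e
        exact e
    · intro b hb hb1
      obtain ⟨b₀, rfl⟩ := eq_sg_of_mem8 h' b hb
      have hb0 : b₀ ≠ 0 := by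
        intro h0
        apply hb1
        rw [h0, sg_zero8 h']
      rw [hcomm]
      apply le_antisymm
      · rw [Subgroup.closure_le]
        rintro _ ⟨a, ha, rfl⟩
        obtain ⟨a₀, rfl⟩ := eq_sg_of_mem8 h a ha
        have e := sg_commutator8 h h' h'' hxy' hyx' hyy' a₀ b₀
        rw [commutatorElement_def] at e
        show sg8 x y a₀ * sg8 x' y' b₀ * (sg8 x y a₀)⁻¹ * (sg8 x' y' b₀)⁻¹ ∈ sgT8 x x'
        rw [e]
        exact sg_mem8 h'' _
      · intro g hg
        obtain ⟨c, rfl⟩ := eq_sg_of_mem8 h'' g hg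
        apply Subgroup.subset_closure
        refine ⟨sg8 x y (c / b₀), sg_mem8 h _, ?_⟩
        have e := sg_commutator8 h h' h'' hxy' hyx' hyy' (c / b₀) b₀
        have e2 : c / b₀ * b₀ = c := by field_simp
        rw [commutatorElement_def, e2] at e
        exact e

theorem sg_rank1_8 {p r p' r' : Fin N ⊕ Fin N → F} (h : GoodLine8 p r) (h' : GoodLine8 p' r')
    (hm : qB8 p p' ≠ 0) (hdet : qB8 p p' * qB8 r r' - qB8 p r' * qB8 r p' = 0) :
    ⁅sgT8 p r, sgT8 p' r'⁆ = ⊥ ∨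
      Cfsg.RootCommutatorCase (sgSigG8 N F) (sgT8 p r) (sgT8 p' r') := by
  obtain ⟨m11, hm11⟩ : ∃ m, m = qB8 p p' := ⟨_, rfl⟩
  obtain ⟨m12, hm12⟩ : ∃ m, m = qB8 p r' := ⟨_, rfl⟩
  obtain ⟨m21, hm21⟩ : ∃ m, m = qB8 r p' := ⟨_, rfl⟩
  obtain ⟨m22, hm22⟩ : ∃ m, m = qB8 r r' := ⟨_, rfl⟩
  rw [← hm11, ← hm12, ← hm21, ← hm22] at hdet
  rw [← hm11] at hm
  have hb1 : (-m21) * 0 - m11 * 1 ≠ 0 := by
    rw [mul_zero, mul_one, zero_sub]
    exact neg_ne_zero.mpr hm
  have g1 := goodLine_basis8 h (-m21) m11 1 0 hb1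
  have t1 := sgT_basis8 h (-m21) m11 1 0 hb1
  obtain ⟨D, hD⟩ : ∃ D, D = m11⁻¹ := ⟨_, rfl⟩
  have hDD : m11 * D = 1 := by rw [hD, mul_inv_cancel₀ hm]
  have hb2 : (-m12) * 0 - m11 * D ≠ 0 := by
    rw [mul_zero, hDD, zero_sub]
    exact neg_ne_zero.mpr one_ne_zero
  have g2 := goodLine_basis8 h' (-m12) m11 D 0 hb2
  have t2 := sgT_basis8 h' (-m12) m11 D 0 hb2
  rw [← t1, ← t2]
  apply sg_rank1_normal8 g1 g2
  · simp only [qB_add_left8, qB_add_right8, qB_smul_left8, qB_smul_right8, ← hm11, ← hm12,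
      ← hm21, ← hm22]
    linear_combination m11 * hdet
  · simp only [qB_add_left8, qB_add_right8, qB_smul_left8, qB_smul_right8, ← hm11, ← hm12,
      ← hm21, ← hm22]
    ring
  · simp only [qB_add_left8, qB_add_right8, qB_smul_left8, qB_smul_right8, ← hm11, ← hm12,
      ← hm21, ← hm22]
    ring
  · simp only [qB_add_left8, qB_add_right8, qB_smul_left8, qB_smul_right8, ← hm11, ← hm12,
      ← hm21, ← hm22]
    linear_combination hDD

theorem sg_trichotomy8 {p r p' r' : Fin N ⊕ Fin N → F} (h : GoodLine8 p r)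
    (h' : GoodLine8 p' r') :
    ⁅sgT8 p r, sgT8 p' r'⁆ = ⊥ ∨
      (Cfsg.IsRankOnePair (sgT8 p r) (sgT8 p' r') ∧
        Cfsg.IsPSL2PairOver F (sgT8 p r) (sgT8 p' r')) ∨
      Cfsg.RootCommutatorCase (sgSigG8 N F) (sgT8 p r) (sgT8 p' r') := by
  by_cases hdet : qB8 p p' * qB8 r r' - qB8 p r' * qB8 r p' = 0
  · have key : ⁅sgT8 p r, sgT8 p' r'⁆ = ⊥ ∨
        Cfsg.RootCommutatorCase (sgSigG8 N F) (sgT8 p r) (sgT8 p' r') := by
      by_cases h11 : qB8 p p' ≠ 0
      · exact sg_rank1_8 h h' h11 hdet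
      by_cases h12 : qB8 p r' ≠ 0
      · have h1 := sg_rank1_8 h (goodLine_swap8 h') h12 (by linear_combination -hdet)
        rw [sgT_swap8 h'] at h1
        exact h1
      by_cases h21 : qB8 r p' ≠ 0
      · have h1 := sg_rank1_8 (goodLine_swap8 h) h' h21 (by linear_combination -hdet)
        rw [sgT_swap8 h] at h1
        exact h1
      by_cases h22 : qB8 r r' ≠ 0
      · have h1 := sg_rank1_8 (goodLine_swap8 h) (goodLine_swap8 h') h22
          (by linear_combination hdet)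
        rw [sgT_swap8 h, sgT_swap8 h'] at h1
        exact h1
      push Not at h11 h12 h21 h22
      left
      rw [Subgroup.commutator_eq_bot_iff_le_centralizer]
      intro a ha
      rw [Subgroup.mem_centralizer_iff]
      intro b hb
      obtain ⟨a₀, rfl⟩ := eq_sg_of_mem8 h a ha
      obtain ⟨b₀, rfl⟩ := eq_sg_of_mem8 h' b hb
      exact (sg_comm_perp8 h h' h11 h12 h21 h22 a₀ b₀).symm
    rcases key with k | k
    · exact Or.inl k
    · exact Or.inr (Or.inr k)
  · exact Or.inr (Or.inl (sg_opp_of_det8 h h' hdet))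

end or8e

end Cfsg.Agent.Lib.Helper8
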