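import Mathlib
import Cfsg.Prelude.Def_Classical
import Cfsg.Prelude.Def_RootSubgroups
import Cfsg.Agent.Lib.Helper8.OR5

set_option autoImplicit false

namespace Cfsg.Agent.Lib.Helper8

open Matrix

section or8f

variable {N : ℕ} {F : Type*} [Field F]

/-- The index of a coordinate. -/
def idx8 (a : Fin N ⊕ Fin N) : Fin N := Sum.elim id id a

theorem idx_swap8 (a : Fin N ⊕ Fin N) : idx8 (Sum.swap a) = idx8 a := by
  cases a <;> rfl

theorem idx_eq8 {c a : Fin N ⊕ Fin N} (h : idx8 c = idx8 a) : c = a ∨ c = Sum.swap a := by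
  cases c with
  | inl i =>
    cases a with
    | inl j => exact Or.inl (congrArg Sum.inl h)
    | inr j => exact Or.inr (congrArg Sum.inl h)
  | inr i =>
    cases a with
    | inl j => exact Or.inr (congrArg Sum.inr h)
    | inr j => exact Or.inl (congrArg Sum.inr h)

theorem Q_dv8 (a : Fin N ⊕ Fin N) :
    Cfsg.quadFormPlus N F (dv8 a : Fin N ⊕ Fin N → F) = 0 := by
  unfold Cfsg.quadFormPlus dv8
  apply Finset.sum_eq_zero
  intro i _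
  cases a with
  | inl j =>
    rw [Pi.single_eq_of_ne (by simp : (Sum.inr i : Fin N ⊕ Fin N) ≠ Sum.inl j), mul_zero]
  | inr j =>
    rw [Pi.single_eq_of_ne (by simp : (Sum.inl i : Fin N ⊕ Fin N) ≠ Sum.inr j), zero_mul]

theorem qB_dd8 (a c : Fin N ⊕ Fin N) :
    qB8 (dv8 a : Fin N ⊕ Fin N → F) (dv8 c) = if Sum.swap c = a then 1 else 0 := by
  rw [qB_dv_right8]
  unfold dv8
  rw [Pi.single_apply]

theorem qB_dd_one8 (a : Fin N ⊕ Fin N) :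
    qB8 (dv8 a : Fin N ⊕ Fin N → F) (dv8 (Sum.swap a)) = 1 := by
  rw [qB_dd8, Sum.swap_swap, if_pos rfl]

theorem qB_dd_one'8 (a : Fin N ⊕ Fin N) :
    qB8 (dv8 (Sum.swap a) : Fin N ⊕ Fin N → F) (dv8 a) = 1 := by
  rw [qB_comm8, qB_dd_one8]

theorem qB_dd_zero8 (a c : Fin N ⊕ Fin N) (h : idx8 a ≠ idx8 c) :
    qB8 (dv8 a : Fin N ⊕ Fin N → F) (dv8 c) = 0 := by
  rw [qB_dd8, if_neg]
  intro h0
  apply h
  rw [← h0, idx_swap8]

theorem qB_dd_zero4_8 {x y : Fin N ⊕ Fin N} (h : idx8 x ≠ idx8 y) :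
    qB8 (dv8 x : Fin N ⊕ Fin N → F) (dv8 y) = 0 ∧
    qB8 (dv8 x : Fin N ⊕ Fin N → F) (dv8 (Sum.swap y)) = 0 ∧
    qB8 (dv8 (Sum.swap x) : Fin N ⊕ Fin N → F) (dv8 y) = 0 ∧
    qB8 (dv8 (Sum.swap x) : Fin N ⊕ Fin N → F) (dv8 (Sum.swap y)) = 0 :=
  ⟨qB_dd_zero8 _ _ h, qB_dd_zero8 _ _ (by rw [idx_swap8]; exact h),
    qB_dd_zero8 _ _ (by rw [idx_swap8]; exact h),
    qB_dd_zero8 _ _ (by rw [idx_swap8, idx_swap8]; exact h)⟩

theorem coordLine8 (a b : Fin N ⊕ Fin N) (h : idx8 a ≠ idx8 b) :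
    GoodLine8 (dv8 a : Fin N ⊕ Fin N → F) (dv8 b) := by
  obtain ⟨z1, z2, z3, z4⟩ := qB_dd_zero4_8 (F := F) h
  obtain ⟨w1, w2, w3, w4⟩ := qB_dd_zero4_8 (F := F) h.symm
  exact ⟨Q_dv8 a, Q_dv8 b, z1, dv8 (Sum.swap a), dv8 (Sum.swap b), qB_dd_one'8 a, z3, w3,
    qB_dd_one'8 b⟩

theorem sg_adj8 {p r p' r' : Fin N ⊕ Fin N → F} (h : GoodLine8 p r) (h' : GoodLine8 p' r')
    (hdet : qB8 p p' * qB8 r r' - qB8 p r' * qB8 r p' ≠ 0) :
    Cfsg.FAdj (sgSigG8 N F) (sgT8 p r) (sgT8 p' r') :=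
  ⟨⟨p, r, h, rfl⟩, ⟨p', r', h', rfl⟩, (sg_opp_of_det8 h h' hdet).1⟩

theorem exists_good_minor8 {p r : Fin N ⊕ Fin N → F} (h : GoodLine8 p r) :
    ∃ a b, idx8 a ≠ idx8 b ∧ p a * r b - p b * r a ≠ 0 := by
  obtain ⟨u₁, u₂, h11, h12, h21, h22⟩ := h.dual
  have hp : p ≠ 0 := by
    intro h0
    rw [h0, qB_zero_right8] at h11
    exact zero_ne_one h11
  obtain ⟨a, ha⟩ : ∃ a, p a ≠ 0 := by
    by_contra h1
    push Not at h1
    exact hp (funext h1)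
  obtain ⟨c, hc⟩ : ∃ c, c = r a / p a := ⟨_, rfl⟩
  have hca : c * p a = r a := by rw [hc, div_mul_cancel₀ _ ha]
  obtain ⟨rt, hrt⟩ : ∃ rt, rt = r - c • p := ⟨_, rfl⟩
  have hrta : rt a = 0 := by
    rw [hrt]
    simp only [Pi.sub_apply, Pi.smul_apply, smul_eq_mul]
    rw [hca, sub_self]
  have hBrt : qB8 p rt = 0 := by
    rw [hrt, qB_sub_right8, qB_smul_right8, h.bpr, h.bpp]
    ring
  have hrt0 : rt ≠ 0 := by
    intro h0
    have h1 : qB8 u₂ rt = 1 := by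
      rw [hrt, qB_sub_right8, qB_smul_right8, h22, h21]
      ring
    rw [h0, qB_zero_right8] at h1
    exact zero_ne_one h1
  have key : ∃ b, idx8 b ≠ idx8 a ∧ rt b ≠ 0 := by
    by_contra hcon
    push Not at hcon
    have h1 : qB8 p rt = p a * rt (Sum.swap a) := by
      unfold qB8
      simp only [dotProduct, Function.comp_apply]
      apply Finset.sum_eq_single a
      · intro b _ hb
        by_cases hi : idx8 b = idx8 a
        · rcases idx_eq8 hi with h2 | h2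
          · exact absurd h2 hb
          · rw [h2, Sum.swap_swap, hrta, mul_zero]
        · rw [hcon (Sum.swap b) (by rw [idx_swap8]; exact hi), mul_zero]
      · intro h2
        exact absurd (Finset.mem_univ a) h2
    rw [hBrt] at h1
    have h2 : rt (Sum.swap a) = 0 := by
      rcases mul_eq_zero.mp h1.symm with h3 | h3
      · exact absurd h3 ha
      · exact h3
    apply hrt0
    funext b
    by_cases hi : idx8 b = idx8 a
    · rcases idx_eq8 hi with h3 | h3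
      · rw [h3]
        exact hrta
      · rw [h3]
        exact h2
    · exact hcon b hi
  obtain ⟨b, hb1, hb2⟩ := key
  refine ⟨a, b, hb1.symm, ?_⟩
  have e : p a * r b - p b * r a = p a * rt b := by
    rw [hrt]
    simp only [Pi.sub_apply, Pi.smul_apply, smul_eq_mul]
    linear_combination (p b) * hca
  rw [e]
  exact mul_ne_zero ha hb2

theorem sg_adj_coord8 {p r : Fin N ⊕ Fin N → F} (h : GoodLine8 p r) :
    ∃ a b : Fin N ⊕ Fin N, idx8 a ≠ idx8 b ∧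
      Cfsg.FAdj (sgSigG8 N F) (sgT8 p r) (sgT8 (dv8 a) (dv8 b)) := by
  obtain ⟨a, b, hab, hd⟩ := exists_good_minor8 h
  have hab' : idx8 (Sum.swap a) ≠ idx8 (Sum.swap b) := by
    rw [idx_swap8, idx_swap8]
    exact hab
  refine ⟨Sum.swap a, Sum.swap b, hab', sg_adj8 h (coordLine8 _ _ hab') ?_⟩
  simp only [qB_dv_right8, Sum.swap_swap]
  exact hd

theorem adj_symm8 {S : Set (Subgroup (IO8 N F))} {A B : Subgroup (IO8 N F)}
    (h : Cfsg.FAdj S A B) : Cfsg.FAdj S B A :=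
  ⟨h.2.1, h.1, Cfsg.RankOnePair_symm h.2.2⟩

/-- The basic move between coordinate lines. -/
theorem cl_move8 (a b c : Fin N ⊕ Fin N) (hab : idx8 a ≠ idx8 b) (hca : idx8 c ≠ idx8 a)
    (hcb : idx8 c ≠ idx8 b) :
    Relation.ReflTransGen (Cfsg.FAdj (sgSigG8 N F))
      (sgT8 (dv8 a : Fin N ⊕ Fin N → F) (dv8 b)) (sgT8 (dv8 c) (dv8 b)) := by
  obtain ⟨ab1, ab2, ab3, ab4⟩ := qB_dd_zero4_8 (F := F) hab
  obtain ⟨ba1, ba2, ba3, ba4⟩ := qB_dd_zero4_8 (F := F) hab.symm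
  obtain ⟨ca1, ca2, ca3, ca4⟩ := qB_dd_zero4_8 (F := F) hca
  obtain ⟨ac1, ac2, ac3, ac4⟩ := qB_dd_zero4_8 (F := F) hca.symm
  obtain ⟨cb1, cb2, cb3, cb4⟩ := qB_dd_zero4_8 (F := F) hcb
  obtain ⟨bc1, bc2, bc3, bc4⟩ := qB_dd_zero4_8 (F := F) hcb.symm
  have hL : GoodLine8 (dv8 (Sum.swap a) + dv8 (Sum.swap c) : Fin N ⊕ Fin N → F)
      (dv8 (Sum.swap b)) := by
    refine ⟨?_, Q_dv8 _, ?_, dv8 a, dv8 b, ?_, ?_, ?_, ?_⟩
    · rw [Q_add8, Q_dv8, Q_dv8, ac4]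
      ring
    · rw [qB_add_left8, ab4, cb4]
      ring
    · rw [qB_add_right8, qB_dd_one8, ac2]
      ring
    · exact ab2
    · rw [qB_add_right8, ba2, bc2]
      ring
    · exact qB_dd_one8 b
  have s1 : Cfsg.FAdj (sgSigG8 N F) (sgT8 (dv8 a : Fin N ⊕ Fin N → F) (dv8 b))
      (sgT8 (dv8 (Sum.swap a) + dv8 (Sum.swap c)) (dv8 (Sum.swap b))) := by
    apply sg_adj8 (coordLine8 a b hab) hL
    simp only [qB_add_right8, qB_dd_one8, ac2, ab2, ba2, bc2]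
    norm_num
  have s2 : Cfsg.FAdj (sgSigG8 N F)
      (sgT8 (dv8 (Sum.swap a) + dv8 (Sum.swap c) : Fin N ⊕ Fin N → F) (dv8 (Sum.swap b)))
      (sgT8 (dv8 c) (dv8 b)) := by
    apply sg_adj8 hL (coordLine8 c b hcb)
    simp only [qB_add_left8, qB_dd_one'8, ac3, ab3, cb3, bc3]
    norm_num
  exact Relation.ReflTransGen.head s1 (Relation.ReflTransGen.single s2)

theorem exists_fin8 (hN : 3 ≤ N) (i j : Fin N) : ∃ k : Fin N, k ≠ i ∧ k ≠ j := by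
  by_cases h0 : (⟨0, by omega⟩ : Fin N) ≠ i ∧ (⟨0, by omega⟩ : Fin N) ≠ j
  · exact ⟨_, h0⟩
  by_cases h1 : (⟨1, by omega⟩ : Fin N) ≠ i ∧ (⟨1, by omega⟩ : Fin N) ≠ j
  · exact ⟨_, h1⟩
  simp only [ne_eq, Fin.ext_iff, not_and_or, not_not] at h0 h1
  refine ⟨⟨2, by omega⟩, ?_, ?_⟩
  · intro h2
    have h3 := congrArg Fin.val h2
    simp only at h3
    omega
  · intro h2
    have h3 := congrArg Fin.val h2
    simp only at h3
    omega

theorem exists_idx8 (hN : 3 ≤ N) (i j : Fin N) :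
    ∃ e : Fin N ⊕ Fin N, idx8 e ≠ i ∧ idx8 e ≠ j := by
  obtain ⟨k, hk1, hk2⟩ := exists_fin8 hN i j
  exact ⟨Sum.inl k, hk1, hk2⟩

theorem cl_move1_8 (hN : 3 ≤ N) (a b x : Fin N ⊕ Fin N) (hab : idx8 a ≠ idx8 b)
    (hxb : idx8 x ≠ idx8 b) :
    Relation.ReflTransGen (Cfsg.FAdj (sgSigG8 N F))
      (sgT8 (dv8 a : Fin N ⊕ Fin N → F) (dv8 b)) (sgT8 (dv8 x) (dv8 b)) := by
  by_cases hxa : idx8 x = idx8 a
  · obtain ⟨e, he1, he2⟩ := exists_idx8 hN (idx8 a) (idx8 b)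
    exact (cl_move8 a b e hab he1 he2).trans
      (cl_move8 e b x he2 (by rw [hxa]; exact he1.symm) hxb)
  · exact cl_move8 a b x hab hxa hxb

theorem cl_swap8 (a b : Fin N ⊕ Fin N) (hab : idx8 a ≠ idx8 b) :
    sgT8 (dv8 a : Fin N ⊕ Fin N → F) (dv8 b) = sgT8 (dv8 b) (dv8 a) :=
  sgT_swap8 (coordLine8 b a hab.symm)

theorem cl_move2_8 (hN : 3 ≤ N) (a b y : Fin N ⊕ Fin N) (hab : idx8 a ≠ idx8 b)
    (hya : idx8 y ≠ idx8 a) :
    Relation.ReflTransGen (Cfsg.FAdj (sgSigG8 N F))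
      (sgT8 (dv8 a : Fin N ⊕ Fin N → F) (dv8 b)) (sgT8 (dv8 a) (dv8 y)) := by
  rw [cl_swap8 a b hab, cl_swap8 a y hya.symm]
  exact cl_move1_8 hN b a y hab.symm hya

theorem cl_conn8 (hN : 3 ≤ N) (a b c d : Fin N ⊕ Fin N) (hab : idx8 a ≠ idx8 b)
    (hcd : idx8 c ≠ idx8 d) :
    Relation.ReflTransGen (Cfsg.FAdj (sgSigG8 N F))
      (sgT8 (dv8 a : Fin N ⊕ Fin N → F) (dv8 b)) (sgT8 (dv8 c) (dv8 d)) := by
  by_cases hcb : idx8 c = idx8 b
  · obtain ⟨e, he1, he2⟩ := exists_idx8 hN (idx8 a) (idx8 c)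
    exact ((cl_move2_8 hN a b e hab he1).trans (cl_move1_8 hN a e c he1.symm he2.symm)).trans
      (cl_move2_8 hN c e d he2.symm hcd.symm)
  · exact (cl_move1_8 hN a b c hab hcb).trans (cl_move2_8 hN c b d hcb hcd.symm)

theorem or_conn8 (hN : 3 ≤ N) :
    Cfsg.IsConnectedFamily (Cfsg.FAdj (sgSigG8 N F)) (sgSigG8 N F) := by
  rintro A ⟨p, r, h, rfl⟩ B ⟨p', r', h', rfl⟩
  obtain ⟨a, b, hab, s1⟩ := sg_adj_coord8 h
  obtain ⟨c, d, hcd, s2⟩ := sg_adj_coord8 h'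
  exact (Relation.ReflTransGen.head s1 (cl_conn8 hN a b c d hab hcd)).trans
    (Relation.ReflTransGen.single (adj_symm8 s2))

end or8f

end Cfsg.Agent.Lib.Helper8
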