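import Mathlib
import Cfsg.Prelude.Def_RootSubgroups

set_option autoImplicit false

namespace Cfsg.Agent.Lib.Helper8

open scoped commutatorElement

section rk8

variable {G : Type*} [Group G]

theorem conjBy_conjBy8 (A : Subgroup G) (g h : G) :
    Cfsg.conjBy (Cfsg.conjBy A g) h = Cfsg.conjBy A (h * g) := by
  ext x
  constructor
  · rintro ⟨z, ⟨y, hy, rfl⟩, rfl⟩
    refine ⟨y, hy, ?_⟩
    show (h * g) * y * (h * g)⁻¹ = h * (g * y * g⁻¹) * h⁻¹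
    group
  · rintro ⟨y, hy, rfl⟩
    refine ⟨g * y * g⁻¹, ⟨y, hy, rfl⟩, ?_⟩
    show h * (g * y * g⁻¹) * h⁻¹ = (h * g) * y * (h * g)⁻¹
    group

theorem conjBy_one8 (A : Subgroup G) : Cfsg.conjBy A 1 = A := by
  ext x
  constructor
  · rintro ⟨y, hy, rfl⟩
    show 1 * y * 1⁻¹ ∈ A
    rw [one_mul, inv_one, mul_one]
    exact hy
  · intro hx
    refine ⟨x, hx, ?_⟩
    show 1 * x * 1⁻¹ = x
    rw [one_mul, inv_one, mul_one]

theorem exists_ne_one_of_ne_bot8 (A : Subgroup G) (hA : A ≠ ⊥) : ∃ a ∈ A, a ≠ 1 := by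
  by_contra h
  push Not at h
  apply hA
  rw [Subgroup.eq_bot_iff_forall]
  exact h

theorem rankOne_conj8 (A B : Subgroup G) (hA : A ≠ ⊥) (h : Cfsg.IsRankOnePair A B) :
    ∃ g : G, B = Cfsg.conjBy A g := by
  obtain ⟨a, ha, ha1⟩ := exists_ne_one_of_ne_bot8 A hA
  obtain ⟨b, hb, -, hconj⟩ := h.cond_left a ha ha1
  refine ⟨a * b⁻¹, ?_⟩
  have e : Cfsg.conjBy (Cfsg.conjBy A b⁻¹) a = Cfsg.conjBy (Cfsg.conjBy B a⁻¹) a := by
    rw [hconj]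
  rw [conjBy_conjBy8, conjBy_conjBy8, mul_inv_cancel, conjBy_one8] at e
  exact e.symm

theorem rankOne_not_comm8 (A B : Subgroup G) (hA : A ≠ ⊥) (h : Cfsg.IsRankOnePair A B)
    (hc : ∀ a ∈ A, ∀ b ∈ B, a * b = b * a) : False := by
  obtain ⟨a, ha, ha1⟩ := exists_ne_one_of_ne_bot8 A hA
  obtain ⟨b, hb, -, hconj⟩ := h.cond_left a ha ha1
  apply h.ne
  have e1 : Cfsg.conjBy A b⁻¹ = A := by
    ext x
    constructor
    · rintro ⟨y, hy, rfl⟩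
      show b⁻¹ * y * b⁻¹⁻¹ ∈ A
      have e : b⁻¹ * y * b⁻¹⁻¹ = y := by
        rw [inv_inv, mul_assoc, hc y hy b hb, ← mul_assoc, inv_mul_cancel, one_mul]
      rw [e]
      exact hy
    · intro hx
      refine ⟨x, hx, ?_⟩
      show b⁻¹ * x * b⁻¹⁻¹ = x
      rw [inv_inv, mul_assoc, hc x hx b hb, ← mul_assoc, inv_mul_cancel, one_mul]
  have e2 : Cfsg.conjBy B a⁻¹ = B := by
    ext x
    constructor
    · rintro ⟨y, hy, rfl⟩
      show a⁻¹ * y * a⁻¹⁻¹ ∈ B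
      have e : a⁻¹ * y * a⁻¹⁻¹ = y := by
        rw [inv_inv, mul_assoc, ← hc a ha y hy, ← mul_assoc, inv_mul_cancel, one_mul]
      rw [e]
      exact hy
    · intro hx
      refine ⟨x, hx, ?_⟩
      show a⁻¹ * x * a⁻¹⁻¹ = x
      rw [inv_inv, mul_assoc, ← hc a ha x hx, ← mul_assoc, inv_mul_cancel, one_mul]
  rw [← e1, hconj, e2]

theorem commCase_false8 (S : Set (Subgroup G)) (A B : Subgroup G) (hS : ∀ C ∈ S, C ≠ ⊥)
    (hAc : ∀ x ∈ A, ∀ y ∈ A, x * y = y * x) (hA : A ≠ ⊥)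
    (hpair : ⁅A, B⁆ = ⊥ ∨ Cfsg.IsRankOnePair A B) : ¬ Cfsg.RootCommutatorCase S A B := by
  rintro ⟨hmem, hcent, -, -⟩
  have hbot : ⁅A, B⁆ = ⊥ := by
    rcases hpair with h | h
    · exact h
    · obtain ⟨a, ha, ha1⟩ := exists_ne_one_of_ne_bot8 A hA
      obtain ⟨b, hb, -, hconj⟩ := h.cond_left a ha ha1
      rw [Subgroup.commutator_eq_bot_iff_le_centralizer]
      intro a₂ ha₂
      rw [Subgroup.mem_centralizer_iff]
      intro b₁ hb₁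
      have h1 : a⁻¹ * b₁ * a⁻¹⁻¹ ∈ Cfsg.conjBy B a⁻¹ := ⟨b₁, hb₁, rfl⟩
      rw [← hconj] at h1
      obtain ⟨a₁, ha₁, h2⟩ := h1
      have h2' : b⁻¹ * a₁ * b = a⁻¹ * b₁ * a := by
        have h3 : b⁻¹ * a₁ * b⁻¹⁻¹ = a⁻¹ * b₁ * a⁻¹⁻¹ := h2
        rw [inv_inv, inv_inv] at h3
        exact h3
      have hzm : ⁅b₁⁻¹, a⁻¹⁆ ∈ ⁅A, B⁆ := by
        rw [Subgroup.commutator_comm]
        exact Subgroup.commutator_mem_commutator (Subgroup.inv_mem _ hb₁) (Subgroup.inv_mem _ ha)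
      have hzm' : ⁅a₁⁻¹, b⁻¹⁆ ∈ ⁅A, B⁆ :=
        Subgroup.commutator_mem_commutator (Subgroup.inv_mem _ ha₁) (Subgroup.inv_mem _ hb)
      obtain ⟨z, hz⟩ : ∃ z, z = ⁅b₁⁻¹, a⁻¹⁆ := ⟨_, rfl⟩
      obtain ⟨z', hz'⟩ : ∃ z', z' = ⁅a₁⁻¹, b⁻¹⁆ := ⟨_, rfl⟩
      rw [← hz] at hzm
      rw [← hz'] at hzm'
      have e1 : a⁻¹ * b₁ * a = b₁ * z := by
        rw [hz, commutatorElement_def]
        group
      have e2 : b⁻¹ * a₁ * b = a₁ * z' := by
        rw [hz', commutatorElement_def]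
        group
      have e3 : b₁ * z = a₁ * z' := by rw [← e1, ← e2, h2']
      have e4 : b₁ = a₁ * z' * z⁻¹ := eq_mul_inv_of_mul_eq e3
      have c1 : Commute a₂ a₁ := hAc a₂ ha₂ a₁ ha₁
      have c2 : Commute a₂ z' := (hcent z' hzm' a₂ (Subgroup.mem_sup_left ha₂)).symm
      have c3 : Commute a₂ z := (hcent z hzm a₂ (Subgroup.mem_sup_left ha₂)).symm
      have c4 : Commute a₂ (a₁ * z' * z⁻¹) := (c1.mul_right c2).mul_right c3.inv_right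
      rw [e4]
      exact c4.eq.symm
  rw [hbot] at hmem
  exact hS ⊥ hmem rfl

theorem subOf_conj8 (H : Subgroup G) (A : Subgroup G) (g : H) :
    Cfsg.conjBy (A.subgroupOf H) g = (Cfsg.conjBy A (g : G)).subgroupOf H := by
  ext x
  rw [Subgroup.mem_subgroupOf]
  constructor
  · rintro ⟨y, hy, rfl⟩
    exact ⟨(y : G), Subgroup.mem_subgroupOf.mp hy, rfl⟩
  · rintro ⟨y, hy, hyx⟩
    have hyx' : (g : G) * y * (g : G)⁻¹ = (x : G) := hyx
    have hyH : y ∈ H := by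
      have h1 : (g : G)⁻¹ * (x : G) * (g : G) ∈ H :=
        H.mul_mem (H.mul_mem (H.inv_mem g.2) x.2) g.2
      have h2 : y = (g : G)⁻¹ * (x : G) * (g : G) := by
        rw [← hyx']
        group
      rw [h2]
      exact h1
    refine ⟨⟨y, hyH⟩, Subgroup.mem_subgroupOf.mpr hy, ?_⟩
    apply Subtype.ext
    exact hyx'

theorem subOf_rankOneCond8 (H A B : Subgroup G) (hB : B ≤ H) (h : Cfsg.RankOneCondition A B) :
    Cfsg.RankOneCondition (A.subgroupOf H) (B.subgroupOf H) := by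
  intro a ha ha1
  have ha' : (a : G) ∈ A := Subgroup.mem_subgroupOf.mp ha
  have ha1' : (a : G) ≠ 1 := fun h0 => ha1 (Subtype.ext h0)
  obtain ⟨b, hb, hb1, hconj⟩ := h (a : G) ha' ha1'
  refine ⟨⟨b, hB hb⟩, Subgroup.mem_subgroupOf.mpr hb, fun h0 => hb1 (congrArg Subtype.val h0), ?_⟩
  rw [subOf_conj8, subOf_conj8]
  show (Cfsg.conjBy A b⁻¹).subgroupOf H = (Cfsg.conjBy B (a : G)⁻¹).subgroupOf H
  rw [hconj]

theorem subOf_nilp8 (H A : Subgroup G) (hAc : ∀ x ∈ A, ∀ y ∈ A, x * y = y * x) :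
    Group.IsNilpotent (A.subgroupOf H) := by
  letI : CommGroup (A.subgroupOf H) := { (inferInstance : Group (A.subgroupOf H)) with
    mul_comm := fun a b => Subtype.ext (Subtype.ext (hAc a.1.1 a.2 b.1.1 b.2)) }
  exact CommGroup.isNilpotent

theorem subOf_inj8 (H A B : Subgroup G) (hA : A ≤ H) (hB : B ≤ H)
    (h : A.subgroupOf H = B.subgroupOf H) : A = B := by
  ext x
  constructor
  · intro hx
    have h1 : (⟨x, hA hx⟩ : H) ∈ A.subgroupOf H := Subgroup.mem_subgroupOf.mpr hx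
    rw [h] at h1
    exact Subgroup.mem_subgroupOf.mp h1
  · intro hx
    have h1 : (⟨x, hB hx⟩ : H) ∈ B.subgroupOf H := Subgroup.mem_subgroupOf.mpr hx
    rw [← h] at h1
    exact Subgroup.mem_subgroupOf.mp h1

theorem subOf_rankOnePair8 (H A B : Subgroup G) (hA : A ≤ H) (hB : B ≤ H)
    (hAc : ∀ x ∈ A, ∀ y ∈ A, x * y = y * x) (hBc : ∀ x ∈ B, ∀ y ∈ B, x * y = y * x)
    (h : Cfsg.IsRankOnePair A B) :
    Cfsg.IsRankOnePair (A.subgroupOf H) (B.subgroupOf H) := by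
  refine ⟨?_, subOf_nilp8 H A hAc, subOf_nilp8 H B hBc, subOf_rankOneCond8 H A B hB h.cond_left,
    subOf_rankOneCond8 H B A hA h.cond_right⟩
  intro heq
  exact h.ne (subOf_inj8 H A B hA hB heq)

theorem subOf_comm_bot8 (H A B : Subgroup G) (h : ⁅A, B⁆ = ⊥) :
    ⁅A.subgroupOf H, B.subgroupOf H⁆ = ⊥ := by
  rw [Subgroup.commutator_eq_bot_iff_le_centralizer] at h ⊢
  intro a ha
  rw [Subgroup.mem_centralizer_iff]
  intro b hb
  apply Subtype.ext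
  have h1 := h (Subgroup.mem_subgroupOf.mp ha)
  rw [Subgroup.mem_centralizer_iff] at h1
  exact h1 (b : G) (Subgroup.mem_subgroupOf.mp hb)

theorem subOf_psl2_8 (k : Type*) [Field k] (H A B : Subgroup G) (hA : A ≤ H) (hB : B ≤ H)
    (h : Cfsg.IsPSL2PairOver k A B) :
    Cfsg.IsPSL2PairOver k (A.subgroupOf H) (B.subgroupOf H) := by
  obtain ⟨φ, hrange, hker, hU, hL⟩ := h
  have hmem : ∀ x, φ x ∈ H := by
    intro x
    have h1 : φ x ∈ φ.range := ⟨x, rfl⟩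
    rw [hrange] at h1
    exact (sup_le hA hB) h1
  refine ⟨φ.codRestrict H hmem, ?_, ?_, ?_, ?_⟩
  · ext x
    rw [← Subgroup.subgroupOf_sup hA hB, Subgroup.mem_subgroupOf, ← hrange]
    constructor
    · rintro ⟨y, rfl⟩
      exact ⟨y, rfl⟩
    · rintro ⟨y, hy⟩
      exact ⟨y, Subtype.ext hy⟩
  · intro x hx
    apply hker
    rw [MonoidHom.mem_ker] at hx ⊢
    exact congrArg Subtype.val hx
  · ext x
    rw [Subgroup.mem_subgroupOf, ← hU]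
    constructor
    · rintro ⟨y, hy, rfl⟩
      exact ⟨y, hy, rfl⟩
    · rintro ⟨y, hy, hyx⟩
      exact ⟨y, hy, Subtype.ext hyx⟩
  · ext x
    rw [Subgroup.mem_subgroupOf, ← hL]
    constructor
    · rintro ⟨y, hy, rfl⟩
      exact ⟨y, hy, rfl⟩
    · rintro ⟨y, hy, hyx⟩
      exact ⟨y, hy, Subtype.ext hyx⟩

theorem subOf_main8 (k : Type*) [Field k] (S : Set (Subgroup G)) (H : Subgroup G)
    (hH : H = ⨆ A ∈ S, A) (hne : S.Nonempty)
    (hcomm : ∀ A ∈ S, ∀ x ∈ A, ∀ y ∈ A, x * y = y * x) (hbot : ∀ A ∈ S, A ≠ ⊥)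
    (hconj : ∀ A ∈ S, ∀ g : G, Cfsg.conjBy A g ∈ S)
    (hpair : ∀ A ∈ S, ∀ B ∈ S, ⁅A, B⁆ = ⊥ ∨
      (Cfsg.IsRankOnePair A B ∧ Cfsg.IsPSL2PairOver k A B))
    (hlink : ∀ A ∈ S, ∀ B ∈ S, ∃ C ∈ S, Cfsg.IsRankOnePair A C ∧ Cfsg.IsRankOnePair C B) :
    Cfsg.IsRootSubgroupClass ((fun A : Subgroup G => A.subgroupOf H) '' S) ∧
    Cfsg.IsDegenerateRootSet ((fun A : Subgroup G => A.subgroupOf H) '' S) ∧
    Cfsg.IsKRootSubgroupSet k ((fun A : Subgroup G => A.subgroupOf H) '' S) ∧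
    Cfsg.IsConnectedFamily (Cfsg.FAdj ((fun A : Subgroup G => A.subgroupOf H) '' S))
      ((fun A : Subgroup G => A.subgroupOf H) '' S) := by
  have hle : ∀ A ∈ S, A ≤ H := by
    intro A hA
    rw [hH]
    exact le_biSup (fun A => A) hA
  have hbot' : ∀ A ∈ S, A.subgroupOf H ≠ ⊥ := by
    intro A hA h0
    apply hbot A hA
    rw [Subgroup.eq_bot_iff_forall]
    intro x hx
    have h1 : (⟨x, hle A hA hx⟩ : H) ∈ A.subgroupOf H := Subgroup.mem_subgroupOf.mpr hx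
    rw [h0, Subgroup.mem_bot] at h1
    exact congrArg Subtype.val h1
  have hcomm' : ∀ A ∈ S, ∀ x ∈ A.subgroupOf H, ∀ y ∈ A.subgroupOf H, x * y = y * x := by
    intro A hA x hx y hy
    exact Subtype.ext (hcomm A hA x.1 (Subgroup.mem_subgroupOf.mp hx) y.1
      (Subgroup.mem_subgroupOf.mp hy))
  have hpair' : ∀ A ∈ S, ∀ B ∈ S, ⁅A.subgroupOf H, B.subgroupOf H⁆ = ⊥ ∨
      Cfsg.IsRankOnePair (A.subgroupOf H) (B.subgroupOf H) := by
    intro A hA B hB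
    rcases hpair A hA B hB with h | ⟨h, -⟩
    · exact Or.inl (subOf_comm_bot8 H A B h)
    · exact Or.inr (subOf_rankOnePair8 H A B (hle A hA) (hle B hB) (hcomm A hA) (hcomm B hB) h)
  have hroot : Cfsg.IsRootSubgroupSet ((fun A : Subgroup G => A.subgroupOf H) '' S) := by
    refine ⟨?_, ?_, ?_, ?_, ?_⟩
    · rintro _ ⟨A, hA, rfl⟩
      exact ⟨⟨fun a b => hcomm' A hA a.1 a.2 b.1 b.2 |> fun e => Subtype.ext e⟩⟩
    · rintro _ ⟨A, hA, rfl⟩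
      exact hbot' A hA
    · rw [eq_top_iff]
      intro x _
      have h1 : (⨆ A ∈ S, A) ≤
          (⨆ A' ∈ ((fun A : Subgroup G => A.subgroupOf H) '' S), A').map H.subtype := by
        refine iSup₂_le (fun A hA => ?_)
        intro g hg
        have h2 : A.subgroupOf H ≤ ⨆ A' ∈ ((fun A : Subgroup G => A.subgroupOf H) '' S), A' :=
          le_biSup (fun A' => A')
            (⟨A, hA, rfl⟩ : A.subgroupOf H ∈ (fun A : Subgroup G => A.subgroupOf H) '' S)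
        exact ⟨⟨g, hle A hA hg⟩, h2 (Subgroup.mem_subgroupOf.mpr hg), rfl⟩
      obtain ⟨y, hy, hyx⟩ := h1 (hH.le x.2)
      have e : y = x := Subtype.ext hyx
      rw [← e]
      exact hy
    · rintro _ ⟨A, hA, rfl⟩ g
      exact ⟨Cfsg.conjBy A (g : G), hconj A hA g, (subOf_conj8 H A g).symm⟩
    · rintro _ ⟨A, hA, rfl⟩ _ ⟨B, hB, rfl⟩
      rcases hpair' A hA B hB with h | h
      · exact Or.inl h
      · exact Or.inr (Or.inl h)
  have hlink' : ∀ A ∈ S, ∀ B ∈ S, ∃ C ∈ S,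
      Cfsg.IsRankOnePair (A.subgroupOf H) (C.subgroupOf H) ∧
      Cfsg.IsRankOnePair (C.subgroupOf H) (B.subgroupOf H) := by
    intro A hA B hB
    obtain ⟨C, hC, h1, h2⟩ := hlink A hA B hB
    exact ⟨C, hC,
      subOf_rankOnePair8 H A C (hle A hA) (hle C hC) (hcomm A hA) (hcomm C hC) h1,
      subOf_rankOnePair8 H C B (hle C hC) (hle B hB) (hcomm C hC) (hcomm B hB) h2⟩
  refine ⟨⟨hroot, ?_, ?_⟩, ?_, ⟨hroot, ?_⟩, ?_⟩
  · obtain ⟨A, hA⟩ := hne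
    exact ⟨A.subgroupOf H, A, hA, rfl⟩
  · rintro _ ⟨A, hA, rfl⟩ _ ⟨B, hB, rfl⟩
    obtain ⟨C, hC, h1, h2⟩ := hlink' A hA B hB
    obtain ⟨g₁, e1⟩ := rankOne_conj8 _ _ (hbot' A hA) h1
    obtain ⟨g₂, e2⟩ := rankOne_conj8 _ _ (hbot' C hC) h2
    refine ⟨g₂ * g₁, ?_⟩
    show B.subgroupOf H = Cfsg.conjBy (A.subgroupOf H) (g₂ * g₁)
    rw [← conjBy_conjBy8, ← e1, ← e2]
  · rintro _ ⟨A, hA, rfl⟩ _ ⟨B, hB, rfl⟩
    refine commCase_false8 _ _ _ ?_ (hcomm' A hA) (hbot' A hA) (hpair' A hA B hB)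
    rintro _ ⟨C, hC, rfl⟩
    exact hbot' C hC
  · rintro _ ⟨A, hA, rfl⟩ _ ⟨B, hB, rfl⟩ hr
    rcases hpair A hA B hB with h | ⟨-, h⟩
    · exfalso
      have h0 := subOf_comm_bot8 H A B h
      rw [Subgroup.commutator_eq_bot_iff_le_centralizer] at h0
      refine rankOne_not_comm8 _ _ (hbot' A hA) hr ?_
      intro a ha b hb
      have h1 := h0 ha
      rw [Subgroup.mem_centralizer_iff] at h1
      exact (h1 b hb).symm
    · exact subOf_psl2_8 k H A B (hle A hA) (hle B hB) h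
  · rintro _ ⟨A, hA, rfl⟩ _ ⟨B, hB, rfl⟩
    obtain ⟨C, hC, h1, h2⟩ := hlink' A hA B hB
    exact Relation.ReflTransGen.head ⟨⟨A, hA, rfl⟩, ⟨C, hC, rfl⟩, h1⟩
      (Relation.ReflTransGen.single ⟨⟨C, hC, rfl⟩, ⟨B, hB, rfl⟩, h2⟩)

end rk8

end Cfsg.Agent.Lib.Helper8
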