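import Mathlib
import Cfsg.Prelude.Def_RootSubgroups
import Cfsg.Agent.Lib.Helper8.RK1

set_option autoImplicit false

namespace Cfsg.Agent.Lib.Helper8

open scoped commutatorElement

section rk8b

variable {G : Type*} [Group G]

/-- A rank one pair with abelian `A` whose commutator subgroup is central commutes. -/
theorem rankOne_central_bot8 (A B : Subgroup G) (hAc : ∀ x ∈ A, ∀ y ∈ A, x * y = y * x)
    (hA : A ≠ ⊥) (h : Cfsg.IsRankOnePair A B)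
    (hcent : ∀ c ∈ ⁅A, B⁆, ∀ x ∈ A ⊔ B, c * x = x * c) : ⁅A, B⁆ = ⊥ := by
  obtain ⟨a, ha, ha1⟩ := exists_ne_one_of_ne_bot8 A hA
  obtain ⟨b, hb, -, hconj⟩ := h.cond_left a ha ha1
  rw [Subgroup.commutator_eq_bot_iff_le_centralizer]
  intro a₂ ha₂
  rw [Subgroup.mem_centralizer_iff]
  intro b₁ hb₁
  have h1 : a⁻¹ * b₁ * a⁻¹⁻¹ ∈ Cfsg.conjBy B a⁻¹ := ⟨b₁, hb₁, rfl⟩
  rw [← hconj] at h1
  obtain ⟨a₁, ha₁, h2⟩ := h1
  have h2' : b⁻¹ * a₁ * b = a⁻¹ * b₁ * a := by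
    have h3 : b⁻¹ * a₁ * b⁻¹⁻¹ = a⁻¹ * b₁ * a⁻¹⁻¹ := h2
    rw [inv_inv, inv_inv] at h3
    exact h3
  have hzm : ⁅b₁⁻¹, a⁻¹⁆ ∈ ⁅A, B⁆ := by
    rw [Subgroup.commutator_comm]
    exact Subgroup.commutator_mem_commutator (Subgroup.inv_mem _ hb₁) (Subgroup.inv_mem _ ha)
  have hzm' : ⁅a₁⁻¹, b⁻¹⁆ ∈ ⁅A, B⁆ :=
    Subgroup.commutator_mem_commutator (Subgroup.inv_mem _ ha₁) (Subgroup.inv_mem _ hb)
  obtain ⟨z, hz⟩ : ∃ z, z = ⁅b₁⁻¹, a⁻¹⁆ := ⟨_, rfl⟩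
  obtain ⟨z', hz'⟩ : ∃ z', z' = ⁅a₁⁻¹, b⁻¹⁆ := ⟨_, rfl⟩
  rw [← hz] at hzm
  rw [← hz'] at hzm'
  have e1 : a⁻¹ * b₁ * a = b₁ * z := by
    rw [hz, commutatorElement_def]
    group
  have e2 : b⁻¹ * a₁ * b = a₁ * z' := by
    rw [hz', commutatorElement_def]
    group
  have e3 : b₁ * z = a₁ * z' := by rw [← e1, ← e2, h2']
  have e4 : b₁ = a₁ * z' * z⁻¹ := eq_mul_inv_of_mul_eq e3
  have c1 : Commute a₂ a₁ := hAc a₂ ha₂ a₁ ha₁
  have c2 : Commute a₂ z' := (hcent z' hzm' a₂ (Subgroup.mem_sup_left ha₂)).symm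
  have c3 : Commute a₂ z := (hcent z hzm a₂ (Subgroup.mem_sup_left ha₂)).symm
  have c4 : Commute a₂ (a₁ * z' * z⁻¹) := (c1.mul_right c2).mul_right c3.inv_right
  rw [e4]
  exact c4.eq.symm

theorem subOf_commutator8 (H A B : Subgroup G) (hA : A ≤ H) (hB : B ≤ H)
    (hC : ⁅A, B⁆ ≤ H) :
    ⁅A.subgroupOf H, B.subgroupOf H⁆ = (⁅A, B⁆).subgroupOf H := by
  apply Subgroup.map_injective H.subtype_injective
  rw [Subgroup.map_commutator, Subgroup.map_subgroupOf_eq_of_le hA,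
    Subgroup.map_subgroupOf_eq_of_le hB, Subgroup.map_subgroupOf_eq_of_le hC]

theorem subOf_commCase8 (S : Set (Subgroup G)) (H : Subgroup G) (hle : ∀ A ∈ S, A ≤ H)
    (A B : Subgroup G) (hA : A ∈ S) (hB : B ∈ S) (h : Cfsg.RootCommutatorCase S A B) :
    Cfsg.RootCommutatorCase ((fun A : Subgroup G => A.subgroupOf H) '' S) (A.subgroupOf H)
      (B.subgroupOf H) := by
  obtain ⟨hmem, hcent, hcl1, hcl2⟩ := h
  have hC : ⁅A, B⁆ ≤ H := hle _ hmem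
  have key := subOf_commutator8 H A B (hle A hA) (hle B hB) hC
  refine ⟨?_, ?_, ?_, ?_⟩
  · rw [key]
    exact ⟨⁅A, B⁆, hmem, rfl⟩
  · intro c hc x hx
    rw [key] at hc
    rw [← Subgroup.subgroupOf_sup (hle A hA) (hle B hB)] at hx
    exact Subtype.ext (hcent c.1 (Subgroup.mem_subgroupOf.mp hc) x.1
      (Subgroup.mem_subgroupOf.mp hx))
  · intro a ha ha1
    have ha' : (a : G) ∈ A := Subgroup.mem_subgroupOf.mp ha
    have ha1' : (a : G) ≠ 1 := fun h0 => ha1 (Subtype.ext h0)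
    apply Subgroup.map_injective H.subtype_injective
    rw [MonoidHom.map_closure, key, Subgroup.map_subgroupOf_eq_of_le hC, ← hcl1 (a : G) ha' ha1']
    congr 1
    ext g
    constructor
    · rintro ⟨_, ⟨b, hb, rfl⟩, rfl⟩
      exact ⟨b.1, Subgroup.mem_subgroupOf.mp hb, rfl⟩
    · rintro ⟨b, hb, rfl⟩
      exact ⟨_, ⟨⟨b, hle B hB hb⟩, Subgroup.mem_subgroupOf.mpr hb, rfl⟩, rfl⟩
  · intro b hb hb1
    have hb' : (b : G) ∈ B := Subgroup.mem_subgroupOf.mp hb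
    have hb1' : (b : G) ≠ 1 := fun h0 => hb1 (Subtype.ext h0)
    apply Subgroup.map_injective H.subtype_injective
    rw [MonoidHom.map_closure, key, Subgroup.map_subgroupOf_eq_of_le hC, ← hcl2 (b : G) hb' hb1']
    congr 1
    ext g
    constructor
    · rintro ⟨_, ⟨a, ha, rfl⟩, rfl⟩
      exact ⟨a.1, Subgroup.mem_subgroupOf.mp ha, rfl⟩
    · rintro ⟨a, ha, rfl⟩
      exact ⟨_, ⟨⟨a, hle A hA ha⟩, Subgroup.mem_subgroupOf.mpr ha, rfl⟩, rfl⟩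

theorem subOf_kroot8 (k : Type*) [Field k] (S : Set (Subgroup G)) (H : Subgroup G)
    (hH : H = ⨆ A ∈ S, A)
    (hcomm : ∀ A ∈ S, ∀ x ∈ A, ∀ y ∈ A, x * y = y * x) (hbot : ∀ A ∈ S, A ≠ ⊥)
    (hconj : ∀ A ∈ S, ∀ g : G, Cfsg.conjBy A g ∈ S)
    (hpair : ∀ A ∈ S, ∀ B ∈ S, ⁅A, B⁆ = ⊥ ∨
      (Cfsg.IsRankOnePair A B ∧ Cfsg.IsPSL2PairOver k A B) ∨ Cfsg.RootCommutatorCase S A B) :
    Cfsg.IsKRootSubgroupSet k ((fun A : Subgroup G => A.subgroupOf H) '' S) := by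
  have hle : ∀ A ∈ S, A ≤ H := by
    intro A hA
    rw [hH]
    exact le_biSup (fun A => A) hA
  have hbot' : ∀ A ∈ S, A.subgroupOf H ≠ ⊥ := by
    intro A hA h0
    apply hbot A hA
    rw [Subgroup.eq_bot_iff_forall]
    intro x hx
    have h1 : (⟨x, hle A hA hx⟩ : H) ∈ A.subgroupOf H := Subgroup.mem_subgroupOf.mpr hx
    rw [h0, Subgroup.mem_bot] at h1
    exact congrArg Subtype.val h1
  have hcomm' : ∀ A ∈ S, ∀ x ∈ A.subgroupOf H, ∀ y ∈ A.subgroupOf H, x * y = y * x := by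
    intro A hA x hx y hy
    exact Subtype.ext (hcomm A hA x.1 (Subgroup.mem_subgroupOf.mp hx) y.1
      (Subgroup.mem_subgroupOf.mp hy))
  have hroot : Cfsg.IsRootSubgroupSet ((fun A : Subgroup G => A.subgroupOf H) '' S) := by
    refine ⟨?_, ?_, ?_, ?_, ?_⟩
    · rintro _ ⟨A, hA, rfl⟩
      exact ⟨⟨fun a b => hcomm' A hA a.1 a.2 b.1 b.2 |> fun e => Subtype.ext e⟩⟩
    · rintro _ ⟨A, hA, rfl⟩
      exact hbot' A hA
    · rw [eq_top_iff]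
      intro x _
      have h1 : (⨆ A ∈ S, A) ≤
          (⨆ A' ∈ ((fun A : Subgroup G => A.subgroupOf H) '' S), A').map H.subtype := by
        refine iSup₂_le (fun A hA => ?_)
        intro g hg
        have h2 : A.subgroupOf H ≤ ⨆ A' ∈ ((fun A : Subgroup G => A.subgroupOf H) '' S), A' :=
          le_biSup (fun A' => A')
            (⟨A, hA, rfl⟩ : A.subgroupOf H ∈ (fun A : Subgroup G => A.subgroupOf H) '' S)
        exact ⟨⟨g, hle A hA hg⟩, h2 (Subgroup.mem_subgroupOf.mpr hg), rfl⟩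
      obtain ⟨y, hy, hyx⟩ := h1 (hH.le x.2)
      have e : y = x := Subtype.ext hyx
      rw [← e]
      exact hy
    · rintro _ ⟨A, hA, rfl⟩ g
      exact ⟨Cfsg.conjBy A (g : G), hconj A hA g, (subOf_conj8 H A g).symm⟩
    · rintro _ ⟨A, hA, rfl⟩ _ ⟨B, hB, rfl⟩
      rcases hpair A hA B hB with h | ⟨h, -⟩ | h
      · exact Or.inl (subOf_comm_bot8 H A B h)
      · exact Or.inr (Or.inl (subOf_rankOnePair8 H A B (hle A hA) (hle B hB) (hcomm A hA)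
          (hcomm B hB) h))
      · exact Or.inr (Or.inr (subOf_commCase8 S H hle A B hA hB h))
  refine ⟨hroot, ?_⟩
  rintro _ ⟨A, hA, rfl⟩ _ ⟨B, hB, rfl⟩ hr
  rcases hpair A hA B hB with h | ⟨-, h⟩ | h
  · exfalso
    have h0 := subOf_comm_bot8 H A B h
    rw [Subgroup.commutator_eq_bot_iff_le_centralizer] at h0
    refine rankOne_not_comm8 _ _ (hbot' A hA) hr ?_
    intro a ha b hb
    have h1 := h0 ha
    rw [Subgroup.mem_centralizer_iff] at h1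
    exact (h1 b hb).symm
  · exact subOf_psl2_8 k H A B (hle A hA) (hle B hB) h
  · exfalso
    have h1 := subOf_commCase8 S H hle A B hA hB h
    have h2 := rankOne_central_bot8 _ _ (hcomm' A hA) (hbot' A hA) hr h1.2.1
    have h3 := h1.1
    rw [h2] at h3
    obtain ⟨C, hC, hCe⟩ := h3
    exact hbot' C hC hCe

end rk8b

end Cfsg.Agent.Lib.Helper8
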