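import Mathlib
import Cfsg.Prelude.Def_RootSubgroups
import Cfsg.Agent.Lib.Helper8.PCore

set_option autoImplicit false

namespace Cfsg.Agent.Lib.Helper8

open scoped commutatorElement

theorem invol_sq {G : Type*} [Group G] {d : G} (h : orderOf d = 2) : d * d = 1 := by
  have := pow_orderOf_eq_one d
  rw [h, pow_two] at this
  exact this

theorem invol_inv {G : Type*} [Group G] {d : G} (h : orderOf d = 2) : d⁻¹ = d :=
  inv_eq_of_mul_eq_one_right (invol_sq h)

/-- An element of odd order in a `2`-group position: if `x ^ 2` lies in `O₂(G)` and `x` has odd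
order then `x = 1`. -/
theorem eq_one_of_odd_of_sq_mem {G : Type*} [Group G] {x : G} (ho : Odd (orderOf x))
    (hQ : x ^ 2 ∈ Cfsg.pCore 2 G) : x = 1 := by
  have hp := pCore_isPGroup 2 G
  obtain ⟨k, hk⟩ := hp ⟨_, hQ⟩
  have hk' : (x ^ 2) ^ (2 ^ k) = 1 := by
    have := congrArg Subtype.val hk
    simpa using this
  rw [← pow_mul, ← pow_succ'] at hk'
  have h1 : orderOf x ∣ 2 ^ (k + 1) := orderOf_dvd_of_pow_eq_one hk'
  obtain ⟨j, _, hj'⟩ := (Nat.dvd_prime_pow Nat.prime_two).mp h1
  rcases j with _ | j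
  · rw [pow_zero] at hj'
    exact orderOf_eq_one_iff.mp hj'
  · exfalso
    rw [hj'] at ho
    have : Even (2 ^ (j + 1)) := by
      rw [pow_succ]; exact even_two.mul_left _
    exact (Nat.not_even_iff_odd.mpr ho) this

/-- Two odd transpositions whose product squares into `O₂(G)` commute. -/
theorem odd_tr_comm {G : Type*} [Group G] {D : Set G}
    (hD : Cfsg.IsOddTranspositionSet D) {d d' : G} (hd : d ∈ D) (hd' : d' ∈ D)
    (hQ : (d * d') ^ 2 ∈ Cfsg.pCore 2 G) : d * d' = d' * d := by
  rcases hD.1.pair d hd d' hd' with h | h | h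
  · exact h
  · have h2 := eq_one_of_odd_of_sq_mem h hQ
    have h3 : d' = d⁻¹ := (inv_eq_of_mul_eq_one_right h2).symm
    rw [h3]; group
  · exact absurd h.1 (hD.2 d hd d' hd')

/-- An odd transposition commutes with its conjugates under `O₂(G)`. -/
theorem odd_tr_comm_conj {G : Type*} [Group G] {D : Set G}
    (hD : Cfsg.IsOddTranspositionSet D) {d : G} (hd : d ∈ D) {q : G}
    (hq : q ∈ Cfsg.pCore 2 G) : d * (q * d * q⁻¹) = (q * d * q⁻¹) * d := by
  haveI := pCore_normal 2 G
  refine odd_tr_comm hD hd (hD.1.conj_mem d hd q) ?_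
  have h1 : d * (q * d * q⁻¹) = (d * q * d⁻¹) * q⁻¹ := by
    rw [invol_inv (hD.1.orderOf_eq d hd)]; group
  rw [h1]
  exact Subgroup.pow_mem _ (Subgroup.mul_mem _ (‹(Cfsg.pCore 2 G).Normal›.conj_mem q hq d)
    (Subgroup.inv_mem _ hq)) 2

/-- A member of `D` commuting with `a` commutes with the `O₂(G)`-conjugates of `a`. -/
theorem odd_tr_comm_conj' {G : Type*} [Group G] {D : Set G}
    (hD : Cfsg.IsOddTranspositionSet D) {a e : G} (ha : a ∈ D) (he : e ∈ D)
    (hea : e * a = a * e) {q : G}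
    (hq : q ∈ Cfsg.pCore 2 G) : e * (q * a * q⁻¹) = (q * a * q⁻¹) * e := by
  haveI := pCore_normal 2 G
  refine odd_tr_comm hD he (hD.1.conj_mem a ha q) ?_
  have ha2 := invol_sq (hD.1.orderOf_eq a ha)
  have he2 := invol_sq (hD.1.orderOf_eq e he)
  have hai := invol_inv (hD.1.orderOf_eq a ha)
  have hei := invol_inv (hD.1.orderOf_eq e he)
  obtain ⟨z, hzdef⟩ : ∃ z, z = a⁻¹ * (q * a * q⁻¹) := ⟨_, rfl⟩
  have hz : z ∈ Cfsg.pCore 2 G := by
    rw [hzdef]
    have h1 : a⁻¹ * (q * a * q⁻¹) = (a⁻¹ * q * a⁻¹⁻¹) * q⁻¹ := by group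
    rw [h1]
    exact Subgroup.mul_mem _ (‹(Cfsg.pCore 2 G).Normal›.conj_mem q hq a⁻¹) (Subgroup.inv_mem _ hq)
  have h2 : e * (q * a * q⁻¹) = (e * a) * z := by
    rw [hzdef]; group
  have h3 : (e * a)⁻¹ = e * a := by
    rw [mul_inv_rev, hai, hei, hea]
  have h4 : ((e * a) * z) ^ 2 = ((e * a) * z * (e * a)⁻¹) * z := by
    rw [h3, pow_two]; group
  rw [h2, h4]
  exact Subgroup.mul_mem _ (‹(Cfsg.pCore 2 G).Normal›.conj_mem z hz (e * a)) hz

theorem mem_zpowers_invol {G : Type*} [Group G] {a x : G} (ha : orderOf a = 2)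
    (hx : x ∈ Subgroup.zpowers a) : x = 1 ∨ x = a := by
  obtain ⟨k, rfl⟩ := Subgroup.mem_zpowers_iff.mp hx
  have ha2 : a ^ (2 : ℤ) = 1 := by
    have := pow_orderOf_eq_one a
    rw [ha] at this
    exact_mod_cast this
  rcases Int.even_or_odd' k with ⟨m, rfl | rfl⟩
  · left
    rw [zpow_mul, ha2, one_zpow]
  · right
    rw [zpow_add, zpow_mul, ha2, one_zpow, one_mul, zpow_one]

/-- S5049, first part. -/
theorem odd_tr_part1 {G : Type*} [Group G] {D : Set G}
    (hD : Cfsg.IsOddTranspositionSet D) {a : G} (ha : a ∈ D) :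
    ∀ e ∈ Cfsg.commutingMembers D a, ∀ q ∈ ⁅Cfsg.pCore 2 G, Subgroup.zpowers a⁆,
      e * q = q * e := by
  intro e he
  obtain ⟨heD, hea⟩ := he
  have hle : ⁅Cfsg.pCore 2 G, Subgroup.zpowers a⁆ ≤ Subgroup.centralizer {e} := by
    rw [Subgroup.commutator_le]
    intro q hq x hx
    rw [Subgroup.mem_centralizer_iff]
    intro h hh
    rw [Set.mem_singleton_iff] at hh
    subst hh
    rcases mem_zpowers_invol (hD.1.orderOf_eq a ha) hx with rfl | rfl
    · simp
    · have h1 := odd_tr_comm_conj' hD ha heD hea hq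
      have h2 : ⁅q, x⁆ = (q * x * q⁻¹) * x := by
        rw [commutatorElement_def, invol_inv (hD.1.orderOf_eq x ha)]
      rw [h2, ← mul_assoc, h1, mul_assoc, hea, ← mul_assoc]
  intro q hq
  have := hle hq
  rw [Subgroup.mem_centralizer_iff] at this
  exact this e rfl

/-- S5049, second part. -/
theorem odd_tr_part2 {G : Type*} [Group G] [Finite G] {D : Set G}
    (hD : Cfsg.IsOddTranspositionSet D) {a : G} (ha : a ∈ D) :
    ∀ b ∈ Cfsg.oddPartners D a,
      Cfsg.pCore 2 G ⊓ Subgroup.centralizer {a * b} =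
        Cfsg.pCore 2 G ⊓ Subgroup.centralizer {a} ⊓ Subgroup.centralizer {b} := by
  intro b hb
  obtain ⟨hbD, hba, hodd⟩ := hb
  haveI := pCore_normal 2 G
  have ha2 := invol_sq (hD.1.orderOf_eq a ha)
  have hb2 := invol_sq (hD.1.orderOf_eq b hbD)
  have hai := invol_inv (hD.1.orderOf_eq a ha)
  have hbi := invol_inv (hD.1.orderOf_eq b hbD)
  apply le_antisymm
  · intro q hq
    rw [Subgroup.mem_inf] at hq
    obtain ⟨hqQ, hqc⟩ := hq
    rw [Subgroup.mem_centralizer_iff] at hqc
    have hqc' : a * b * q = q * (a * b) := hqc _ rfl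
    obtain ⟨a', ha'def⟩ : ∃ a', a' = q * a * q⁻¹ := ⟨_, rfl⟩
    obtain ⟨b', hb'def⟩ : ∃ b', b' = q * b * q⁻¹ := ⟨_, rfl⟩
    have ha'D : a' ∈ D := ha'def ▸ hD.1.conj_mem a ha q
    have hb'D : b' ∈ D := hb'def ▸ hD.1.conj_mem b hbD q
    have hb'2 := invol_sq (hD.1.orderOf_eq b' hb'D)
    have ha'2 := invol_sq (hD.1.orderOf_eq a' ha'D)
    have hab' : a' * b' = a * b := by
      rw [ha'def, hb'def]
      have : q * a * q⁻¹ * (q * b * q⁻¹) = q * (a * b) * q⁻¹ := by group
      rw [this, ← hqc']; group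
    obtain ⟨z, hzdef⟩ : ∃ z, z = a * a' := ⟨_, rfl⟩
    have hzb : z = b * b' := by
      have h1 : a' = a * b * b' := by
        calc a' = a' * (b' * b') := by rw [hb'2, mul_one]
          _ = (a' * b') * b' := by rw [mul_assoc]
          _ = a * b * b' := by rw [hab']
      rw [hzdef, h1, ← mul_assoc, ← mul_assoc, ha2, one_mul]
    have haa' : a * a' = a' * a := ha'def ▸ odd_tr_comm_conj hD ha hqQ
    have hbb' : b * b' = b' * b := hb'def ▸ odd_tr_comm_conj hD hbD hqQ
    have hza : z * a = a * z := by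
      rw [hzdef, mul_assoc, ← haa']
    have hzb' : z * b = b * z := by
      rw [hzb, mul_assoc, ← hbb']
    have hz2 : z * z = 1 := by
      rw [hzdef]
      calc a * a' * (a * a') = a * (a' * a) * a' := by group
        _ = a * (a * a') * a' := by rw [haa']
        _ = (a * a) * (a' * a') := by group
        _ = 1 := by rw [ha2, ha'2, one_mul]
    have ha'z : a' = a * z := by
      rw [hzdef, ← mul_assoc, ha2, one_mul]
    have hzw : z * (a * b) = (a * b) * z := by
      rw [← mul_assoc, hza, mul_assoc, hzb', mul_assoc]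
    have ha'b : a' * b = z * (a * b) := by
      rw [ha'z, mul_assoc, hzb', ← mul_assoc]
      exact hzw.symm
    have hwne : a * b ≠ 1 := by
      intro h1
      apply hba
      have : b = a⁻¹ := (inv_eq_of_mul_eq_one_right h1).symm
      rw [this, hai]
    have hzpow : ∀ m : ℕ, (z * (a * b)) ^ m = z ^ m * (a * b) ^ m := fun m =>
      (Commute.mul_pow hzw m)
    have hz1 : z = 1 := by
      rcases hD.1.pair a' ha'D b hbD with h | h | h
      · exfalso
        have h1 : (a' * b) ^ 2 = 1 := by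
          rw [pow_two]
          calc a' * b * (a' * b) = a' * (b * a') * b := by group
            _ = a' * (a' * b) * b := by rw [h]
            _ = (a' * a') * (b * b) := by group
            _ = 1 := by rw [ha'2, hb2, one_mul]
        rw [ha'b, hzpow, pow_two z, hz2, one_mul] at h1
        have h2 : orderOf (a * b) ∣ 2 := orderOf_dvd_of_pow_eq_one h1
        have h3 : orderOf (a * b) = 1 := by
          rcases (Nat.dvd_prime Nat.prime_two).mp h2 with h3 | h3
          · exact h3
          · rw [h3] at hodd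
            exact absurd hodd (by decide)
        exact hwne (orderOf_eq_one_iff.mp h3)
      · obtain ⟨m, hm⟩ : ∃ m, m = orderOf (a' * b) := ⟨_, rfl⟩
        rw [← hm] at h
        have h1 : (a' * b) ^ m = 1 := hm ▸ pow_orderOf_eq_one _
        rw [ha'b, hzpow] at h1
        have hzm : z ^ m = z := by
          obtain ⟨j, rfl⟩ := h
          rw [pow_succ, pow_mul, pow_two, hz2, one_pow, one_mul]
        rw [hzm] at h1
        have h2 : (a * b) ^ m = z := by
          have : (a * b) ^ m = z⁻¹ := (inv_eq_of_mul_eq_one_right h1).symm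
          rw [this]
          exact inv_eq_of_mul_eq_one_right hz2
        have h3 : (a * b) ^ (m * 2) = 1 := by
          rw [pow_mul, h2, pow_two, hz2]
        have h4 : orderOf (a * b) ∣ m * 2 := orderOf_dvd_of_pow_eq_one h3
        have h5 : orderOf (a * b) ∣ m :=
          (Nat.Coprime.dvd_of_dvd_mul_right (Nat.coprime_two_right.mpr hodd) h4)
        rw [← h2]
        exact orderOf_dvd_iff_pow_eq_one.mp h5
      · exact absurd h.1 (hD.2 a' ha'D b hbD)
    have h5 : a' = a := by rw [ha'z, hz1, mul_one]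
    have h6 : b' = b := by
      have : b * b' = 1 := by rw [← hzb, hz1]
      have h7 : b' = b⁻¹ := (inv_eq_of_mul_eq_one_right this).symm
      rw [h7, hbi]
    rw [Subgroup.mem_inf, Subgroup.mem_inf]
    refine ⟨⟨hqQ, ?_⟩, ?_⟩
    · rw [Subgroup.mem_centralizer_iff]
      intro h hh
      rw [Set.mem_singleton_iff] at hh
      subst hh
      rw [ha'def] at h5
      calc h * q = (q * h * q⁻¹) * q := by rw [h5]
        _ = q * h := by group
    · rw [Subgroup.mem_centralizer_iff]
      intro h hh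
      rw [Set.mem_singleton_iff] at hh
      subst hh
      rw [hb'def] at h6
      calc h * q = (q * h * q⁻¹) * q := by rw [h6]
        _ = q * h := by group
  · intro q hq
    rw [Subgroup.mem_inf, Subgroup.mem_inf] at hq
    obtain ⟨⟨hqQ, hqa⟩, hqb⟩ := hq
    rw [Subgroup.mem_centralizer_iff] at hqa hqb
    rw [Subgroup.mem_inf]
    refine ⟨hqQ, ?_⟩
    rw [Subgroup.mem_centralizer_iff]
    intro h hh
    rw [Set.mem_singleton_iff] at hh
    subst hh
    have h1 := hqa a rfl
    have h2 := hqb b rfl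
    rw [mul_assoc, h2, ← mul_assoc, h1, mul_assoc]

end Cfsg.Agent.Lib.Helper8
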