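import Mathlib
import Cfsg.Prelude.Def_RootSubgroups

set_option autoImplicit false

namespace Cfsg.Agent.Lib.Helper8

open Cfsg

variable {k : Type*} [Field k] {M : Type*} [AddCommGroup M] [Module k M]

theorem qp_mul_val (τ τ' : LinearMap.GeneralLinearGroup k M)
    (h : ((τ : M →ₗ[k] M) - 1) * ((τ' : M →ₗ[k] M) - 1) = 0) :
    ((τ * τ' : LinearMap.GeneralLinearGroup k M) : M →ₗ[k] M) - 1 =
      ((τ : M →ₗ[k] M) - 1) + ((τ' : M →ₗ[k] M) - 1) := by
  have h1 : ((τ * τ' : LinearMap.GeneralLinearGroup k M) : M →ₗ[k] M) - 1 =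
      ((τ : M →ₗ[k] M) - 1) + ((τ' : M →ₗ[k] M) - 1) +
        ((τ : M →ₗ[k] M) - 1) * ((τ' : M →ₗ[k] M) - 1) := by
    rw [Units.val_mul]; noncomm_ring
  rw [h1, h, add_zero]

theorem qp_sq_zero {G : Subgroup (LinearMap.GeneralLinearGroup k M)}
    {σ : LinearMap.GeneralLinearGroup k M} (hσ : σ ∈ minimalQuadraticElements G) :
    ((σ : M →ₗ[k] M) - 1) * ((σ : M →ₗ[k] M) - 1) = 0 := hσ.1.2.1.1

theorem sac_mul_zero {G : Subgroup (LinearMap.GeneralLinearGroup k M)}
    {σ τ τ' : LinearMap.GeneralLinearGroup k M} (hσ : σ ∈ minimalQuadraticElements G)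
    (hτ : τ ∈ sameActionClass G σ) (hτ' : τ' ∈ sameActionClass G σ) :
    ((τ : M →ₗ[k] M) - 1) * ((τ' : M →ₗ[k] M) - 1) = 0 := by
  apply LinearMap.ext
  intro m
  rw [Module.End.mul_apply, LinearMap.zero_apply]
  have h1 : ((τ' : M →ₗ[k] M) - 1) m ∈ LinearMap.range ((τ' : M →ₗ[k] M) - 1) :=
    LinearMap.mem_range_self _ m
  rw [hτ'.2.2] at h1
  obtain ⟨m', hm'⟩ := h1
  have h2 : ((σ : M →ₗ[k] M) - 1) m' ∈ LinearMap.ker ((σ : M →ₗ[k] M) - 1) := by
    rw [LinearMap.mem_ker, ← Module.End.mul_apply, qp_sq_zero hσ, LinearMap.zero_apply]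
  rw [← hτ.2.1, hm', LinearMap.mem_ker] at h2
  exact h2

theorem qp_unit_of_sq_zero (A : M →ₗ[k] M) (hA : A * A = 0) (c : k) :
    ∃ ρ : LinearMap.GeneralLinearGroup k M, (ρ : M →ₗ[k] M) = 1 + c • A := by
  have h1 : (c • A) * (c • A) = 0 := by
    rw [smul_mul_smul_comm, hA, smul_zero]
  have key1 : ∀ C : M →ₗ[k] M, (1 + C) * (1 - C) = 1 - C * C := fun C => by noncomm_ring
  have key2 : ∀ C : M →ₗ[k] M, (1 - C) * (1 + C) = 1 - C * C := fun C => by noncomm_ring
  refine ⟨⟨1 + c • A, 1 - c • A, ?_, ?_⟩, rfl⟩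
  · rw [key1, h1, sub_zero]
  · rw [key2, h1, sub_zero]

theorem sac_mul_mem [FiniteDimensional k M] {G : Subgroup (LinearMap.GeneralLinearGroup k M)}
    {σ τ τ' : LinearMap.GeneralLinearGroup k M} (hσ : σ ∈ minimalQuadraticElements G)
    (hτ : τ ∈ sameActionClass G σ) (hτ' : τ' ∈ sameActionClass G σ) :
    τ * τ' ∈ sameActionClass G σ ∨ τ * τ' = 1 := by
  have hAB := sac_mul_zero hσ hτ hτ'
  have hBA := sac_mul_zero hσ hτ' hτ
  have hAA := qp_sq_zero hτ.1
  have hBB := qp_sq_zero hτ'.1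
  have hN := qp_mul_val τ τ' hAB
  obtain ⟨A, hAdef⟩ : ∃ A, A = (τ : M →ₗ[k] M) - 1 := ⟨_, rfl⟩
  obtain ⟨B, hBdef⟩ : ∃ B, B = (τ' : M →ₗ[k] M) - 1 := ⟨_, rfl⟩
  rw [← hAdef, ← hBdef] at hN hAB hBA
  rw [← hAdef] at hAA
  rw [← hBdef] at hBB
  by_cases h0 : A + B = 0
  · right
    apply Units.ext
    rw [h0, sub_eq_zero] at hN
    rw [hN, Units.val_one]
  left
  have hNN : (A + B) * (A + B) = 0 := by
    rw [add_mul, mul_add, mul_add, hAA, hAB, hBA, hBB]; simp
  have hq : τ * τ' ∈ quadraticElements G := by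
    refine ⟨G.mul_mem hτ.1.1.1 hτ'.1.1.1, ⟨by rw [hN]; exact hNN, by rw [hN]; exact h0⟩, ?_⟩
    rintro ρ ⟨c, hc⟩
    obtain ⟨ρ1, h1⟩ := qp_unit_of_sq_zero A hAA c
    obtain ⟨ρ2, h2⟩ := qp_unit_of_sq_zero B hBB c
    have hρ1 : ρ1 ∈ G := hτ.1.1.2.2 ⟨c, by rw [h1, hAdef]⟩
    have hρ2 : ρ2 ∈ G := hτ'.1.1.2.2 ⟨c, by rw [h2, hBdef]⟩
    have : ρ = ρ1 * ρ2 := by
      apply Units.ext
      rw [hc, hN, Units.val_mul, h1, h2]
      have h3 : (c • A) * (c • B) = 0 := by
        rw [smul_mul_smul_comm, hAB, smul_zero]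
      have key : ∀ C D : M →ₗ[k] M, (1 + C) * (1 + D) = 1 + C + D + C * D := fun C D => by
        noncomm_ring
      rw [key, h3, add_zero, smul_add, add_assoc]
    rw [this]
    exact G.mul_mem hρ1 hρ2
  have hrange : LinearMap.range (A + B) ≤ LinearMap.range ((σ : M →ₗ[k] M) - 1) := by
    rintro m ⟨m', rfl⟩
    rw [LinearMap.add_apply]
    refine Submodule.add_mem _ ?_ ?_
    · rw [← hτ.2.2, ← hAdef]; exact LinearMap.mem_range_self _ _
    · rw [← hτ'.2.2, ← hBdef]; exact LinearMap.mem_range_self _ _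
  have hker : LinearMap.ker ((σ : M →ₗ[k] M) - 1) ≤ LinearMap.ker (A + B) := by
    intro m hm
    have h1 : A m = 0 := by
      rw [← hτ.2.1, ← hAdef] at hm; exact hm
    have h2 : B m = 0 := by
      rw [← hτ'.2.1, ← hBdef] at hm; exact hm
    rw [LinearMap.mem_ker, LinearMap.add_apply, h1, h2, add_zero]
  have hd1 : Module.finrank k (LinearMap.range (A + B)) ≤
      Module.finrank k (LinearMap.range ((σ : M →ₗ[k] M) - 1)) := Submodule.finrank_mono hrange
  have hd2 : Module.finrank k (LinearMap.range ((σ : M →ₗ[k] M) - 1)) ≤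
      Module.finrank k (LinearMap.range (A + B)) := by
    have := hσ.2 (τ * τ') hq
    unfold commutatorRank at this
    rwa [hN] at this
  have hd : Module.finrank k (LinearMap.range (A + B)) =
      Module.finrank k (LinearMap.range ((σ : M →ₗ[k] M) - 1)) := le_antisymm hd1 hd2
  have hrange_eq : LinearMap.range (A + B) = LinearMap.range ((σ : M →ₗ[k] M) - 1) :=
    Submodule.eq_of_le_of_finrank_eq hrange hd
  have hk1 := LinearMap.finrank_range_add_finrank_ker (A + B)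
  have hk2 := LinearMap.finrank_range_add_finrank_ker ((σ : M →ₗ[k] M) - 1)
  have hker_eq : LinearMap.ker ((σ : M →ₗ[k] M) - 1) = LinearMap.ker (A + B) :=
    Submodule.eq_of_le_of_finrank_eq hker (by omega)
  refine ⟨⟨hq, fun ρ hρ => ?_⟩, ?_, ?_⟩
  · refine le_trans ?_ (hσ.2 ρ hρ)
    unfold commutatorRank
    rw [hN]
    exact hd1
  · rw [hN, hker_eq]
  · rw [hN, hrange_eq]

theorem qp_inv_val (τ : LinearMap.GeneralLinearGroup k M)
    (hAA : ((τ : M →ₗ[k] M) - 1) * ((τ : M →ₗ[k] M) - 1) = 0) :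
    ((τ⁻¹ : LinearMap.GeneralLinearGroup k M) : M →ₗ[k] M) - 1 = -((τ : M →ₗ[k] M) - 1) := by
  have h1 : (τ : M →ₗ[k] M) * (1 - ((τ : M →ₗ[k] M) - 1)) = 1 := by
    have : (τ : M →ₗ[k] M) * (1 - ((τ : M →ₗ[k] M) - 1)) =
        1 - ((τ : M →ₗ[k] M) - 1) * ((τ : M →ₗ[k] M) - 1) := by noncomm_ring
    rw [this, hAA, sub_zero]
  have h2 : ((τ⁻¹ : LinearMap.GeneralLinearGroup k M) : M →ₗ[k] M) =
      1 - ((τ : M →ₗ[k] M) - 1) := by
    have := Units.inv_mul_cancel_left τ (1 - ((τ : M →ₗ[k] M) - 1))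
    rw [h1, mul_one] at this
    exact this
  rw [h2]; abel

theorem sac_inv_mem {G : Subgroup (LinearMap.GeneralLinearGroup k M)}
    {σ τ : LinearMap.GeneralLinearGroup k M}
    (hτ : τ ∈ sameActionClass G σ) : τ⁻¹ ∈ sameActionClass G σ := by
  have hAA := qp_sq_zero hτ.1
  have hinv := qp_inv_val τ hAA
  have hq : τ⁻¹ ∈ quadraticElements G := by
    refine ⟨G.inv_mem hτ.1.1.1, ⟨by rw [hinv, neg_mul_neg]; exact hAA,
      by rw [hinv]; exact neg_ne_zero.mpr hτ.1.1.2.1.2⟩, ?_⟩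
    rintro ρ ⟨c, hc⟩
    refine hτ.1.1.2.2 ⟨-c, ?_⟩
    rw [hc, hinv, smul_neg, neg_smul]
  refine ⟨⟨hq, fun ρ hρ => ?_⟩, ?_, ?_⟩
  · refine le_trans ?_ (hτ.1.2 ρ hρ)
    unfold commutatorRank
    rw [hinv, LinearMap.range_neg]
  · rw [hinv, LinearMap.ker_neg]; exact hτ.2.1
  · rw [hinv, LinearMap.range_neg]; exact hτ.2.2

theorem qp_pow_val (A : M →ₗ[k] M) (hA : A * A = 0) (n : ℕ) :
    (1 + A) ^ n = 1 + (n : k) • A := by
  induction n with
  | zero => simp
  | succ n ih =>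
    rw [pow_succ, ih]
    have h1 : (1 + (n : k) • A) * (1 + A) = 1 + (n : k) • A + A + (n : k) • (A * A) := by
      rw [mul_add, mul_one, add_mul, one_mul, smul_mul_assoc]; abel
    rw [h1, hA, smul_zero, add_zero, Nat.cast_succ, add_smul, one_smul, add_assoc]

/-- S5059. -/
theorem quad_pair_same_action [FiniteDimensional k M]
    {G : Subgroup (LinearMap.GeneralLinearGroup k M)}
    {σ : LinearMap.GeneralLinearGroup k M} (hσ : σ ∈ minimalQuadraticElements G) :
    (sameActionSubgroup G σ : Set (LinearMap.GeneralLinearGroup k M)) =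
        sameActionClass G σ ∪ {1} ∧
    IsMulCommutative ↥(sameActionSubgroup G σ) ∧
    (∀ p : ℕ, p.Prime → ringChar k = p → ∀ x ∈ sameActionSubgroup G σ, x ^ p = 1) := by
  obtain ⟨H, hHdef⟩ : ∃ H : Subgroup (LinearMap.GeneralLinearGroup k M), H =
      { carrier := sameActionClass G σ ∪ {1}
        mul_mem' := by
          rintro x y (hx | hx) (hy | hy)
          · rcases sac_mul_mem hσ hx hy with h | h
            · exact Or.inl h
            · exact Or.inr h
          · rw [Set.mem_singleton_iff] at hy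
            rw [hy, mul_one]; exact Or.inl hx
          · rw [Set.mem_singleton_iff] at hx
            rw [hx, one_mul]; exact Or.inl hy
          · rw [Set.mem_singleton_iff] at hx hy
            rw [hx, hy, mul_one]; exact Or.inr rfl
        one_mem' := Or.inr rfl
        inv_mem' := by
          rintro x (hx | hx)
          · exact Or.inl (sac_inv_mem hx)
          · rw [Set.mem_singleton_iff] at hx
            rw [hx, inv_one]; exact Or.inr rfl } := ⟨_, rfl⟩
  have hHmem : ∀ x, x ∈ H ↔ x ∈ sameActionClass G σ ∨ x = 1 := by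
    intro x; rw [hHdef]; rfl
  have hcl : sameActionSubgroup G σ = H := by
    unfold sameActionSubgroup
    apply le_antisymm
    · rw [Subgroup.closure_le]
      intro x hx
      exact (hHmem x).mpr (Or.inl hx)
    · intro x hx
      rcases (hHmem x).mp hx with h | h
      · exact Subgroup.subset_closure h
      · rw [h]; exact Subgroup.one_mem _
  refine ⟨?_, ?_, ?_⟩
  · rw [hcl]
    ext x
    rw [SetLike.mem_coe, hHmem]
    rfl
  · refine ⟨⟨fun a b => ?_⟩⟩
    obtain ⟨x, hx⟩ := a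
    obtain ⟨y, hy⟩ := b
    apply Subtype.ext
    show x * y = y * x
    rw [hcl, hHmem] at hx hy
    rcases hx with hx | rfl
    · rcases hy with hy | rfl
      · apply Units.ext
        have h1 := qp_mul_val x y (sac_mul_zero hσ hx hy)
        have h2 := qp_mul_val y x (sac_mul_zero hσ hy hx)
        rw [add_comm, ← h2] at h1
        exact sub_left_injective h1
      · rw [mul_one, one_mul]
    · rw [mul_one, one_mul]
  · intro p _ hchar x hx
    rw [hcl, hHmem] at hx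
    rcases hx with hx | rfl
    · apply Units.ext
      rw [Units.val_pow_eq_pow_val, Units.val_one]
      have h1 : (x : M →ₗ[k] M) = 1 + ((x : M →ₗ[k] M) - 1) := by abel
      rw [h1, qp_pow_val _ (qp_sq_zero hx.1)]
      haveI : CharP k p := hchar ▸ ringChar.charP k
      rw [CharP.cast_eq_zero k p, zero_smul, add_zero]
    · exact one_pow p

end Cfsg.Agent.Lib.Helper8
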