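import Mathlib
import Cfsg.Prelude
import Cfsg.Agent.Lib.Helper8.Syl

set_option autoImplicit false

namespace Cfsg.Agent.Lib.Helper8

open Cfsg

section
variable {G : Type*} [Group G] {A B : Subgroup G}

theorem r1_inf_normalizer (h : IsRankOnePair A B) :
    A ⊓ Subgroup.normalizer (B : Set G) = ⊥ := by
  rw [eq_bot_iff]
  intro a ha
  obtain ⟨haA, haN⟩ := Subgroup.mem_inf.mp ha
  rw [Subgroup.mem_bot]
  by_contra ha1
  obtain ⟨b, hb, -, hconj⟩ := h.cond_left a haA ha1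
  have h1 : cj a⁻¹ B = B := mem_normalizer_iff_cj.mp (inv_mem haN)
  have h2 : cj b⁻¹ A = B := Eq.trans hconj h1
  have h3 : A = B := by
    have := congrArg (cj b) h2
    rw [cj_cj, mul_inv_cancel, cj_one, cj_eq_self_of_mem hb] at this
    exact this
  exact h.ne h3

theorem r1_unique_b (h : IsRankOnePair A B) {a b b' : G} (hb : b ∈ B) (hb' : b' ∈ B)
    (h1 : cj b⁻¹ A = cj a⁻¹ B) (h2 : cj b'⁻¹ A = cj a⁻¹ B) : b' = b := by
  have h3 : cj (b' * b⁻¹) A = A := by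
    rw [← cj_cj, h1, ← h2, cj_cj, mul_inv_cancel, cj_one]
  have h4 : b' * b⁻¹ ∈ B ⊓ Subgroup.normalizer (A : Set G) :=
    Subgroup.mem_inf.mpr ⟨mul_mem hb' (inv_mem hb), mem_normalizer_iff_cj.mpr h3⟩
  rw [r1_inf_normalizer (RankOnePair_symm h), Subgroup.mem_bot] at h4
  exact mul_inv_eq_one.mp h4

theorem r1_unique_a (h : IsRankOnePair A B) {a a' b : G} (ha : a ∈ A) (ha' : a' ∈ A)
    (h1 : cj b⁻¹ A = cj a⁻¹ B) (h2 : cj b⁻¹ A = cj a'⁻¹ B) : a' = a := by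
  have h3 : cj (a' * a⁻¹) B = B := by
    rw [← cj_cj, ← h1, h2, cj_cj, mul_inv_cancel, cj_one]
  have h4 : a' * a⁻¹ ∈ A ⊓ Subgroup.normalizer (B : Set G) :=
    Subgroup.mem_inf.mpr ⟨mul_mem ha' (inv_mem ha), mem_normalizer_iff_cj.mpr h3⟩
  rw [r1_inf_normalizer h, Subgroup.mem_bot] at h4
  exact mul_inv_eq_one.mp h4

theorem r1_S5013 (h : IsRankOnePair A B) :
    (∀ a ∈ A, a ≠ 1 → ∃! b : G, b ∈ B ∧ b ≠ 1 ∧ conjBy A b⁻¹ = conjBy B a⁻¹) ∧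
    (∀ b ∈ B, b ≠ 1 → ∃! a : G, a ∈ A ∧ a ≠ 1 ∧ conjBy A b⁻¹ = conjBy B a⁻¹) ∧
    A ⊓ Subgroup.normalizer (B : Set G) = ⊥ ∧ B ⊓ Subgroup.normalizer (A : Set G) = ⊥ := by
  refine ⟨?_, ?_, r1_inf_normalizer h, r1_inf_normalizer (RankOnePair_symm h)⟩
  · intro a ha ha1
    obtain ⟨b, hb, hb1, hconj⟩ := h.cond_left a ha ha1
    refine ⟨b, ⟨hb, hb1, hconj⟩, ?_⟩
    rintro b' ⟨hb', -, hconj'⟩
    exact r1_unique_b h hb hb' hconj hconj'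
  · intro b hb hb1
    obtain ⟨a, ha, ha1, hconj⟩ := h.cond_right b hb hb1
    refine ⟨a, ⟨ha, ha1, hconj.symm⟩, ?_⟩
    rintro a' ⟨ha', -, hconj'⟩
    exact r1_unique_a h ha ha' hconj.symm hconj'

theorem r1_ne_bot (h : IsRankOnePair A B) : ∃ a ∈ A, a ≠ 1 := by
  by_contra hcon
  push Not at hcon
  have hB : ∃ b ∈ B, b ≠ 1 := by
    by_contra hcon2
    push Not at hcon2
    apply h.ne
    ext x
    constructor
    · intro hx
      rw [hcon x hx]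
      exact one_mem _
    · intro hx
      rw [hcon2 x hx]
      exact one_mem _
  obtain ⟨b, hb, hb1⟩ := hB
  obtain ⟨a, ha, ha1, -⟩ := h.cond_right b hb hb1
  exact ha1 (hcon a ha)

theorem r1_B_eq (h : IsRankOnePair A B) :
    ∃ a ∈ A, ∃ b ∈ B, a ≠ 1 ∧ b ≠ 1 ∧ cj b⁻¹ A = cj a⁻¹ B ∧ B = cj (a * b⁻¹) A := by
  obtain ⟨a, ha, ha1⟩ := r1_ne_bot h
  obtain ⟨b, hb, hb1, hconj⟩ := h.cond_left a ha ha1
  refine ⟨a, ha, b, hb, ha1, hb1, hconj, ?_⟩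
  rw [← cj_cj, show cj b⁻¹ A = cj a⁻¹ B from hconj, cj_cj, mul_inv_cancel, cj_one]

/-- every conjugate of `A` under `A ⊔ B` is `A` or an `A`-conjugate of `B` -/
theorem r1_orbit (h : IsRankOnePair A B) {x : G} (hx : x ∈ A ⊔ B) :
    ∀ C : Subgroup G, (C = A ∨ ∃ a ∈ A, C = cj a B) →
      (cj x C = A ∨ ∃ a ∈ A, cj x C = cj a B) := by
  have hBA : ∀ b ∈ B, cj b A = A ∨ ∃ a ∈ A, cj b A = cj a B := by
    intro b hb
    by_cases hb1 : b = 1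
    · left
      rw [hb1, cj_one]
    · right
      have hb1' : b⁻¹ ≠ 1 := by simpa using hb1
      obtain ⟨a, ha, -, hconj⟩ := h.cond_right b⁻¹ (inv_mem hb) hb1'
      refine ⟨a⁻¹, inv_mem ha, ?_⟩
      have e : cj a⁻¹ B = cj b⁻¹⁻¹ A := hconj
      rw [inv_inv] at e
      exact e.symm
  have hgen : ∀ y, y ∈ (A : Set G) ∪ (B : Set G) → ∀ C : Subgroup G,
      (C = A ∨ ∃ a ∈ A, C = cj a B) → (cj y C = A ∨ ∃ a ∈ A, cj y C = cj a B) := by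
    rintro y (hy | hy) C hC
    · rcases hC with hC | ⟨a, ha, hC⟩
      · left
        rw [hC]
        exact cj_eq_self_of_mem hy
      · right
        rw [hC]
        exact ⟨y * a, mul_mem hy ha, cj_cj y a B⟩
    · rcases hC with hC | ⟨a, ha, hC⟩
      · rw [hC]
        exact hBA y hy
      · rw [hC]
        by_cases ha1 : a = 1
        · right
          refine ⟨1, one_mem _, ?_⟩
          rw [ha1, cj_one]
          exact cj_eq_self_of_mem hy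
        · have ha1' : a⁻¹ ≠ 1 := by simpa using ha1
          obtain ⟨b₀, hb₀, -, hconj⟩ := h.cond_left a⁻¹ (inv_mem ha) ha1'
          have e : cj b₀⁻¹ A = cj a B := by
            have e' : cj b₀⁻¹ A = cj a⁻¹⁻¹ B := hconj
            rwa [inv_inv] at e'
          rw [← e, cj_cj]
          exact hBA (y * b₀⁻¹) (mul_mem hy (inv_mem hb₀))
  rw [Subgroup.sup_eq_closure] at hx
  induction hx using Subgroup.closure_induction'' with
  | mem y hy => exact hgen y hy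
  | inv_mem y hy =>
    apply hgen
    rcases hy with hy | hy
    · left
      exact inv_mem hy
    · right
      exact inv_mem hy
  | one =>
    intro C hC
    rw [cj_one]
    exact hC
  | mul y z _ _ ihy ihz =>
    intro C hC
    rw [← cj_cj]
    exact ihy _ (ihz C hC)

theorem r1_mem_unip {C : Subgroup G} (h : IsRankOnePair A B) (hC : C ∈ unipotentSubgroups A B) :
    C = A ∨ ∃ a ∈ A, C = cj a B := by
  obtain ⟨x, hx, hCx⟩ := hC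
  rw [hCx]
  exact r1_orbit h hx A (Or.inl rfl)

theorem r1_A_mem : A ∈ unipotentSubgroups A B := ⟨1, one_mem _, (cj_one A).symm⟩

theorem r1_B_mem (h : IsRankOnePair A B) : B ∈ unipotentSubgroups A B := by
  obtain ⟨a, ha, b, hb, -, -, -, hB⟩ := r1_B_eq h
  exact ⟨a * b⁻¹, mul_mem (Subgroup.mem_sup_left ha) (Subgroup.mem_sup_right (inv_mem hb)), hB⟩

theorem r1_conj_mem_unip {C : Subgroup G} {x : G} (hC : C ∈ unipotentSubgroups A B)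
    (hx : x ∈ A ⊔ B) : cj x C ∈ unipotentSubgroups A B := by
  obtain ⟨y, hy, hCy⟩ := hC
  refine ⟨x * y, mul_mem hx hy, ?_⟩
  rw [hCy]
  exact cj_cj x y A

theorem r1_regular (h : IsRankOnePair A B) {C D : Subgroup G}
    (hC : C ∈ unipotentSubgroups A B) (hD : D ∈ unipotentSubgroups A B) (hCA : C ≠ A)
    (hDA : D ≠ A) : ∃! a : G, a ∈ A ∧ conjBy C a = D := by
  obtain hC' | ⟨a₁, ha₁, hC'⟩ := r1_mem_unip h hC
  · exact absurd hC' hCA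
  obtain hD' | ⟨a₂, ha₂, hD'⟩ := r1_mem_unip h hD
  · exact absurd hD' hDA
  refine ⟨a₂ * a₁⁻¹, ⟨mul_mem ha₂ (inv_mem ha₁), ?_⟩, ?_⟩
  · show cj (a₂ * a₁⁻¹) C = D
    rw [hC', hD', cj_cj, inv_mul_cancel_right]
  · rintro a ⟨ha, haC⟩
    have haC' : cj a C = D := haC
    rw [hC', hD', cj_cj] at haC'
    have h3 : cj (a₂⁻¹ * (a * a₁)) B = B := by
      rw [← cj_cj, haC', cj_cj, inv_mul_cancel, cj_one]
    have h4 : a₂⁻¹ * (a * a₁) ∈ A ⊓ Subgroup.normalizer (B : Set G) :=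
      Subgroup.mem_inf.mpr ⟨mul_mem (inv_mem ha₂) (mul_mem ha ha₁), mem_normalizer_iff_cj.mpr h3⟩
    rw [r1_inf_normalizer h, Subgroup.mem_bot] at h4
    calc a = a₂ * (a₂⁻¹ * (a * a₁)) * a₁⁻¹ := by group
      _ = a₂ * a₁⁻¹ := by rw [h4, mul_one]

theorem r1_three (h : IsRankOnePair A B) :
    ∃ C₁ ∈ unipotentSubgroups A B, ∃ C₂ ∈ unipotentSubgroups A B,
      ∃ C₃ ∈ unipotentSubgroups A B, C₁ ≠ C₂ ∧ C₁ ≠ C₃ ∧ C₂ ≠ C₃ := by
  obtain ⟨a, ha, ha1⟩ := r1_ne_bot h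
  have hCm : cj a B ∈ unipotentSubgroups A B :=
    r1_conj_mem_unip (r1_B_mem h) (Subgroup.mem_sup_left ha)
  refine ⟨A, r1_A_mem, B, r1_B_mem h, cj a B, hCm, h.ne, ?_, ?_⟩
  · intro hA
    apply h.ne
    have := congrArg (cj a⁻¹) hA
    rw [cj_cj, inv_mul_cancel, cj_one, cj_eq_self_of_mem (inv_mem ha)] at this
    exact this
  · intro hBe
    have h4 : a ∈ A ⊓ Subgroup.normalizer (B : Set G) :=
      Subgroup.mem_inf.mpr ⟨ha, mem_normalizer_iff_cj.mpr hBe.symm⟩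
    rw [r1_inf_normalizer h, Subgroup.mem_bot] at h4
    exact ha1 h4

theorem r1_two_trans (h : IsRankOnePair A B) {C₁ C₂ D₁ D₂ : Subgroup G}
    (hC₁ : C₁ ∈ unipotentSubgroups A B) (hC₂ : C₂ ∈ unipotentSubgroups A B)
    (hD₁ : D₁ ∈ unipotentSubgroups A B) (hD₂ : D₂ ∈ unipotentSubgroups A B)
    (hC : C₁ ≠ C₂) (hD : D₁ ≠ D₂) :
    ∃ x ∈ A ⊔ B, conjBy C₁ x = D₁ ∧ conjBy C₂ x = D₂ := by
  obtain ⟨x₁, hx₁, hCx⟩ := hC₁
  obtain ⟨y₁, hy₁, hDy⟩ := hD₁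
  have hCx' : C₁ = cj x₁ A := hCx
  have hDy' : D₁ = cj y₁ A := hDy
  have hC₂' : cj x₁⁻¹ C₂ ∈ unipotentSubgroups A B := r1_conj_mem_unip hC₂ (inv_mem hx₁)
  have hD₂' : cj y₁⁻¹ D₂ ∈ unipotentSubgroups A B := r1_conj_mem_unip hD₂ (inv_mem hy₁)
  have hC₂A : cj x₁⁻¹ C₂ ≠ A := by
    intro hh
    apply hC
    rw [hCx']
    have := congrArg (cj x₁) hh
    rw [cj_cj, mul_inv_cancel, cj_one] at this
    exact this.symm
  have hD₂A : cj y₁⁻¹ D₂ ≠ A := by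
    intro hh
    apply hD
    rw [hDy']
    have := congrArg (cj y₁) hh
    rw [cj_cj, mul_inv_cancel, cj_one] at this
    exact this.symm
  obtain ⟨a, ⟨ha, haC⟩, -⟩ := r1_regular h hC₂' hD₂' hC₂A hD₂A
  refine ⟨y₁ * a * x₁⁻¹, mul_mem (mul_mem hy₁ (Subgroup.mem_sup_left ha)) (inv_mem hx₁), ?_, ?_⟩
  · show cj (y₁ * a * x₁⁻¹) C₁ = D₁
    rw [hCx', hDy', cj_cj, inv_mul_cancel_right, ← cj_cj, cj_eq_self_of_mem ha]
  · show cj (y₁ * a * x₁⁻¹) C₂ = D₂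
    have haC' : cj a (cj x₁⁻¹ C₂) = cj y₁⁻¹ D₂ := haC
    have := congrArg (cj y₁) haC'
    simp only [cj_cj, mul_inv_cancel, cj_one, mul_assoc] at this ⊢
    exact this

theorem r1_S5014 (h : IsRankOnePair A B) :
    (∃ C₁ ∈ unipotentSubgroups A B, ∃ C₂ ∈ unipotentSubgroups A B, ∃ C₃ ∈ unipotentSubgroups A B,
      C₁ ≠ C₂ ∧ C₁ ≠ C₃ ∧ C₂ ≠ C₃) ∧
    (∀ C₁ ∈ unipotentSubgroups A B, ∀ C₂ ∈ unipotentSubgroups A B, ∀ D₁ ∈ unipotentSubgroups A B,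
      ∀ D₂ ∈ unipotentSubgroups A B, C₁ ≠ C₂ → D₁ ≠ D₂ →
        ∃ x ∈ A ⊔ B, conjBy C₁ x = D₁ ∧ conjBy C₂ x = D₂) ∧
    (∀ C ∈ unipotentSubgroups A B, ∀ D ∈ unipotentSubgroups A B, C ≠ A → D ≠ A →
      ∃! a : G, a ∈ A ∧ conjBy C a = D) :=
  ⟨r1_three h, fun _ h1 _ h2 _ h3 _ h4 hC hD => r1_two_trans h h1 h2 h3 h4 hC hD,
    fun _ hC _ hD hCA hDA => r1_regular h hC hD hCA hDA⟩

end

end Cfsg.Agent.Lib.Helper8
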