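import Mathlib
import Cfsg.Prelude
import Cfsg.Agent.Lib.Helper8.R1

set_option autoImplicit false

namespace Cfsg.Agent.Lib.Helper8

open Cfsg

open scoped commutatorElement

section
variable {X : Type*} [Group X] {A B : Subgroup X}

theorem r1_comm_aux {A B N : Subgroup X} (hAB : A ⊓ Subgroup.normalizer (B : Set X) = ⊥)
    (hN : N.Normal) (hNA : ∀ n ∈ N, cj n A = A) (hNB : ∀ n ∈ N, cj n B = B) :
    ∀ n ∈ N, ∀ a ∈ A, a * n = n * a := by
  intro n hn a ha
  have hz : n * a * n⁻¹ * a⁻¹ ∈ A ⊓ Subgroup.normalizer (B : Set X) := by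
    refine Subgroup.mem_inf.mpr ⟨?_, ?_⟩
    · have h1 : n * a * n⁻¹ ∈ cj n A := cj_mem ha
      rw [hNA n hn] at h1
      exact mul_mem h1 (inv_mem ha)
    · have h1 : n * a * n⁻¹ * a⁻¹ ∈ N := by
        have e : n * a * n⁻¹ * a⁻¹ = n * (a * n⁻¹ * a⁻¹) := by group
        rw [e]
        exact mul_mem hn (hN.conj_mem _ (inv_mem hn) a)
      exact mem_normalizer_iff_cj.mpr (hNB _ h1)
  rw [hAB, Subgroup.mem_bot] at hz
  calc a * n = (n * a * n⁻¹ * a⁻¹)⁻¹ * (n * a) := by group
    _ = n * a := by rw [hz, inv_one, one_mul]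

theorem r1_normal_dichotomy (h : IsRankOneGroup X A B) (N : Subgroup X) (hN : N.Normal) :
    N ⊔ A = ⊤ ∨ N ≤ Subgroup.center X := by
  obtain ⟨htop, hp⟩ := h
  by_cases hcase : ∀ n ∈ N, cj n A = A
  · right
    obtain ⟨a₀, ha₀, b₀, hb₀, -, -, -, hB⟩ := r1_B_eq hp
    have hNB : ∀ n ∈ N, cj n B = B := by
      intro n hn
      have e : n * (a₀ * b₀⁻¹) = (a₀ * b₀⁻¹) * ((a₀ * b₀⁻¹)⁻¹ * n * (a₀ * b₀⁻¹)) := by group
      have e2 : cj n (cj (a₀ * b₀⁻¹) A) = cj (a₀ * b₀⁻¹) A := by
        rw [cj_cj, e, ← cj_cj, hcase _ (hN.conj_mem' n hn _)]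
      rw [← hB] at e2
      exact e2
    have hA := r1_comm_aux (r1_inf_normalizer hp) hN hcase hNB
    have hBc := r1_comm_aux (r1_inf_normalizer (RankOnePair_symm hp)) hN hNB hcase
    intro n hn
    rw [Subgroup.mem_center_iff]
    intro g
    have hg : g ∈ A ⊔ B := by
      rw [htop]
      trivial
    rw [Subgroup.sup_eq_closure] at hg
    induction hg using Subgroup.closure_induction with
    | mem x hx =>
      rcases hx with hx | hx
      · exact hA n hn x hx
      · exact hBc n hn x hx
    | one => rw [one_mul, mul_one]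
    | mul x y _ _ hx hy => rw [mul_assoc, hy, ← mul_assoc, hx, mul_assoc]
    | inv x _ hx =>
      calc x⁻¹ * n = x⁻¹ * (n * x) * x⁻¹ := by group
        _ = x⁻¹ * (x * n) * x⁻¹ := by rw [hx]
        _ = n * x⁻¹ := by group
  · left
    push Not at hcase
    obtain ⟨n, hn, hnA⟩ := hcase
    rw [eq_top_iff, ← htop]
    apply sup_le le_sup_right
    have hnAm : cj n A ∈ unipotentSubgroups A B :=
      r1_conj_mem_unip r1_A_mem (by rw [htop]; trivial)
    obtain ⟨a, ⟨ha, haC⟩, -⟩ := r1_regular hp hnAm (r1_B_mem hp) hnA hp.ne.symm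
    have haC' : cj a (cj n A) = B := haC
    rw [← haC', cj_cj, cj_le_iff]
    intro x hx
    have han : a * n ∈ N ⊔ A := mul_mem (Subgroup.mem_sup_right ha) (Subgroup.mem_sup_left hn)
    exact mul_mem (mul_mem han (Subgroup.mem_sup_right hx)) (inv_mem han)

theorem r1_A_ne_top (h : IsRankOnePair A B) : A ≠ ⊤ := by
  intro hA
  obtain ⟨a, ha, b, hb, -, -, -, hB⟩ := r1_B_eq h
  apply h.ne
  rw [hB]
  refine (cj_eq_self_of_mem ?_).symm
  rw [hA]
  trivial

theorem r1_normalClosure (h : IsRankOneGroup X A B) : Subgroup.normalClosure (A : Set X) = ⊤ := by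
  obtain ⟨htop, hp⟩ := h
  rw [eq_top_iff, ← htop]
  apply sup_le Subgroup.le_normalClosure
  obtain ⟨a, ha, b, hb, -, -, -, hB⟩ := r1_B_eq hp
  rw [hB, cj_le_iff]
  intro x hx
  exact Subgroup.normalClosure_normal.conj_mem _ (Subgroup.le_normalClosure hx) _

/-- a subgroup with full normal closure which supplements a term of the upper central series
is the whole group -/
theorem eq_top_of_sup_upperCentral {G : Type*} [Group G] (n : ℕ) :
    ∀ H : Subgroup G, Subgroup.normalClosure (H : Set G) = ⊤ →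
      H ⊔ Subgroup.upperCentralSeries G n = ⊤ → H = ⊤ := by
  induction n with
  | zero =>
    intro H _ h2
    rw [Subgroup.upperCentralSeries_zero, sup_bot_eq] at h2
    exact h2
  | succ n ih =>
    intro H h1 h2
    apply ih H h1
    have hnorm : (H ⊔ Subgroup.upperCentralSeries G n).Normal := by
      rw [← Subgroup.normalizer_eq_top_iff, eq_top_iff, ← h2]
      apply sup_le
      · exact le_sup_left.trans Subgroup.le_normalizer
      · intro z hz
        rw [Subgroup.mem_normalizer_iff]
        intro y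
        constructor
        · intro hy
          have h3 : ⁅z, y⁆ ∈ Subgroup.upperCentralSeries G n :=
            Subgroup.mem_upperCentralSeries_succ_iff.mp hz y
          have e : z * y * z⁻¹ = ⁅z, y⁆ * y := by
            rw [commutatorElement_def]
            group
          rw [e]
          exact mul_mem (Subgroup.mem_sup_right h3) hy
        · intro hy
          have h3 : ⁅z⁻¹, z * y * z⁻¹⁆ ∈ Subgroup.upperCentralSeries G n :=
            Subgroup.mem_upperCentralSeries_succ_iff.mp (inv_mem hz) _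
          have e : y = ⁅z⁻¹, z * y * z⁻¹⁆ * (z * y * z⁻¹) := by
            rw [commutatorElement_def]
            group
          rw [e]
          exact mul_mem (Subgroup.mem_sup_right h3) hy
    have h4 : Subgroup.normalClosure (H : Set G) ≤ H ⊔ Subgroup.upperCentralSeries G n :=
      Subgroup.normalClosure_le_normal (fun x hx => Subgroup.mem_sup_left hx)
    rw [h1] at h4
    exact eq_top_iff.mpr h4

theorem r1_sup_upperCentral_ne_top (h : IsRankOneGroup X A B) (n : ℕ) :
    A ⊔ Subgroup.upperCentralSeries X n ≠ ⊤ := fun hcon =>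
  r1_A_ne_top h.2 (eq_top_of_sup_upperCentral n A (r1_normalClosure h) hcon)

theorem r1_not_nilpotent (h : IsRankOneGroup X A B) : ¬ Group.IsNilpotent X := by
  intro hnil
  obtain ⟨n, hn⟩ := hnil.nilpotent'
  apply r1_sup_upperCentral_ne_top h n
  rw [hn, sup_top_eq]

theorem r1_S5018 (h : IsRankOneGroup X A B) :
    Subgroup.upperCentralSeries X 2 = Subgroup.center X ∧ ¬ Group.IsNilpotent X := by
  refine ⟨?_, r1_not_nilpotent h⟩
  apply le_antisymm
  · rcases r1_normal_dichotomy h (Subgroup.upperCentralSeries X 2) inferInstance with h1 | h1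
    · exfalso
      apply r1_sup_upperCentral_ne_top h 2
      rw [sup_comm]
      exact h1
    · exact h1
  · rw [← Subgroup.upperCentralSeries_one]
    exact Subgroup.upperCentralSeries_mono X (by norm_num)

theorem perfect_sup_nilpotent (hP : Group.IsPerfect X) {N A : Subgroup X} (hN : N.Normal)
    (hA : Group.IsNilpotent A) (hsup : N ⊔ A = ⊤) : N = ⊤ := by
  haveI := hN
  haveI := hA
  haveI := hP
  let f : A →* X ⧸ N := (QuotientGroup.mk' N).comp A.subtype
  have hf : Function.Surjective f := by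
    intro y
    obtain ⟨x, rfl⟩ := QuotientGroup.mk'_surjective N y
    have hx : x ∈ N ⊔ A := by
      rw [hsup]
      trivial
    obtain ⟨n, hn, a, ha, rfl⟩ := Subgroup.mem_sup_of_normal_left.mp hx
    refine ⟨⟨a, ha⟩, ?_⟩
    show (QuotientGroup.mk' N) a = (QuotientGroup.mk' N) (n * a)
    rw [map_mul]
    have : (QuotientGroup.mk' N) n = 1 := (QuotientGroup.eq_one_iff n).mpr hn
    rw [this, one_mul]
  haveI : Group.IsNilpotent (X ⧸ N) := Group.nilpotent_of_surjective f hf
  have hsub : Subsingleton (X ⧸ N) := by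
    by_contra hns
    rw [not_subsingleton_iff_nontrivial] at hns
    haveI := hns
    exact Group.IsPerfect.not_isNilpotent (X ⧸ N) inferInstance
  exact QuotientGroup.subgroup_eq_top_of_subsingleton N hsub

theorem r1_S5017 (h : IsRankOneGroup X A B) :
    (∀ N : Subgroup X, N.Normal → N ⊔ A = ⊤ ∨ N ≤ Subgroup.center X) ∧
    (Group.IsPerfect X → IsQuasisimple X) := by
  refine ⟨fun N hN => r1_normal_dichotomy h N hN, fun hP => ⟨hP, ?_⟩⟩
  obtain ⟨a, ha, ha1⟩ := r1_ne_bot h.2
  have hnt : Nontrivial (X ⧸ Subgroup.center X) := by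
    refine ⟨⟨(a : X ⧸ Subgroup.center X), 1, ?_⟩⟩
    intro hcon
    have hac : a ∈ Subgroup.center X := (QuotientGroup.eq_one_iff a).mp hcon
    have h4 : a ∈ A ⊓ Subgroup.normalizer (B : Set X) := by
      refine Subgroup.mem_inf.mpr ⟨ha, ?_⟩
      have : Subgroup.center X ≤ Subgroup.normalizer (B : Set X) := Subgroup.center_le_normalizer _
      exact this hac
    rw [r1_inf_normalizer h.2, Subgroup.mem_bot] at h4
    exact ha1 h4
  refine { toNontrivial := hnt, eq_bot_or_eq_top_of_normal := ?_ }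
  intro H hH
  have hNn : (H.comap (QuotientGroup.mk' (Subgroup.center X))).Normal := hH.comap _
  rcases r1_normal_dichotomy h _ hNn with h1 | h1
  · right
    have h2 := perfect_sup_nilpotent hP hNn h.2.nilpotent_left h1
    rw [eq_top_iff]
    intro y _
    obtain ⟨x, rfl⟩ := QuotientGroup.mk'_surjective (Subgroup.center X) y
    have hx : x ∈ H.comap (QuotientGroup.mk' (Subgroup.center X)) := by
      rw [h2]
      trivial
    exact hx
  · left
    rw [eq_bot_iff]
    intro y hy
    obtain ⟨x, rfl⟩ := QuotientGroup.mk'_surjective (Subgroup.center X) y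
    have hx : x ∈ Subgroup.center X := h1 hy
    rw [Subgroup.mem_bot]
    exact (QuotientGroup.eq_one_iff x).mpr hx

end

end Cfsg.Agent.Lib.Helper8
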