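import Mathlib
import Cfsg.Prelude
import Cfsg.Agent.Lib.Helper8.R1b

set_option autoImplicit false

namespace Cfsg.Agent.Lib.Helper8

open Cfsg

section
variable {X : Type*} [Group X] {R : Type*} [Ring R] (ρ : X →* R)

/-- `ρ x - 1` -/
def dd (x : X) : R := ρ x - 1

theorem rho_eq (x : X) : ρ x = 1 + dd ρ x := by
  unfold dd
  abel

theorem dd_one : dd ρ (1 : X) = 0 := by
  unfold dd
  rw [map_one, sub_self]

theorem dd_mul (x y : X) : dd ρ (x * y) = ρ x * dd ρ y + dd ρ x := by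
  unfold dd
  rw [map_mul]
  noncomm_ring

theorem rho_mul_inv (g : X) : ρ g * ρ g⁻¹ = 1 := by
  rw [← map_mul, mul_inv_cancel, map_one]

theorem rho_inv_mul (g : X) : ρ g⁻¹ * ρ g = 1 := by
  rw [← map_mul, inv_mul_cancel, map_one]

theorem dd_conj (g x : X) : dd ρ (g * x * g⁻¹) = ρ g * dd ρ x * ρ g⁻¹ := by
  unfold dd
  rw [map_mul, map_mul, mul_sub, sub_mul, mul_one, rho_mul_inv]

theorem rho_inv_of_sq {x : X} (h : dd ρ x * dd ρ x = 0) : ρ x⁻¹ = 1 - dd ρ x := by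
  have h1 : ρ x * (1 - dd ρ x) = 1 := by
    rw [rho_eq ρ x]
    have e : (1 + dd ρ x) * (1 - dd ρ x) = 1 - dd ρ x * dd ρ x := by noncomm_ring
    rw [e, h, sub_zero]
  calc ρ x⁻¹ = ρ x⁻¹ * (ρ x * (1 - dd ρ x)) := by rw [h1, mul_one]
    _ = 1 - dd ρ x := by rw [← mul_assoc, rho_inv_mul, one_mul]

theorem dd_eq_zero_iff_fix (x : X) (δ : R) : dd ρ x * δ = 0 ↔ ρ x * δ = δ := by
  unfold dd
  rw [sub_mul, one_mul, sub_eq_zero]

theorem fix_of_gen {A B : Subgroup X} (htop : A ⊔ B = ⊤) {δ : R}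
    (hA : ∀ a ∈ A, dd ρ a * δ = 0) (hB : ∀ b ∈ B, dd ρ b * δ = 0) : ∀ x, ρ x * δ = δ := by
  intro x
  have hx : x ∈ A ⊔ B := by
    rw [htop]
    trivial
  rw [Subgroup.sup_eq_closure] at hx
  induction hx using Subgroup.closure_induction with
  | mem y hy =>
    rcases hy with hy | hy
    · exact (dd_eq_zero_iff_fix ρ y δ).mp (hA y hy)
    · exact (dd_eq_zero_iff_fix ρ y δ).mp (hB y hy)
  | one => rw [map_one, one_mul]
  | mul y z _ _ hy hz => rw [map_mul, mul_assoc, hz, hy]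
  | inv y _ hy =>
    calc ρ y⁻¹ * δ = ρ y⁻¹ * (ρ y * δ) := by rw [hy]
      _ = δ := by rw [← mul_assoc, rho_inv_mul, one_mul]

theorem quad_conj {A B : Subgroup X} {g : X} (hB : B = cj g A)
    (QA : ∀ a ∈ A, ∀ a' ∈ A, dd ρ a' * dd ρ a = 0) :
    ∀ b ∈ B, ∀ b' ∈ B, dd ρ b' * dd ρ b = 0 := by
  intro b hb b' hb'
  rw [hB] at hb hb'
  obtain ⟨a1, ha1, rfl⟩ : ∃ a1 ∈ A, g * a1 * g⁻¹ = b := ⟨g⁻¹ * b * g, mem_cj.mp hb, by group⟩
  obtain ⟨a2, ha2, rfl⟩ : ∃ a2 ∈ A, g * a2 * g⁻¹ = b' := ⟨g⁻¹ * b' * g, mem_cj.mp hb', by group⟩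
  rw [dd_conj, dd_conj]
  have e : ρ g * dd ρ a2 * ρ g⁻¹ * (ρ g * dd ρ a1 * ρ g⁻¹)
      = ρ g * (dd ρ a2 * (ρ g⁻¹ * ρ g) * dd ρ a1) * ρ g⁻¹ := by noncomm_ring
  rw [e, rho_inv_mul, mul_one, QA a1 ha1 a2 ha2, mul_zero, zero_mul]

theorem r1m_key {A B : Subgroup X}
    (QA : ∀ a ∈ A, ∀ a' ∈ A, dd ρ a' * dd ρ a = 0)
    (QB : ∀ b ∈ B, ∀ b' ∈ B, dd ρ b' * dd ρ b = 0)
    {a b : X} (ha : a ∈ A) (hb : b ∈ B) (hconj : cj b⁻¹ A = cj a⁻¹ B) {a' : X} (ha' : a' ∈ A) :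
    ∃ b' ∈ B, dd ρ a' - dd ρ a * dd ρ b * dd ρ a'
      = dd ρ b' * (ρ a * ρ b⁻¹) + dd ρ b * dd ρ a' := by
  have h1 : b⁻¹ * a' * b⁻¹⁻¹ ∈ cj b⁻¹ A := cj_mem ha'
  rw [hconj] at h1
  have h2 := mem_cj.mp h1
  refine ⟨a⁻¹⁻¹ * (b⁻¹ * a' * b⁻¹⁻¹) * a⁻¹, h2, ?_⟩
  have e : (a⁻¹⁻¹ * (b⁻¹ * a' * b⁻¹⁻¹) * a⁻¹) * (a * b⁻¹) = (a * b⁻¹) * a' := by group
  have e1 := congrArg ρ e
  rw [map_mul, map_mul (f := ρ) a b⁻¹, map_mul (f := ρ) (a * b⁻¹) a', map_mul (f := ρ) a b⁻¹] at e1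
  have e2 : dd ρ (a⁻¹⁻¹ * (b⁻¹ * a' * b⁻¹⁻¹) * a⁻¹) * (ρ a * ρ b⁻¹) = ρ a * ρ b⁻¹ * dd ρ a' := by
    unfold dd
    rw [sub_mul, mul_sub, one_mul, mul_one, e1]
  rw [e2, rho_inv_of_sq ρ (QB b hb b hb), rho_eq ρ a]
  have e3 : (1 + dd ρ a) * (1 - dd ρ b) * dd ρ a' + dd ρ b * dd ρ a'
      = dd ρ a' - dd ρ a * dd ρ b * dd ρ a' + dd ρ a * dd ρ a' := by noncomm_ring
  rw [e3, QA a' ha' a ha, add_zero]

theorem r1m_fix {A B : Subgroup X} (htop : A ⊔ B = ⊤)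
    (QA : ∀ a ∈ A, ∀ a' ∈ A, dd ρ a' * dd ρ a = 0)
    (QB : ∀ b ∈ B, ∀ b' ∈ B, dd ρ b' * dd ρ b = 0)
    {a b : X} (ha : a ∈ A) (hb : b ∈ B) (hconj : cj b⁻¹ A = cj a⁻¹ B) {a' : X} (ha' : a' ∈ A) :
    ∀ x, ρ x * (dd ρ a' - dd ρ a * dd ρ b * dd ρ a') = dd ρ a' - dd ρ a * dd ρ b * dd ρ a' := by
  apply fix_of_gen ρ htop
  · intro a'' ha''
    simp only [mul_sub, ← mul_assoc, QA a' ha' a'' ha'', QA a ha a'' ha'', zero_mul, sub_zero]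
  · intro b'' hb''
    obtain ⟨b', hb', e⟩ := r1m_key ρ QA QB ha hb hconj ha'
    rw [e]
    simp only [mul_add, ← mul_assoc, QB b' hb' b'' hb'', QB b hb b'' hb'', zero_mul, add_zero]

/-- the elements acting trivially modulo the fixed points -/
def K1 : Subgroup X where
  carrier := {x | ∀ y, ρ y * dd ρ x = dd ρ x}
  one_mem' := by
    intro y
    rw [dd_one, mul_zero]
  mul_mem' := by
    intro x x' hx hx' y
    rw [dd_mul, hx' x, mul_add, hx' y, hx y]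
  inv_mem' := by
    intro x hx y
    have e : dd ρ x⁻¹ = - dd ρ x := by
      have h1 : dd ρ (x⁻¹ * x) = ρ x⁻¹ * dd ρ x + dd ρ x⁻¹ := dd_mul ρ x⁻¹ x
      rw [inv_mul_cancel, dd_one, hx x⁻¹] at h1
      exact eq_neg_of_add_eq_zero_right h1.symm
    rw [e, mul_neg, hx y]

theorem mem_K1 {x : X} : x ∈ K1 ρ ↔ ∀ y, ρ y * dd ρ x = dd ρ x := Iff.rfl

theorem K1_normal : (K1 ρ).Normal := by
  refine ⟨fun x hx g y => ?_⟩
  rw [dd_conj, hx g, ← mul_assoc, hx y]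

theorem K1_top {A B : Subgroup X} (hr : IsRankOneGroup X A B)
    (QA : ∀ a ∈ A, ∀ a' ∈ A, dd ρ a' * dd ρ a = 0)
    (QB : ∀ b ∈ B, ∀ b' ∈ B, dd ρ b' * dd ρ b = 0)
    {a b : X} (ha : a ∈ A) (hb : b ∈ B) (hconj : cj b⁻¹ A = cj a⁻¹ B)
    (hsup : K1 ρ ⊔ A = ⊤) : ∀ x, x ∈ K1 ρ := by
  haveI := K1_normal ρ
  have step1 : ∀ a'' ∈ A, ∀ x, dd ρ a'' * dd ρ x = 0 := by
    intro a'' ha'' x
    have hx : x ∈ A ⊔ K1 ρ := by
      rw [sup_comm, hsup]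
      trivial
    obtain ⟨y, hy, z, hz, rfl⟩ := Subgroup.mem_sup_of_normal_right.mp hx
    rw [dd_mul, hz y, mul_add, QA y hy a'' ha'', add_zero]
    exact (dd_eq_zero_iff_fix ρ a'' _).mpr (hz a'')
  have step2 : B ≤ K1 ρ := by
    intro b' hb'
    have hfix := r1m_fix ρ ((sup_comm B A).trans hr.1) QB QA hb ha hconj.symm hb'
    rw [mul_assoc, step1 a ha b', mul_zero, sub_zero] at hfix
    exact hfix
  have step3 : A ≤ K1 ρ := by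
    obtain ⟨a₀, ha₀, b₀, hb₀, -, -, -, hB⟩ := r1_B_eq hr.2
    intro a' ha'
    have h1 : (a₀ * b₀⁻¹) * a' * (a₀ * b₀⁻¹)⁻¹ ∈ cj (a₀ * b₀⁻¹) A := cj_mem ha'
    rw [← hB] at h1
    have h2 := (K1_normal ρ).conj_mem' _ (step2 h1) (a₀ * b₀⁻¹)
    have e : (a₀ * b₀⁻¹)⁻¹ * ((a₀ * b₀⁻¹) * a' * (a₀ * b₀⁻¹)⁻¹) * (a₀ * b₀⁻¹) = a' := by group
    rwa [e] at h2
  intro x
  have hx : x ∈ A ⊔ B := by
    rw [hr.1]
    trivial
  exact (sup_le step3 step2) hx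

theorem ring_id (α β : R) (hα : α * α = 0) (hβ : β * β = 0) :
    (1 - β) * (1 + α) * (1 + β) - (1 - α) * (1 - β) * (1 + α)
      = (α - α * β * α) + (β - β * α * β) := by
  have e : (1 - β) * (1 + α) * (1 + β) - (1 - α) * (1 - β) * (1 + α)
      = (α - α * β * α) + (β - β * α * β) + α * α - β * β := by noncomm_ring
  rw [e, hα, hβ, add_zero, sub_zero]

theorem r1m_special {A B : Subgroup X} (hr : IsRankOneGroup X A B)
    (QA : ∀ a ∈ A, ∀ a' ∈ A, dd ρ a' * dd ρ a = 0)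
    (hX : ∃ x y : X, ρ y * dd ρ x ≠ dd ρ x) : IsSpecialRankOnePair A B := by
  refine ⟨hr.2, ?_⟩
  intro a ha ha1 b hb hb1 hconj
  obtain ⟨a₀, ha₀, b₀, hb₀, -, -, -, hB⟩ := r1_B_eq hr.2
  have QB := quad_conj ρ hB QA
  have hconj' : cj b⁻¹ A = cj a⁻¹ B := hconj
  have hα2 : dd ρ a * dd ρ a = 0 := QA a ha a ha
  have hβ2 : dd ρ b * dd ρ b = 0 := QB b hb b hb
  have fa := r1m_fix ρ hr.1 QA QB ha hb hconj' ha
  have fb := r1m_fix ρ ((sup_comm B A).trans hr.1) QB QA hb ha hconj'.symm hb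
  have he : (b⁻¹ * a * b) * (a⁻¹ * b⁻¹ * a)⁻¹ ∈ K1 ρ := by
    intro y
    have e1 : ρ (b⁻¹ * a * b) - ρ (a⁻¹ * b⁻¹ * a)
        = (dd ρ a - dd ρ a * dd ρ b * dd ρ a) + (dd ρ b - dd ρ b * dd ρ a * dd ρ b) := by
      simp only [map_mul]
      rw [rho_inv_of_sq ρ hα2, rho_inv_of_sq ρ hβ2, rho_eq ρ a, rho_eq ρ b]
      exact ring_id (dd ρ a) (dd ρ b) hα2 hβ2
    have e2 : dd ρ ((b⁻¹ * a * b) * (a⁻¹ * b⁻¹ * a)⁻¹)
        = ((dd ρ a - dd ρ a * dd ρ b * dd ρ a) + (dd ρ b - dd ρ b * dd ρ a * dd ρ b))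
          * ρ (a⁻¹ * b⁻¹ * a)⁻¹ := by
      rw [← e1, sub_mul, rho_mul_inv]
      unfold dd
      rw [map_mul]
    rw [e2, ← mul_assoc, mul_add, fa y, fb y]
  rcases r1_normal_dichotomy hr (K1 ρ) (K1_normal ρ) with h1 | h1
  · exfalso
    obtain ⟨x, y, hxy⟩ := hX
    exact hxy (K1_top ρ hr QA QB ha hb hconj' h1 x y)
  · have hec := h1 he
    have hc : b⁻¹ * a * b ∈ cj b⁻¹ A := by
      have := cj_mem (g := b⁻¹) ha
      rwa [inv_inv] at this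
    have hd : a⁻¹ * b⁻¹ * a ∈ cj b⁻¹ A := by
      rw [hconj']
      have := cj_mem (g := a⁻¹) (inv_mem hb)
      rwa [inv_inv] at this
    have heA : (b⁻¹ * a * b) * (a⁻¹ * b⁻¹ * a)⁻¹ ∈ cj b⁻¹ A := mul_mem hc (inv_mem hd)
    have heA' : (b⁻¹ * a * b) * (a⁻¹ * b⁻¹ * a)⁻¹ ∈ A := by
      have h5 := mem_cj.mp heA
      rw [inv_inv] at h5
      have e3 : b * ((b⁻¹ * a * b) * (a⁻¹ * b⁻¹ * a)⁻¹) * b⁻¹
          = (b⁻¹ * a * b) * (a⁻¹ * b⁻¹ * a)⁻¹ := by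
        rw [Subgroup.mem_center_iff.mp hec b]
        group
      rwa [e3] at h5
    have h4 : (b⁻¹ * a * b) * (a⁻¹ * b⁻¹ * a)⁻¹ ∈ A ⊓ Subgroup.normalizer (B : Set X) :=
      Subgroup.mem_inf.mpr ⟨heA', Subgroup.center_le_normalizer _ hec⟩
    rw [r1_inf_normalizer hr.2, Subgroup.mem_bot] at h4
    exact mul_inv_eq_one.mp h4

theorem comm_of_quad (hinj : ∀ x, ρ x = 1 → x = 1) {x y : X} (h1 : dd ρ x * dd ρ y = 0)
    (h2 : dd ρ y * dd ρ x = 0) : x * y = y * x := by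
  have e : ρ (x * y) = ρ (y * x) := by
    rw [map_mul, map_mul, rho_eq ρ x, rho_eq ρ y]
    have e1 : (1 + dd ρ x) * (1 + dd ρ y) = 1 + dd ρ x + dd ρ y + dd ρ x * dd ρ y := by
      noncomm_ring
    have e2 : (1 + dd ρ y) * (1 + dd ρ x) = 1 + dd ρ x + dd ρ y + dd ρ y * dd ρ x := by
      noncomm_ring
    rw [e1, e2, h1, h2]
  have h3 : ρ (x * y * (y * x)⁻¹) = 1 := by
    rw [map_mul, e, rho_mul_inv]
  exact mul_inv_eq_one.mp (hinj _ h3)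

theorem r1m_torsion {A B : Subgroup X} (hr : IsRankOneGroup X A B)
    (QA : ∀ a ∈ A, ∀ a' ∈ A, dd ρ a' * dd ρ a = 0) (hinj : ∀ x, ρ x = 1 → x = 1) :
    (∀ a ∈ A, a ≠ 1 → ¬ IsOfFinOrder a) ∨ ∃ p : ℕ, p.Prime ∧ IsElementaryAbelian p A := by
  by_cases htf : ∀ a ∈ A, a ≠ 1 → ¬ IsOfFinOrder a
  · exact Or.inl htf
  right
  push Not at htf
  obtain ⟨a, ha, ha1, hfin⟩ := htf
  obtain ⟨p, hp, a₁, ha₁, ha₁1, ha₁p⟩ : ∃ p : ℕ, p.Prime ∧ ∃ a₁ ∈ A, a₁ ≠ 1 ∧ a₁ ^ p = 1 := by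
    have hm : orderOf a ≠ 1 := fun h => ha1 (orderOf_eq_one_iff.mp h)
    have hm0 : 0 < orderOf a := orderOf_pos_iff.mpr hfin
    refine ⟨(orderOf a).minFac, Nat.minFac_prime hm, a ^ (orderOf a / (orderOf a).minFac),
      pow_mem ha _, ?_, ?_⟩
    · intro hcon
      have hdvd := orderOf_dvd_of_pow_eq_one hcon
      have hlt : orderOf a / (orderOf a).minFac < orderOf a :=
        Nat.div_lt_self hm0 (Nat.minFac_prime hm).one_lt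
      have hpos : 0 < orderOf a / (orderOf a).minFac :=
        Nat.div_pos (Nat.minFac_le hm0) (Nat.minFac_pos _)
      exact absurd (Nat.le_of_dvd hpos hdvd) (not_le.mpr hlt)
    · rw [← pow_mul, Nat.div_mul_cancel (Nat.minFac_dvd _), pow_orderOf_eq_one]
  obtain ⟨b₁, hb₁, hb₁1, hconj⟩ := hr.2.cond_left a₁ ha₁ ha₁1
  have hconj' : cj b₁⁻¹ A = cj a₁⁻¹ B := hconj
  obtain ⟨a₀, ha₀, b₀, hb₀, -, -, -, hB⟩ := r1_B_eq hr.2
  have QB := quad_conj ρ hB QA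
  have hpow : ∀ a' ∈ A, ∀ m : ℕ, dd ρ (a' ^ m) = m • dd ρ a' := by
    intro a' ha' m
    induction m with
    | zero => rw [pow_zero, dd_one, zero_smul]
    | succ k ih =>
      have hsq : dd ρ a' * dd ρ a' = 0 := QA a' ha' a' ha'
      have e1 : ρ (a' ^ k) * dd ρ a' = dd ρ a' := by
        rw [rho_eq ρ (a' ^ k), ih, add_mul, one_mul, smul_mul_assoc, hsq, smul_zero, add_zero]
      rw [pow_succ, dd_mul, e1, ih, succ_nsmul, add_comm]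
  have hpα : p • dd ρ a₁ = 0 := by
    rw [← hpow a₁ ha₁ p, ha₁p, dd_one]
  refine ⟨p, hp, ?_, ?_⟩
  · refine ⟨⟨fun x y => Subtype.ext ?_⟩⟩
    exact comm_of_quad ρ hinj (QA y y.2 x x.2) (QA x x.2 y y.2)
  · intro a' ha'
    have hfix := r1m_fix ρ hr.1 QA QB ha₁ hb₁ hconj' ha'
    have hK : a' ^ p ∈ K1 ρ := by
      intro y
      have e : dd ρ (a' ^ p) = p • (dd ρ a' - dd ρ a₁ * dd ρ b₁ * dd ρ a') := by
        rw [hpow a' ha', smul_sub, ← smul_mul_assoc, ← smul_mul_assoc, hpα, zero_mul, zero_mul,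
          sub_zero]
      rw [e, mul_smul_comm, hfix y]
    rcases r1_normal_dichotomy hr (K1 ρ) (K1_normal ρ) with h1 | h1
    · exfalso
      have hall := K1_top ρ hr QA QB ha₁ hb₁ hconj' h1
      have hcomm : ∀ x y : X, x * y = y * x := by
        intro x y
        exact comm_of_quad ρ hinj ((dd_eq_zero_iff_fix ρ x (dd ρ y)).mpr (hall y x))
          ((dd_eq_zero_iff_fix ρ y (dd ρ x)).mpr (hall x y))
      have h4 : a₁ ∈ A ⊓ Subgroup.normalizer (B : Set X) := by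
        refine Subgroup.mem_inf.mpr ⟨ha₁, ?_⟩
        apply Subgroup.center_le_normalizer
        rw [Subgroup.mem_center_iff]
        intro g
        exact hcomm g a₁
      rw [r1_inf_normalizer hr.2, Subgroup.mem_bot] at h4
      exact ha₁1 h4
    · have hc := h1 hK
      have h4 : a' ^ p ∈ A ⊓ Subgroup.normalizer (B : Set X) :=
        Subgroup.mem_inf.mpr ⟨pow_mem ha' p, Subgroup.center_le_normalizer _ hc⟩
      rw [r1_inf_normalizer hr.2, Subgroup.mem_bot] at h4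
      exact h4

end

section inst
variable {X : Type*} [Group X] {N : Type*} [AddCommGroup N] [DistribMulAction X N]

theorem r1_S5019 {A B : Subgroup X} (h : IsRankOneGroup X A B)
    (hq : ∀ a ∈ A, ∀ a' ∈ A, ∀ n : N, a' • (a • n - n) = a • n - n)
    (hX : ∃ x y : X, ∃ n : N, y • (x • n - n) ≠ x • n - n) : IsSpecialRankOnePair A B := by
  apply r1m_special (DistribMulAction.toAddMonoidEnd X N) h
  · intro a ha a' ha'
    ext n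
    show a' • (a • n - n) - (a • n - n) = 0
    rw [hq a ha a' ha' n, sub_self]
  · obtain ⟨x, y, n, hn⟩ := hX
    refine ⟨x, y, fun hcon => hn ?_⟩
    exact DFunLike.congr_fun hcon n

theorem r1_S5023 {A B : Subgroup X} (h : IsRankOneGroup X A B)
    (hf : ∀ x : X, (∀ v : N, x • v = v) → x = 1)
    (hq : ∀ a ∈ A, ∀ a' ∈ A, ∀ v : N, a' • (a • v - v) = a • v - v) :
    (∀ a ∈ A, a ≠ 1 → ¬ IsOfFinOrder a) ∨ ∃ p : ℕ, p.Prime ∧ IsElementaryAbelian p A := by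
  apply r1m_torsion (DistribMulAction.toAddMonoidEnd X N) h
  · intro a ha a' ha'
    ext n
    show a' • (a • n - n) - (a • n - n) = 0
    rw [hq a ha a' ha' n, sub_self]
  · intro x hx
    exact hf x (fun v => DFunLike.congr_fun hx v)

end inst

end Cfsg.Agent.Lib.Helper8
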