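import Mathlib
import Cfsg.Prelude
import Cfsg.Agent.Lib.Helper8.R1b

set_option autoImplicit false

namespace Cfsg.Agent.Lib.Helper8

open Cfsg

section
variable {Y Ω : Type*} [Group Y] [MulAction Y Ω]

theorem r1c_cj_eq {α : Ω} {A : Subgroup Y}
    (hAn : ∀ y ∈ MulAction.stabilizer Y α, cj y A = A) {g h : Y} (hgh : g • α = h • α) :
    cj g A = cj h A := by
  have h1 : h⁻¹ * g ∈ MulAction.stabilizer Y α := by
    rw [MulAction.mem_stabilizer_iff, mul_smul, hgh, inv_smul_smul]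
  have h2 := hAn _ h1
  have h3 := congrArg (cj h) h2
  rw [cj_cj, mul_inv_cancel_left] at h3
  exact h3

theorem r1c_fix {α : Ω} {A : Subgroup Y} (hA : A ≤ MulAction.stabilizer Y α) {g x : Y}
    (hx : x ∈ cj g A) : x • (g • α) = g • α := by
  have h1 := hA (mem_cj.mp hx)
  rw [MulAction.mem_stabilizer_iff, mul_smul, mul_smul, inv_smul_eq_iff] at h1
  exact h1

theorem r1c_free {α : Ω} {A : Subgroup Y}
    (hreg : ∀ β γ : Ω, β ≠ α → γ ≠ α → ∃! a : Y, a ∈ A ∧ a • β = γ) {g x : Y}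
    (hx : x ∈ cj g A) {δ : Ω} (hδ : δ ≠ g • α) (hfix : x • δ = δ) : x = 1 := by
  have hδ' : g⁻¹ • δ ≠ α := by
    intro hcon
    apply hδ
    rw [← hcon, smul_inv_smul]
  have h1 : (g⁻¹ * x * g) • (g⁻¹ • δ) = g⁻¹ • δ := by
    rw [mul_smul, mul_smul, smul_inv_smul, hfix]
  have h2 := (hreg _ _ hδ' hδ').unique ⟨mem_cj.mp hx, h1⟩ ⟨one_mem _, one_smul _ _⟩
  calc x = g * (g⁻¹ * x * g) * g⁻¹ := by group
    _ = 1 := by rw [h2]; group

theorem r1c_trans {α : Ω} {A : Subgroup Y}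
    (hreg : ∀ β γ : Ω, β ≠ α → γ ≠ α → ∃! a : Y, a ∈ A ∧ a • β = γ) (g : Y)
    {δ ε : Ω} (hδ : δ ≠ g • α) (hε : ε ≠ g • α) : ∃ x ∈ cj g A, x • δ = ε := by
  have hδ' : g⁻¹ • δ ≠ α := by
    intro hcon
    apply hδ
    rw [← hcon, smul_inv_smul]
  have hε' : g⁻¹ • ε ≠ α := by
    intro hcon
    apply hε
    rw [← hcon, smul_inv_smul]
  obtain ⟨a, ⟨ha, ha2⟩, -⟩ := hreg _ _ hδ' hε'
  refine ⟨g * a * g⁻¹, cj_mem ha, ?_⟩
  rw [mul_smul, mul_smul, ha2, smul_inv_smul]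

theorem r1c_third (hΩ : 3 ≤ ENat.card Ω) (α β : Ω) : ∃ γ : Ω, γ ≠ α ∧ γ ≠ β := by
  by_contra hcon
  push Not at hcon
  have h1 : (Set.univ : Set Ω) ⊆ {α, β} := by
    intro γ _
    by_cases h : γ = α
    · left
      exact h
    · right
      exact hcon γ h
  have h2 := Set.encard_le_encard h1
  rw [Set.encard_univ] at h2
  have h3 : ({α, β} : Set Ω).encard ≤ 2 := by
    have := Set.encard_insert_le ({β} : Set Ω) α
    rw [Set.encard_singleton] at this
    exact this.trans (by norm_num)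
  have h4 : (3 : ℕ∞) ≤ 2 := hΩ.trans (h2.trans h3)
  exact absurd h4 (by norm_num)

theorem r1_S5015 (hΩ : 3 ≤ ENat.card Ω) (α : Ω) (A : Subgroup Y)
    (hA : A ≤ MulAction.stabilizer Y α) (hAn : ∀ y ∈ MulAction.stabilizer Y α, conjBy A y = A)
    (hnil : Group.IsNilpotent A) (hreg : ∀ β γ : Ω, β ≠ α → γ ≠ α → ∃! a : Y, a ∈ A ∧ a • β = γ)
    (y : Y) (hy : y ∉ MulAction.stabilizer Y α) :
    IsRankOnePair A (conjBy A y) ∧ Subgroup.normalClosure (A : Set Y) = A ⊔ conjBy A y := by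
  have hAn' : ∀ y ∈ MulAction.stabilizer Y α, cj y A = A := hAn
  have hβ : y • α ≠ α := fun hcon => hy (MulAction.mem_stabilizer_iff.mpr hcon)
  obtain ⟨γ, hγα, hγβ⟩ := r1c_third hΩ α (y • α)
  have hreg1 : ∀ β γ : Ω, β ≠ (1 : Y) • α → γ ≠ (1 : Y) • α → ∃ x ∈ A, x • β = γ := by
    intro β γ hβ hγ
    rw [one_smul] at hβ hγ
    obtain ⟨a, ⟨ha, ha2⟩, -⟩ := hreg β γ hβ hγ
    exact ⟨a, ha, ha2⟩
  have hfreeA : ∀ a ∈ A, ∀ δ : Ω, δ ≠ α → a • δ = δ → a = 1 := by
    intro a ha δ hδ hfix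
    have ha' : a ∈ cj (1 : Y) A := by rwa [cj_one]
    exact r1c_free hreg ha' (by rwa [one_smul]) hfix
  have hAfix : ∀ a ∈ A, a • α = α := fun a ha => MulAction.mem_stabilizer_iff.mp (hA ha)
  constructor
  · refine ⟨?_, hnil, ?_, ?_, ?_⟩
    · intro hAB
      obtain ⟨a, ⟨ha, ha2⟩, -⟩ := hreg (y • α) γ hβ hγα
      have ha' : a ∈ cj y A := by
        have : a ∈ conjBy A y := hAB ▸ ha
        exact this
      have h1 := r1c_fix hA ha'
      rw [ha2] at h1
      exact hγβ h1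
    · have e : A ≃* (cj y A) :=
        Subgroup.equivMapOfInjective A (MulAut.conj y).toMonoidHom (MulAut.conj y).injective
      exact (Group.isNilpotent_congr e).mp hnil
    · intro a ha ha1
      have ha1' : a⁻¹ ≠ 1 := by simpa using ha1
      have h1 : a⁻¹ • (y • α) ≠ y • α := fun hcon => ha1' (hfreeA _ (inv_mem ha) _ hβ hcon)
      have h2 : a⁻¹ • (y • α) ≠ α := by
        intro hcon
        apply hβ
        rw [inv_smul_eq_iff, hAfix a ha] at hcon
        exact hcon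
      obtain ⟨b', hb', hb'2⟩ := r1c_trans hreg y hβ.symm h1
      refine ⟨b'⁻¹, inv_mem hb', ?_, ?_⟩
      · intro hcon
        rw [inv_eq_one] at hcon
        rw [hcon, one_smul] at hb'2
        exact h2 hb'2.symm
      · show cj b'⁻¹⁻¹ A = cj a⁻¹ (cj y A)
        rw [inv_inv, cj_cj]
        apply r1c_cj_eq hAn'
        rw [hb'2, mul_smul]
    · intro b hb hb1
      have hb' : b⁻¹ ∈ cj y A := inv_mem hb
      have hb1' : b⁻¹ ≠ 1 := by simpa using hb1
      have h1 : b⁻¹ • α ≠ α := fun hcon => hb1' (r1c_free hreg hb' hβ.symm hcon)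
      have h2 : b⁻¹ • α ≠ y • α := by
        intro hcon
        apply hβ
        rw [inv_smul_eq_iff, r1c_fix hA hb] at hcon
        exact hcon.symm
      obtain ⟨a', ⟨ha', ha'2⟩, -⟩ := hreg (y • α) (b⁻¹ • α) hβ h1
      refine ⟨a'⁻¹, inv_mem ha', ?_, ?_⟩
      · intro hcon
        rw [inv_eq_one] at hcon
        rw [hcon, one_smul] at ha'2
        exact h2 ha'2.symm
      · show cj a'⁻¹⁻¹ (cj y A) = cj b⁻¹ A
        rw [inv_inv, cj_cj]
        apply r1c_cj_eq hAn'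
        rw [mul_smul, ha'2]
  · apply le_antisymm
    · unfold Subgroup.normalClosure
      rw [Subgroup.closure_le]
      intro x hx
      obtain ⟨a, ha, hconj⟩ := Group.mem_conjugatesOfSet_iff.mp hx
      obtain ⟨g, rfl⟩ := isConj_iff.mp hconj
      show g * a * g⁻¹ ∈ A ⊔ cj y A
      -- find an element of `A ⊔ cj y A` moving `α` to `g • α`
      have hex : ∃ x ∈ A ⊔ cj y A, x • α = g • α := by
        by_cases hg : g • α = α
        · exact ⟨1, one_mem _, by rw [one_smul, hg]⟩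
        · obtain ⟨b', hb', hb'2⟩ := r1c_trans hreg y hβ.symm hγβ
          obtain ⟨a', ⟨ha', ha'2⟩, -⟩ := hreg γ (g • α) hγα hg
          refine ⟨a' * b', mul_mem (Subgroup.mem_sup_left ha') (Subgroup.mem_sup_right hb'), ?_⟩
          rw [mul_smul, hb'2, ha'2]
      obtain ⟨x, hx, hx2⟩ := hex
      have h1 : g * a * g⁻¹ ∈ cj g A := cj_mem ha
      rw [r1c_cj_eq hAn' hx2.symm] at h1
      have h2 := mem_cj.mp h1
      have e : g * a * g⁻¹ = x * (x⁻¹ * (g * a * g⁻¹) * x) * x⁻¹ := by group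
      rw [e]
      exact mul_mem (mul_mem hx (Subgroup.mem_sup_left h2)) (inv_mem hx)
    · apply sup_le Subgroup.le_normalClosure
      show cj y A ≤ _
      rw [cj_le_iff]
      intro x hx
      exact Subgroup.normalClosure_normal.conj_mem _ (Subgroup.le_normalClosure hx) _

end

end Cfsg.Agent.Lib.Helper8
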