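import Mathlib
import Cfsg.Prelude
import Cfsg.Agent.Lib.Helper8.R1b

set_option autoImplicit false

namespace Cfsg.Agent.Lib.Helper8

open Cfsg

open scoped commutatorElement

section
variable {G : Type*} [Group G]

theorem r1_unip_inf_normalizer {A B : Subgroup G} (h : IsRankOnePair A B) {D₁ D₂ : Subgroup G}
    (h1 : D₁ ∈ unipotentSubgroups A B) (h2 : D₂ ∈ unipotentSubgroups A B) (hne : D₁ ≠ D₂) :
    D₁ ⊓ Subgroup.normalizer (D₂ : Set G) = ⊥ := by
  obtain ⟨x, -, hx1, hx2⟩ := r1_two_trans h h1 h2 r1_A_mem (r1_B_mem h) hne h.ne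
  have hx1' : cj x D₁ = A := hx1
  have hx2' : cj x D₂ = B := hx2
  rw [eq_bot_iff]
  intro u hu
  obtain ⟨hu1, hu2⟩ := Subgroup.mem_inf.mp hu
  have h3 : x * u * x⁻¹ ∈ A ⊓ Subgroup.normalizer (B : Set G) := by
    refine Subgroup.mem_inf.mpr ⟨?_, ?_⟩
    · rw [← hx1']
      exact cj_mem hu1
    · rw [← hx2', ← cj_normalizer]
      exact cj_mem hu2
  rw [r1_inf_normalizer h, Subgroup.mem_bot] at h3
  rw [Subgroup.mem_bot]
  calc u = x⁻¹ * (x * u * x⁻¹) * x := by group
    _ = 1 := by rw [h3]; group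

theorem exists_partner {S : Set (Subgroup G)} {A : Subgroup G}
    (hA : ¬ IsIsolatedIn (FAdj S) S A) (hAS : A ∈ S) : ∃ C ∈ S, IsRankOnePair A C := by
  unfold IsIsolatedIn at hA
  push Not at hA
  obtain ⟨C, hC⟩ := hA hAS
  by_cases h1 : FAdj S A C
  · exact ⟨C, h1.2.1, h1.2.2⟩
  · have h2 := hC h1
    exact ⟨C, h2.1, RankOnePair_symm h2.2.2⟩

theorem r1_S5028 {S : Set (Subgroup G)} (hS : IsRootSubgroupSet S) {A : Subgroup G}
    (hA : ¬ IsIsolatedIn (FAdj S) S A) (hAS : A ∈ S) : ∀ B ∈ S, A ⊓ B = ⊥ ∨ A = B := by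
  obtain ⟨C, hC, hAC⟩ := exists_partner hA hAS
  intro B hB
  by_cases hAB : A = B
  · exact Or.inr hAB
  left
  rw [eq_bot_iff]
  intro x hx
  obtain ⟨hxA, hxB⟩ := Subgroup.mem_inf.mp hx
  rw [Subgroup.mem_bot]
  by_contra hx1
  rcases hS.pair B hB C hC with h2 | h2 | h2
  · have h3 : B ≤ Subgroup.centralizer (C : Set G) :=
      Subgroup.commutator_eq_bot_iff_le_centralizer.mp h2
    have h4 : x ∈ A ⊓ Subgroup.normalizer (C : Set G) :=
      Subgroup.mem_inf.mpr ⟨hxA, Subgroup.centralizer_le_normalizer _ (h3 hxB)⟩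
    rw [r1_inf_normalizer hAC, Subgroup.mem_bot] at h4
    exact hx1 h4
  · obtain ⟨c, hc, -, hconj⟩ := hAC.cond_left x hxA hx1
    obtain ⟨c', hc', -, hconj'⟩ := h2.cond_left x hxB hx1
    have e1 : cj c⁻¹ A = cj x⁻¹ C := hconj
    have e2 : cj c'⁻¹ B = cj x⁻¹ C := hconj'
    have hBu : B ∈ unipotentSubgroups A C := by
      refine ⟨c' * c⁻¹, mul_mem (Subgroup.mem_sup_right hc') (Subgroup.mem_sup_right (inv_mem hc)),
        ?_⟩
      show B = cj (c' * c⁻¹) A
      rw [← cj_cj, e1, ← e2, cj_cj, mul_inv_cancel, cj_one]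
    have h4 : x ∈ A ⊓ Subgroup.normalizer (B : Set G) :=
      Subgroup.mem_inf.mpr ⟨hxA, Subgroup.le_normalizer hxB⟩
    rw [r1_unip_inf_normalizer hAC r1_A_mem hBu hAB, Subgroup.mem_bot] at h4
    exact hx1 h4
  · obtain ⟨-, hcent, hgen, -⟩ := h2
    apply hS.ne_bot C hC
    rw [eq_bot_iff]
    intro c hc
    rw [Subgroup.mem_bot]
    have hz : x * c * x⁻¹ * c⁻¹ ∈ ⁅B, C⁆ := by
      rw [← hgen x hxB hx1]
      exact Subgroup.subset_closure ⟨c, hc, rfl⟩
    have hcomm := hS.commutative C hC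
    have hnorm : x * c * x⁻¹ ∈ Subgroup.normalizer (C : Set G) := by
      apply Subgroup.centralizer_le_normalizer
      rw [Subgroup.mem_centralizer_iff]
      intro y hy
      have h5 := hcent _ hz y (Subgroup.mem_sup_right hy)
      have h6 : c * y = y * c := by
        have := hcomm.is_comm.comm ⟨c, hc⟩ ⟨y, hy⟩
        exact congrArg Subtype.val this
      calc y * (x * c * x⁻¹) = y * (x * c * x⁻¹ * c⁻¹) * c := by group
        _ = (x * c * x⁻¹ * c⁻¹) * y * c := by rw [h5]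
        _ = (x * c * x⁻¹ * c⁻¹) * (c * y) := by rw [h6, mul_assoc]
        _ = (x * c * x⁻¹) * y := by group
    have hne : cj x C ≠ C := by
      intro hcon
      have h4 : x ∈ A ⊓ Subgroup.normalizer (C : Set G) :=
        Subgroup.mem_inf.mpr ⟨hxA, mem_normalizer_iff_cj.mpr hcon⟩
      rw [r1_inf_normalizer hAC, Subgroup.mem_bot] at h4
      exact hx1 h4
    have hCu : cj x C ∈ unipotentSubgroups A C :=
      r1_conj_mem_unip (r1_B_mem hAC) (Subgroup.mem_sup_left hxA)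
    have h7 : x * c * x⁻¹ ∈ cj x C ⊓ Subgroup.normalizer (C : Set G) :=
      Subgroup.mem_inf.mpr ⟨cj_mem hc, hnorm⟩
    rw [r1_unip_inf_normalizer hAC hCu (r1_B_mem hAC) hne, Subgroup.mem_bot] at h7
    calc c = x⁻¹ * (x * c * x⁻¹) * x := by group
      _ = 1 := by rw [h7]; group

theorem r1_S5025 {S : Set (Subgroup G)} (hS : IsRootSubgroupSet S) {A B : Subgroup G} (hA : A ∈ S)
    (hB : B ∈ rankOnePartners S A) {z : G}
    (hz : z ∈ Subgroup.centralizer ((A ⊔ B : Subgroup G) : Set G)) (hz1 : z ≠ 1) :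
    ∀ a ∈ A, a ≠ 1 → z * a ∉ rootElements S := by
  obtain ⟨hBS, hAB⟩ := hB
  intro a ha ha1 hroot
  obtain ⟨hw1, C, hC, hwC⟩ := hroot
  have hzc : ∀ y ∈ A ⊔ B, y * z = z * y := fun y hy => Subgroup.mem_centralizer_iff.mp hz y hy
  have hzA : ∀ y ∈ A, y * z = z * y := fun y hy => hzc y (Subgroup.mem_sup_left hy)
  have hzB : ∀ y ∈ B, y * z = z * y := fun y hy => hzc y (Subgroup.mem_sup_right hy)
  have hconjw : ∀ y ∈ A ⊔ B, (z * a) * y * (z * a)⁻¹ = a * y * a⁻¹ := by
    intro y hy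
    have h1 : a * y * a⁻¹ ∈ A ⊔ B :=
      mul_mem (mul_mem (Subgroup.mem_sup_left ha) hy) (inv_mem (Subgroup.mem_sup_left ha))
    have h2 := hzc _ h1
    calc (z * a) * y * (z * a)⁻¹ = z * (a * y * a⁻¹) * z⁻¹ := by group
      _ = (a * y * a⁻¹) * z * z⁻¹ := by rw [h2]
      _ = a * y * a⁻¹ := by group
  have hzB' : cj z⁻¹ B = B := by
    apply mem_normalizer_iff_cj.mp
    apply Subgroup.centralizer_le_normalizer
    rw [Subgroup.mem_centralizer_iff]
    intro y hy
    have h1 := hzB y hy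
    calc y * z⁻¹ = z⁻¹ * (z * y) * z⁻¹ := by group
      _ = z⁻¹ * (y * z) * z⁻¹ := by rw [h1]
      _ = z⁻¹ * y := by group
  have hane : cj a B ≠ B := by
    intro hcon
    have h4 : a ∈ A ⊓ Subgroup.normalizer (B : Set G) :=
      Subgroup.mem_inf.mpr ⟨ha, mem_normalizer_iff_cj.mpr hcon⟩
    rw [r1_inf_normalizer hAB, Subgroup.mem_bot] at h4
    exact ha1 h4
  rcases hS.pair C hC B hBS with h2 | h2 | h2
  · have h3 : C ≤ Subgroup.centralizer (B : Set G) :=
      Subgroup.commutator_eq_bot_iff_le_centralizer.mp h2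
    have h4 : a ∈ A ⊓ Subgroup.normalizer (B : Set G) := by
      refine Subgroup.mem_inf.mpr ⟨ha, ?_⟩
      apply Subgroup.centralizer_le_normalizer
      rw [Subgroup.mem_centralizer_iff]
      intro y hy
      have h5 := Subgroup.mem_centralizer_iff.mp (h3 hwC) y hy
      have h6 := hzB y hy
      have h7 : z * (y * a) = z * (a * y) := by
        calc z * (y * a) = (z * y) * a := (mul_assoc _ _ _).symm
          _ = (y * z) * a := by rw [h6]
          _ = y * (z * a) := mul_assoc _ _ _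
          _ = (z * a) * y := h5
          _ = z * (a * y) := mul_assoc _ _ _
      exact mul_left_cancel h7
    rw [r1_inf_normalizer hAB, Subgroup.mem_bot] at h4
    exact ha1 h4
  · obtain ⟨b', hb', -, hconj'⟩ := h2.cond_left (z * a) hwC hw1
    obtain ⟨b, hb, -, hconj⟩ := hAB.cond_left a ha ha1
    have e1 : cj b'⁻¹ C = cj (z * a)⁻¹ B := hconj'
    have e2 : cj b⁻¹ A = cj a⁻¹ B := hconj
    have e3 : cj (z * a)⁻¹ B = cj a⁻¹ B := by
      rw [mul_inv_rev, ← cj_cj, hzB']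
    have e4 : C = cj (b' * b⁻¹) A := by
      rw [← cj_cj, e2, ← e3, ← e1, cj_cj, mul_inv_cancel, cj_one]
    by_cases hCA : C = A
    · have hzA' : z ∈ A := by
        have h5 : z * a ∈ A := hCA ▸ hwC
        have e : z = (z * a) * a⁻¹ := by group
        rw [e]
        exact mul_mem h5 (inv_mem ha)
      have h4 : z ∈ A ⊓ Subgroup.normalizer (B : Set G) := by
        refine Subgroup.mem_inf.mpr ⟨hzA', ?_⟩
        apply Subgroup.centralizer_le_normalizer
        rw [Subgroup.mem_centralizer_iff]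
        exact hzB
      rw [r1_inf_normalizer hAB, Subgroup.mem_bot] at h4
      exact hz1 h4
    · have hdB : b' * b⁻¹ ∈ B := mul_mem hb' (inv_mem hb)
      have h5 : (b' * b⁻¹)⁻¹ * (z * a) * (b' * b⁻¹) ∈ A := by
        rw [e4] at hwC
        exact mem_cj.mp hwC
      have e5 : (b' * b⁻¹)⁻¹ * (z * a) * (b' * b⁻¹) = z * ((b' * b⁻¹)⁻¹ * a * (b' * b⁻¹)) := by
        have h6 := hzB (b' * b⁻¹)⁻¹ (inv_mem hdB)
        calc (b' * b⁻¹)⁻¹ * (z * a) * (b' * b⁻¹) = ((b' * b⁻¹)⁻¹ * z) * a * (b' * b⁻¹) := by group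
          _ = (z * (b' * b⁻¹)⁻¹) * a * (b' * b⁻¹) := by rw [h6]
          _ = z * ((b' * b⁻¹)⁻¹ * a * (b' * b⁻¹)) := by group
      rw [e5] at h5
      have hA2 : cj (b' * b⁻¹)⁻¹ A ∈ unipotentSubgroups A B :=
        r1_conj_mem_unip r1_A_mem (Subgroup.mem_sup_right (inv_mem hdB))
      have hA2ne : cj (b' * b⁻¹)⁻¹ A ≠ A := by
        intro hcon
        apply hCA
        rw [e4]
        have h6 := congrArg (cj (b' * b⁻¹)) hcon
        rw [cj_cj, mul_inv_cancel, cj_one] at h6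
        exact h6.symm
      have hel : (b' * b⁻¹)⁻¹ * a * (b' * b⁻¹) ∈ cj (b' * b⁻¹)⁻¹ A := by
        have h6 := cj_mem (g := (b' * b⁻¹)⁻¹) ha
        rwa [inv_inv] at h6
      have hnorm : (b' * b⁻¹)⁻¹ * a * (b' * b⁻¹) ∈ Subgroup.normalizer (A : Set G) := by
        apply Subgroup.centralizer_le_normalizer
        rw [Subgroup.mem_centralizer_iff]
        intro y hy
        have hcomm := hS.commutative A hA
        have h6 : y * (z * ((b' * b⁻¹)⁻¹ * a * (b' * b⁻¹)))
            = (z * ((b' * b⁻¹)⁻¹ * a * (b' * b⁻¹))) * y := by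
          have h8 := hcomm.is_comm.comm ⟨y, hy⟩ ⟨_, h5⟩
          exact congrArg Subtype.val h8
        have h7 := hzA y hy
        have h9 : z * (y * ((b' * b⁻¹)⁻¹ * a * (b' * b⁻¹)))
            = z * (((b' * b⁻¹)⁻¹ * a * (b' * b⁻¹)) * y) := by
          calc z * (y * ((b' * b⁻¹)⁻¹ * a * (b' * b⁻¹)))
              = (z * y) * ((b' * b⁻¹)⁻¹ * a * (b' * b⁻¹)) := (mul_assoc _ _ _).symm
            _ = (y * z) * ((b' * b⁻¹)⁻¹ * a * (b' * b⁻¹)) := by rw [h7]
            _ = y * (z * ((b' * b⁻¹)⁻¹ * a * (b' * b⁻¹))) := mul_assoc _ _ _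
            _ = (z * ((b' * b⁻¹)⁻¹ * a * (b' * b⁻¹))) * y := h6
            _ = z * (((b' * b⁻¹)⁻¹ * a * (b' * b⁻¹)) * y) := mul_assoc _ _ _
        exact mul_left_cancel h9
      have h8 : (b' * b⁻¹)⁻¹ * a * (b' * b⁻¹) ∈
          cj (b' * b⁻¹)⁻¹ A ⊓ Subgroup.normalizer (A : Set G) :=
        Subgroup.mem_inf.mpr ⟨hel, hnorm⟩
      rw [r1_unip_inf_normalizer hAB hA2 r1_A_mem hA2ne, Subgroup.mem_bot] at h8
      apply ha1
      calc a = (b' * b⁻¹) * ((b' * b⁻¹)⁻¹ * a * (b' * b⁻¹)) * (b' * b⁻¹)⁻¹ := by group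
        _ = 1 := by rw [h8]; group
  · obtain ⟨-, hcent, hgen, -⟩ := h2
    apply hS.ne_bot B hBS
    rw [eq_bot_iff]
    intro b' hb'
    rw [Subgroup.mem_bot]
    have hz' : (z * a) * b' * (z * a)⁻¹ * b'⁻¹ ∈ ⁅C, B⁆ := by
      rw [← hgen (z * a) hwC hw1]
      exact Subgroup.subset_closure ⟨b', hb', rfl⟩
    rw [hconjw b' (Subgroup.mem_sup_right hb')] at hz'
    have hcomm := hS.commutative B hBS
    have hnorm : a * b' * a⁻¹ ∈ Subgroup.normalizer (B : Set G) := by
      apply Subgroup.centralizer_le_normalizer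
      rw [Subgroup.mem_centralizer_iff]
      intro y hy
      have h5 := hcent _ hz' y (Subgroup.mem_sup_right hy)
      have h6 : b' * y = y * b' := by
        have h8 := hcomm.is_comm.comm ⟨b', hb'⟩ ⟨y, hy⟩
        exact congrArg Subtype.val h8
      calc y * (a * b' * a⁻¹) = y * (a * b' * a⁻¹ * b'⁻¹) * b' := by group
        _ = (a * b' * a⁻¹ * b'⁻¹) * y * b' := by rw [h5]
        _ = (a * b' * a⁻¹ * b'⁻¹) * (b' * y) := by rw [h6, mul_assoc]
        _ = (a * b' * a⁻¹) * y := by group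
    have hCu : cj a B ∈ unipotentSubgroups A B :=
      r1_conj_mem_unip (r1_B_mem hAB) (Subgroup.mem_sup_left ha)
    have h7 : a * b' * a⁻¹ ∈ cj a B ⊓ Subgroup.normalizer (B : Set G) :=
      Subgroup.mem_inf.mpr ⟨cj_mem hb', hnorm⟩
    rw [r1_unip_inf_normalizer hAB hCu (r1_B_mem hAB) hane, Subgroup.mem_bot] at h7
    calc b' = a⁻¹ * (a * b' * a⁻¹) * a := by group
      _ = 1 := by rw [h7]; group

theorem r1_S5027 {S : Set (Subgroup G)} (hS : IsRootSubgroupSet S)
    (hF : ∀ A ∈ S, ¬ IsIsolatedIn (FAdj S) S A) :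
    Subgroup.upperCentralSeries G 2 = Subgroup.center G := by
  apply le_antisymm
  · intro z hz
    have hz' : ∀ y : G, ⁅z, y⁆ ∈ Subgroup.center G := by
      intro y
      have h1 := Subgroup.mem_upperCentralSeries_succ_iff.mp hz y
      rwa [Subgroup.upperCentralSeries_one] at h1
    have hcent : ∀ A ∈ S, A ≤ Subgroup.centralizer ({z} : Set G) := by
      intro A hA a ha
      rw [Subgroup.mem_centralizer_iff]
      intro w hw
      rw [Set.mem_singleton_iff] at hw
      rw [hw]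
      by_cases ha1 : a = 1
      · rw [ha1, one_mul, mul_one]
      obtain ⟨B, hB, hAB⟩ := exists_partner (hF A hA) hA
      by_contra hne
      have hζ1 : ⁅z, a⁆ ≠ 1 := by
        intro hcon
        apply hne
        rw [commutatorElement_def] at hcon
        calc z * a = (z * a * z⁻¹ * a⁻¹) * (a * z) := by group
          _ = a * z := by rw [hcon, one_mul]
      have hζc : ⁅z, a⁆ ∈ Subgroup.centralizer ((A ⊔ B : Subgroup G) : Set G) :=
        Subgroup.center_le_centralizer _ (hz' a)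
      have h1 := r1_S5025 hS hA ⟨hB, hAB⟩ hζc hζ1 a ha ha1
      apply h1
      refine ⟨?_, conjBy A z, hS.conj_mem A hA z, ?_⟩
      · intro hcon
        apply ha1
        rw [commutatorElement_def] at hcon
        calc a = z⁻¹ * (z * a * z⁻¹ * a⁻¹ * a) * z := by group
          _ = 1 := by rw [hcon]; group
      · have e : ⁅z, a⁆ * a = z * a * z⁻¹ := by
          rw [commutatorElement_def]
          group
        rw [e]
        exact cj_mem ha
    have htop : (⊤ : Subgroup G) ≤ Subgroup.centralizer ({z} : Set G) := by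
      rw [← hS.generates]
      exact iSup₂_le hcent
    rw [Subgroup.mem_center_iff]
    intro g
    have h2 := Subgroup.mem_centralizer_iff.mp (htop (Subgroup.mem_top g)) z rfl
    exact h2.symm
  · rw [← Subgroup.upperCentralSeries_one]
    exact Subgroup.upperCentralSeries_mono G (by norm_num)

end

end Cfsg.Agent.Lib.Helper8
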