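import Mathlib
import Cfsg.Prelude
import Cfsg.Agent.Lib.Helper8.R1d

set_option autoImplicit false

namespace Cfsg.Agent.Lib.Helper8

open Cfsg

open scoped commutatorElement

section
variable {G : Type*} [Group G]

theorem mem_cent_zpowers {g x : G} :
    x ∈ Subgroup.centralizer ((Subgroup.zpowers g : Subgroup G) : Set G) ↔ g * x = x * g := by
  rw [Subgroup.mem_centralizer_iff]
  constructor
  · intro h
    exact h g (Subgroup.mem_zpowers g)
  · intro h y hy
    obtain ⟨k, rfl⟩ := Subgroup.mem_zpowers_iff.mp hy
    have hc : Commute g x := h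
    exact (hc.zpow_left k).eq

theorem comm_of_commutator_bot {A B : Subgroup G} (h : ⁅A, B⁆ = ⊥) {a b : G} (ha : a ∈ A)
    (hb : b ∈ B) : a * b = b * a := by
  have h1 : ⁅a, b⁆ ∈ ⁅A, B⁆ := Subgroup.commutator_mem_commutator ha hb
  rw [h, Subgroup.mem_bot] at h1
  exact commutatorElement_eq_one_iff_mul_comm.mp h1

/-- S5026 -/
theorem r1_S5026 {S : Set (Subgroup G)} (hS : IsRootSubgroupSet S) (hdeg : IsDegenerateRootSet S)
    {a b : G} (ha : a ∈ rootElements S) (hb : b ∈ rootElements S) (hab : a * b = b * a)
    (hab1 : a * b ≠ 1) :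
    centralizingMembers S (Subgroup.zpowers (a * b)) =
      centralizingMembers S (Subgroup.zpowers a) ∩ centralizingMembers S (Subgroup.zpowers b) := by
  obtain ⟨ha1, A, hA, haA⟩ := ha
  obtain ⟨hb1, B, hB, hbB⟩ := hb
  ext E
  constructor
  · rintro ⟨hE, hEc⟩
    have hEab : ∀ e ∈ E, (a * b) * e = e * (a * b) := fun e he => mem_cent_zpowers.mp (hEc he)
    -- it suffices that `E` centralizes `a`
    have hsuff : (∀ e ∈ E, a * e = e * a) → E ∈ centralizingMembers S (Subgroup.zpowers a) ∩
        centralizingMembers S (Subgroup.zpowers b) := by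
      intro h
      refine ⟨⟨hE, fun e he => mem_cent_zpowers.mpr (h e he)⟩,
        ⟨hE, fun e he => mem_cent_zpowers.mpr ?_⟩⟩
      have h1 := hEab e he
      have h2 := h e he
      calc b * e = a⁻¹ * ((a * b) * e) := by group
        _ = a⁻¹ * (e * (a * b)) := by rw [h1]
        _ = a⁻¹ * (e * a) * b := by group
        _ = a⁻¹ * (a * e) * b := by rw [h2]
        _ = e * b := by group
    have hsuff' : (∀ e ∈ E, b * e = e * b) → E ∈ centralizingMembers S (Subgroup.zpowers a) ∩
        centralizingMembers S (Subgroup.zpowers b) := by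
      intro h
      apply hsuff
      intro e he
      have h1 := hEab e he
      have h2 := h e he
      calc a * e = ((a * b) * e) * b⁻¹ * (b * e⁻¹ * b⁻¹ * e) := by group
        _ = (e * (a * b)) * b⁻¹ * (b * e⁻¹ * b⁻¹ * e) := by rw [h1]
        _ = e * a * ((b * e⁻¹) * b⁻¹ * e) := by group
        _ = e * a * ((e⁻¹ * b) * b⁻¹ * e) := by
          have h3 : b * e⁻¹ = e⁻¹ * b := by
            calc b * e⁻¹ = e⁻¹ * (e * b) * e⁻¹ := by group
              _ = e⁻¹ * (b * e) * e⁻¹ := by rw [h2]
              _ = e⁻¹ * b := by group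
          rw [h3]
        _ = e * a := by group
    rcases hS.pair E hE A hA with h1 | h1 | h1
    · apply hsuff
      intro e he
      exact (comm_of_commutator_bot h1 he haA).symm
    · rcases hS.pair E hE B hB with h2 | h2 | h2
      · apply hsuff'
        intro e he
        exact (comm_of_commutator_bot h2 he hbB).symm
      · exfalso
        -- `a * b` normalizes `E`
        have hN : a * b ∈ Subgroup.normalizer (E : Set G) := by
          rw [Subgroup.mem_normalizer_iff]
          intro e
          have hc : ∀ e' ∈ E, (a * b) * e' * (a * b)⁻¹ = e' := by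
            intro e' he'
            rw [hEab e' he']
            group
          constructor
          · intro he
            rw [hc e he]
            exact he
          · intro he
            have h3 := hc _ he
            have h4 : (a * b) * e * (a * b)⁻¹ = e := by
              have h5 : (a * b) * ((a * b) * e * (a * b)⁻¹) * (a * b)⁻¹ =
                  (a * b) * e * (a * b)⁻¹ := h3
              exact mul_left_cancel (mul_right_cancel h5)
            rw [← h4]
            exact he
        have hcj : cj (a * b) E = E := mem_normalizer_iff_cj.mp hN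
        have hcj2 : cj b E = cj a⁻¹ E := by
          have h3 : cj a⁻¹ (cj (a * b) E) = cj a⁻¹ E := congrArg (cj a⁻¹) hcj
          rw [cj_cj] at h3
          have e0 : a⁻¹ * (a * b) = b := by group
          rw [e0] at h3
          exact h3
        -- a partner `e` of `b⁻¹`
        obtain ⟨e, he, -, hconj⟩ := h2.cond_right b⁻¹ (inv_mem hbB) (inv_ne_one.mpr hb1)
        have hconj' : cj e⁻¹ B = cj b E := by
          have h3 : cj e⁻¹ B = cj b⁻¹⁻¹ E := hconj
          rw [inv_inv] at h3
          exact h3
        have hBE : B = cj (e * a⁻¹) E := by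
          rw [← cj_cj, ← hcj2, ← hconj', cj_cj, mul_inv_cancel, cj_one]
        have hBu : B ∈ unipotentSubgroups E A :=
          ⟨e * a⁻¹, mul_mem (Subgroup.mem_sup_left he) (Subgroup.mem_sup_right (inv_mem haA)), hBE⟩
        have hAu : A ∈ unipotentSubgroups E A := r1_B_mem h1
        have hBle : B ≤ E ⊔ A := by
          rw [hBE, cj_le_iff]
          intro x hx
          have h3 : e * a⁻¹ ∈ E ⊔ A :=
            mul_mem (Subgroup.mem_sup_left he) (Subgroup.mem_sup_right (inv_mem haA))
          exact mul_mem (mul_mem h3 (Subgroup.mem_sup_left hx)) (inv_mem h3)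
        have hAB : A = B := by
          by_contra hne
          by_cases hbA : cj b A = A
          · have h3 : b ∈ B ⊓ Subgroup.normalizer (A : Set G) :=
              Subgroup.mem_inf.mpr ⟨hbB, mem_normalizer_iff_cj.mpr hbA⟩
            rw [r1_unip_inf_normalizer h1 hBu hAu (Ne.symm hne), Subgroup.mem_bot] at h3
            exact hb1 h3
          · have hu : cj b A ∈ unipotentSubgroups E A := r1_conj_mem_unip hAu (hBle hbB)
            have h3 : a ∈ A ⊓ Subgroup.normalizer (cj b A : Set G) := by
              refine Subgroup.mem_inf.mpr ⟨haA, Subgroup.le_normalizer ?_⟩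
              have h4 : b * a * b⁻¹ ∈ cj b A := cj_mem haA
              have h5 : b * a * b⁻¹ = a := by rw [← hab]; group
              rw [h5] at h4
              exact h4
            rw [r1_unip_inf_normalizer h1 hAu hu (Ne.symm hbA), Subgroup.mem_bot] at h3
            exact ha1 h3
        have h3 : a * b ∈ A ⊓ Subgroup.normalizer (E : Set G) :=
          Subgroup.mem_inf.mpr ⟨mul_mem haA (hAB ▸ hbB), hN⟩
        rw [r1_inf_normalizer (RankOnePair_symm h1), Subgroup.mem_bot] at h3
        exact hab1 h3
      · exact absurd h2 (hdeg E hE B hB)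
    · exact absurd h1 (hdeg E hE A hA)
  · rintro ⟨⟨hE, hEa⟩, ⟨-, hEb⟩⟩
    refine ⟨hE, fun e he => mem_cent_zpowers.mpr ?_⟩
    have h1 : a * e = e * a := mem_cent_zpowers.mp (hEa he)
    have h2 : b * e = e * b := mem_cent_zpowers.mp (hEb he)
    calc a * b * e = a * (b * e) := mul_assoc _ _ _
      _ = a * (e * b) := by rw [h2]
      _ = (a * e) * b := (mul_assoc _ _ _).symm
      _ = (e * a) * b := by rw [h1]
      _ = e * (a * b) := mul_assoc _ _ _

end

end Cfsg.Agent.Lib.Helper8
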