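import Mathlib
import Cfsg.Prelude
import Cfsg.Agent.Lib.Helper8.R1e

set_option autoImplicit false

namespace Cfsg.Agent.Lib.Helper8

open Cfsg

open scoped commutatorElement

section
variable {G : Type*} [Group G]

/-- two distinct unipotent subgroups of a rank one group generate it -/
theorem r1_sup_unip {A B : Subgroup G} (h : IsRankOnePair A B) {E E' : Subgroup G}
    (h1 : E ∈ unipotentSubgroups A B) (h2 : E' ∈ unipotentSubgroups A B) (hne : E ≠ E') :
    E ⊔ E' = A ⊔ B := by
  obtain ⟨x, hx, hxA, hxB⟩ := r1_two_trans h r1_A_mem (r1_B_mem h) h1 h2 h.ne hne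
  have hxA' : cj x A = E := hxA
  have hxB' : cj x B = E' := hxB
  rw [← hxA', ← hxB', ← cj_sup, cj_eq_self_of_mem hx]

theorem unip_le_sup {A B E : Subgroup G} (h1 : E ∈ unipotentSubgroups A B) : E ≤ A ⊔ B := by
  obtain ⟨x, hx, rfl⟩ := h1
  show cj x A ≤ A ⊔ B
  rw [cj_le_iff]
  intro y hy
  exact mul_mem (mul_mem hx (Subgroup.mem_sup_left hy)) (inv_mem hx)

/-- a root subgroup with a rank one partner inside a rank one group `⟨C, D⟩` of root subgroups
is one of its unipotent subgroups -/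
theorem r1_member {S : Set (Subgroup G)} (hS : IsRootSubgroupSet S) {A B C D : Subgroup G}
    (hC : C ∈ S) (hCD : IsRankOnePair C D) (hA : A ∈ S) (hAB : IsRankOnePair A B)
    (hle : A ⊔ B ≤ C ⊔ D) : A ∈ unipotentSubgroups C D := by
  by_contra hAΛ
  have hAY : A ≤ C ⊔ D := le_sup_left.trans hle
  have hAbot : A ≠ ⊥ := hS.ne_bot A hA
  have hmemS : ∀ E ∈ unipotentSubgroups C D, E ∈ S := by
    rintro E ⟨y, -, rfl⟩
    exact hS.conj_mem C hC y
  -- if `A` normalizes a unipotent subgroup, it centralizes it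
  have hi : ∀ E ∈ unipotentSubgroups C D, A ≤ Subgroup.normalizer (E : Set G) → ⁅A, E⁆ = ⊥ := by
    intro E hE hAN
    rcases hS.pair A hA E (hmemS E hE) with h1 | h1 | h1
    · exact h1
    · exfalso
      have h2 := r1_inf_normalizer h1
      rw [inf_eq_left.mpr hAN] at h2
      exact hAbot h2
    · exfalso
      obtain ⟨hR, hcen, -, hgen⟩ := h1
      have hRE : ⁅A, E⁆ ≤ E := by
        rw [Subgroup.commutator_le]
        intro a ha e he
        have h2 : a * e * a⁻¹ ∈ E := (Subgroup.mem_normalizer_iff.mp (hAN ha) e).mp he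
        rw [commutatorElement_def]
        exact mul_mem h2 (inv_mem he)
      have hRbot : ⁅A, E⁆ ≠ ⊥ := hS.ne_bot _ hR
      obtain ⟨c, hc, hc1⟩ : ∃ c ∈ ⁅A, E⁆, c ≠ 1 := by
        by_contra hcon
        push Not at hcon
        exact hRbot ((Subgroup.eq_bot_iff_forall _).mpr hcon)
      have h3 := hgen c (hRE hc) hc1
      have h4 : Subgroup.closure ((fun a : G => a * c * a⁻¹ * c⁻¹) '' (A : Set G)) = ⊥ := by
        rw [Subgroup.closure_eq_bot_iff]
        rintro _ ⟨a, ha, rfl⟩
        have h5 := hcen c hc a (Subgroup.mem_sup_left ha)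
        show a * c * a⁻¹ * c⁻¹ = 1
        calc a * c * a⁻¹ * c⁻¹ = (a * c) * a⁻¹ * c⁻¹ := rfl
          _ = (c * a) * a⁻¹ * c⁻¹ := by rw [h5]
          _ = 1 := by group
      rw [h4] at h3
      exact hRbot h3.symm
  -- some unipotent subgroup is not normalized by `A`
  have hex : ∃ E ∈ unipotentSubgroups C D, ¬ A ≤ Subgroup.normalizer (E : Set G) := by
    by_contra hcon
    push Not at hcon
    have hCc := hi C r1_A_mem (hcon C r1_A_mem)
    have hDc := hi D (r1_B_mem hCD) (hcon D (r1_B_mem hCD))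
    have hcent : C ⊔ D ≤ Subgroup.centralizer (A : Set G) := by
      rw [sup_le_iff]
      constructor
      · intro c hc
        rw [Subgroup.mem_centralizer_iff]
        intro a ha
        exact comm_of_commutator_bot hCc ha hc
      · intro d hd
        rw [Subgroup.mem_centralizer_iff]
        intro a ha
        exact comm_of_commutator_bot hDc ha hd
    have hAN : A ≤ Subgroup.normalizer (B : Set G) := by
      intro a ha
      rw [Subgroup.mem_normalizer_iff]
      intro b
      have hcomm : ∀ b' ∈ B, a * b' * a⁻¹ = b' := by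
        intro b' hb'
        have h1 := Subgroup.mem_centralizer_iff.mp (hcent (hle (Subgroup.mem_sup_right hb'))) a ha
        rw [h1]
        group
      constructor
      · intro hb
        rw [hcomm b hb]
        exact hb
      · intro hb
        have h1 := hcomm _ hb
        have h2 : a * b * a⁻¹ = b := mul_left_cancel (mul_right_cancel h1)
        rw [← h2]
        exact hb
    have h2 := r1_inf_normalizer hAB
    rw [inf_eq_left.mpr hAN] at h2
    exact hAbot h2
  obtain ⟨E, hE, hEN⟩ := hex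
  have hES := hmemS E hE
  obtain ⟨a, ha, haN⟩ : ∃ a ∈ A, a ∉ Subgroup.normalizer (E : Set G) := by
    by_contra hcon
    push Not at hcon
    exact hEN hcon
  have hcjne : cj a E ≠ E := fun h => haN (mem_normalizer_iff_cj.mpr h)
  have hcjΛ : cj a E ∈ unipotentSubgroups C D := r1_conj_mem_unip hE (hAY ha)
  rcases hS.pair A hA E hES with h1 | h1 | h1
  · -- commuting: then `a` normalizes `E`
    apply haN
    rw [Subgroup.mem_normalizer_iff]
    intro e
    have hcomm : ∀ e' ∈ E, a * e' * a⁻¹ = e' := by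
      intro e' he'
      rw [comm_of_commutator_bot h1 ha he']
      group
    constructor
    · intro he
      rw [hcomm e he]
      exact he
    · intro he
      have h2 := hcomm _ he
      have h3 : a * e * a⁻¹ = e := mul_left_cancel (mul_right_cancel h2)
      rw [← h3]
      exact he
  · -- rank one pair `(A, E)`
    have hEu : E ∈ unipotentSubgroups A E := r1_B_mem h1
    have hcju : cj a E ∈ unipotentSubgroups A E :=
      r1_conj_mem_unip hEu (Subgroup.mem_sup_left ha)
    have hsup1 : E ⊔ cj a E = A ⊔ E := r1_sup_unip h1 hEu hcju (Ne.symm hcjne)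
    have hsup2 : E ⊔ cj a E = C ⊔ D := r1_sup_unip hCD hE hcjΛ (Ne.symm hcjne)
    obtain ⟨z, hz, hzE⟩ := hEu
    obtain ⟨y, hy, hyE⟩ := hE
    have hzY : z ∈ C ⊔ D := by
      rw [← hsup2, hsup1]
      exact hz
    apply hAΛ
    refine ⟨z⁻¹ * y, mul_mem (inv_mem hzY) hy, ?_⟩
    have h2 : cj z A = cj y C := hzE.symm.trans hyE
    show A = cj (z⁻¹ * y) C
    rw [← cj_cj, ← h2, cj_inv_cj]
  · -- commutator case
    obtain ⟨hR, hcen, -, -⟩ := h1
    have hcomm := hS.commutative E hES
    have hEc : E ≤ Subgroup.normalizer (cj a E : Set G) := by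
      intro e he
      apply Subgroup.centralizer_le_normalizer
      rw [Subgroup.mem_centralizer_iff]
      intro y hy
      have hy' : a⁻¹ * y * a ∈ E := mem_cj.mp hy
      obtain ⟨e', he', hye⟩ : ∃ e' ∈ E, y = a * e' * a⁻¹ := ⟨a⁻¹ * y * a, hy', by group⟩
      have hr : a * e' * a⁻¹ * e'⁻¹ ∈ ⁅A, E⁆ := by
        have h0 := Subgroup.commutator_mem_commutator ha he'
        rwa [commutatorElement_def] at h0
      have h5 := hcen _ hr e (Subgroup.mem_sup_right he)
      have h6 : e' * e = e * e' := congrArg Subtype.val (hcomm.is_comm.comm ⟨e', he'⟩ ⟨e, he⟩)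
      rw [hye]
      calc a * e' * a⁻¹ * e = (a * e' * a⁻¹ * e'⁻¹) * (e' * e) := by group
        _ = (a * e' * a⁻¹ * e'⁻¹) * (e * e') := by rw [h6]
        _ = ((a * e' * a⁻¹ * e'⁻¹) * e) * e' := by group
        _ = (e * (a * e' * a⁻¹ * e'⁻¹)) * e' := by rw [h5]
        _ = e * (a * e' * a⁻¹) := by group
    have h2 := r1_unip_inf_normalizer hCD hE hcjΛ (Ne.symm hcjne)
    rw [inf_eq_left.mpr hEc] at h2
    exact hS.ne_bot E hES h2

/-- S5024 -/
theorem r1_S5024 {S : Set (Subgroup G)} (hS : IsRootSubgroupSet S)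
    {A B C D : Subgroup G} (hA : A ∈ S) (hC : C ∈ S) (hB : B ∈ rankOnePartners S A)
    (hD : D ∈ rankOnePartners S C) (hle : A ⊔ B ≤ C ⊔ D) :
    A ⊔ B = C ⊔ D ∧ C ∈ unipotentSubgroups A B ∧ D ∈ unipotentSubgroups A B := by
  obtain ⟨hBS, hAB⟩ := hB
  obtain ⟨hDS, hCD⟩ := hD
  have hAΛ := r1_member hS hC hCD hA hAB hle
  have hBΛ := r1_member hS hC hCD hBS (RankOnePair_symm hAB) (by rw [sup_comm]; exact hle)
  have hsup : A ⊔ B = C ⊔ D := r1_sup_unip hCD hAΛ hBΛ hAB.ne
  obtain ⟨y, hy, hyA⟩ := hAΛ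
  have hyA' : A = cj y C := hyA
  have hCA : C = cj y⁻¹ A := by rw [hyA', cj_inv_cj]
  refine ⟨hsup, ⟨y⁻¹, by rw [hsup]; exact inv_mem hy, hCA⟩, ?_⟩
  obtain ⟨y', hy', hyD⟩ := r1_B_mem hCD
  have hyD' : D = cj y' C := hyD
  refine ⟨y' * y⁻¹, by rw [hsup]; exact mul_mem hy' (inv_mem hy), ?_⟩
  show D = cj (y' * y⁻¹) A
  rw [← cj_cj, ← hCA, hyD']

end

end Cfsg.Agent.Lib.Helper8
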