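import Mathlib
import Cfsg.Prelude.Def_RootSubgroups
import Cfsg.Agent.Lib.Helper8.RK1

set_option autoImplicit false

namespace Cfsg.Agent.Lib.Helper8

open scoped commutatorElement

section rk8c

variable {G : Type*} {H : Type*} [Group G] [Group H]

theorem map_conjBy8 (f : G →* H) (A : Subgroup G) (g : G) :
    (Cfsg.conjBy A g).map f = Cfsg.conjBy (A.map f) (f g) := by
  ext x
  constructor
  · rintro ⟨_, ⟨y, hy, rfl⟩, rfl⟩
    refine ⟨f y, ⟨y, hy, rfl⟩, ?_⟩
    show f g * f y * (f g)⁻¹ = f (g * y * g⁻¹)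
    rw [map_mul, map_mul, map_inv]
  · rintro ⟨_, ⟨y, hy, rfl⟩, rfl⟩
    refine ⟨g * y * g⁻¹, ⟨y, hy, rfl⟩, ?_⟩
    show f (g * y * g⁻¹) = f g * f y * (f g)⁻¹
    rw [map_mul, map_mul, map_inv]

theorem map_comm8 (f : G →* H) (A : Subgroup G) (hAc : ∀ x ∈ A, ∀ y ∈ A, x * y = y * x) :
    ∀ x ∈ A.map f, ∀ y ∈ A.map f, x * y = y * x := by
  rintro _ ⟨x, hx, rfl⟩ _ ⟨y, hy, rfl⟩
  rw [← map_mul, ← map_mul, hAc x hx y hy]

theorem conjBy_mem_self8 (A : Subgroup G) (hAc : ∀ x ∈ A, ∀ y ∈ A, x * y = y * x) (a : G)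
    (ha : a ∈ A) : Cfsg.conjBy A a = A := by
  ext x
  constructor
  · rintro ⟨y, hy, rfl⟩
    show a * y * a⁻¹ ∈ A
    exact A.mul_mem (A.mul_mem ha hy) (A.inv_mem ha)
  · intro hx
    refine ⟨x, hx, ?_⟩
    show a * x * a⁻¹ = x
    rw [hAc a ha x hx, mul_inv_cancel_right]

theorem nilp_of_comm8 (A : Subgroup G) (hAc : ∀ x ∈ A, ∀ y ∈ A, x * y = y * x) :
    Group.IsNilpotent A := by
  letI : CommGroup A := { (inferInstance : Group A) with
    mul_comm := fun a b => Subtype.ext (hAc a.1 a.2 b.1 b.2) }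
  exact CommGroup.isNilpotent

theorem map_rankOneCond8 (f : G →* H) (A B : Subgroup G)
    (hAc : ∀ x ∈ A, ∀ y ∈ A, x * y = y * x)
    (h : Cfsg.RankOneCondition A B) (hne : A.map f ≠ B.map f) :
    Cfsg.RankOneCondition (A.map f) (B.map f) := by
  rintro _ ⟨a, ha, rfl⟩ ha1
  have ha1' : a ≠ 1 := fun h0 => ha1 (by rw [h0, map_one])
  obtain ⟨b, hb, hb1, hconj⟩ := h a ha ha1'
  have e := congrArg (Subgroup.map f) hconj
  rw [map_conjBy8, map_conjBy8, map_inv, map_inv] at e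
  refine ⟨f b, ⟨b, hb, rfl⟩, ?_, e⟩
  intro h0
  apply hne
  rw [h0, inv_one, conjBy_one8] at e
  have e2 : Cfsg.conjBy (A.map f) (f a) =
      Cfsg.conjBy (Cfsg.conjBy (B.map f) (f a)⁻¹) (f a) := by rw [← e]
  rw [conjBy_conjBy8, mul_inv_cancel, conjBy_one8,
    conjBy_mem_self8 (A.map f) (map_comm8 f A hAc) (f a) ⟨a, ha, rfl⟩] at e2
  exact e2

theorem map_rankOnePair8 (f : G →* H) (A B : Subgroup G)
    (hAc : ∀ x ∈ A, ∀ y ∈ A, x * y = y * x) (hBc : ∀ x ∈ B, ∀ y ∈ B, x * y = y * x)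
    (h : Cfsg.IsRankOnePair A B) (hne : A.map f ≠ B.map f) :
    Cfsg.IsRankOnePair (A.map f) (B.map f) :=
  ⟨hne, nilp_of_comm8 _ (map_comm8 f A hAc), nilp_of_comm8 _ (map_comm8 f B hBc),
    map_rankOneCond8 f A B hAc h.cond_left hne,
    map_rankOneCond8 f B A hBc h.cond_right (Ne.symm hne)⟩

theorem map_commCase8 (f : G →* H) (S : Set (Subgroup G)) (A B : Subgroup G)
    (h : Cfsg.RootCommutatorCase S A B) :
    Cfsg.RootCommutatorCase ((fun A : Subgroup G => A.map f) '' S) (A.map f) (B.map f) := by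
  obtain ⟨hmem, hcent, hcl1, hcl2⟩ := h
  have key : ⁅A.map f, B.map f⁆ = (⁅A, B⁆).map f := (Subgroup.map_commutator A B f).symm
  refine ⟨?_, ?_, ?_, ?_⟩
  · rw [key]
    exact ⟨⁅A, B⁆, hmem, rfl⟩
  · intro c hc x hx
    rw [key] at hc
    rw [← Subgroup.map_sup] at hx
    obtain ⟨c0, hc0, rfl⟩ := hc
    obtain ⟨x0, hx0, rfl⟩ := hx
    rw [← map_mul, ← map_mul, hcent c0 hc0 x0 hx0]
  · rintro _ ⟨a, ha, rfl⟩ ha1
    have ha1' : a ≠ 1 := fun h0 => ha1 (by rw [h0, map_one])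
    rw [key, ← hcl1 a ha ha1', MonoidHom.map_closure]
    congr 1
    ext g
    constructor
    · rintro ⟨_, ⟨b, hb, rfl⟩, rfl⟩
      refine ⟨_, ⟨b, hb, rfl⟩, ?_⟩
      simp only [map_mul, map_inv]
    · rintro ⟨_, ⟨b, hb, rfl⟩, rfl⟩
      refine ⟨f b, ⟨b, hb, rfl⟩, ?_⟩
      simp only [map_mul, map_inv]
  · rintro _ ⟨b, hb, rfl⟩ hb1
    have hb1' : b ≠ 1 := fun h0 => hb1 (by rw [h0, map_one])
    rw [key, ← hcl2 b hb hb1', MonoidHom.map_closure]
    congr 1
    ext g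
    constructor
    · rintro ⟨_, ⟨a, ha, rfl⟩, rfl⟩
      refine ⟨_, ⟨a, ha, rfl⟩, ?_⟩
      simp only [map_mul, map_inv]
    · rintro ⟨_, ⟨a, ha, rfl⟩, rfl⟩
      refine ⟨f a, ⟨a, ha, rfl⟩, ?_⟩
      simp only [map_mul, map_inv]

theorem map_root8 {S : Set (Subgroup G)} (hS : Cfsg.IsRootSubgroupSet S)
    (hc : Cfsg.IsConnectedFamily (Cfsg.FAdj S) S) (f : G →* H) (hf : Function.Surjective f) :
    (Cfsg.IsRootSubgroupSet ((fun A : Subgroup G => A.map f) '' S) ∧
      Cfsg.IsConnectedFamily (Cfsg.FAdj ((fun A : Subgroup G => A.map f) '' S))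
        ((fun A : Subgroup G => A.map f) '' S)) ∨
    ∃ A ∈ S, A.map f = ⊤ := by
  have htop : (⊤ : Subgroup H) = (⊤ : Subgroup G).map f := by
    rw [← MonoidHom.range_eq_map, MonoidHom.range_eq_top.mpr hf]
  have hcomm : ∀ A ∈ S, ∀ x ∈ A, ∀ y ∈ A, x * y = y * x := by
    intro A hA x hx y hy
    have h1 := (hS.commutative A hA).is_comm.comm ⟨x, hx⟩ ⟨y, hy⟩
    exact congrArg Subtype.val h1
  by_cases hbot : ∃ A ∈ S, A.map f = ⊥
  · right
    obtain ⟨A, hA, hA0⟩ := hbot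
    have hall : ∀ B, Relation.ReflTransGen (Cfsg.FAdj S) A B → B.map f = ⊥ := by
      intro B hAB
      induction hAB with
      | refl => exact hA0
      | tail _ hstep ih =>
        obtain ⟨hX, hY, hr⟩ := hstep
        obtain ⟨g, hg⟩ := rankOne_conj8 _ _ (hS.ne_bot _ hX) hr
        rw [hg, map_conjBy8, ih]
        exact Subgroup.map_bot _
    refine ⟨A, hA, ?_⟩
    rw [hA0, htop, ← hS.generates, Subgroup.map_iSup]
    symm
    rw [eq_bot_iff]
    refine iSup_le (fun B => ?_)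
    rw [Subgroup.map_iSup]
    refine iSup_le (fun hB => ?_)
    rw [hall B (hc A hA B hB)]
  · left
    push Not at hbot
    have hpath : ∀ A, ∀ B, Relation.ReflTransGen (Cfsg.FAdj S) A B →
        Relation.ReflTransGen (Cfsg.FAdj ((fun A : Subgroup G => A.map f) '' S))
          (A.map f) (B.map f) := by
      intro A B hAB
      induction hAB with
      | refl => exact Relation.ReflTransGen.refl
      | @tail X Y _ hstep ih =>
        obtain ⟨hX, hY, hr⟩ := hstep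
        by_cases he : X.map f = Y.map f
        · rw [← he]
          exact ih
        · exact Relation.ReflTransGen.tail ih ⟨⟨X, hX, rfl⟩, ⟨Y, hY, rfl⟩,
            map_rankOnePair8 f X Y (hcomm X hX) (hcomm Y hY) hr he⟩
    refine ⟨⟨?_, ?_, ?_, ?_, ?_⟩, ?_⟩
    · rintro _ ⟨A, hA, rfl⟩
      exact ⟨⟨fun a b => map_comm8 f A (hcomm A hA) a.1 a.2 b.1 b.2 |> fun e => Subtype.ext e⟩⟩
    · rintro _ ⟨A, hA, rfl⟩
      exact hbot A hA
    · rw [htop, ← hS.generates, Subgroup.map_iSup]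
      apply le_antisymm
      · refine iSup₂_le (fun A' hA' => ?_)
        obtain ⟨A, hA, rfl⟩ := hA'
        refine le_trans ?_ (le_iSup _ A)
        rw [Subgroup.map_iSup]
        exact le_iSup (fun _ : A ∈ S => A.map f) hA
      · refine iSup_le (fun A => ?_)
        rw [Subgroup.map_iSup]
        refine iSup_le (fun hA => ?_)
        exact le_biSup (fun A' : Subgroup H => A')
          (⟨A, hA, rfl⟩ : A.map f ∈ (fun A : Subgroup G => A.map f) '' S)
    · rintro _ ⟨A, hA, rfl⟩ g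
      obtain ⟨g0, rfl⟩ := hf g
      exact ⟨Cfsg.conjBy A g0, hS.conj_mem A hA g0, map_conjBy8 f A g0⟩
    · rintro _ ⟨A, hA, rfl⟩ _ ⟨B, hB, rfl⟩
      rcases hS.pair A hA B hB with h | h | h
      · left
        rw [← Subgroup.map_commutator, h, Subgroup.map_bot]
      · by_cases he : A.map f = B.map f
        · left
          show ⁅A.map f, B.map f⁆ = ⊥
          rw [← he, Subgroup.commutator_eq_bot_iff_le_centralizer]
          intro x hx
          rw [Subgroup.mem_centralizer_iff]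
          intro y hy
          exact map_comm8 f A (hcomm A hA) y hy x hx
        · right
          left
          exact map_rankOnePair8 f A B (hcomm A hA) (hcomm B hB) h he
      · right
        right
        exact map_commCase8 f S A B h
    · rintro _ ⟨A, hA, rfl⟩ _ ⟨B, hB, rfl⟩
      exact hpath A B (hc A hA B hB)

end rk8c

end Cfsg.Agent.Lib.Helper8
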