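import Mathlib
import Cfsg.Prelude.Def_RootSubgroups
import Cfsg.Agent.Lib.Helper8.RK1
import Cfsg.Agent.Lib.Helper8.RK3

set_option autoImplicit false

namespace Cfsg.Agent.Lib.Helper8

open scoped commutatorElement

section rk8d

variable {G : Type*} [Group G]

theorem rtg_symm8 {α : Type*} {r : α → α → Prop} (hs : ∀ x y, r x y → r y x) {a b : α}
    (h : Relation.ReflTransGen r a b) : Relation.ReflTransGen r b a := by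
  induction h with
  | refl => exact Relation.ReflTransGen.refl
  | tail _ hstep ih => exact Relation.ReflTransGen.head (hs _ _ hstep) ih

theorem rk_elem_key8 (a' b' a₁ y x : G)
    (hab : a' * b' = b' * a')
    (h1 : a'⁻¹ * y * a' = a₁⁻¹ * a' * a₁)
    (c1 : Commute (b' * a₁⁻¹ * b'⁻¹ * a₁) b')
    (c2 : Commute x ((a' * b')⁻¹ * a₁⁻¹ * (a' * b') * a₁))
    (c3 : Commute x (b' * a₁⁻¹ * b'⁻¹ * a₁))
    (c4 : Commute x (b' * y * b'⁻¹ * y⁻¹))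
    (c5 : Commute x y)
    (c6 : Commute x (y⁻¹ * (a' * b')⁻¹ * y * (a' * b')))
    (c7 : Commute (x * b' * x⁻¹ * b'⁻¹) y)
    (c8 : Commute (x * b' * x⁻¹ * b'⁻¹) (b' * y * b'⁻¹ * y⁻¹)) :
    a' * x = x * a' := by
  obtain ⟨c, hc⟩ : ∃ c, c = a' * b' := ⟨_, rfl⟩
  obtain ⟨ζ, hζ⟩ : ∃ ζ, ζ = c⁻¹ * a₁⁻¹ * c * a₁ := ⟨_, rfl⟩
  obtain ⟨ξ, hξ⟩ : ∃ ξ, ξ = b' * a₁⁻¹ * b'⁻¹ * a₁ := ⟨_, rfl⟩
  obtain ⟨θ, hθ⟩ : ∃ θ, θ = b' * y * b'⁻¹ * y⁻¹ := ⟨_, rfl⟩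
  obtain ⟨η, hη⟩ : ∃ η, η = y⁻¹ * c⁻¹ * y * c := ⟨_, rfl⟩
  obtain ⟨κ, hκ⟩ : ∃ κ, κ = x * c * x⁻¹ * c⁻¹ := ⟨_, rfl⟩
  obtain ⟨l, hl⟩ : ∃ l, l = x * b' * x⁻¹ * b'⁻¹ := ⟨_, rfl⟩
  rw [← hc] at c2 c6
  rw [← hζ] at c2
  rw [← hξ] at c1 c3
  rw [← hθ] at c4 c8
  rw [← hη] at c6
  rw [← hl] at c7 c8
  have e1 : θ * y * b' * η * b'⁻¹ = c * ζ * b'⁻¹ * ξ := by
    have l1 : θ * y * b' * η * b'⁻¹ = a'⁻¹ * y * a' := by
      rw [hθ, hη, hc]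
      group
    have r1 : c * ζ * b'⁻¹ * ξ = a₁⁻¹ * a' * a₁ := by
      rw [hζ, hξ, hc]
      group
    rw [l1, r1, h1]
  have e2 : θ * y * b' * η = c * ζ * ξ := by
    have t : θ * y * b' * η = (θ * y * b' * η * b'⁻¹) * b' := by group
    rw [t, e1, mul_assoc (c * ζ * b'⁻¹), c1.eq]
    group
  have e3 : x * (c * ζ * ξ) * x⁻¹ = κ * (c * ζ * ξ) := by
    have t1 : x * (c * ζ * ξ) * x⁻¹ = x * c * ((ζ * ξ) * x⁻¹) := by group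
    have t2 : (ζ * ξ) * x⁻¹ = x⁻¹ * (ζ * ξ) := ((c2.mul_right c3).inv_left).eq.symm
    rw [t1, t2, hκ]
    group
  have e4 : x * (θ * y * b' * η) * x⁻¹ = l * (θ * y * b' * η) := by
    have t1 : x * (θ * y * b' * η) * x⁻¹ = (x * (θ * y)) * b' * (η * x⁻¹) := by group
    have t2 : x * (θ * y) = (θ * y) * x := (c4.mul_right c5).eq
    have t3 : η * x⁻¹ = x⁻¹ * η := (c6.inv_left).eq.symm
    have t4 : (θ * y) * x * b' * (x⁻¹ * η) = (θ * y) * l * b' * η := by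
      rw [hl]
      group
    have t5 : (θ * y) * l = l * (θ * y) := (c8.mul_right c7).eq.symm
    rw [t1, t2, t3, t4, t5]
    group
  have e5 : κ = l := by
    have h0 : κ * (c * ζ * ξ) = l * (c * ζ * ξ) := by
      rw [← e3, ← e2]
      exact e4
    exact mul_right_cancel h0
  have hc' : c = b' * a' := hc.trans hab
  rw [hκ, hl, hc'] at e5
  have h5 : a' * x⁻¹ * a'⁻¹ = x⁻¹ := by
    have h6 : a' * x⁻¹ * a'⁻¹ =
        b'⁻¹ * x⁻¹ * (x * (b' * a') * x⁻¹ * (b' * a')⁻¹) * b' := by group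
    rw [h6, e5]
    group
  have h7 : a' * x⁻¹ = x⁻¹ * a' := mul_inv_eq_iff_eq_mul.mp h5
  have h8 : Commute a' x⁻¹ := h7
  have h9 : Commute a' x := by simpa using h8.inv_right
  exact h9.eq

theorem rk_line_key8 (A A₁ B C : Subgroup G)
    (hA₁c : ∀ x ∈ A₁, ∀ y ∈ A₁, x * y = y * x)
    (hne : A ≠ A₁) (hcond : Cfsg.RankOneCondition A A₁)
    (hZB : ∀ z ∈ ⁅A₁, B⁆, ∀ x ∈ A₁ ⊔ B, z * x = x * z)
    (hZC : ∀ z ∈ ⁅A₁, C⁆, ∀ x ∈ A₁ ⊔ C, z * x = x * z)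
    (a' b' : G) (ha' : a' ∈ A) (ha'1 : a' ≠ 1) (hb' : b' ∈ B) (hab : a' * b' = b' * a')
    (hc : a' * b' ∈ C) : False := by
  obtain ⟨a₁, ha₁, ha₁1, hconj⟩ := hcond a' ha' ha'1
  have h1 : a₁⁻¹ * a' * a₁⁻¹⁻¹ ∈ Cfsg.conjBy A₁ a'⁻¹ := by
    rw [← hconj]
    exact ⟨a', ha', rfl⟩
  obtain ⟨y, hy, hy2⟩ := h1
  have hy2' : a'⁻¹ * y * a' = a₁⁻¹ * a' * a₁ := by
    have h3 : a'⁻¹ * y * a'⁻¹⁻¹ = a₁⁻¹ * a' * a₁⁻¹⁻¹ := hy2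
    rw [inv_inv, inv_inv] at h3
    exact h3
  have mB : ∀ g ∈ B, ∀ x ∈ A₁, g * x * g⁻¹ * x⁻¹ ∈ ⁅A₁, B⁆ := by
    intro g hg x hx
    rw [Subgroup.commutator_comm]
    have h0 := Subgroup.commutator_mem_commutator hg hx
    rwa [commutatorElement_def] at h0
  have mB' : ∀ x ∈ A₁, ∀ g ∈ B, x * g * x⁻¹ * g⁻¹ ∈ ⁅A₁, B⁆ := by
    intro x hx g hg
    have h0 := Subgroup.commutator_mem_commutator hx hg
    rwa [commutatorElement_def] at h0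
  have mC : ∀ g ∈ C, ∀ x ∈ A₁, g * x * g⁻¹ * x⁻¹ ∈ ⁅A₁, C⁆ := by
    intro g hg x hx
    rw [Subgroup.commutator_comm]
    have h0 := Subgroup.commutator_mem_commutator hg hx
    rwa [commutatorElement_def] at h0
  have mC' : ∀ x ∈ A₁, ∀ g ∈ C, x * g * x⁻¹ * g⁻¹ ∈ ⁅A₁, C⁆ := by
    intro x hx g hg
    have h0 := Subgroup.commutator_mem_commutator hx hg
    rwa [commutatorElement_def] at h0
  have hξ : b' * a₁⁻¹ * b'⁻¹ * a₁ ∈ ⁅A₁, B⁆ := by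
    have h0 := mB b' hb' a₁⁻¹ (A₁.inv_mem ha₁)
    simp only [inv_inv] at h0
    exact h0
  have hζ : (a' * b')⁻¹ * a₁⁻¹ * (a' * b') * a₁ ∈ ⁅A₁, C⁆ := by
    have h0 := mC (a' * b')⁻¹ (C.inv_mem hc) a₁⁻¹ (A₁.inv_mem ha₁)
    simp only [inv_inv] at h0
    exact h0
  have hθ : b' * y * b'⁻¹ * y⁻¹ ∈ ⁅A₁, B⁆ := mB b' hb' y hy
  have hη : y⁻¹ * (a' * b')⁻¹ * y * (a' * b') ∈ ⁅A₁, C⁆ := by
    have h0 := mC' y⁻¹ (A₁.inv_mem hy) (a' * b')⁻¹ (C.inv_mem hc)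
    simp only [inv_inv] at h0
    exact h0
  have hθsup : b' * y * b'⁻¹ * y⁻¹ ∈ A₁ ⊔ B :=
    Subgroup.mul_mem _ (Subgroup.mul_mem _ (Subgroup.mul_mem _ (Subgroup.mem_sup_right hb')
      (Subgroup.mem_sup_left hy)) (Subgroup.mem_sup_right (B.inv_mem hb')))
      (Subgroup.mem_sup_left (A₁.inv_mem hy))
  have hcen : ∀ x ∈ A₁, a' * x = x * a' := by
    intro x hx
    have hl : x * b' * x⁻¹ * b'⁻¹ ∈ ⁅A₁, B⁆ := mB' x hx b' hb'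
    have c1 : Commute (b' * a₁⁻¹ * b'⁻¹ * a₁) b' := hZB _ hξ b' (Subgroup.mem_sup_right hb')
    have c2 : Commute x ((a' * b')⁻¹ * a₁⁻¹ * (a' * b') * a₁) :=
      (hZC _ hζ x (Subgroup.mem_sup_left hx)).symm
    have c3 : Commute x (b' * a₁⁻¹ * b'⁻¹ * a₁) := (hZB _ hξ x (Subgroup.mem_sup_left hx)).symm
    have c4 : Commute x (b' * y * b'⁻¹ * y⁻¹) := (hZB _ hθ x (Subgroup.mem_sup_left hx)).symm
    have c5 : Commute x y := hA₁c x hx y hy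
    have c6 : Commute x (y⁻¹ * (a' * b')⁻¹ * y * (a' * b')) :=
      (hZC _ hη x (Subgroup.mem_sup_left hx)).symm
    have c7 : Commute (x * b' * x⁻¹ * b'⁻¹) y := hZB _ hl y (Subgroup.mem_sup_left hy)
    have c8 : Commute (x * b' * x⁻¹ * b'⁻¹) (b' * y * b'⁻¹ * y⁻¹) := hZB _ hl _ hθsup
    exact rk_elem_key8 a' b' a₁ y x hab hy2' c1 c2 c3 c4 c5 c6 c7 c8
  apply hne
  have e1 : Cfsg.conjBy A₁ a'⁻¹ = A₁ := by
    ext z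
    constructor
    · rintro ⟨w, hw, rfl⟩
      show a'⁻¹ * w * a'⁻¹⁻¹ ∈ A₁
      rw [inv_inv, mul_assoc, ← hcen w hw, inv_mul_cancel_left]
      exact hw
    · intro hz
      refine ⟨z, hz, ?_⟩
      show a'⁻¹ * z * a'⁻¹⁻¹ = z
      rw [inv_inv, mul_assoc, ← hcen z hz, inv_mul_cancel_left]
  rw [e1] at hconj
  have e2 : Cfsg.conjBy (Cfsg.conjBy A a₁⁻¹) a₁ = Cfsg.conjBy A₁ a₁ := by rw [hconj]
  rw [conjBy_conjBy8, mul_inv_cancel, conjBy_one8, conjBy_mem_self8 A₁ hA₁c a₁ ha₁] at e2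
  exact e2

theorem rk_line_main8 {S : Set (Subgroup G)} (hS : Cfsg.IsRootSubgroupSet S)
    {A B : Subgroup G} (hA : A ∈ S) (hB : B ∈ S)
    (hne : Cfsg.componentOf (Cfsg.FAdj S) S A ≠ Cfsg.componentOf (Cfsg.FAdj S) S B)
    (hA2 : ∃ A' ∈ Cfsg.componentOf (Cfsg.FAdj S) S A, A' ≠ A)
    (hB2 : ∃ B' ∈ Cfsg.componentOf (Cfsg.FAdj S) S B, B' ≠ B) :
    B ∉ Cfsg.linePartners S A := by
  rintro ⟨⟨-, hBA, hcomm⟩, hpart⟩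
  have hsymm : ∀ X Y, Cfsg.FAdj S X Y → Cfsg.FAdj S Y X :=
    fun X Y h => ⟨h.2.1, h.1, Cfsg.RankOnePair_symm h.2.2⟩
  have hcommS : ∀ X ∈ S, ∀ x ∈ X, ∀ y ∈ X, x * y = y * x := by
    intro X hX x hx y hy
    have h1 := (hS.commutative X hX).is_comm.comm ⟨x, hx⟩ ⟨y, hy⟩
    exact congrArg Subtype.val h1
  have hno : ¬ Relation.ReflTransGen (Cfsg.FAdj S) A B := by
    intro hAB
    apply hne
    have hBA' : Relation.ReflTransGen (Cfsg.FAdj S) B A := rtg_symm8 hsymm hAB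
    ext X
    constructor
    · rintro ⟨hX, hAX⟩
      exact ⟨hX, hBA'.trans hAX⟩
    · rintro ⟨hX, hBX⟩
      exact ⟨hX, hAB.trans hBX⟩
  obtain ⟨A', ⟨-, hAA'⟩, hA'ne⟩ := hA2
  obtain ⟨A₁, hA₁adj⟩ : ∃ A₁, Cfsg.FAdj S A A₁ := by
    rcases Relation.ReflTransGen.cases_head hAA' with h | ⟨A₁, h, -⟩
    · exact absurd h.symm hA'ne
    · exact ⟨A₁, h⟩
  obtain ⟨B', ⟨-, hBB'⟩, hB'ne⟩ := hB2
  obtain ⟨B₁, hB₁adj⟩ : ∃ B₁, Cfsg.FAdj S B B₁ := by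
    rcases Relation.ReflTransGen.cases_head hBB' with h | ⟨B₁, h, -⟩
    · exact absurd h.symm hB'ne
    · exact ⟨B₁, h⟩
  obtain ⟨-, hA₁S, hrA⟩ := hA₁adj
  obtain ⟨-, hB₁S, hrB⟩ := hB₁adj
  obtain ⟨a', ha', ha'1⟩ := exists_ne_one_of_ne_bot8 A (hS.ne_bot A hA)
  obtain ⟨b', hb', hb'1⟩ := exists_ne_one_of_ne_bot8 B (hS.ne_bot B hB)
  have hab : a' * b' = b' * a' := by
    have h1 := hcomm
    rw [Subgroup.commutator_eq_bot_iff_le_centralizer] at h1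
    have h2 := h1 ha'
    rw [Subgroup.mem_centralizer_iff] at h2
    exact (h2 b' hb').symm
  obtain ⟨hp1, hp2, hp3⟩ := hpart
  have hAm : A ∈ Cfsg.membersIn S (A ⊔ B) := ⟨hA, le_sup_left⟩
  have hBm : B ∈ Cfsg.membersIn S (A ⊔ B) := ⟨hB, le_sup_right⟩
  have hAB0 : A ⊓ B = ⊥ := hp3 A hAm B hBm (Ne.symm hBA)
  have hc1 : a' * b' ≠ 1 := by
    intro h0
    have h3 : a' = b'⁻¹ := eq_inv_of_mul_eq_one_left h0
    have h4 : a' ∈ A ⊓ B := ⟨ha', by rw [h3]; exact B.inv_mem hb'⟩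
    rw [hAB0, Subgroup.mem_bot] at h4
    exact ha'1 h4
  obtain ⟨C, ⟨hCS, -⟩, hcC⟩ := hp2 (a' * b')
    (Subgroup.mul_mem _ (Subgroup.mem_sup_left ha') (Subgroup.mem_sup_right hb')) hc1
  have hcentral : ∀ X ∈ S, ∀ Y ∈ S, ¬ Cfsg.IsRankOnePair X Y →
      ∀ z ∈ ⁅X, Y⁆, ∀ x ∈ X ⊔ Y, z * x = x * z := by
    intro X hX Y hY hnr z hz x hx
    rcases hS.pair X hX Y hY with h | h | h
    · rw [h, Subgroup.mem_bot] at hz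
      rw [hz, one_mul, mul_one]
    · exact absurd h hnr
    · exact h.2.1 z hz x hx
  have hnr1 : ¬ Cfsg.IsRankOnePair A₁ B := by
    intro h
    exact hno ((Relation.ReflTransGen.single ⟨hA, hA₁S, hrA⟩).tail ⟨hA₁S, hB, h⟩)
  have hnr2 : ¬ Cfsg.IsRankOnePair B₁ A := by
    intro h
    exact hno ((Relation.ReflTransGen.single ⟨hA, hB₁S, Cfsg.RankOnePair_symm h⟩).tail
      ⟨hB₁S, hB, Cfsg.RankOnePair_symm hrB⟩)
  have hr1 : Cfsg.IsRankOnePair A₁ C := by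
    by_contra hnr
    exact rk_line_key8 A A₁ B C (hcommS A₁ hA₁S) hrA.ne hrA.cond_left
      (hcentral A₁ hA₁S B hB hnr1) (hcentral A₁ hA₁S C hCS hnr) a' b' ha' ha'1 hb' hab hcC
  have hr2 : Cfsg.IsRankOnePair B₁ C := by
    by_contra hnr
    have hcC' : b' * a' ∈ C := by
      rw [← hab]
      exact hcC
    exact rk_line_key8 B B₁ A C (hcommS B₁ hB₁S) hrB.ne hrB.cond_left
      (hcentral B₁ hB₁S A hA hnr2) (hcentral B₁ hB₁S C hCS hnr) b' a' hb' hb'1 ha' hab.symm hcC'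
  exact hno ((((Relation.ReflTransGen.single ⟨hA, hA₁S, hrA⟩).tail ⟨hA₁S, hCS, hr1⟩).tail
    ⟨hCS, hB₁S, Cfsg.RankOnePair_symm hr2⟩).tail ⟨hB₁S, hB, Cfsg.RankOnePair_symm hrB⟩)

end rk8d

end Cfsg.Agent.Lib.Helper8
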