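import Mathlib
import Cfsg.Prelude.Def_RootSubgroups
import Cfsg.Agent.Lib.Helper8.RK1
import Cfsg.Agent.Lib.Helper8.RK3
import Cfsg.Agent.Lib.Helper8.RK4

set_option autoImplicit false

namespace Cfsg.Agent.Lib.Helper8

open scoped commutatorElement

section rk8e

variable {G : Type*} [Group G]

theorem conjBy_of_comm8 (A : Subgroup G) (e : G) (h : ∀ x ∈ A, e * x = x * e) :
    Cfsg.conjBy A e = A := by
  ext z
  constructor
  · rintro ⟨w, hw, rfl⟩
    show e * w * e⁻¹ ∈ A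
    rw [h w hw, mul_inv_cancel_right]
    exact hw
  · intro hz
    refine ⟨z, hz, ?_⟩
    show e * z * e⁻¹ = z
    rw [h z hz, mul_inv_cancel_right]

theorem rk_conn_iff8 {S : Set (Subgroup G)} (hS : Cfsg.IsRootSubgroupSet S)
    (h2 : ∃ A ∈ S, ∃ B ∈ S, A ≠ B) :
    Cfsg.IsConnectedFamily (Cfsg.FAdj S) S ↔
      (Cfsg.IsConjClassOfSubgroups S ∧ ∃ A ∈ S, ¬ Cfsg.IsIsolatedIn (Cfsg.FAdj S) S A) := by
  have hsymm : ∀ X Y, Cfsg.FAdj S X Y → Cfsg.FAdj S Y X :=
    fun X Y h => ⟨h.2.1, h.1, Cfsg.RankOnePair_symm h.2.2⟩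
  have hcommS : ∀ X ∈ S, ∀ x ∈ X, ∀ y ∈ X, x * y = y * x := by
    intro X hX x hx y hy
    have h1 := (hS.commutative X hX).is_comm.comm ⟨x, hx⟩ ⟨y, hy⟩
    exact congrArg Subtype.val h1
  have hfconj : ∀ (g : G) (X Y : Subgroup G), Cfsg.FAdj S X Y →
      Cfsg.FAdj S (Cfsg.conjBy X g) (Cfsg.conjBy Y g) := by
    rintro g X Y ⟨hX, hY, h⟩
    refine ⟨hS.conj_mem X hX g, hS.conj_mem Y hY g, ?_⟩
    exact map_rankOnePair8 (MulAut.conj g).toMonoidHom X Y (hcommS X hX) (hcommS Y hY) h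
      (fun h0 => h.ne (Subgroup.map_injective (MulAut.conj g).injective h0))
  have hconjpath : ∀ (g : G) (X Y : Subgroup G), Relation.ReflTransGen (Cfsg.FAdj S) X Y →
      Relation.ReflTransGen (Cfsg.FAdj S) (Cfsg.conjBy X g) (Cfsg.conjBy Y g) := by
    intro g X Y h
    induction h with
    | refl => exact Relation.ReflTransGen.refl
    | tail _ hstep ih => exact ih.tail (hfconj g _ _ hstep)
  have hcentral : ∀ X ∈ S, ∀ Y ∈ S, ¬ Cfsg.IsRankOnePair X Y →
      ∀ z ∈ ⁅X, Y⁆, ∀ x ∈ X ⊔ Y, z * x = x * z := by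
    intro X hX Y hY hnr z hz x hx
    rcases hS.pair X hX Y hY with h | h | h
    · rw [h, Subgroup.mem_bot] at hz
      rw [hz, one_mul, mul_one]
    · exact absurd h hnr
    · exact h.2.1 z hz x hx
  constructor
  · intro hc
    obtain ⟨A, hA, B, hB, hAB⟩ := h2
    refine ⟨⟨⟨A, hA⟩, ?_⟩, A, hA, ?_⟩
    · intro X hX Y hY
      have hXY := hc X hX Y hY
      have key : ∀ Z, Relation.ReflTransGen (Cfsg.FAdj S) X Z → ∃ g : G, Z = Cfsg.conjBy X g := by
        intro Z hXZ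
        induction hXZ with
        | refl => exact ⟨1, (conjBy_one8 X).symm⟩
        | tail _ hstep ih =>
          obtain ⟨g, hg⟩ := ih
          obtain ⟨hZ1, hZ2, hr⟩ := hstep
          obtain ⟨g', hg'⟩ := rankOne_conj8 _ _ (hS.ne_bot _ hZ1) hr
          refine ⟨g' * g, ?_⟩
          rw [hg', hg, conjBy_conjBy8]
      exact key Y hXY
    · rintro ⟨-, hiso⟩
      rcases Relation.ReflTransGen.cases_head (hc A hA B hB) with h | ⟨C, h, -⟩
      · exact hAB h
      · exact (hiso C).1 h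
  · rintro ⟨⟨-, hconj⟩, A₀, hA₀, hniso⟩
    obtain ⟨A₁, hadj⟩ : ∃ A₁, Cfsg.FAdj S A₀ A₁ := by
      by_contra hcon
      push Not at hcon
      exact hniso ⟨hA₀, fun B => ⟨hcon B, fun h => hcon B (hsymm _ _ h)⟩⟩
    obtain ⟨-, hA₁S, hr⟩ := hadj
    have hstep1 : ∀ E ∈ S, ∀ e ∈ E,
        Relation.ReflTransGen (Cfsg.FAdj S) A₀ (Cfsg.conjBy A₀ e) := by
      intro E hE e he
      rcases hS.pair A₀ hA₀ E hE with h | h | h
      · have h1 := h
        rw [Subgroup.commutator_eq_bot_iff_le_centralizer] at h1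
        have h3 : Cfsg.conjBy A₀ e = A₀ := by
          apply conjBy_of_comm8
          intro x hx
          have h4 := h1 hx
          rw [Subgroup.mem_centralizer_iff] at h4
          exact h4 e he
        rw [h3]
      · have h5 := hfconj e A₀ E ⟨hA₀, hE, h⟩
        rw [conjBy_mem_self8 E (hcommS E hE) e he] at h5
        exact (Relation.ReflTransGen.single ⟨hA₀, hE, h⟩).tail (hsymm _ _ h5)
      · obtain ⟨hYS, hYcent, -, -⟩ := h
        obtain ⟨x, hx, hx1⟩ := exists_ne_one_of_ne_bot8 A₀ (hS.ne_bot A₀ hA₀)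
        have hb'Y : e * x * e⁻¹ * x⁻¹ ∈ ⁅A₀, E⁆ := by
          rw [Subgroup.commutator_comm]
          have h0 := Subgroup.commutator_mem_commutator he hx
          rwa [commutatorElement_def] at h0
        have hab : x * (e * x * e⁻¹ * x⁻¹) = (e * x * e⁻¹ * x⁻¹) * x :=
          (hYcent _ hb'Y x (Subgroup.mem_sup_left hx)).symm
        have hcm : x * (e * x * e⁻¹ * x⁻¹) ∈ Cfsg.conjBy A₀ e := by
          rw [hab, inv_mul_cancel_right]
          exact ⟨x, hx, rfl⟩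
        have hCS : Cfsg.conjBy A₀ e ∈ S := hS.conj_mem A₀ hA₀ e
        by_cases hr1 : Cfsg.IsRankOnePair A₁ (Cfsg.conjBy A₀ e)
        · exact (Relation.ReflTransGen.single ⟨hA₀, hA₁S, hr⟩).tail ⟨hA₁S, hCS, hr1⟩
        · by_cases hr2 : Cfsg.IsRankOnePair A₁ ⁅A₀, E⁆
          · have hYe : Cfsg.conjBy ⁅A₀, E⁆ e = ⁅A₀, E⁆ :=
              conjBy_of_comm8 _ e
                (fun y hy => (hYcent y hy e (Subgroup.mem_sup_right he)).symm)
            have p1 : Relation.ReflTransGen (Cfsg.FAdj S) A₀ ⁅A₀, E⁆ :=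
              (Relation.ReflTransGen.single ⟨hA₀, hA₁S, hr⟩).tail ⟨hA₁S, hYS, hr2⟩
            have p2 := hconjpath e A₀ ⁅A₀, E⁆ p1
            rw [hYe] at p2
            exact p1.trans (rtg_symm8 hsymm p2)
          · exfalso
            exact rk_line_key8 A₀ A₁ ⁅A₀, E⁆ (Cfsg.conjBy A₀ e) (hcommS A₁ hA₁S) hr.ne
              hr.cond_left (hcentral A₁ hA₁S _ hYS hr2) (hcentral A₁ hA₁S _ hCS hr1)
              x (e * x * e⁻¹ * x⁻¹) hx hx1 hb'Y hab hcm
    have hgen : ∀ E ∈ S, ∀ e ∈ E, ∀ X, Relation.ReflTransGen (Cfsg.FAdj S) A₀ X →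
        Relation.ReflTransGen (Cfsg.FAdj S) A₀ (Cfsg.conjBy X e) := by
      intro E hE e he X hX
      exact (hstep1 E hE e he).trans (hconjpath e A₀ X hX)
    have hone : ∀ X, Relation.ReflTransGen (Cfsg.FAdj S) A₀ X →
        Relation.ReflTransGen (Cfsg.FAdj S) A₀ (Cfsg.conjBy X 1) := by
      intro X hX
      rw [conjBy_one8]
      exact hX
    have hmul : ∀ x y : G,
        (∀ X, Relation.ReflTransGen (Cfsg.FAdj S) A₀ X →
          Relation.ReflTransGen (Cfsg.FAdj S) A₀ (Cfsg.conjBy X x)) →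
        (∀ X, Relation.ReflTransGen (Cfsg.FAdj S) A₀ X →
          Relation.ReflTransGen (Cfsg.FAdj S) A₀ (Cfsg.conjBy X y)) →
        ∀ X, Relation.ReflTransGen (Cfsg.FAdj S) A₀ X →
          Relation.ReflTransGen (Cfsg.FAdj S) A₀ (Cfsg.conjBy X (x * y)) := by
      intro x y hx hy X hX
      rw [← conjBy_conjBy8]
      exact hx _ (hy X hX)
    have hall : ∀ g : G, ∀ X, Relation.ReflTransGen (Cfsg.FAdj S) A₀ X →
        Relation.ReflTransGen (Cfsg.FAdj S) A₀ (Cfsg.conjBy X g) := by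
      intro g
      have hg : g ∈ ⨆ A ∈ S, A := by
        rw [hS.generates]
        exact Subgroup.mem_top g
      refine Subgroup.iSup_induction (fun A : Subgroup G => ⨆ (_ : A ∈ S), A)
        (C := fun g => ∀ X, Relation.ReflTransGen (Cfsg.FAdj S) A₀ X →
          Relation.ReflTransGen (Cfsg.FAdj S) A₀ (Cfsg.conjBy X g)) hg ?_ hone hmul
      intro E e he
      refine Subgroup.iSup_induction (fun _ : E ∈ S => E)
        (C := fun g => ∀ X, Relation.ReflTransGen (Cfsg.FAdj S) A₀ X →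
          Relation.ReflTransGen (Cfsg.FAdj S) A₀ (Cfsg.conjBy X g)) he ?_ hone hmul
      intro hE e' he'
      exact hgen E hE e' he'
    intro X hX Y hY
    obtain ⟨g, hg⟩ := hconj A₀ hA₀ X hX
    obtain ⟨g', hg'⟩ := hconj A₀ hA₀ Y hY
    have pX : Relation.ReflTransGen (Cfsg.FAdj S) A₀ X := by
      rw [hg]
      exact hall g A₀ Relation.ReflTransGen.refl
    have pY : Relation.ReflTransGen (Cfsg.FAdj S) A₀ Y := by
      rw [hg']
      exact hall g' A₀ Relation.ReflTransGen.refl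
    exact (rtg_symm8 hsymm pX).trans pY

end rk8e

end Cfsg.Agent.Lib.Helper8
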