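import Mathlib
import Cfsg.Agent.Lib.Helper3.SLGen2

set_option autoImplicit false

namespace Cfsg.Agent.Lib.Helper8

open Matrix

section tv8

variable {F : Type*} [Field F] {ι : Type*} [Fintype ι] [DecidableEq ι]

/-- Product of two rank-one perturbations of the identity. -/
theorem tv_mul8 (u φ v ψ : ι → F) :
    (1 + vecMulVec u φ) * (1 + vecMulVec v ψ) =
      1 + vecMulVec u φ + vecMulVec v ψ + (φ ⬝ᵥ v) • vecMulVec u ψ := by
  rw [mul_add, mul_one, add_mul, one_mul, vecMulVec_mul_vecMulVec, vecMulVec_smul]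
  abel

theorem tv_det8 (u φ : ι → F) (h : φ ⬝ᵥ u = 0) : (1 + vecMulVec u φ).det = 1 := by
  rw [vecMulVec_eq Unit, det_one_add_replicateCol_mul_replicateRow, h, add_zero]

theorem tv_conj_mat8 (g g' : Matrix ι ι F) (hgg' : g * g' = 1) (u φ : ι → F) :
    g * (1 + vecMulVec u φ) * g' = 1 + vecMulVec (g *ᵥ u) (φ ᵥ* g') := by
  rw [mul_add, add_mul, mul_one, hgg', mul_vecMulVec, vecMulVec_mul]

/-- A matrix is a (rank one) transvection. -/
def IsTv8 (M : Matrix ι ι F) : Prop :=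
  ∃ u φ : ι → F, u ≠ 0 ∧ φ ≠ 0 ∧ φ ⬝ᵥ u = 0 ∧ M = 1 + vecMulVec u φ

theorem isTv_conj8 (g g' : Matrix ι ι F) (hgg' : g * g' = 1) (hg'g : g' * g = 1)
    (M : Matrix ι ι F) (hM : IsTv8 M) : IsTv8 (g * M * g') := by
  obtain ⟨u, φ, hu, hφ, hφu, rfl⟩ := hM
  refine ⟨g *ᵥ u, φ ᵥ* g', ?_, ?_, ?_, tv_conj_mat8 g g' hgg' u φ⟩
  · intro h
    apply hu
    have h1 : g' *ᵥ (g *ᵥ u) = u := by rw [mulVec_mulVec, hg'g, one_mulVec]
    rw [← h1, h, mulVec_zero]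
  · intro h
    apply hφ
    have h1 : (φ ᵥ* g') ᵥ* g = φ := by rw [vecMul_vecMul, hg'g, vecMul_one]
    rw [← h1, h, zero_vecMul]
  · rw [← dotProduct_mulVec, mulVec_mulVec, hg'g, one_mulVec, hφu]

theorem isTv_transvection8 {i j : ι} (hij : i ≠ j) (c : F) (hc : c ≠ 0) :
    IsTv8 (Matrix.transvection i j c) := by
  refine ⟨c • Pi.single i 1, Pi.single j 1, ?_, ?_, ?_, ?_⟩
  · intro h
    have h1 := congrFun h i
    simp at h1
    exact hc h1
  · intro h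
    have h1 := congrFun h j
    simp at h1
  · rw [single_dotProduct, one_mul, Pi.smul_apply, Pi.single_apply, if_neg hij.symm, smul_zero]
  · rw [Matrix.transvection, smul_vecMulVec, ← single_eq_single_vecMulVec_single, Matrix.smul_single,
      smul_eq_mul, mul_one]

theorem isTv_ne_one8 (M : Matrix ι ι F) (hM : IsTv8 M) : M ≠ 1 := by
  obtain ⟨u, φ, hu, hφ, -, rfl⟩ := hM
  intro h
  obtain ⟨i, hi⟩ := Function.ne_iff.mp hu
  obtain ⟨j, hj⟩ := Function.ne_iff.mp hφ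
  have h1 : vecMulVec u φ = 0 := by
    have h2 : (1 : Matrix ι ι F) + vecMulVec u φ = 1 + 0 := by rw [h, add_zero]
    exact add_left_cancel h2
  have h3 := congrFun (congrFun h1 i) j
  rw [vecMulVec_apply] at h3
  rcases mul_eq_zero.mp h3 with h4 | h4
  · exact hi h4
  · exact hj h4

theorem isTv_sq8 [CharP F 2] (M : Matrix ι ι F) (hM : IsTv8 M) : M * M = 1 := by
  obtain ⟨u, φ, -, -, hφu, rfl⟩ := hM
  rw [tv_mul8, hφu, zero_smul, add_zero, add_assoc, ← two_smul F (vecMulVec u φ),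
    CharTwo.two_eq_zero, zero_smul, add_zero]

/-- Conjugating by the transvection `1 + a ⊗ b`. -/
theorem tv_step8 (t : Matrix.SpecialLinearGroup ι F) (u φ a b : ι → F)
    (ht : (t : Matrix ι ι F) = 1 + vecMulVec u φ) (hab : b ⬝ᵥ a = 0) :
    ∃ (t' : Matrix.SpecialLinearGroup ι F) (u' φ' : ι → F), IsConj t t' ∧
      (t' : Matrix ι ι F) = 1 + vecMulVec u' φ' ∧ u' = u + (b ⬝ᵥ u) • a ∧
      φ' = φ - (φ ⬝ᵥ a) • b ∧ (φ ≠ 0 → φ' ≠ 0) ∧ φ' ⬝ᵥ u' = φ ⬝ᵥ u := by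
  have hab' : b ⬝ᵥ (-a) = 0 := by rw [dotProduct_neg, hab, neg_zero]
  obtain ⟨g, hg⟩ : ∃ g : Matrix.SpecialLinearGroup ι F, g = ⟨1 + vecMulVec a b, tv_det8 a b hab⟩ :=
    ⟨_, rfl⟩
  obtain ⟨g', hg'⟩ : ∃ g : Matrix.SpecialLinearGroup ι F,
      g = ⟨1 + vecMulVec (-a) b, tv_det8 (-a) b hab'⟩ := ⟨_, rfl⟩
  have hgc : (g : Matrix ι ι F) = 1 + vecMulVec a b := by rw [hg]
  have hgc' : (g' : Matrix ι ι F) = 1 + vecMulVec (-a) b := by rw [hg']
  have hmul : (g : Matrix ι ι F) * (g' : Matrix ι ι F) = 1 := by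
    rw [hgc, hgc', tv_mul8, dotProduct_neg, hab, neg_zero, zero_smul, add_zero, neg_vecMulVec,
      add_neg_cancel_right]
  have hinv : g⁻¹ = g' := by
    apply inv_eq_of_mul_eq_one_right
    apply Subtype.ext
    rw [Matrix.SpecialLinearGroup.coe_mul, hmul, Matrix.SpecialLinearGroup.coe_one]
  refine ⟨g * t * g⁻¹, u + (b ⬝ᵥ u) • a, φ - (φ ⬝ᵥ a) • b, isConj_iff.mpr ⟨g, rfl⟩, ?_, rfl, rfl,
    ?_, ?_⟩
  · rw [hinv, Matrix.SpecialLinearGroup.coe_mul, Matrix.SpecialLinearGroup.coe_mul, ht, tv_conj_mat8 _ _ hmul,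
      hgc, hgc', add_mulVec, one_mulVec, vecMulVec_mulVec, vecMul_add, vecMul_one,
      vecMul_vecMulVec, op_smul_eq_smul, dotProduct_neg, neg_smul, ← sub_eq_add_neg]
  · intro hφ h
    apply hφ
    have h1 : φ = (φ ⬝ᵥ a) • b := sub_eq_zero.mp h
    have h2 : φ ⬝ᵥ a = 0 := by
      have h3 : φ ⬝ᵥ a = ((φ ⬝ᵥ a) • b) ⬝ᵥ a := by rw [← h1]
      rw [smul_dotProduct, hab, smul_zero] at h3
      exact h3
    rw [h1, h2, zero_smul]
  · rw [sub_dotProduct, dotProduct_add, dotProduct_add, smul_dotProduct, smul_dotProduct,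
      dotProduct_smul, dotProduct_smul, hab]
    simp only [smul_eq_mul]
    ring

end tv8

end Cfsg.Agent.Lib.Helper8
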