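import Mathlib
import Cfsg.Agent.Lib.Helper8.TV1

set_option autoImplicit false

namespace Cfsg.Agent.Lib.Helper8

open Matrix

section tv8b

variable {F : Type*} [Field F] {ι : Type*} [Fintype ι] [DecidableEq ι]

/-- Every transvection is conjugate to an elementary one. -/
theorem tv_reduce8 {i0 i1 : ι} (h01 : i0 ≠ i1) (t : Matrix.SpecialLinearGroup ι F) (u φ : ι → F)
    (ht : (t : Matrix ι ι F) = 1 + vecMulVec u φ) (hu : u ≠ 0) (hφ : φ ≠ 0) (hφu : φ ⬝ᵥ u = 0) :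
    ∃ c : F, c ≠ 0 ∧ IsConj t (Matrix.SpecialLinearGroup.transvection h01 c) := by
  -- step (a)
  obtain ⟨t1, u1, φ1, hc1, ht1, hu1, hφ1, hφu1⟩ : ∃ (t1 : Matrix.SpecialLinearGroup ι F)
      (u1 φ1 : ι → F), IsConj t t1 ∧ (t1 : Matrix ι ι F) = 1 + vecMulVec u1 φ1 ∧ u1 i0 ≠ 0 ∧
        φ1 ≠ 0 ∧ φ1 ⬝ᵥ u1 = 0 := by
    by_cases h0 : u i0 = 0
    · obtain ⟨i, hi⟩ := Function.ne_iff.mp hu
      have hi' : u i ≠ 0 := hi
      have hii0 : i ≠ i0 := fun h => hi' (h ▸ h0)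
      have hab : (Pi.single i (1 : F) : ι → F) ⬝ᵥ (Pi.single i0 (1 : F) : ι → F) = 0 := by
        rw [single_dotProduct, one_mul, Pi.single_apply, if_neg hii0]
      obtain ⟨t', u', φ', hc, ht', hu', hφ', hne, hdot⟩ := tv_step8 t u φ _ _ ht hab
      refine ⟨t', u', φ', hc, ht', ?_, hne hφ, by rw [hdot, hφu]⟩
      rw [hu', Pi.add_apply, Pi.smul_apply, single_dotProduct, one_mul, Pi.single_eq_same,
        smul_eq_mul, mul_one, h0, zero_add]
      exact hi'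
    · exact ⟨t, u, φ, IsConj.refl t, ht, h0, hφ, hφu⟩
  -- step (b)
  obtain ⟨t2, φ2, c, hc2, ht2, hc0, hφ2, hφ2i0⟩ : ∃ (t2 : Matrix.SpecialLinearGroup ι F)
      (φ2 : ι → F) (c : F), IsConj t t2 ∧
        (t2 : Matrix ι ι F) = 1 + vecMulVec (c • Pi.single i0 (1 : F)) φ2 ∧ c ≠ 0 ∧ φ2 ≠ 0 ∧
        φ2 i0 = 0 := by
    have hab : (Pi.single i0 (1 : F) : ι → F) ⬝ᵥ (Pi.single i0 (1 : F) - (u1 i0)⁻¹ • u1) = 0 := by
      rw [single_dotProduct, one_mul, Pi.sub_apply, Pi.smul_apply, Pi.single_eq_same, smul_eq_mul,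
        inv_mul_cancel₀ hu1, sub_self]
    obtain ⟨t', u', φ', hc, ht', hu', hφ', hne, hdot⟩ := tv_step8 t1 u1 φ1 _ _ ht1 hab
    have hu'' : u' = (u1 i0) • Pi.single i0 (1 : F) := by
      rw [hu', single_dotProduct, one_mul, smul_sub, smul_smul, mul_inv_cancel₀ hu1, one_smul,
        add_sub_cancel]
    refine ⟨t', φ', u1 i0, hc1.trans hc, by rw [ht', hu''], hu1, hne hφ1, ?_⟩
    have h1 : φ' ⬝ᵥ u' = 0 := by rw [hdot, hφu1]
    rw [hu'', dotProduct_smul, dotProduct_single, mul_one, smul_eq_mul] at h1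
    rcases mul_eq_zero.mp h1 with h2 | h2
    · exact absurd h2 hu1
    · exact h2
  -- step (c)
  obtain ⟨t3, φ3, hc3, ht3, hφ3i0, hφ3i1⟩ : ∃ (t3 : Matrix.SpecialLinearGroup ι F) (φ3 : ι → F),
      IsConj t t3 ∧ (t3 : Matrix ι ι F) = 1 + vecMulVec (c • Pi.single i0 (1 : F)) φ3 ∧
        φ3 i0 = 0 ∧ φ3 i1 ≠ 0 := by
    by_cases h1 : φ2 i1 = 0
    · obtain ⟨j, hj⟩ := Function.ne_iff.mp hφ2
      have hj' : φ2 j ≠ 0 := hj
      have hji0 : j ≠ i0 := fun h => hj' (h ▸ hφ2i0)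
      have hji1 : j ≠ i1 := fun h => hj' (h ▸ h1)
      have hab : (-(Pi.single i1 (1 : F)) : ι → F) ⬝ᵥ (Pi.single j (1 : F) : ι → F) = 0 := by
        rw [neg_dotProduct, single_dotProduct, one_mul, Pi.single_apply, if_neg hji1.symm, neg_zero]
      obtain ⟨t', u', φ', hc, ht', hu', hφ', hne, hdot⟩ := tv_step8 t2 _ φ2 _ _ ht2 hab
      have hu'' : u' = c • Pi.single i0 (1 : F) := by
        rw [hu', neg_dotProduct, single_dotProduct, one_mul, Pi.smul_apply, Pi.single_apply,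
          if_neg h01.symm, smul_zero, neg_zero, zero_smul, add_zero]
      refine ⟨t', φ', hc2.trans hc, by rw [ht', hu''], ?_, ?_⟩
      · rw [hφ', Pi.sub_apply, Pi.smul_apply, Pi.neg_apply, Pi.single_apply, if_neg h01, hφ2i0,
          neg_zero, smul_zero, sub_zero]
      · rw [hφ', Pi.sub_apply, Pi.smul_apply, Pi.neg_apply, Pi.single_eq_same, h1,
          dotProduct_single, mul_one, smul_eq_mul, zero_sub, mul_neg, mul_one, neg_neg]
        exact hj'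
    · exact ⟨t2, φ2, hc2, ht2, hφ2i0, h1⟩
  -- step (d)
  have hab : ((φ3 i1)⁻¹ • φ3 - Pi.single i1 (1 : F) : ι → F) ⬝ᵥ (Pi.single i1 (1 : F) : ι → F)
      = 0 := by
    rw [dotProduct_single, mul_one, Pi.sub_apply, Pi.smul_apply, Pi.single_eq_same, smul_eq_mul,
      inv_mul_cancel₀ hφ3i1, sub_self]
  obtain ⟨t', u', φ', hc, ht', hu', hφ', hne, hdot⟩ := tv_step8 t3 _ φ3 _ _ ht3 hab
  have hu'' : u' = c • Pi.single i0 (1 : F) := by
    have h1 : ((φ3 i1)⁻¹ • φ3 - Pi.single i1 (1 : F) : ι → F) ⬝ᵥ (c • Pi.single i0 (1 : F)) = 0 := by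
      rw [dotProduct_smul, dotProduct_single, mul_one, Pi.sub_apply, Pi.smul_apply, hφ3i0,
        Pi.single_apply, if_neg h01, smul_zero, sub_zero, smul_zero]
    rw [hu', h1, zero_smul, add_zero]
  have hφ'' : φ' = (φ3 i1) • Pi.single i1 (1 : F) := by
    rw [hφ', dotProduct_single, mul_one, smul_sub, smul_smul, mul_inv_cancel₀ hφ3i1, one_smul,
      sub_sub_cancel]
  have hfin : t' = Matrix.SpecialLinearGroup.transvection h01 (c * φ3 i1) := by
    apply Subtype.ext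
    rw [ht', hu'', hφ'', Matrix.SpecialLinearGroup.transvection_coe, smul_vecMulVec,
      vecMulVec_smul, smul_smul, ← single_eq_single_vecMulVec_single, Matrix.smul_single,
      smul_eq_mul, mul_one]
  exact ⟨c * φ3 i1, mul_ne_zero hc0 hφ3i1, hfin ▸ hc3.trans hc⟩

theorem tv_diag_conj8 {i0 i1 i2 : ι} (h01 : i0 ≠ i1) (h02 : i0 ≠ i2) (h12 : i1 ≠ i2) (c c' : F)
    (hc : c ≠ 0) (hc' : c' ≠ 0) :
    IsConj (Matrix.SpecialLinearGroup.transvection h01 c : Matrix.SpecialLinearGroup ι F)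
      (Matrix.SpecialLinearGroup.transvection h01 c') := by
  have hl : c' / c ≠ 0 := div_ne_zero hc' hc
  have h := Cfsg.Agent.Lib.Helper3.slg_diag_trans_sl
    (Matrix.SpecialLinearGroup.diag2n h02 (c' / c) hl)
    (fun k => if k = i0 then c' / c else if k = i2 then (c' / c)⁻¹ else 1)
    (Matrix.SpecialLinearGroup.diag2n_coe h02 (c' / c) hl) h01 c c'
    (by beta_reduce; rw [if_pos rfl, if_neg h01.symm, if_neg h12, mul_one, div_mul_cancel₀ c' hc])
  rw [isConj_iff]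
  exact ⟨_, by rw [h, mul_inv_cancel_right]⟩

theorem tv_rels8 (u φ v ψ : ι → F) (hφu : φ ⬝ᵥ u = 0) (hψv : ψ ⬝ᵥ v = 0) :
    ∃ X Y : Matrix ι ι F,
      X = vecMulVec u φ + vecMulVec v ψ + (φ ⬝ᵥ v) • vecMulVec u ψ ∧
      Y = (φ ⬝ᵥ v) • vecMulVec u ψ + (ψ ⬝ᵥ u) • vecMulVec v φ ∧
      X * X = ((φ ⬝ᵥ v) * (ψ ⬝ᵥ u)) • X + Y ∧ Y * Y = ((φ ⬝ᵥ v) * (ψ ⬝ᵥ u)) • Y ∧
      X * Y = ((φ ⬝ᵥ v) * (ψ ⬝ᵥ u)) • X ∧ Y * X = ((φ ⬝ᵥ v) * (ψ ⬝ᵥ u)) • X := by
  have key : ∀ (x f y g : ι → F), vecMulVec x f * vecMulVec y g = (f ⬝ᵥ y) • vecMulVec x g :=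
    fun x f y g => by rw [vecMulVec_mul_vecMulVec, vecMulVec_smul]
  obtain ⟨α, hα⟩ : ∃ α, α = φ ⬝ᵥ v := ⟨_, rfl⟩
  obtain ⟨β, hβ⟩ : ∃ β, β = ψ ⬝ᵥ u := ⟨_, rfl⟩
  obtain ⟨P, hP⟩ : ∃ P, P = vecMulVec u φ := ⟨_, rfl⟩
  obtain ⟨Q, hQ⟩ : ∃ Q, Q = vecMulVec v ψ := ⟨_, rfl⟩
  obtain ⟨R, hR⟩ : ∃ R, R = vecMulVec u ψ := ⟨_, rfl⟩
  obtain ⟨S, hS⟩ : ∃ S, S = vecMulVec v φ := ⟨_, rfl⟩
  have hPP : P * P = 0 := by rw [hP, key, hφu, zero_smul]
  have hPQ : P * Q = α • R := by rw [hP, hQ, key, ← hα, ← hR]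
  have hPR : P * R = 0 := by rw [hP, hR, key, hφu, zero_smul]
  have hPS : P * S = α • P := by rw [hP, hS, key, ← hα]
  have hQP : Q * P = β • S := by rw [hP, hQ, key, ← hβ, ← hS]
  have hQQ : Q * Q = 0 := by rw [hQ, key, hψv, zero_smul]
  have hQR : Q * R = β • Q := by rw [hQ, hR, key, ← hβ]
  have hQS : Q * S = 0 := by rw [hQ, hS, key, hψv, zero_smul]
  have hRP : R * P = β • P := by rw [hP, hR, key, ← hβ]
  have hRQ : R * Q = 0 := by rw [hQ, hR, key, hψv, zero_smul]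
  have hRR : R * R = β • R := by rw [hR, key, ← hβ]
  have hRS : R * S = 0 := by rw [hR, hS, key, hψv, zero_smul]
  have hSP : S * P = 0 := by rw [hP, hS, key, hφu, zero_smul]
  have hSQ : S * Q = α • Q := by rw [hQ, hS, key, ← hα]
  have hSR : S * R = 0 := by rw [hR, hS, key, hφu, zero_smul]
  have hSS : S * S = α • S := by rw [hS, key, ← hα]
  rw [← hα, ← hβ, ← hP, ← hQ, ← hR, ← hS]
  refine ⟨P + Q + α • R, α • R + β • S, rfl, rfl, ?_, ?_, ?_, ?_⟩
  · simp only [add_mul, mul_add, smul_mul_assoc, mul_smul_comm, hPP, hPQ, hPR, hPS, hQP, hQQ, hQR,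
      hQS, hRP, hRQ, hRR, hRS, hSP, hSQ, hSR, hSS, smul_zero, zero_add, add_zero]
    module
  · simp only [add_mul, mul_add, smul_mul_assoc, mul_smul_comm, hPP, hPQ, hPR, hPS, hQP, hQQ, hQR,
      hQS, hRP, hRQ, hRR, hRS, hSP, hSQ, hSR, hSS, smul_zero, zero_add, add_zero]
    module
  · simp only [add_mul, mul_add, smul_mul_assoc, mul_smul_comm, hPP, hPQ, hPR, hPS, hQP, hQQ, hQR,
      hQS, hRP, hRQ, hRR, hRS, hSP, hSQ, hSR, hSS, smul_zero, zero_add, add_zero]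
    module
  · simp only [add_mul, mul_add, smul_mul_assoc, mul_smul_comm, hPP, hPQ, hPR, hPS, hQP, hQQ, hQR,
      hQS, hRP, hRQ, hRR, hRS, hSP, hSQ, hSR, hSS, smul_zero, zero_add, add_zero]
    module

theorem quad_pow8 [CharP F 2] (X Y : Matrix ι ι F) (t : F)
    (hXX : X * X = t • X + Y) (hYY : Y * Y = t • Y) (hXY : X * Y = t • X) (hYX : Y * X = t • X)
    (k : ℕ) : ∃ c b : F, X ^ (2 ^ k) = c • X + b • Y ∧ c * t = t ^ (2 ^ k) := by
  induction k with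
  | zero =>
    exact ⟨1, 0, by rw [pow_zero, pow_one, one_smul, zero_smul, add_zero],
      by rw [pow_zero, pow_one, one_mul]⟩
  | succ k ih =>
    obtain ⟨c, b, h1, h2⟩ := ih
    refine ⟨c * c * t, c * c + b * b * t, ?_, ?_⟩
    · have h3 : (c • X + b • Y) * (c • X + b • Y) =
          (c * c) • (X * X) + (c * b) • (X * Y) + (b * c) • (Y * X) + (b * b) • (Y * Y) := by
        simp only [add_mul, mul_add, smul_mul_assoc, mul_smul_comm, smul_smul]
        module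
      have h4 : c * b * t + c * b * t = 0 := CharTwo.add_self_eq_zero _
      rw [pow_succ, pow_mul, h1, pow_two, h3, hXX, hXY, hYX, hYY]
      have h5 : (c * c) • (t • X + Y) + (c * b) • t • X + (b * c) • t • X + (b * b) • t • Y =
          (c * c * t) • X + (c * c + b * b * t) • Y + (c * b * t + c * b * t) • X := by
        module
      rw [h5, h4, zero_smul, add_zero]
    · rw [pow_succ, pow_mul, ← h2]
      ring

theorem quad_powY8 (Y : Matrix ι ι F) (t : F) (hYY : Y * Y = t • Y) (k : ℕ) :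
    ∃ c : F, Y ^ (2 ^ k) = c • Y ∧ c * t = t ^ (2 ^ k) := by
  induction k with
  | zero => exact ⟨1, by rw [pow_zero, pow_one, one_smul], by rw [pow_zero, pow_one, one_mul]⟩
  | succ k ih =>
    obtain ⟨c, h1, h2⟩ := ih
    refine ⟨c * c * t, ?_, ?_⟩
    · have h3 : (c • Y) * (c • Y) = (c * c) • (Y * Y) := by
        rw [smul_mul_assoc, mul_smul_comm, smul_smul]
      rw [pow_succ, pow_mul, h1, pow_two, h3, hYY, smul_smul]
    · rw [pow_succ, pow_mul, ← h2]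
      ring

theorem quad_frob8 [Nonempty ι] [Fintype F] [CharP F 2] (X Y : Matrix ι ι F) (t : F) (ht : t ≠ 0)
    (hXX : X * X = t • X + Y) (hYY : Y * Y = t • Y) (hXY : X * Y = t • X) (hYX : Y * X = t • X) :
    (1 + X) ^ (Fintype.card F * Fintype.card F) = 1 + X := by
  obtain ⟨f, -, hq⟩ := FiniteField.card F 2
  obtain ⟨c, b, h1, h2⟩ := quad_pow8 X Y t hXX hYY hXY hYX f
  obtain ⟨c', h1', h2'⟩ := quad_powY8 Y t hYY f
  have htq : t ^ (2 ^ (f : ℕ)) = t := by rw [← hq]; exact FiniteField.pow_card t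
  have hc : c = 1 := by
    rw [htq] at h2
    exact mul_right_cancel₀ ht (by rw [h2, one_mul])
  have hc' : c' = 1 := by
    rw [htq] at h2'
    exact mul_right_cancel₀ ht (by rw [h2', one_mul])
  rw [hc, one_smul] at h1
  rw [hc', one_smul] at h1'
  have hbq : b ^ (2 ^ (f : ℕ)) = b := by rw [← hq]; exact FiniteField.pow_card b
  have hcomm : Commute X Y := by rw [Commute, SemiconjBy, hXY, hYX]
  have hA : (1 + X) ^ (2 ^ (f : ℕ)) = 1 + X + b • Y := by
    rw [add_pow_char_pow_of_commute 2 f (Commute.one_left X), one_pow, h1, add_assoc]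
  have hcomm2 : Commute (1 + X) (b • Y) :=
    (Commute.add_left (Commute.one_left _) hcomm).smul_right b
  have hB : (1 + X + b • Y) ^ (2 ^ (f : ℕ)) = 1 + X := by
    rw [add_pow_char_pow_of_commute 2 f hcomm2, hA, smul_pow, h1', hbq, add_assoc,
      ← two_smul F (b • Y), CharTwo.two_eq_zero, zero_smul, add_zero]
  rw [hq, pow_mul, hA, hB]

theorem tv_pair8 [Nonempty ι] [Fintype F] [CharP F 2] (a b : Matrix.SpecialLinearGroup ι F)
    (ha : IsTv8 (a : Matrix ι ι F)) (hb : IsTv8 (b : Matrix ι ι F)) :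
    a * b = b * a ∨ (a * b) ^ (Fintype.card F * Fintype.card F - 1) = 1 ∨
      (orderOf (a * b) = 4 ∧
        IsTv8 (((a * b) ^ 2 : Matrix.SpecialLinearGroup ι F) : Matrix ι ι F)) := by
  obtain ⟨u, φ, hu, hφ, hφu, hau⟩ := ha
  obtain ⟨v, ψ, hv, hψ, hψv, hbv⟩ := hb
  obtain ⟨X, Y, hX, hY, hXX, hYY, hXY, hYX⟩ := tv_rels8 u φ v ψ hφu hψv
  have hab : ((a * b : Matrix.SpecialLinearGroup ι F) : Matrix ι ι F) = 1 + X := by
    rw [Matrix.SpecialLinearGroup.coe_mul, hau, hbv, tv_mul8, hX, add_assoc, add_assoc, add_assoc]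
  have key4 : (φ ⬝ᵥ v) * (ψ ⬝ᵥ u) = 0 → IsTv8 (1 + Y) → orderOf (a * b) = 4 ∧
      IsTv8 (((a * b) ^ 2 : Matrix.SpecialLinearGroup ι F) : Matrix ι ι F) := by
    intro ht0 hTv
    have hXXz : X + X = 0 := by
      rw [← two_smul F X, CharTwo.two_eq_zero, zero_smul]
    have hsq : (((a * b) ^ 2 : Matrix.SpecialLinearGroup ι F) : Matrix ι ι F) = 1 + Y := by
      rw [Matrix.SpecialLinearGroup.coe_pow, hab, pow_two, mul_add, mul_one, add_mul, one_mul, hXX,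
        ht0, zero_smul, zero_add, add_assoc, ← add_assoc X X Y, hXXz, zero_add]
    have hTv' : IsTv8 (((a * b) ^ 2 : Matrix.SpecialLinearGroup ι F) : Matrix ι ι F) := by
      rw [hsq]; exact hTv
    have hne : (a * b) ^ 2 ≠ 1 := fun h =>
      isTv_ne_one8 _ hTv' (by rw [h, Matrix.SpecialLinearGroup.coe_one])
    have h4 : (a * b) ^ 4 = 1 := by
      have h5 : (a * b) ^ 4 = (a * b) ^ 2 * (a * b) ^ 2 := by rw [← pow_add]
      rw [h5]
      apply Subtype.ext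
      rw [Matrix.SpecialLinearGroup.coe_mul, isTv_sq8 _ hTv', Matrix.SpecialLinearGroup.coe_one]
    have h6 := orderOf_eq_prime_pow (p := 2) (n := 1) (x := a * b) (by simpa using hne)
      (by simpa using h4)
    exact ⟨by simpa using h6, hTv'⟩
  by_cases hα : φ ⬝ᵥ v = 0
  · by_cases hβ : ψ ⬝ᵥ u = 0
    · left
      apply Subtype.ext
      rw [Matrix.SpecialLinearGroup.coe_mul, Matrix.SpecialLinearGroup.coe_mul, hau, hbv, tv_mul8,
        tv_mul8, hα, hβ, zero_smul, zero_smul, add_zero, add_zero, add_assoc, add_assoc,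
        add_comm (vecMulVec u φ)]
    · right; right
      refine key4 (by rw [hα, zero_mul]) ⟨(ψ ⬝ᵥ u) • v, φ, smul_ne_zero hβ hv, hφ, ?_, ?_⟩
      · rw [dotProduct_smul, hα, smul_zero]
      · rw [hY, hα, zero_smul, zero_add, smul_vecMulVec]
  · by_cases hβ : ψ ⬝ᵥ u = 0
    · right; right
      refine key4 (by rw [hβ, mul_zero]) ⟨(φ ⬝ᵥ v) • u, ψ, smul_ne_zero hα hu, hψ, ?_, ?_⟩
      · rw [dotProduct_smul, hβ, smul_zero]
      · rw [hY, hβ, zero_smul, add_zero, smul_vecMulVec]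
    · right; left
      have h1 := quad_frob8 X Y _ (mul_ne_zero hα hβ) hXX hYY hXY hYX
      have hpow : (a * b) ^ (Fintype.card F * Fintype.card F) = a * b := by
        apply Subtype.ext
        rw [Matrix.SpecialLinearGroup.coe_pow, hab, h1]
      have hpos : 0 < Fintype.card F * Fintype.card F :=
        Nat.mul_pos Fintype.card_pos Fintype.card_pos
      have h2 : (a * b) ^ (Fintype.card F * Fintype.card F - 1) * (a * b) = 1 * (a * b) := by
        rw [← pow_succ, Nat.sub_add_cancel hpos, one_mul, hpow]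
      exact mul_right_cancel h2

end tv8b

end Cfsg.Agent.Lib.Helper8
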