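import Mathlib
import Cfsg.Prelude.Def_RootSubgroups
import Cfsg.Agent.Lib.Helper8.TV2

set_option autoImplicit false

namespace Cfsg.Agent.Lib.Helper8

open Matrix

section rt8

variable {k : Type*} [Field k] {ι : Type*} [Fintype ι] [DecidableEq ι]

/-- `N` is a nonzero nilpotent matrix of rank one. -/
def IsRk8 (N : Matrix ι ι k) : Prop :=
  ∃ u φ : ι → k, u ≠ 0 ∧ φ ≠ 0 ∧ φ ⬝ᵥ u = 0 ∧ N = vecMulVec u φ

theorem isRk_sq8 (N : Matrix ι ι k) (h : IsRk8 N) : N * N = 0 := by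
  obtain ⟨u, φ, -, -, hφu, rfl⟩ := h
  rw [vecMulVec_mul_vecMulVec, hφu, zero_smul]
  ext i j
  simp [vecMulVec_apply]

theorem isRk_ne_zero8 (N : Matrix ι ι k) (h : IsRk8 N) : N ≠ 0 := by
  obtain ⟨u, φ, hu, hφ, -, rfl⟩ := h
  intro h1
  obtain ⟨i, hi⟩ := Function.ne_iff.mp hu
  obtain ⟨j, hj⟩ := Function.ne_iff.mp hφ
  have h3 := congrFun (congrFun h1 i) j
  rw [vecMulVec_apply] at h3
  rcases mul_eq_zero.mp h3 with h4 | h4
  · exact hi h4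
  · exact hj h4

theorem isRk_smul8 (N : Matrix ι ι k) (h : IsRk8 N) (a : k) (ha : a ≠ 0) : IsRk8 (a • N) := by
  obtain ⟨u, φ, hu, hφ, hφu, rfl⟩ := h
  exact ⟨a • u, φ, smul_ne_zero ha hu, hφ, by rw [dotProduct_smul, hφu, smul_zero],
    (smul_vecMulVec a u φ).symm⟩

theorem isRk_conj8 (g g' : Matrix ι ι k) (hgg' : g * g' = 1) (hg'g : g' * g = 1)
    (N : Matrix ι ι k) (h : IsRk8 N) : IsRk8 (g * N * g') := by
  obtain ⟨u, φ, hu, hφ, hφu, rfl⟩ := h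
  refine ⟨g *ᵥ u, φ ᵥ* g', ?_, ?_, ?_, by rw [mul_vecMulVec, vecMulVec_mul]⟩
  · intro h
    apply hu
    have h1 : g' *ᵥ (g *ᵥ u) = u := by rw [mulVec_mulVec, hg'g, one_mulVec]
    rw [← h1, h, mulVec_zero]
  · intro h
    apply hφ
    have h1 : (φ ᵥ* g') ᵥ* g = φ := by rw [vecMul_vecMul, hg'g, vecMul_one]
    rw [← h1, h, zero_vecMul]
  · rw [← dotProduct_mulVec, mulVec_mulVec, hg'g, one_mulVec, hφu]

theorem rt_det8 (N : Matrix ι ι k) (hN : IsRk8 N) (c : k) : (1 + c • N).det = 1 := by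
  obtain ⟨u, φ, -, -, h, rfl⟩ := hN
  rw [← smul_vecMulVec]
  exact tv_det8 (c • u) φ (by rw [dotProduct_smul, h, smul_zero])

/-- The element `1 + c N`. -/
def rtg8 (N : Matrix ι ι k) (hN : IsRk8 N) (c : k) : Matrix.SpecialLinearGroup ι k :=
  ⟨1 + c • N, rt_det8 N hN c⟩

theorem rtg_coe8 (N : Matrix ι ι k) (hN : IsRk8 N) (c : k) :
    ((rtg8 N hN c : Matrix.SpecialLinearGroup ι k) : Matrix ι ι k) = 1 + c • N := rfl

theorem rtg_mul8 (N : Matrix ι ι k) (hN : IsRk8 N) (c c' : k) :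
    rtg8 N hN c * rtg8 N hN c' = rtg8 N hN (c + c') := by
  apply Subtype.ext
  show (1 + c • N) * (1 + c' • N) = 1 + (c + c') • N
  rw [mul_add, mul_one, add_mul, one_mul, smul_mul_assoc, mul_smul_comm, isRk_sq8 N hN, smul_zero,
    smul_zero, add_zero, add_smul, add_assoc]

theorem rtg_zero8 (N : Matrix ι ι k) (hN : IsRk8 N) : rtg8 N hN 0 = 1 := by
  apply Subtype.ext
  show (1 + (0 : k) • N) = 1
  rw [zero_smul, add_zero]

theorem rtg_inv8 (N : Matrix ι ι k) (hN : IsRk8 N) (c : k) :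
    (rtg8 N hN c)⁻¹ = rtg8 N hN (-c) := by
  apply inv_eq_of_mul_eq_one_right
  rw [rtg_mul8, add_neg_cancel, rtg_zero8]

theorem rtg_inj8 (N : Matrix ι ι k) (hN : IsRk8 N) (c c' : k)
    (h : rtg8 N hN c = rtg8 N hN c') : c = c' := by
  have h1 : (1 : Matrix ι ι k) + c • N = 1 + c' • N := congrArg Subtype.val h
  have h2 : c • N = c' • N := add_left_cancel h1
  have h3 : (c - c') • N = 0 := by rw [sub_smul, h2, sub_self]
  rcases smul_eq_zero.mp h3 with h4 | h4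
  · exact sub_eq_zero.mp h4
  · exact absurd h4 (isRk_ne_zero8 N hN)

theorem rtg_ne_one8 (N : Matrix ι ι k) (hN : IsRk8 N) (c : k) (hc : c ≠ 0) :
    rtg8 N hN c ≠ 1 := by
  intro h
  rw [← rtg_zero8 N hN] at h
  exact hc (rtg_inj8 N hN c 0 h)

/-- The generating set of the root group attached to `N`. -/
def rtS8 (N : Matrix ι ι k) : Set (Matrix.SpecialLinearGroup ι k) :=
  {t | ∃ c : k, (t : Matrix ι ι k) = 1 + c • N}

/-- The root group attached to `N`. -/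
def rtG8 (N : Matrix ι ι k) : Subgroup (Matrix.SpecialLinearGroup ι k) :=
  Subgroup.closure (rtS8 N)

theorem mem_rtG8 (N : Matrix ι ι k) (hN : IsRk8 N) (t : Matrix.SpecialLinearGroup ι k) :
    t ∈ rtG8 N ↔ ∃ c : k, t = rtg8 N hN c := by
  constructor
  · intro ht
    have ht' : t ∈ Subgroup.closure (rtS8 N) := ht
    refine Subgroup.closure_induction
      (p := fun (t : Matrix.SpecialLinearGroup ι k) _ => ∃ c : k, t = rtg8 N hN c)
      ?_ ?_ ?_ ?_ ht'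
    · rintro x ⟨c, hc⟩
      exact ⟨c, Subtype.ext hc⟩
    · exact ⟨0, (rtg_zero8 N hN).symm⟩
    · rintro x y _ _ ⟨c, rfl⟩ ⟨c', rfl⟩
      exact ⟨c + c', rtg_mul8 N hN c c'⟩
    · rintro x _ ⟨c, rfl⟩
      exact ⟨-c, rtg_inv8 N hN c⟩
  · rintro ⟨c, rfl⟩
    exact Subgroup.subset_closure ⟨c, rfl⟩

theorem rtg_mem8 (N : Matrix ι ι k) (hN : IsRk8 N) (c : k) : rtg8 N hN c ∈ rtG8 N :=
  (mem_rtG8 N hN _).mpr ⟨c, rfl⟩

theorem rtG_smul8 (N : Matrix ι ι k) (hN : IsRk8 N) (a : k) (ha : a ≠ 0) :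
    rtG8 (a • N) = rtG8 N := by
  ext t
  rw [mem_rtG8 (a • N) (isRk_smul8 N hN a ha), mem_rtG8 N hN]
  constructor
  · rintro ⟨c, rfl⟩
    refine ⟨c * a, Subtype.ext ?_⟩
    show (1 : Matrix ι ι k) + c • a • N = 1 + (c * a) • N
    rw [smul_smul]
  · rintro ⟨c, rfl⟩
    refine ⟨c / a, Subtype.ext ?_⟩
    show (1 : Matrix ι ι k) + c • N = 1 + (c / a) • a • N
    rw [smul_smul, div_mul_cancel₀ c ha]

theorem sl_mul_inv_coe8 (g : Matrix.SpecialLinearGroup ι k) :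
    (g : Matrix ι ι k) * ((g⁻¹ : Matrix.SpecialLinearGroup ι k) : Matrix ι ι k) = 1 := by
  rw [← Matrix.SpecialLinearGroup.coe_mul, mul_inv_cancel, Matrix.SpecialLinearGroup.coe_one]

theorem sl_inv_mul_coe8 (g : Matrix.SpecialLinearGroup ι k) :
    ((g⁻¹ : Matrix.SpecialLinearGroup ι k) : Matrix ι ι k) * (g : Matrix ι ι k) = 1 := by
  rw [← Matrix.SpecialLinearGroup.coe_mul, inv_mul_cancel, Matrix.SpecialLinearGroup.coe_one]

theorem isRk_conj_sl8 (N : Matrix ι ι k) (hN : IsRk8 N) (g : Matrix.SpecialLinearGroup ι k) :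
    IsRk8 ((g : Matrix ι ι k) * N * ((g⁻¹ : Matrix.SpecialLinearGroup ι k) : Matrix ι ι k)) :=
  isRk_conj8 _ _ (sl_mul_inv_coe8 g) (sl_inv_mul_coe8 g) N hN

theorem rtg_conj8 (N : Matrix ι ι k) (hN : IsRk8 N) (g : Matrix.SpecialLinearGroup ι k) (c : k) :
    g * rtg8 N hN c * g⁻¹ = rtg8 _ (isRk_conj_sl8 N hN g) c := by
  apply Subtype.ext
  show ((g * rtg8 N hN c * g⁻¹ : Matrix.SpecialLinearGroup ι k) : Matrix ι ι k) =
    1 + c • ((g : Matrix ι ι k) * N * ((g⁻¹ : Matrix.SpecialLinearGroup ι k) : Matrix ι ι k))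
  rw [Matrix.SpecialLinearGroup.coe_mul, Matrix.SpecialLinearGroup.coe_mul, rtg_coe8, mul_add,
    add_mul, mul_one, sl_mul_inv_coe8, mul_smul_comm, smul_mul_assoc]

theorem rtG_conj8 (N : Matrix ι ι k) (hN : IsRk8 N) (g : Matrix.SpecialLinearGroup ι k) :
    Cfsg.conjBy (rtG8 N) g =
      rtG8 ((g : Matrix ι ι k) * N * ((g⁻¹ : Matrix.SpecialLinearGroup ι k) : Matrix ι ι k)) := by
  ext t
  rw [Subgroup.mem_map, mem_rtG8 _ (isRk_conj_sl8 N hN g)]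
  constructor
  · rintro ⟨x, hx, rfl⟩
    obtain ⟨c, rfl⟩ := (mem_rtG8 N hN x).mp hx
    exact ⟨c, rtg_conj8 N hN g c⟩
  · rintro ⟨c, rfl⟩
    refine ⟨rtg8 N hN c, rtg_mem8 N hN c, ?_⟩
    exact rtg_conj8 N hN g c

theorem rtG_comm8 (N : Matrix ι ι k) (hN : IsRk8 N) (a b : Matrix.SpecialLinearGroup ι k)
    (ha : a ∈ rtG8 N) (hb : b ∈ rtG8 N) : a * b = b * a := by
  obtain ⟨c, rfl⟩ := (mem_rtG8 N hN a).mp ha
  obtain ⟨c', rfl⟩ := (mem_rtG8 N hN b).mp hb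
  rw [rtg_mul8, rtg_mul8, add_comm]

theorem rtG_ne_bot8 (N : Matrix ι ι k) (hN : IsRk8 N) : rtG8 N ≠ ⊥ := by
  intro h
  have h1 : rtg8 N hN 1 ∈ rtG8 N := rtg_mem8 N hN 1
  rw [h, Subgroup.mem_bot] at h1
  exact rtg_ne_one8 N hN 1 one_ne_zero h1

theorem rtG_nilp8 (N : Matrix ι ι k) (hN : IsRk8 N) : Group.IsNilpotent (rtG8 N) := by
  letI : CommGroup (rtG8 N) := { (inferInstance : Group (rtG8 N)) with
    mul_comm := fun a b => Subtype.ext (rtG_comm8 N hN a.1 b.1 a.2 b.2) }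
  exact CommGroup.isNilpotent

theorem rtG_isComm8 (N : Matrix ι ι k) (hN : IsRk8 N) : IsMulCommutative (rtG8 N) :=
  ⟨⟨fun a b => Subtype.ext (rtG_comm8 N hN a.1 b.1 a.2 b.2)⟩⟩

theorem rtG_eq_imp8 (N N' : Matrix ι ι k) (hN : IsRk8 N) (hN' : IsRk8 N')
    (h : rtG8 N = rtG8 N') : ∃ a : k, N' = a • N := by
  have h1 : rtg8 N' hN' 1 ∈ rtG8 N := by
    rw [h]
    exact rtg_mem8 N' hN' 1
  obtain ⟨c, hc⟩ := (mem_rtG8 N hN _).mp h1
  have h2 : (1 : Matrix ι ι k) + (1 : k) • N' = 1 + c • N := congrArg Subtype.val hc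
  rw [one_smul] at h2
  exact ⟨c, add_left_cancel h2⟩

end rt8

end Cfsg.Agent.Lib.Helper8
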