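import Mathlib
import Cfsg.Prelude.Def_RootSubgroups
import Cfsg.Agent.Lib.Helper8.RT1

set_option autoImplicit false

namespace Cfsg.Agent.Lib.Helper8

open Matrix

section rt8b

variable {k : Type*} [Field k] {ι : Type*} [Fintype ι] [DecidableEq ι]

/-- The multiplication table of four rank one matrices. -/
structure RkRel8 (P Q R S : Matrix ι ι k) (α β : k) : Prop where
  hPP : P * P = 0
  hPQ : P * Q = α • R
  hPR : P * R = 0
  hPS : P * S = α • P
  hQP : Q * P = β • S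
  hQQ : Q * Q = 0
  hQR : Q * R = β • Q
  hQS : Q * S = 0
  hRP : R * P = β • P
  hRQ : R * Q = 0
  hRR : R * R = β • R
  hRS : R * S = 0
  hSP : S * P = 0
  hSQ : S * Q = α • Q
  hSR : S * R = 0
  hSS : S * S = α • S

theorem rk_rel8 (u φ v ψ : ι → k) (hφu : φ ⬝ᵥ u = 0) (hψv : ψ ⬝ᵥ v = 0) :
    RkRel8 (vecMulVec u φ) (vecMulVec v ψ) (vecMulVec u ψ) (vecMulVec v φ) (φ ⬝ᵥ v) (ψ ⬝ᵥ u) := by
  have key : ∀ (x f y g : ι → k), vecMulVec x f * vecMulVec y g = (f ⬝ᵥ y) • vecMulVec x g :=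
    fun x f y g => by rw [vecMulVec_mul_vecMulVec, vecMulVec_smul]
  refine ⟨?_, ?_, ?_, ?_, ?_, ?_, ?_, ?_, ?_, ?_, ?_, ?_, ?_, ?_, ?_, ?_⟩
  · rw [key, hφu, zero_smul]
  · exact key _ _ _ _
  · rw [key, hφu, zero_smul]
  · exact key _ _ _ _
  · exact key _ _ _ _
  · rw [key, hψv, zero_smul]
  · exact key _ _ _ _
  · rw [key, hψv, zero_smul]
  · exact key _ _ _ _
  · rw [key, hψv, zero_smul]
  · exact key _ _ _ _
  · rw [key, hψv, zero_smul]
  · rw [key, hφu, zero_smul]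
  · exact key _ _ _ _
  · rw [key, hφu, zero_smul]
  · exact key _ _ _ _

theorem vecMulVec_ne_zero8 (u φ : ι → k) (hu : u ≠ 0) (hφ : φ ≠ 0) : vecMulVec u φ ≠ 0 := by
  intro h1
  obtain ⟨i, hi⟩ := Function.ne_iff.mp hu
  obtain ⟨j, hj⟩ := Function.ne_iff.mp hφ
  have h3 := congrFun (congrFun h1 i) j
  rw [vecMulVec_apply] at h3
  rcases mul_eq_zero.mp h3 with h4 | h4
  · exact hi h4
  · exact hj h4

variable {P Q R S : Matrix ι ι k} {α β : k}

theorem rk_comm_formula8 (h : RkRel8 P Q R S α β) (c c' : k) :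
    (1 + c • P) * (1 + c' • Q) * (1 + (-c) • P) * (1 + (-c') • Q) =
      1 + (c * c') • (α • R - β • S) +
        (α * β) • ((c * c' * c') • Q - (c * c * c') • P + (c * c * c' * c' * α) • R) := by
  simp only [mul_add, add_mul, mul_one, one_mul, smul_mul_assoc, mul_smul_comm, h.hPP, h.hPQ,
    h.hPR, h.hPS, h.hQP, h.hQQ, h.hQR, h.hQS, h.hRP, h.hRQ, h.hRR, h.hRS, h.hSP, h.hSQ, h.hSR,
    h.hSS, smul_zero, add_zero, zero_add, smul_add]
  module

theorem rk_swap_formula8 (h : RkRel8 P Q R S α β) (c c' : k) :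
    (1 + c • P) * (1 + c' • Q) = (1 + c' • Q) * (1 + c • P) + (c * c') • (α • R - β • S) := by
  simp only [mul_add, add_mul, mul_one, one_mul, smul_mul_assoc, mul_smul_comm, h.hPQ, h.hQP]
  module

theorem rk_rankone_formula8 (h : RkRel8 P Q R S α β) (c c' : k) :
    (1 + (-c') • Q) * P * (1 + c' • Q) =
      (-(c' * c' * α * β)) • ((1 + (-c) • P) * Q * (1 + c • P)) +
        (1 - c * c' * α * β) • ((c' * α) • R - (c' * β) • S + (1 + c * c' * α * β) • P) := by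
  simp only [mul_add, add_mul, mul_one, one_mul, smul_mul_assoc, mul_smul_comm, h.hPP, h.hPQ,
    h.hPR, h.hPS, h.hQP, h.hQQ, h.hQR, h.hQS, h.hRP, h.hRQ, h.hRR, h.hRS, h.hSP, h.hSQ, h.hSR,
    h.hSS, smul_zero, add_zero, zero_add, smul_add]
  module

theorem rk_conjP_formula8 (h : RkRel8 P Q R S α β) (c' : k) :
    (1 + (-c') • Q) * P * (1 + c' • Q) =
      P + (c' * α) • R - (c' * β) • S - (c' * c' * α * β) • Q := by
  simp only [mul_add, add_mul, mul_one, one_mul, smul_mul_assoc, mul_smul_comm, h.hPP, h.hPQ,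
    h.hPR, h.hPS, h.hQP, h.hQQ, h.hQR, h.hQS, h.hRP, h.hRQ, h.hRR, h.hRS, h.hSP, h.hSQ, h.hSR,
    h.hSS, smul_zero, add_zero, zero_add, smul_add]
  module

theorem rk_conjQ_formula8 (h : RkRel8 P Q R S α β) (c : k) :
    (1 + (-c) • P) * Q * (1 + c • P) =
      Q + (c * β) • S - (c * α) • R - (c * c * α * β) • P := by
  simp only [mul_add, add_mul, mul_one, one_mul, smul_mul_assoc, mul_smul_comm, h.hPP, h.hPQ,
    h.hPR, h.hPS, h.hQP, h.hQQ, h.hQR, h.hQS, h.hRP, h.hRQ, h.hRR, h.hRS, h.hSP, h.hSQ, h.hSR,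
    h.hSS, smul_zero, add_zero, zero_add, smul_add]
  module

theorem rk_KP_formula8 (h : RkRel8 P Q R S α β) (d c : k) :
    (1 + d • (α • R - β • S)) * (1 + c • P) =
      (1 + c • P) * (1 + d • (α • R - β • S)) + (2 * d * c * α * β) • P := by
  simp only [mul_add, add_mul, mul_one, one_mul, smul_mul_assoc, mul_smul_comm, mul_sub, sub_mul,
    h.hPP, h.hPQ, h.hPR, h.hPS, h.hQP, h.hQQ, h.hQR, h.hQS, h.hRP, h.hRQ, h.hRR, h.hRS, h.hSP,
    h.hSQ, h.hSR, h.hSS, smul_zero, add_zero, zero_add, smul_add, smul_sub, sub_zero, zero_sub]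
  module

theorem rk_KQ_formula8 (h : RkRel8 P Q R S α β) (d c : k) :
    (1 + d • (α • R - β • S)) * (1 + c • Q) =
      (1 + c • Q) * (1 + d • (α • R - β • S)) - (2 * d * c * α * β) • Q := by
  simp only [mul_add, add_mul, mul_one, one_mul, smul_mul_assoc, mul_smul_comm, mul_sub, sub_mul,
    h.hPP, h.hPQ, h.hPR, h.hPS, h.hQP, h.hQQ, h.hQR, h.hQS, h.hRP, h.hRQ, h.hRR, h.hRS, h.hSP,
    h.hSQ, h.hSR, h.hSS, smul_zero, add_zero, zero_add, smul_add, smul_sub, sub_zero, zero_sub]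
  module

end rt8b

end Cfsg.Agent.Lib.Helper8
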