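import Mathlib
import Cfsg.Prelude.Def_RootSubgroups
import Cfsg.Agent.Lib.Helper8.RT2

set_option autoImplicit false

namespace Cfsg.Agent.Lib.Helper8

open Matrix

open scoped commutatorElement

section rt8c

variable {k : Type*} [Field k] {ι : Type*} [Fintype ι] [DecidableEq ι]

variable {P Q R S : Matrix ι ι k} {α β : k}

theorem rk_excl1_8 (h : RkRel8 P Q R S α β) (hβ : β = 0) (c c' a : k)
    (ha : (1 + (-c) • P) * Q * (1 + c • P) = a • ((1 + (-c') • Q) * P * (1 + c' • Q))) :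
    α • R = 0 ∧ (α = 0 → Q = a • P) := by
  subst hβ
  rw [rk_conjQ_formula8 h, rk_conjP_formula8 h] at ha
  simp only [mul_zero, zero_smul, sub_zero, add_zero] at ha
  constructor
  · have e : P * (Q - (c * α) • R) = P * (a • (P + (c' * α) • R)) := by rw [ha]
    simp only [mul_sub, mul_add, mul_smul_comm, h.hPQ, h.hPR, h.hPP, smul_zero, sub_zero,
      add_zero] at e
    exact e
  · intro hα
    subst hα
    simp only [mul_zero, zero_smul, sub_zero, add_zero] at ha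
    exact ha

theorem rk_excl2_8 (h : RkRel8 P Q R S α β) (hα : α = 0) (c c' a : k)
    (ha : (1 + (-c) • P) * Q * (1 + c • P) = a • ((1 + (-c') • Q) * P * (1 + c' • Q))) :
    β • S = 0 := by
  subst hα
  rw [rk_conjQ_formula8 h, rk_conjP_formula8 h] at ha
  simp only [mul_zero, zero_mul, zero_smul, sub_zero, add_zero] at ha
  have e : (Q + (c * β) • S) * P = (a • (P - (c' * β) • S)) * P := by rw [ha]
  simp only [add_mul, sub_mul, smul_mul_assoc, h.hQP, h.hSP, h.hPP, smul_zero, add_zero,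
    sub_zero] at e
  exact e

theorem rt_comm8 (hP : IsRk8 P) (hQ : IsRk8 Q) (h : RkRel8 P Q R S α β) (hα : α = 0)
    (hβ : β = 0) : ⁅rtG8 P, rtG8 Q⁆ = ⊥ := by
  rw [Subgroup.commutator_eq_bot_iff_le_centralizer]
  intro a ha
  rw [Subgroup.mem_centralizer_iff]
  intro b hb
  obtain ⟨c, rfl⟩ := (mem_rtG8 P hP a).mp ha
  obtain ⟨c', rfl⟩ := (mem_rtG8 Q hQ b).mp hb
  apply Subtype.ext
  show (1 + c' • Q) * (1 + c • P) = (1 + c • P) * (1 + c' • Q)
  rw [rk_swap_formula8 h c c', hα, hβ, zero_smul, zero_smul, sub_zero, smul_zero, add_zero]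

theorem rt_commutator_elt8 (hP : IsRk8 P) (hQ : IsRk8 Q) (h : RkRel8 P Q R S α β)
    (hαβ : α * β = 0) (hK : IsRk8 (α • R - β • S)) (c c' : k) :
    ⁅rtg8 P hP c, rtg8 Q hQ c'⁆ = rtg8 _ hK (c * c') := by
  rw [commutatorElement_def, rtg_inv8, rtg_inv8]
  apply Subtype.ext
  show (1 + c • P) * (1 + c' • Q) * (1 + (-c) • P) * (1 + (-c') • Q) =
    1 + (c * c') • (α • R - β • S)
  rw [rk_comm_formula8 h, hαβ, zero_smul, add_zero]

theorem rt_rankOneCond8 (hP : IsRk8 P) (hQ : IsRk8 Q) (h : RkRel8 P Q R S α β) (hα : α ≠ 0)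
    (hβ : β ≠ 0) : Cfsg.RankOneCondition (rtG8 P) (rtG8 Q) := by
  intro a ha ha1
  obtain ⟨c, rfl⟩ := (mem_rtG8 P hP a).mp ha
  have hc : c ≠ 0 := by
    intro h0
    apply ha1
    rw [h0, rtg_zero8]
  obtain ⟨c', hc'⟩ : ∃ c', c' = (c * α * β)⁻¹ := ⟨_, rfl⟩
  have hc'0 : c' ≠ 0 := by
    rw [hc']
    exact inv_ne_zero (mul_ne_zero (mul_ne_zero hc hα) hβ)
  refine ⟨rtg8 Q hQ c', rtg_mem8 Q hQ c', rtg_ne_one8 Q hQ c' hc'0, ?_⟩
  rw [rtG_conj8 P hP, rtG_conj8 Q hQ, inv_inv, inv_inv, rtg_inv8, rtg_inv8]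
  show rtG8 ((1 + (-c') • Q) * P * (1 + c' • Q)) = rtG8 ((1 + (-c) • P) * Q * (1 + c • P))
  have h1 : c * c' * α * β = 1 := by
    rw [hc']
    field_simp
  have hr : IsRk8 ((1 + (-c) • P) * Q * (1 + c • P)) := by
    have h2 := isRk_conj_sl8 Q hQ (rtg8 P hP (-c))
    rw [rtg_inv8, neg_neg] at h2
    exact h2
  rw [rk_rankone_formula8 h c c', h1, sub_self, zero_smul, add_zero]
  exact rtG_smul8 _ hr _ (neg_ne_zero.mpr (mul_ne_zero (mul_ne_zero (mul_ne_zero hc'0 hc'0) hα) hβ))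

theorem rt_commcase8 (Sg : Set (Subgroup (Matrix.SpecialLinearGroup ι k)))
    (hSg : ∀ N : Matrix ι ι k, IsRk8 N → rtG8 N ∈ Sg)
    (hP : IsRk8 P) (hQ : IsRk8 Q) (h : RkRel8 P Q R S α β)
    (hαβ : α * β = 0) (hK : IsRk8 (α • R - β • S)) :
    Cfsg.RootCommutatorCase Sg (rtG8 P) (rtG8 Q) := by
  have hcomm : ⁅rtG8 P, rtG8 Q⁆ = rtG8 (α • R - β • S) := by
    apply le_antisymm
    · rw [Subgroup.commutator_le]
      intro a ha b hb
      obtain ⟨c, rfl⟩ := (mem_rtG8 P hP a).mp ha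
      obtain ⟨c', rfl⟩ := (mem_rtG8 Q hQ b).mp hb
      rw [rt_commutator_elt8 hP hQ h hαβ hK]
      exact rtg_mem8 _ hK _
    · intro t ht
      obtain ⟨d, rfl⟩ := (mem_rtG8 _ hK t).mp ht
      have h1 := Subgroup.commutator_mem_commutator (rtg_mem8 P hP 1) (rtg_mem8 Q hQ d)
      rw [rt_commutator_elt8 hP hQ h hαβ hK, one_mul] at h1
      exact h1
  have hz : ∀ d c : k, 2 * d * c * α * β = 0 := fun d c => by rw [mul_assoc, hαβ, mul_zero]
  refine ⟨hcomm ▸ hSg _ hK, ?_, ?_, ?_⟩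
  · intro t ht x hx
    rw [hcomm] at ht
    obtain ⟨d, rfl⟩ := (mem_rtG8 _ hK t).mp ht
    have hle : rtG8 P ⊔ rtG8 Q ≤ Subgroup.centralizer {rtg8 _ hK d} := by
      apply sup_le
      · intro a ha
        rw [Subgroup.mem_centralizer_iff]
        rintro _ rfl
        obtain ⟨c, rfl⟩ := (mem_rtG8 P hP a).mp ha
        apply Subtype.ext
        show (1 + d • (α • R - β • S)) * (1 + c • P) = (1 + c • P) * (1 + d • (α • R - β • S))
        rw [rk_KP_formula8 h, hz, zero_smul, add_zero]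
      · intro b hb
        rw [Subgroup.mem_centralizer_iff]
        rintro _ rfl
        obtain ⟨c, rfl⟩ := (mem_rtG8 Q hQ b).mp hb
        apply Subtype.ext
        show (1 + d • (α • R - β • S)) * (1 + c • Q) = (1 + c • Q) * (1 + d • (α • R - β • S))
        rw [rk_KQ_formula8 h, hz, zero_smul, sub_zero]
    exact (Subgroup.mem_centralizer_iff.mp (hle hx)) _ rfl
  · intro a ha ha1
    obtain ⟨c, rfl⟩ := (mem_rtG8 P hP a).mp ha
    have hc : c ≠ 0 := by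
      intro h0
      apply ha1
      rw [h0, rtg_zero8]
    rw [hcomm]
    apply le_antisymm
    · rw [Subgroup.closure_le]
      rintro _ ⟨b, hb, rfl⟩
      obtain ⟨c', rfl⟩ := (mem_rtG8 Q hQ b).mp hb
      show rtg8 P hP c * rtg8 Q hQ c' * (rtg8 P hP c)⁻¹ * (rtg8 Q hQ c')⁻¹ ∈ rtG8 _
      rw [← commutatorElement_def, rt_commutator_elt8 hP hQ h hαβ hK]
      exact rtg_mem8 _ hK _
    · show Subgroup.closure (rtS8 (α • R - β • S)) ≤ _
      apply Subgroup.closure_mono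
      rintro t ⟨d, hd⟩
      refine ⟨rtg8 Q hQ (d / c), rtg_mem8 Q hQ _, ?_⟩
      show rtg8 P hP c * rtg8 Q hQ (d / c) * (rtg8 P hP c)⁻¹ * (rtg8 Q hQ (d / c))⁻¹ = t
      have e : c * (d / c) = d := by field_simp
      rw [← commutatorElement_def, rt_commutator_elt8 hP hQ h hαβ hK, e]
      exact Subtype.ext hd.symm
  · intro b hb hb1
    obtain ⟨c', rfl⟩ := (mem_rtG8 Q hQ b).mp hb
    have hc : c' ≠ 0 := by
      intro h0
      apply hb1
      rw [h0, rtg_zero8]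
    rw [hcomm]
    apply le_antisymm
    · rw [Subgroup.closure_le]
      rintro _ ⟨a, ha, rfl⟩
      obtain ⟨c, rfl⟩ := (mem_rtG8 P hP a).mp ha
      show rtg8 P hP c * rtg8 Q hQ c' * (rtg8 P hP c)⁻¹ * (rtg8 Q hQ c')⁻¹ ∈ rtG8 _
      rw [← commutatorElement_def, rt_commutator_elt8 hP hQ h hαβ hK]
      exact rtg_mem8 _ hK _
    · show Subgroup.closure (rtS8 (α • R - β • S)) ≤ _
      apply Subgroup.closure_mono
      rintro t ⟨d, hd⟩
      refine ⟨rtg8 P hP (d / c'), rtg_mem8 P hP _, ?_⟩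
      show rtg8 P hP (d / c') * rtg8 Q hQ c' * (rtg8 P hP (d / c'))⁻¹ * (rtg8 Q hQ c')⁻¹ = t
      have e : d / c' * c' = d := by field_simp
      rw [← commutatorElement_def, rt_commutator_elt8 hP hQ h hαβ hK, e]
      exact Subtype.ext hd.symm

theorem rt_rankone_imp8 (hP : IsRk8 P) (hQ : IsRk8 Q) (h : RkRel8 P Q R S α β)
    (hR0 : R ≠ 0) (hS0 : S ≠ 0)
    (hpair : Cfsg.IsRankOnePair (rtG8 P) (rtG8 Q)) : α ≠ 0 ∧ β ≠ 0 := by
  obtain ⟨b, hb, -, hconj⟩ := hpair.cond_left (rtg8 P hP 1) (rtg_mem8 P hP 1)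
    (rtg_ne_one8 P hP 1 one_ne_zero)
  obtain ⟨c', rfl⟩ := (mem_rtG8 Q hQ b).mp hb
  rw [rtG_conj8 P hP, rtG_conj8 Q hQ, inv_inv, inv_inv, rtg_inv8, rtg_inv8] at hconj
  have hr1 : IsRk8 ((1 + (-c') • Q) * P * (1 + c' • Q)) := by
    have h2 := isRk_conj_sl8 P hP (rtg8 Q hQ (-c'))
    rw [rtg_inv8, neg_neg] at h2
    exact h2
  have hr2 : IsRk8 ((1 + (-(1 : k)) • P) * Q * (1 + (1 : k) • P)) := by
    have h2 := isRk_conj_sl8 Q hQ (rtg8 P hP (-1))
    rw [rtg_inv8, neg_neg] at h2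
    exact h2
  obtain ⟨a, ha⟩ := rtG_eq_imp8 _ _ hr1 hr2 hconj
  by_cases hβ : β = 0
  · exfalso
    obtain ⟨e1, e2⟩ := rk_excl1_8 h hβ 1 c' a ha
    have hα : α = 0 := by
      rcases smul_eq_zero.mp e1 with h3 | h3
      · exact h3
      · exact absurd h3 hR0
    have hQP := e2 hα
    have ha0 : a ≠ 0 := by
      intro h0
      rw [h0, zero_smul] at hQP
      exact isRk_ne_zero8 Q hQ hQP
    apply hpair.ne
    rw [hQP, rtG_smul8 P hP a ha0]
  · refine ⟨?_, hβ⟩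
    intro hα
    have e := rk_excl2_8 h hα 1 c' a ha
    rcases smul_eq_zero.mp e with h3 | h3
    · exact hβ h3
    · exact hS0 h3

end rt8c

end Cfsg.Agent.Lib.Helper8
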