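import Mathlib
import Cfsg.Prelude.Def_RootSubgroups
import Cfsg.Agent.Lib.Helper3.SLGen2
import Cfsg.Agent.Lib.Helper8.SP4
import Cfsg.Agent.Lib.Helper8.RT3

set_option autoImplicit false

namespace Cfsg.Agent.Lib.Helper8

open Matrix

section rt8d

variable {k : Type*} [Field k] {ι : Type*} [Fintype ι] [DecidableEq ι]

/-- The matrix of the action of a `2 × 2` matrix on the plane `⟨u, v⟩` with dual pair `a, b`. -/
def rtPhi8 (u v a b : ι → k) (M : Matrix (Fin 2) (Fin 2) k) : Matrix ι ι k :=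
  1 + vecMulVec ((M 0 0 - 1) • u + M 1 0 • v) a + vecMulVec (M 0 1 • u + (M 1 1 - 1) • v) b

theorem rtPhi_mulVec8 (u v a b : ι → k) (M : Matrix (Fin 2) (Fin 2) k) (w : ι → k) :
    rtPhi8 u v a b M *ᵥ w = w + (a ⬝ᵥ w) • ((M 0 0 - 1) • u + M 1 0 • v) +
      (b ⬝ᵥ w) • (M 0 1 • u + (M 1 1 - 1) • v) := by
  unfold rtPhi8
  rw [add_mulVec, add_mulVec, one_mulVec, vecMulVec_mulVec, vecMulVec_mulVec, op_smul_eq_smul,
    op_smul_eq_smul]

theorem rtPhi_mul8 (u v a b : ι → k) (hau : a ⬝ᵥ u = 1) (hav : a ⬝ᵥ v = 0) (hbu : b ⬝ᵥ u = 0)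
    (hbv : b ⬝ᵥ v = 1) (M N : Matrix (Fin 2) (Fin 2) k) :
    rtPhi8 u v a b (M * N) = rtPhi8 u v a b M * rtPhi8 u v a b N := by
  apply mat_ext_mulVec8
  intro w
  rw [← mulVec_mulVec, rtPhi_mulVec8, rtPhi_mulVec8, rtPhi_mulVec8]
  simp only [dotProduct_add, dotProduct_smul, smul_eq_mul, hau, hav, hbu, hbv, Matrix.mul_apply,
    Fin.sum_univ_two]
  module

theorem rtPhi_one8 (u v a b : ι → k) : rtPhi8 u v a b 1 = 1 := by
  apply mat_ext_mulVec8
  intro w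
  rw [rtPhi_mulVec8, one_mulVec]
  simp

theorem rtPhi_upper8 (u v a b : ι → k) (M : Matrix (Fin 2) (Fin 2) k) (h10 : M 1 0 = 0)
    (h00 : M 0 0 = 1) (h11 : M 1 1 = 1) :
    rtPhi8 u v a b M = 1 + M 0 1 • vecMulVec u b := by
  apply mat_ext_mulVec8
  intro w
  rw [rtPhi_mulVec8, h10, h00, h11, add_mulVec, one_mulVec, smul_mulVec, vecMulVec_mulVec,
    op_smul_eq_smul]
  module

theorem rtPhi_lower8 (u v a b : ι → k) (M : Matrix (Fin 2) (Fin 2) k) (h01 : M 0 1 = 0)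
    (h00 : M 0 0 = 1) (h11 : M 1 1 = 1) :
    rtPhi8 u v a b M = 1 + M 1 0 • vecMulVec v a := by
  apply mat_ext_mulVec8
  intro w
  rw [rtPhi_mulVec8, h01, h00, h11, add_mulVec, one_mulVec, smul_mulVec, vecMulVec_mulVec,
    op_smul_eq_smul]
  module

/-- The subgroup of `SL₂` on which `rtPhi8` has determinant one. -/
def rtH8 (u v a b : ι → k) (hau : a ⬝ᵥ u = 1) (hav : a ⬝ᵥ v = 0) (hbu : b ⬝ᵥ u = 0)
    (hbv : b ⬝ᵥ v = 1) : Subgroup (Matrix.SpecialLinearGroup (Fin 2) k) where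
  carrier := {M | (rtPhi8 u v a b (M : Matrix (Fin 2) (Fin 2) k)).det = 1}
  mul_mem' := by
    intro M N hM hN
    show (rtPhi8 u v a b ((M * N : Matrix.SpecialLinearGroup (Fin 2) k) :
      Matrix (Fin 2) (Fin 2) k)).det = 1
    have hM' : (rtPhi8 u v a b (M : Matrix (Fin 2) (Fin 2) k)).det = 1 := hM
    have hN' : (rtPhi8 u v a b (N : Matrix (Fin 2) (Fin 2) k)).det = 1 := hN
    rw [Matrix.SpecialLinearGroup.coe_mul, rtPhi_mul8 u v a b hau hav hbu hbv, det_mul, hM', hN',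
      mul_one]
  one_mem' := by
    show (rtPhi8 u v a b ((1 : Matrix.SpecialLinearGroup (Fin 2) k) :
      Matrix (Fin 2) (Fin 2) k)).det = 1
    rw [Matrix.SpecialLinearGroup.coe_one, rtPhi_one8, det_one]
  inv_mem' := by
    intro M hM
    have hM' : (rtPhi8 u v a b (M : Matrix (Fin 2) (Fin 2) k)).det = 1 := hM
    show (rtPhi8 u v a b ((M⁻¹ : Matrix.SpecialLinearGroup (Fin 2) k) :
      Matrix (Fin 2) (Fin 2) k)).det = 1
    have h1 : (rtPhi8 u v a b ((M⁻¹ : Matrix.SpecialLinearGroup (Fin 2) k) :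
        Matrix (Fin 2) (Fin 2) k)).det * (rtPhi8 u v a b (M : Matrix (Fin 2) (Fin 2) k)).det
        = 1 := by
      rw [← det_mul, ← rtPhi_mul8 u v a b hau hav hbu hbv, ← Matrix.SpecialLinearGroup.coe_mul,
        inv_mul_cancel, Matrix.SpecialLinearGroup.coe_one, rtPhi_one8, det_one]
    rw [hM', mul_one] at h1
    exact h1

theorem rtH_top8 (u v a b : ι → k) (hau : a ⬝ᵥ u = 1) (hav : a ⬝ᵥ v = 0) (hbu : b ⬝ᵥ u = 0)
    (hbv : b ⬝ᵥ v = 1) : rtH8 u v a b hau hav hbu hbv = ⊤ := by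
  apply Cfsg.Agent.Lib.Helper3.slg_top_gen
  intro i j hij c
  show (rtPhi8 u v a b ((Matrix.SpecialLinearGroup.transvection hij c :
    Matrix.SpecialLinearGroup (Fin 2) k) : Matrix (Fin 2) (Fin 2) k)).det = 1
  fin_cases i <;> fin_cases j
  · exact absurd rfl hij
  · rw [rtPhi_upper8 u v a b _ (by simp [Matrix.SpecialLinearGroup.transvection_coe,
      Matrix.one_apply, Matrix.single_apply]) (by simp [Matrix.SpecialLinearGroup.transvection_coe,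
      Matrix.one_apply, Matrix.single_apply]) (by simp [Matrix.SpecialLinearGroup.transvection_coe,
      Matrix.one_apply, Matrix.single_apply]), ← smul_vecMulVec]
    exact tv_det8 _ _ (by rw [dotProduct_smul, hbu, smul_zero])
  · rw [rtPhi_lower8 u v a b _ (by simp [Matrix.SpecialLinearGroup.transvection_coe,
      Matrix.one_apply, Matrix.single_apply]) (by simp [Matrix.SpecialLinearGroup.transvection_coe,
      Matrix.one_apply, Matrix.single_apply]) (by simp [Matrix.SpecialLinearGroup.transvection_coe,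
      Matrix.one_apply, Matrix.single_apply]), ← smul_vecMulVec]
    exact tv_det8 _ _ (by rw [dotProduct_smul, hav, smul_zero])
  · exact absurd rfl hij

theorem rtPhi_det8 (u v a b : ι → k) (hau : a ⬝ᵥ u = 1) (hav : a ⬝ᵥ v = 0) (hbu : b ⬝ᵥ u = 0)
    (hbv : b ⬝ᵥ v = 1) (M : Matrix.SpecialLinearGroup (Fin 2) k) :
    (rtPhi8 u v a b (M : Matrix (Fin 2) (Fin 2) k)).det = 1 := by
  have h : M ∈ rtH8 u v a b hau hav hbu hbv := by
    rw [rtH_top8]
    exact Subgroup.mem_top M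
  exact h

/-- The homomorphism from `SL₂(k)` attached to a pair of opposite root groups. -/
noncomputable def rtHom8 (u v a b : ι → k) (hau : a ⬝ᵥ u = 1) (hav : a ⬝ᵥ v = 0)
    (hbu : b ⬝ᵥ u = 0) (hbv : b ⬝ᵥ v = 1) :
    Matrix.SpecialLinearGroup (Fin 2) k →* Matrix.SpecialLinearGroup ι k where
  toFun M := ⟨rtPhi8 u v a b (M : Matrix (Fin 2) (Fin 2) k), rtPhi_det8 u v a b hau hav hbu hbv M⟩
  map_one' := Subtype.ext (rtPhi_one8 u v a b)
  map_mul' M N := Subtype.ext (rtPhi_mul8 u v a b hau hav hbu hbv _ _)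

theorem rtHom_coe8 (u v a b : ι → k) (hau : a ⬝ᵥ u = 1) (hav : a ⬝ᵥ v = 0)
    (hbu : b ⬝ᵥ u = 0) (hbv : b ⬝ᵥ v = 1) (M : Matrix.SpecialLinearGroup (Fin 2) k) :
    ((rtHom8 u v a b hau hav hbu hbv M : Matrix.SpecialLinearGroup ι k) : Matrix ι ι k) =
      rtPhi8 u v a b (M : Matrix (Fin 2) (Fin 2) k) := rfl

theorem rtHom_ker8 (u v a b : ι → k) (hau : a ⬝ᵥ u = 1) (hav : a ⬝ᵥ v = 0)
    (hbu : b ⬝ᵥ u = 0) (hbv : b ⬝ᵥ v = 1) (M : Matrix.SpecialLinearGroup (Fin 2) k)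
    (hM : rtHom8 u v a b hau hav hbu hbv M = 1) : M = 1 := by
  have h0 : rtPhi8 u v a b (M : Matrix (Fin 2) (Fin 2) k) = 1 := by
    rw [← rtHom_coe8 u v a b hau hav hbu hbv, hM, Matrix.SpecialLinearGroup.coe_one]
  have h1 := rtPhi_mulVec8 u v a b (M : Matrix (Fin 2) (Fin 2) k) u
  have h2 := rtPhi_mulVec8 u v a b (M : Matrix (Fin 2) (Fin 2) k) v
  rw [h0, one_mulVec, hau, hbu, one_smul, zero_smul, add_zero] at h1
  rw [h0, one_mulVec, hav, hbv, zero_smul, add_zero, one_smul] at h2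
  have e1 : ((M : Matrix (Fin 2) (Fin 2) k) 0 0 - 1) • u +
      (M : Matrix (Fin 2) (Fin 2) k) 1 0 • v = 0 := by
    have e : u + 0 = u + (((M : Matrix (Fin 2) (Fin 2) k) 0 0 - 1) • u +
        (M : Matrix (Fin 2) (Fin 2) k) 1 0 • v) := by
      rw [add_zero]
      exact h1
    exact (add_left_cancel e).symm
  have e2 : (M : Matrix (Fin 2) (Fin 2) k) 0 1 • u +
      ((M : Matrix (Fin 2) (Fin 2) k) 1 1 - 1) • v = 0 := by
    have e : v + 0 = v + ((M : Matrix (Fin 2) (Fin 2) k) 0 1 • u +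
        ((M : Matrix (Fin 2) (Fin 2) k) 1 1 - 1) • v) := by
      rw [add_zero]
      exact h2
    exact (add_left_cancel e).symm
  have a1 := congrArg (fun z => a ⬝ᵥ z) e1
  have a2 := congrArg (fun z => b ⬝ᵥ z) e1
  have a3 := congrArg (fun z => a ⬝ᵥ z) e2
  have a4 := congrArg (fun z => b ⬝ᵥ z) e2
  simp only [dotProduct_add, dotProduct_smul, smul_eq_mul, hau, hav, hbu, hbv, dotProduct_zero,
    mul_zero, mul_one, add_zero, zero_add] at a1 a2 a3 a4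
  have h00 : (M : Matrix (Fin 2) (Fin 2) k) 0 0 = 1 := sub_eq_zero.mp a1
  have h11 : (M : Matrix (Fin 2) (Fin 2) k) 1 1 = 1 := sub_eq_zero.mp a4
  ext i j
  fin_cases i <;> fin_cases j <;> simp [h00, h11, a2, a3]

theorem rt_psl2pair8 (u φ v ψ : ι → k) (hu : u ≠ 0) (hφ : φ ≠ 0) (hv : v ≠ 0) (hψ : ψ ≠ 0)
    (hφu : φ ⬝ᵥ u = 0) (hψv : ψ ⬝ᵥ v = 0) (hα : φ ⬝ᵥ v ≠ 0) (hβ : ψ ⬝ᵥ u ≠ 0) :
    Cfsg.IsPSL2PairOver k (rtG8 (vecMulVec u φ)) (rtG8 (vecMulVec v ψ)) := by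
  have hP : IsRk8 (vecMulVec u φ) := ⟨u, φ, hu, hφ, hφu, rfl⟩
  have hQ : IsRk8 (vecMulVec v ψ) := ⟨v, ψ, hv, hψ, hψv, rfl⟩
  obtain ⟨a, ha⟩ : ∃ a, a = (ψ ⬝ᵥ u)⁻¹ • ψ := ⟨_, rfl⟩
  obtain ⟨b, hb⟩ : ∃ b, b = (φ ⬝ᵥ v)⁻¹ • φ := ⟨_, rfl⟩
  have hau : a ⬝ᵥ u = 1 := by rw [ha, smul_dotProduct, smul_eq_mul, inv_mul_cancel₀ hβ]
  have hav : a ⬝ᵥ v = 0 := by rw [ha, smul_dotProduct, hψv, smul_zero]
  have hbu : b ⬝ᵥ u = 0 := by rw [hb, smul_dotProduct, hφu, smul_zero]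
  have hbv : b ⬝ᵥ v = 1 := by rw [hb, smul_dotProduct, smul_eq_mul, inv_mul_cancel₀ hα]
  have hup : ∀ g : Matrix.SpecialLinearGroup (Fin 2) k,
      (g : Matrix (Fin 2) (Fin 2) k) 1 0 = 0 → (g : Matrix (Fin 2) (Fin 2) k) 0 0 = 1 →
      (g : Matrix (Fin 2) (Fin 2) k) 1 1 = 1 →
      rtHom8 u v a b hau hav hbu hbv g =
        rtg8 _ hP ((g : Matrix (Fin 2) (Fin 2) k) 0 1 * (φ ⬝ᵥ v)⁻¹) := by
    intro g h10 h00 h11
    apply Subtype.ext
    show rtPhi8 u v a b (g : Matrix (Fin 2) (Fin 2) k) = 1 + _ • vecMulVec u φ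
    rw [rtPhi_upper8 u v a b _ h10 h00 h11, hb, vecMulVec_smul, smul_smul]
  have hlo : ∀ g : Matrix.SpecialLinearGroup (Fin 2) k,
      (g : Matrix (Fin 2) (Fin 2) k) 0 1 = 0 → (g : Matrix (Fin 2) (Fin 2) k) 0 0 = 1 →
      (g : Matrix (Fin 2) (Fin 2) k) 1 1 = 1 →
      rtHom8 u v a b hau hav hbu hbv g =
        rtg8 _ hQ ((g : Matrix (Fin 2) (Fin 2) k) 1 0 * (ψ ⬝ᵥ u)⁻¹) := by
    intro g h01 h00 h11
    apply Subtype.ext
    show rtPhi8 u v a b (g : Matrix (Fin 2) (Fin 2) k) = 1 + _ • vecMulVec v ψ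
    rw [rtPhi_lower8 u v a b _ h01 h00 h11, ha, vecMulVec_smul, smul_smul]
  have hU : ∀ c : k, rtHom8 u v a b hau hav hbu hbv (slU8 (c * (φ ⬝ᵥ v))) = rtg8 _ hP c := by
    intro c
    rw [hup (slU8 (c * (φ ⬝ᵥ v))) rfl rfl rfl]
    have e : ((slU8 (c * (φ ⬝ᵥ v)) : Matrix.SpecialLinearGroup (Fin 2) k) :
        Matrix (Fin 2) (Fin 2) k) 0 1 * (φ ⬝ᵥ v)⁻¹ = c := by
      show c * (φ ⬝ᵥ v) * (φ ⬝ᵥ v)⁻¹ = c
      rw [mul_assoc, mul_inv_cancel₀ hα, mul_one]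
    rw [e]
  have hL : ∀ c : k, rtHom8 u v a b hau hav hbu hbv (slL8 (c * (ψ ⬝ᵥ u))) = rtg8 _ hQ c := by
    intro c
    rw [hlo (slL8 (c * (ψ ⬝ᵥ u))) rfl rfl rfl]
    have e : ((slL8 (c * (ψ ⬝ᵥ u)) : Matrix.SpecialLinearGroup (Fin 2) k) :
        Matrix (Fin 2) (Fin 2) k) 1 0 * (ψ ⬝ᵥ u)⁻¹ = c := by
      show c * (ψ ⬝ᵥ u) * (ψ ⬝ᵥ u)⁻¹ = c
      rw [mul_assoc, mul_inv_cancel₀ hβ, mul_one]
    rw [e]
  refine ⟨rtHom8 u v a b hau hav hbu hbv, ?_, ?_, ?_, ?_⟩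
  · apply le_antisymm
    · rintro _ ⟨M, rfl⟩
      have htop : (rtG8 (vecMulVec u φ) ⊔ rtG8 (vecMulVec v ψ)).comap
          (rtHom8 u v a b hau hav hbu hbv) = ⊤ := by
        apply Cfsg.Agent.Lib.Helper3.slg_top_gen
        intro i j hij c
        rw [Subgroup.mem_comap]
        fin_cases i <;> fin_cases j
        · exact absurd rfl hij
        · apply Subgroup.mem_sup_left
          rw [hup _ (by simp [Matrix.SpecialLinearGroup.transvection_coe,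
            Matrix.one_apply, Matrix.single_apply]) (by simp [Matrix.SpecialLinearGroup.transvection_coe,
            Matrix.one_apply, Matrix.single_apply]) (by simp [Matrix.SpecialLinearGroup.transvection_coe,
            Matrix.one_apply, Matrix.single_apply])]
          exact rtg_mem8 _ _ _
        · apply Subgroup.mem_sup_right
          rw [hlo _ (by simp [Matrix.SpecialLinearGroup.transvection_coe,
            Matrix.one_apply, Matrix.single_apply]) (by simp [Matrix.SpecialLinearGroup.transvection_coe,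
            Matrix.one_apply, Matrix.single_apply]) (by simp [Matrix.SpecialLinearGroup.transvection_coe,
            Matrix.one_apply, Matrix.single_apply])]
          exact rtg_mem8 _ _ _
        · exact absurd rfl hij
      have hM : M ∈ (rtG8 (vecMulVec u φ) ⊔ rtG8 (vecMulVec v ψ)).comap
          (rtHom8 u v a b hau hav hbu hbv) := by
        rw [htop]
        exact Subgroup.mem_top M
      exact hM
    · apply sup_le
      · intro g hg
        obtain ⟨c, rfl⟩ := (mem_rtG8 _ hP g).mp hg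
        exact ⟨slU8 (c * (φ ⬝ᵥ v)), hU c⟩
      · intro g hg
        obtain ⟨c, rfl⟩ := (mem_rtG8 _ hQ g).mp hg
        exact ⟨slL8 (c * (ψ ⬝ᵥ u)), hL c⟩
  · intro M hM
    rw [rtHom_ker8 u v a b hau hav hbu hbv M hM]
    exact Subgroup.one_mem _
  · apply le_antisymm
    · rw [Subgroup.map_le_iff_le_comap]
      unfold Cfsg.upperUnipotentSL2
      rw [Subgroup.closure_le]
      rintro g ⟨h10, h00, h11⟩
      show rtHom8 u v a b hau hav hbu hbv g ∈ rtG8 (vecMulVec u φ)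
      rw [hup g h10 h00 h11]
      exact rtg_mem8 _ _ _
    · intro g hg
      obtain ⟨c, rfl⟩ := (mem_rtG8 _ hP g).mp hg
      exact ⟨slU8 (c * (φ ⬝ᵥ v)), Subgroup.subset_closure ⟨rfl, rfl, rfl⟩, hU c⟩
  · apply le_antisymm
    · rw [Subgroup.map_le_iff_le_comap]
      unfold Cfsg.lowerUnipotentSL2
      rw [Subgroup.closure_le]
      rintro g ⟨h01, h00, h11⟩
      show rtHom8 u v a b hau hav hbu hbv g ∈ rtG8 (vecMulVec v ψ)
      rw [hlo g h01 h00 h11]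
      exact rtg_mem8 _ _ _
    · intro g hg
      obtain ⟨c, rfl⟩ := (mem_rtG8 _ hQ g).mp hg
      exact ⟨slL8 (c * (ψ ⬝ᵥ u)), Subgroup.subset_closure ⟨rfl, rfl, rfl⟩, hL c⟩

end rt8d

end Cfsg.Agent.Lib.Helper8
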