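import Mathlib
import Cfsg.Prelude.Def_RootSubgroups
import Cfsg.Agent.Lib.Helper8.TV2

set_option autoImplicit false

namespace Cfsg.Agent.Lib.Helper8

open Matrix

section tv8c

variable {F : Type*} [Field F]

theorem fin_ne01_8 (n : ℕ) : (0 : Fin (n + 3)) ≠ 1 := by
  intro h
  have h' := congrArg Fin.val h
  simp at h'

theorem fin_ne02_8 (n : ℕ) : (0 : Fin (n + 3)) ≠ 2 := by
  intro h
  have h' := congrArg Fin.val h
  have h2 : 2 % (n + 3) = 2 := Nat.mod_eq_of_lt (by omega)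
  simp at h'
  omega

theorem fin_ne12_8 (n : ℕ) : (1 : Fin (n + 3)) ≠ 2 := by
  intro h
  have h' := congrArg Fin.val h
  have h2 : 2 % (n + 3) = 2 := Nat.mod_eq_of_lt (by omega)
  simp at h'
  omega

theorem tv_mem_iff8 {n : ℕ} (t : Matrix.SpecialLinearGroup (Fin (n + 3)) F) :
    (∃ c : F, c ≠ 0 ∧ ∃ g : Matrix.SpecialLinearGroup (Fin (n + 3)) F,
      ((g⁻¹ * t * g : Matrix.SpecialLinearGroup (Fin (n + 3)) F) :
        Matrix (Fin (n + 3)) (Fin (n + 3)) F) = Matrix.transvection 0 1 c) ↔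
      IsTv8 (t : Matrix (Fin (n + 3)) (Fin (n + 3)) F) := by
  have h01 : (0 : Fin (n + 3)) ≠ 1 := fin_ne01_8 n
  constructor
  · rintro ⟨c, hc, g, hg⟩
    have h1 : t = g * (g⁻¹ * t * g) * g⁻¹ := by group
    have h2 : (t : Matrix (Fin (n + 3)) (Fin (n + 3)) F) =
        (g : Matrix (Fin (n + 3)) (Fin (n + 3)) F) * Matrix.transvection 0 1 c *
          ((g⁻¹ : Matrix.SpecialLinearGroup (Fin (n + 3)) F) :
            Matrix (Fin (n + 3)) (Fin (n + 3)) F) := by
      rw [← hg, ← Matrix.SpecialLinearGroup.coe_mul, ← Matrix.SpecialLinearGroup.coe_mul, ← h1]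
    rw [h2]
    refine isTv_conj8 _ _ ?_ ?_ _ (isTv_transvection8 h01 c hc)
    · rw [← Matrix.SpecialLinearGroup.coe_mul, mul_inv_cancel, Matrix.SpecialLinearGroup.coe_one]
    · rw [← Matrix.SpecialLinearGroup.coe_mul, inv_mul_cancel, Matrix.SpecialLinearGroup.coe_one]
  · rintro ⟨u, φ, hu, hφ, hφu, ht⟩
    obtain ⟨c, hc, hconj⟩ := tv_reduce8 h01 t u φ ht hu hφ hφu
    obtain ⟨g, hg⟩ := isConj_iff.mp hconj
    refine ⟨c, hc, g⁻¹, ?_⟩
    rw [inv_inv, hg, Matrix.SpecialLinearGroup.transvection_coe]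
    rfl

theorem tv_main8 (F : Type*) [Field F] [Fintype F] [CharP F 2] (n : ℕ) :
    Cfsg.IsRootInvolutionClass {t : Matrix.SpecialLinearGroup (Fin (n + 3)) F | ∃ c : F, c ≠ 0 ∧
        ∃ g : Matrix.SpecialLinearGroup (Fin (n + 3)) F,
          ((g⁻¹ * t * g : Matrix.SpecialLinearGroup (Fin (n + 3)) F) :
            Matrix (Fin (n + 3)) (Fin (n + 3)) F) = Matrix.transvection 0 1 c} ∧
    (Fintype.card F = 2 → Cfsg.IsThreeFourPlusTranspositionSet
      {t : Matrix.SpecialLinearGroup (Fin (n + 3)) F | ∃ c : F, c ≠ 0 ∧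
        ∃ g : Matrix.SpecialLinearGroup (Fin (n + 3)) F,
          ((g⁻¹ * t * g : Matrix.SpecialLinearGroup (Fin (n + 3)) F) :
            Matrix (Fin (n + 3)) (Fin (n + 3)) F) = Matrix.transvection 0 1 c}) := by
  obtain ⟨D, hD⟩ : ∃ D : Set (Matrix.SpecialLinearGroup (Fin (n + 3)) F),
      D = {t : Matrix.SpecialLinearGroup (Fin (n + 3)) F | ∃ c : F, c ≠ 0 ∧
        ∃ g : Matrix.SpecialLinearGroup (Fin (n + 3)) F,
          ((g⁻¹ * t * g : Matrix.SpecialLinearGroup (Fin (n + 3)) F) :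
            Matrix (Fin (n + 3)) (Fin (n + 3)) F) = Matrix.transvection 0 1 c} := ⟨_, rfl⟩
  rw [← hD]
  have hmem : ∀ t, t ∈ D ↔ IsTv8 (t : Matrix (Fin (n + 3)) (Fin (n + 3)) F) := by
    intro t
    rw [hD]
    exact tv_mem_iff8 t
  have h01 : (0 : Fin (n + 3)) ≠ 1 := fin_ne01_8 n
  have h02 : (0 : Fin (n + 3)) ≠ 2 := fin_ne02_8 n
  have h12 : (1 : Fin (n + 3)) ≠ 2 := fin_ne12_8 n
  have hsq : ∀ d ∈ D, d * d = 1 := fun d hd => by
    apply Subtype.ext
    rw [Matrix.SpecialLinearGroup.coe_mul, isTv_sq8 _ ((hmem d).mp hd),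
      Matrix.SpecialLinearGroup.coe_one]
  have hne1 : ∀ d ∈ D, d ≠ 1 := fun d hd h =>
    isTv_ne_one8 _ ((hmem d).mp hd) (by rw [h, Matrix.SpecialLinearGroup.coe_one])
  have hconj : ∀ d ∈ D, ∀ g : Matrix.SpecialLinearGroup (Fin (n + 3)) F, g * d * g⁻¹ ∈ D := by
    intro d hd g
    rw [hmem, Matrix.SpecialLinearGroup.coe_mul, Matrix.SpecialLinearGroup.coe_mul]
    refine isTv_conj8 _ _ ?_ ?_ _ ((hmem d).mp hd)
    · rw [← Matrix.SpecialLinearGroup.coe_mul, mul_inv_cancel, Matrix.SpecialLinearGroup.coe_one]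
    · rw [← Matrix.SpecialLinearGroup.coe_mul, inv_mul_cancel, Matrix.SpecialLinearGroup.coe_one]
  have hodd : Odd (Fintype.card F * Fintype.card F - 1) := by
    obtain ⟨f, -, hq⟩ := FiniteField.card F 2
    have h2 : 2 ∣ Fintype.card F := by
      rw [hq]
      exact dvd_pow_self 2 (PNat.ne_zero f)
    have hpos : 0 < Fintype.card F := Fintype.card_pos
    exact Nat.Even.sub_odd (Nat.mul_pos hpos hpos) ((even_iff_two_dvd.mpr h2).mul_right _) odd_one
  have hroot : Cfsg.IsRootInvolutionSet D := by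
    refine ⟨fun d hd => ?_, ?_, hconj, ?_⟩
    · exact orderOf_eq_prime (by rw [pow_two]; exact hsq d hd) (hne1 d hd)
    · apply Cfsg.Agent.Lib.Helper3.slg_top_gen
      intro i j hij c
      by_cases hc : c = 0
      · rw [hc, Matrix.SpecialLinearGroup.transvection_coeff_zero]
        exact Subgroup.one_mem _
      · apply Subgroup.subset_closure
        rw [hmem, Matrix.SpecialLinearGroup.transvection_coe]
        exact isTv_transvection8 hij c hc
    · intro a ha b hb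
      rcases tv_pair8 a b ((hmem a).mp ha) ((hmem b).mp hb) with h | h | ⟨h1, h2⟩
      · exact Or.inl h
      · exact Or.inr (Or.inl (Odd.of_dvd_nat hodd (orderOf_dvd_of_pow_eq_one h)))
      · exact Or.inr (Or.inr ⟨h1, (hmem _).mpr h2⟩)
  refine ⟨⟨hroot, ?_, ?_⟩, ?_⟩
  · exact ⟨Matrix.SpecialLinearGroup.transvection h01 1, (hmem _).mpr (by
      rw [Matrix.SpecialLinearGroup.transvection_coe]
      exact isTv_transvection8 h01 1 one_ne_zero)⟩
  · intro a ha b hb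
    obtain ⟨u, φ, hu, hφ, hφu, hau⟩ := (hmem a).mp ha
    obtain ⟨v, ψ, hv, hψ, hψv, hbv⟩ := (hmem b).mp hb
    obtain ⟨c, hc, h1⟩ := tv_reduce8 h01 a u φ hau hu hφ hφu
    obtain ⟨c', hc', h2⟩ := tv_reduce8 h01 b v ψ hbv hv hψ hψv
    have h3 : IsConj a b := (h1.trans (tv_diag_conj8 h01 h02 h12 c c' hc hc')).trans h2.symm
    obtain ⟨g, hg⟩ := isConj_iff.mp h3
    exact ⟨g, hg.symm⟩
  · intro hq
    refine ⟨hroot, ?_⟩
    intro a ha b hb hoddab
    rcases tv_pair8 a b ((hmem a).mp ha) ((hmem b).mp hb) with h | h | ⟨h1, h2⟩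
    · left
      have h2 : (a * b) ^ 2 = 1 := by
        rw [pow_two, mul_assoc, ← mul_assoc b a b, ← h, mul_assoc a b b, hsq b hb, mul_one,
          hsq a ha]
      have h3 : orderOf (a * b) ∣ 2 := orderOf_dvd_of_pow_eq_one h2
      rcases (Nat.dvd_prime Nat.prime_two).mp h3 with h4 | h4
      · exact h4
      · rw [h4] at hoddab
        exact absurd hoddab (by decide)
    · rw [hq] at h
      have h3 : orderOf (a * b) ∣ 3 := orderOf_dvd_of_pow_eq_one h
      exact (Nat.dvd_prime Nat.prime_three).mp h3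
    · rw [h1] at hoddab
      exact absurd hoddab (by decide)

end tv8c

end Cfsg.Agent.Lib.Helper8
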