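import Mathlib
import Cfsg.Prelude.Def_RootSubgroups
import Cfsg.Agent.Lib.Helper8.TV3
import Cfsg.Agent.Lib.Helper8.RT4

set_option autoImplicit false

namespace Cfsg.Agent.Lib.Helper8

open Matrix

section rt8e

variable {k : Type*} [Field k] {ι : Type*} [Fintype ι] [DecidableEq ι]

theorem conjBy_mul8 {G : Type*} [Group G] (A : Subgroup G) (g h : G) :
    Cfsg.conjBy (Cfsg.conjBy A g) h = Cfsg.conjBy A (h * g) := by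
  ext x
  simp only [Subgroup.mem_map]
  constructor
  · rintro ⟨y, ⟨z, hz, rfl⟩, rfl⟩
    exact ⟨z, hz, by simp [mul_assoc]⟩
  · rintro ⟨z, hz, rfl⟩
    exact ⟨_, ⟨z, hz, rfl⟩, by simp [mul_assoc]⟩

theorem e_ne_zero8 (i : ι) : (Pi.single i (1 : k) : ι → k) ≠ 0 := by
  intro h
  have h1 := congrFun h i
  simp at h1

theorem e_dot_same8 (i : ι) : (Pi.single i (1 : k) : ι → k) ⬝ᵥ Pi.single i (1 : k) = 1 := by
  rw [single_dotProduct, one_mul, Pi.single_eq_same]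

theorem e_dot_ne8 (i j : ι) (h : i ≠ j) :
    (Pi.single i (1 : k) : ι → k) ⬝ᵥ Pi.single j (1 : k) = 0 := by
  rw [single_dotProduct, one_mul, Pi.single_apply, if_neg h]

theorem isRk_e8 (i j : ι) (h : i ≠ j) :
    IsRk8 (vecMulVec (Pi.single i (1 : k)) (Pi.single j (1 : k)) : Matrix ι ι k) :=
  ⟨_, _, e_ne_zero8 i, e_ne_zero8 j, e_dot_ne8 j i h.symm, rfl⟩

/-- The set of root groups. -/
def rtSig8 (k : Type*) [Field k] (ι : Type*) [Fintype ι] [DecidableEq ι] :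
    Set (Subgroup (Matrix.SpecialLinearGroup ι k)) :=
  {A | ∃ N : Matrix ι ι k, IsRk8 N ∧ A = rtG8 N}

theorem rt_pair_cases8 (u φ v ψ : ι → k) (hu : u ≠ 0) (hφ : φ ≠ 0) (hv : v ≠ 0) (hψ : ψ ≠ 0)
    (hφu : φ ⬝ᵥ u = 0) (hψv : ψ ⬝ᵥ v = 0) :
    (φ ⬝ᵥ v = 0 ∧ ψ ⬝ᵥ u = 0 ∧ ⁅rtG8 (vecMulVec u φ), rtG8 (vecMulVec v ψ)⁆ = ⊥) ∨
    (φ ⬝ᵥ v ≠ 0 ∧ ψ ⬝ᵥ u ≠ 0 ∧
      Cfsg.IsRankOnePair (rtG8 (vecMulVec u φ)) (rtG8 (vecMulVec v ψ))) ∨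
    ((φ ⬝ᵥ v) * (ψ ⬝ᵥ u) = 0 ∧
      Cfsg.RootCommutatorCase (rtSig8 k ι) (rtG8 (vecMulVec u φ)) (rtG8 (vecMulVec v ψ))) := by
  have hP : IsRk8 (vecMulVec u φ) := ⟨u, φ, hu, hφ, hφu, rfl⟩
  have hQ : IsRk8 (vecMulVec v ψ) := ⟨v, ψ, hv, hψ, hψv, rfl⟩
  have h := rk_rel8 u φ v ψ hφu hψv
  have h' := rk_rel8 v ψ u φ hψv hφu
  have hSg : ∀ N : Matrix ι ι k, IsRk8 N → rtG8 N ∈ rtSig8 k ι := fun N hN => ⟨N, hN, rfl⟩
  by_cases hα : φ ⬝ᵥ v = 0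
  · by_cases hβ : ψ ⬝ᵥ u = 0
    · exact Or.inl ⟨hα, hβ, rt_comm8 hP hQ h hα hβ⟩
    · refine Or.inr (Or.inr ⟨by rw [hα, zero_mul], ?_⟩)
      refine rt_commcase8 _ hSg hP hQ h (by rw [hα, zero_mul]) ?_
      exact ⟨(-(ψ ⬝ᵥ u)) • v, φ, smul_ne_zero (neg_ne_zero.mpr hβ) hv, hφ,
        by rw [dotProduct_smul, hα, smul_zero],
        by rw [hα, zero_smul, zero_sub, smul_vecMulVec, neg_smul]⟩
  · by_cases hβ : ψ ⬝ᵥ u = 0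
    · refine Or.inr (Or.inr ⟨by rw [hβ, mul_zero], ?_⟩)
      refine rt_commcase8 _ hSg hP hQ h (by rw [hβ, mul_zero]) ?_
      exact ⟨(φ ⬝ᵥ v) • u, ψ, smul_ne_zero hα hu, hψ,
        by rw [dotProduct_smul, hβ, smul_zero],
        by rw [hβ, zero_smul, sub_zero, smul_vecMulVec]⟩
    · refine Or.inr (Or.inl ⟨hα, hβ, ?_, rtG_nilp8 _ hP, rtG_nilp8 _ hQ,
        rt_rankOneCond8 hP hQ h hα hβ, rt_rankOneCond8 hQ hP h' hβ hα⟩)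
      intro heq
      obtain ⟨a, ha⟩ := rtG_eq_imp8 _ _ hP hQ heq
      have h1 : vecMulVec u φ * vecMulVec v ψ = 0 := by
        rw [ha, mul_smul_comm, h.hPP, smul_zero]
      rw [h.hPQ] at h1
      rcases smul_eq_zero.mp h1 with h2 | h2
      · exact hα h2
      · exact vecMulVec_ne_zero8 u ψ hu hψ h2

theorem rt_exists_mid8 (u φ v ψ : ι → k) (hu : u ≠ 0) (hφ : φ ≠ 0) (hv : v ≠ 0) (hψ : ψ ≠ 0)
    (hφu : φ ⬝ᵥ u = 0) (hψv : ψ ⬝ᵥ v = 0) :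
    ∃ w χ : ι → k, χ ⬝ᵥ w = 0 ∧ φ ⬝ᵥ w ≠ 0 ∧ χ ⬝ᵥ u ≠ 0 ∧ ψ ⬝ᵥ w ≠ 0 ∧ χ ⬝ᵥ v ≠ 0 := by
  obtain ⟨w, hw1, hw2⟩ : ∃ w : ι → k, φ ⬝ᵥ w ≠ 0 ∧ ψ ⬝ᵥ w ≠ 0 := by
    obtain ⟨i, hi⟩ := Function.ne_iff.mp hφ
    obtain ⟨j, hj⟩ := Function.ne_iff.mp hψ
    have h1 : φ ⬝ᵥ Pi.single i (1 : k) ≠ 0 := by
      rw [dotProduct_single, mul_one]
      exact hi
    have h2 : ψ ⬝ᵥ Pi.single j (1 : k) ≠ 0 := by
      rw [dotProduct_single, mul_one]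
      exact hj
    by_cases h3 : ψ ⬝ᵥ Pi.single i (1 : k) ≠ 0
    · exact ⟨_, h1, h3⟩
    · by_cases h4 : φ ⬝ᵥ Pi.single j (1 : k) ≠ 0
      · exact ⟨_, h4, h2⟩
      · push Not at h3 h4
        refine ⟨Pi.single i (1 : k) + Pi.single j (1 : k), ?_, ?_⟩
        · rw [dotProduct_add, h4, add_zero]
          exact h1
        · rw [dotProduct_add, h3, zero_add]
          exact h2
  obtain ⟨χ1, hχ1w, hχ1u⟩ : ∃ χ : ι → k, χ ⬝ᵥ w = 0 ∧ χ ⬝ᵥ u ≠ 0 := by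
    obtain ⟨i, hi⟩ := Function.ne_iff.mp hu
    refine ⟨Pi.single i (1 : k) - ((Pi.single i (1 : k) ⬝ᵥ w) / (φ ⬝ᵥ w)) • φ, ?_, ?_⟩
    · rw [sub_dotProduct, smul_dotProduct, smul_eq_mul, div_mul_cancel₀ _ hw1, sub_self]
    · rw [sub_dotProduct, smul_dotProduct, hφu, smul_zero, sub_zero, single_dotProduct, one_mul]
      exact hi
  obtain ⟨χ2, hχ2w, hχ2v⟩ : ∃ χ : ι → k, χ ⬝ᵥ w = 0 ∧ χ ⬝ᵥ v ≠ 0 := by
    obtain ⟨i, hi⟩ := Function.ne_iff.mp hv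
    refine ⟨Pi.single i (1 : k) - ((Pi.single i (1 : k) ⬝ᵥ w) / (ψ ⬝ᵥ w)) • ψ, ?_, ?_⟩
    · rw [sub_dotProduct, smul_dotProduct, smul_eq_mul, div_mul_cancel₀ _ hw2, sub_self]
    · rw [sub_dotProduct, smul_dotProduct, hψv, smul_zero, sub_zero, single_dotProduct, one_mul]
      exact hi
  by_cases h1 : χ1 ⬝ᵥ v ≠ 0
  · exact ⟨w, χ1, hχ1w, hw1, hχ1u, hw2, h1⟩
  · by_cases h2 : χ2 ⬝ᵥ u ≠ 0
    · exact ⟨w, χ2, hχ2w, hw1, h2, hw2, hχ2v⟩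
    · push Not at h1 h2
      refine ⟨w, χ1 + χ2, ?_, hw1, ?_, hw2, ?_⟩
      · rw [add_dotProduct, hχ1w, hχ2w, add_zero]
      · rw [add_dotProduct, h2, add_zero]
        exact hχ1u
      · rw [add_dotProduct, h1, zero_add]
        exact hχ2v

theorem rt_main_gen8 (k : Type*) [Field k] (n : ℕ) :
    Cfsg.IsRootSubgroupSet (rtSig8 k (Fin (n + 3))) ∧
      Cfsg.IsNondegenerateRootSet (rtSig8 k (Fin (n + 3))) ∧
      Cfsg.IsKRootSubgroupSet k (rtSig8 k (Fin (n + 3))) ∧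
      Cfsg.IsConnectedFamily (Cfsg.FAdj (rtSig8 k (Fin (n + 3)))) (rtSig8 k (Fin (n + 3))) := by
  have h01 : (0 : Fin (n + 3)) ≠ 1 := fin_ne01_8 n
  have h02 : (0 : Fin (n + 3)) ≠ 2 := fin_ne02_8 n
  have h12 : (1 : Fin (n + 3)) ≠ 2 := fin_ne12_8 n
  have hroot : Cfsg.IsRootSubgroupSet (rtSig8 k (Fin (n + 3))) := by
    refine ⟨?_, ?_, ?_, ?_, ?_⟩
    · rintro A ⟨N, hN, rfl⟩
      exact rtG_isComm8 N hN
    · rintro A ⟨N, hN, rfl⟩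
      exact rtG_ne_bot8 N hN
    · apply Cfsg.Agent.Lib.Helper3.slg_top_gen
      intro i j hij c
      have hN := isRk_e8 (k := k) i j hij
      have h1 : rtG8 (vecMulVec (Pi.single i (1 : k)) (Pi.single j (1 : k))) ≤
          ⨆ A ∈ rtSig8 k (Fin (n + 3)), A :=
        le_biSup (fun A => A) (⟨_, hN, rfl⟩ : rtG8 _ ∈ rtSig8 k (Fin (n + 3)))
      have h2 : Matrix.SpecialLinearGroup.transvection hij c = rtg8 _ hN c := by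
        apply Subtype.ext
        show (Matrix.SpecialLinearGroup.transvection hij c :
          Matrix (Fin (n + 3)) (Fin (n + 3)) k) = 1 + c • vecMulVec _ _
        rw [Matrix.SpecialLinearGroup.transvection_coe, ← single_eq_single_vecMulVec_single,
          Matrix.smul_single, smul_eq_mul, mul_one]
      rw [h2]
      exact h1 (rtg_mem8 _ hN c)
    · rintro A ⟨N, hN, rfl⟩ g
      exact ⟨_, isRk_conj_sl8 N hN g, rtG_conj8 N hN g⟩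
    · rintro A ⟨N, ⟨u, φ, hu, hφ, hφu, rfl⟩, rfl⟩ B ⟨N', ⟨v, ψ, hv, hψ, hψv, rfl⟩, rfl⟩
      rcases rt_pair_cases8 u φ v ψ hu hφ hv hψ hφu hψv with h | h | h
      · exact Or.inl h.2.2
      · exact Or.inr (Or.inl h.2.2)
      · exact Or.inr (Or.inr h.2)
  refine ⟨hroot, ⟨?_, ?_, ?_⟩, ⟨hroot, ?_⟩, ?_⟩
  · -- commuting pair
    refine ⟨_, ⟨_, isRk_e8 (k := k) 0 1 h01, rfl⟩, _, ⟨_, isRk_e8 (k := k) 0 2 h02, rfl⟩, ?_, ?_⟩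
    · intro heq
      obtain ⟨a, ha⟩ := rtG_eq_imp8 _ _ (isRk_e8 (k := k) 0 1 h01) (isRk_e8 (k := k) 0 2 h02) heq
      have h1 := congrFun (congrFun ha 0) 2
      rw [vecMulVec_apply, Matrix.smul_apply, vecMulVec_apply, Pi.single_eq_same,
        Pi.single_eq_same, Pi.single_apply, if_neg h12.symm] at h1
      simp at h1
    · exact rt_comm8 (isRk_e8 (k := k) 0 1 h01) (isRk_e8 (k := k) 0 2 h02)
        (rk_rel8 _ _ _ _ (e_dot_ne8 1 0 h01.symm) (e_dot_ne8 2 0 h02.symm))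
        (e_dot_ne8 1 0 h01.symm) (e_dot_ne8 2 0 h02.symm)
  · -- rank one pair
    refine ⟨_, ⟨_, isRk_e8 (k := k) 0 1 h01, rfl⟩, _, ⟨_, isRk_e8 (k := k) 1 0 h01.symm, rfl⟩, ?_⟩
    rcases rt_pair_cases8 (Pi.single 0 (1 : k)) (Pi.single 1 (1 : k)) (Pi.single 1 (1 : k))
      (Pi.single 0 (1 : k)) (e_ne_zero8 _) (e_ne_zero8 _) (e_ne_zero8 _) (e_ne_zero8 _)
      (e_dot_ne8 1 0 h01.symm) (e_dot_ne8 0 1 h01) with h | h | h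
    · rw [e_dot_same8] at h
      exact absurd h.1 one_ne_zero
    · exact h.2.2
    · rw [e_dot_same8, e_dot_same8, one_mul] at h
      exact absurd h.1 one_ne_zero
  · -- commutator case
    refine ⟨_, ⟨_, isRk_e8 (k := k) 0 1 h01, rfl⟩, _, ⟨_, isRk_e8 (k := k) 1 2 h12, rfl⟩, ?_⟩
    rcases rt_pair_cases8 (Pi.single 0 (1 : k)) (Pi.single 1 (1 : k)) (Pi.single 1 (1 : k))
      (Pi.single 2 (1 : k)) (e_ne_zero8 _) (e_ne_zero8 _) (e_ne_zero8 _) (e_ne_zero8 _)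
      (e_dot_ne8 1 0 h01.symm) (e_dot_ne8 2 1 h12.symm) with h | h | h
    · rw [e_dot_same8] at h
      exact absurd h.1 one_ne_zero
    · rw [e_dot_ne8 2 0 h02.symm] at h
      exact absurd rfl h.2.1
    · exact h.2
  · rintro A ⟨N, ⟨u, φ, hu, hφ, hφu, rfl⟩, rfl⟩ B ⟨N', ⟨v, ψ, hv, hψ, hψv, rfl⟩, rfl⟩ hpair
    have hP : IsRk8 (vecMulVec u φ) := ⟨u, φ, hu, hφ, hφu, rfl⟩
    have hQ : IsRk8 (vecMulVec v ψ) := ⟨v, ψ, hv, hψ, hψv, rfl⟩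
    obtain ⟨hα, hβ⟩ := rt_rankone_imp8 hP hQ (rk_rel8 u φ v ψ hφu hψv)
      (vecMulVec_ne_zero8 u ψ hu hψ) (vecMulVec_ne_zero8 v φ hv hφ) hpair
    exact rt_psl2pair8 u φ v ψ hu hφ hv hψ hφu hψv hα hβ
  · rintro A ⟨N, ⟨u, φ, hu, hφ, hφu, rfl⟩, rfl⟩ B ⟨N', ⟨v, ψ, hv, hψ, hψv, rfl⟩, rfl⟩
    obtain ⟨w, χ, hχw, h1, h2, h3, h4⟩ := rt_exists_mid8 u φ v ψ hu hφ hv hψ hφu hψv
    have hw : w ≠ 0 := by
      intro h0
      rw [h0, dotProduct_zero] at h1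
      exact h1 rfl
    have hχ : χ ≠ 0 := by
      intro h0
      rw [h0, zero_dotProduct] at h2
      exact h2 rfl
    have hP : IsRk8 (vecMulVec u φ) := ⟨u, φ, hu, hφ, hφu, rfl⟩
    have hQ : IsRk8 (vecMulVec v ψ) := ⟨v, ψ, hv, hψ, hψv, rfl⟩
    have hC : IsRk8 (vecMulVec w χ) := ⟨w, χ, hw, hχ, hχw, rfl⟩
    have p1 : Cfsg.IsRankOnePair (rtG8 (vecMulVec u φ)) (rtG8 (vecMulVec w χ)) := by
      rcases rt_pair_cases8 u φ w χ hu hφ hw hχ hφu hχw with h | h | h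
      · exact absurd h.1 h1
      · exact h.2.2
      · rcases mul_eq_zero.mp h.1 with h5 | h5
        · exact absurd h5 h1
        · exact absurd h5 h2
    have p2 : Cfsg.IsRankOnePair (rtG8 (vecMulVec w χ)) (rtG8 (vecMulVec v ψ)) := by
      rcases rt_pair_cases8 w χ v ψ hw hχ hv hψ hχw hψv with h | h | h
      · exact absurd h.1 h4
      · exact h.2.2
      · rcases mul_eq_zero.mp h.1 with h5 | h5
        · exact absurd h5 h4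
        · exact absurd h5 h3
    exact Relation.ReflTransGen.head ⟨⟨_, hP, rfl⟩, ⟨_, hC, rfl⟩, p1⟩
      (Relation.ReflTransGen.single ⟨⟨_, hC, rfl⟩, ⟨_, hQ, rfl⟩, p2⟩)

end rt8e

end Cfsg.Agent.Lib.Helper8
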