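import Mathlib
import Cfsg.Prelude.Def_RootSubgroups
import Cfsg.Agent.Lib.Helper8.RT5

set_option autoImplicit false

namespace Cfsg.Agent.Lib.Helper8

open Matrix

section rt8f

theorem rt_U0_eq8 (k : Type*) [Field k] (n : ℕ) :
    Subgroup.closure {t : Matrix.SpecialLinearGroup (Fin (n + 3)) k |
        ∃ c : k, (t : Matrix (Fin (n + 3)) (Fin (n + 3)) k) = Matrix.transvection 0 1 c} =
      rtG8 (vecMulVec (Pi.single 0 (1 : k)) (Pi.single 1 (1 : k))) := by
  have hset : {t : Matrix.SpecialLinearGroup (Fin (n + 3)) k |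
        ∃ c : k, (t : Matrix (Fin (n + 3)) (Fin (n + 3)) k) = Matrix.transvection 0 1 c} =
      rtS8 (vecMulVec (Pi.single 0 (1 : k)) (Pi.single 1 (1 : k))) := by
    ext t
    constructor
    · rintro ⟨c, hc⟩
      refine ⟨c, ?_⟩
      rw [hc, Matrix.transvection, ← single_eq_single_vecMulVec_single, Matrix.smul_single,
        smul_eq_mul, mul_one]
    · rintro ⟨c, hc⟩
      refine ⟨c, ?_⟩
      rw [hc, Matrix.transvection, ← single_eq_single_vecMulVec_single, Matrix.smul_single,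
        smul_eq_mul, mul_one]
  rw [hset]
  rfl

theorem rt_sig_mem8 (k : Type*) [Field k] (n : ℕ)
    (A : Subgroup (Matrix.SpecialLinearGroup (Fin (n + 3)) k)) :
    (∃ g : Matrix.SpecialLinearGroup (Fin (n + 3)) k,
      A = Cfsg.conjBy (Subgroup.closure {t : Matrix.SpecialLinearGroup (Fin (n + 3)) k |
        ∃ c : k, (t : Matrix (Fin (n + 3)) (Fin (n + 3)) k) = Matrix.transvection 0 1 c}) g) ↔
      A ∈ rtSig8 k (Fin (n + 3)) := by
  have h01 : (0 : Fin (n + 3)) ≠ 1 := fin_ne01_8 n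
  have hN0 := isRk_e8 (k := k) (0 : Fin (n + 3)) 1 h01
  rw [rt_U0_eq8]
  constructor
  · rintro ⟨g, rfl⟩
    exact ⟨_, isRk_conj_sl8 _ hN0 g, rtG_conj8 _ hN0 g⟩
  · rintro ⟨N, hN, rfl⟩
    have hN' := hN
    obtain ⟨u, φ, hu, hφ, hφu, hNeq⟩ := hN'
    have ht : ((rtg8 N hN 1 : Matrix.SpecialLinearGroup (Fin (n + 3)) k) :
        Matrix (Fin (n + 3)) (Fin (n + 3)) k) = 1 + vecMulVec u φ := by
      show 1 + (1 : k) • N = _
      rw [one_smul, hNeq]
    obtain ⟨c, hc, hconj⟩ := tv_reduce8 h01 (rtg8 N hN 1) u φ ht hu hφ hφu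
    obtain ⟨g, hg⟩ := isConj_iff.mp hconj
    have e1 := congrArg Subtype.val ((rtg_conj8 N hN g 1).symm.trans hg)
    have e2 : (1 : Matrix (Fin (n + 3)) (Fin (n + 3)) k) + (1 : k) • ((g : Matrix (Fin (n + 3))
        (Fin (n + 3)) k) * N * ((g⁻¹ : Matrix.SpecialLinearGroup (Fin (n + 3)) k) :
        Matrix (Fin (n + 3)) (Fin (n + 3)) k)) = 1 + Matrix.single 0 1 c := by
      rw [← Matrix.SpecialLinearGroup.transvection_coe h01 c]
      exact e1
    rw [one_smul] at e2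
    have e3 := add_left_cancel e2
    refine ⟨g⁻¹, ?_⟩
    rw [rtG_conj8 _ hN0 g⁻¹, inv_inv]
    have e5 : c • (((g⁻¹ : Matrix.SpecialLinearGroup (Fin (n + 3)) k) :
        Matrix (Fin (n + 3)) (Fin (n + 3)) k) *
        vecMulVec (Pi.single 0 (1 : k)) (Pi.single 1 (1 : k)) *
        (g : Matrix (Fin (n + 3)) (Fin (n + 3)) k)) = N := by
      have e6 : c • vecMulVec (Pi.single (0 : Fin (n + 3)) (1 : k)) (Pi.single 1 (1 : k)) =
          (g : Matrix (Fin (n + 3)) (Fin (n + 3)) k) * N *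
            ((g⁻¹ : Matrix.SpecialLinearGroup (Fin (n + 3)) k) :
              Matrix (Fin (n + 3)) (Fin (n + 3)) k) := by
        rw [e3, ← single_eq_single_vecMulVec_single, Matrix.smul_single, smul_eq_mul, mul_one]
      rw [← smul_mul_assoc, ← mul_smul_comm, e6,
        Matrix.mul_assoc ((g⁻¹ : Matrix.SpecialLinearGroup (Fin (n + 3)) k) :
          Matrix (Fin (n + 3)) (Fin (n + 3)) k) _ (g : Matrix (Fin (n + 3)) (Fin (n + 3)) k),
        Matrix.mul_assoc ((g : Matrix (Fin (n + 3)) (Fin (n + 3)) k) * N) _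
          (g : Matrix (Fin (n + 3)) (Fin (n + 3)) k),
        sl_inv_mul_coe8, Matrix.mul_one, ← Matrix.mul_assoc, sl_inv_mul_coe8, Matrix.one_mul]
    have e4 : ((g⁻¹ : Matrix.SpecialLinearGroup (Fin (n + 3)) k) :
        Matrix (Fin (n + 3)) (Fin (n + 3)) k) *
        vecMulVec (Pi.single 0 (1 : k)) (Pi.single 1 (1 : k)) *
        (g : Matrix (Fin (n + 3)) (Fin (n + 3)) k) = c⁻¹ • N := by
      rw [← e5, smul_smul, inv_mul_cancel₀ hc, one_smul]
    rw [e4, rtG_smul8 N hN c⁻¹ (inv_ne_zero hc)]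

theorem rt_main8 (k : Type*) [Field k] (n : ℕ) :
    Cfsg.IsRootSubgroupClass {A : Subgroup (Matrix.SpecialLinearGroup (Fin (n + 3)) k) |
        ∃ g : Matrix.SpecialLinearGroup (Fin (n + 3)) k,
          A = Cfsg.conjBy (Subgroup.closure {t : Matrix.SpecialLinearGroup (Fin (n + 3)) k |
            ∃ c : k, (t : Matrix (Fin (n + 3)) (Fin (n + 3)) k) = Matrix.transvection 0 1 c}) g} ∧
    Cfsg.IsNondegenerateRootSet {A : Subgroup (Matrix.SpecialLinearGroup (Fin (n + 3)) k) |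
        ∃ g : Matrix.SpecialLinearGroup (Fin (n + 3)) k,
          A = Cfsg.conjBy (Subgroup.closure {t : Matrix.SpecialLinearGroup (Fin (n + 3)) k |
            ∃ c : k, (t : Matrix (Fin (n + 3)) (Fin (n + 3)) k) = Matrix.transvection 0 1 c}) g} ∧
    Cfsg.IsKRootSubgroupSet k {A : Subgroup (Matrix.SpecialLinearGroup (Fin (n + 3)) k) |
        ∃ g : Matrix.SpecialLinearGroup (Fin (n + 3)) k,
          A = Cfsg.conjBy (Subgroup.closure {t : Matrix.SpecialLinearGroup (Fin (n + 3)) k |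
            ∃ c : k, (t : Matrix (Fin (n + 3)) (Fin (n + 3)) k) = Matrix.transvection 0 1 c}) g} ∧
    Cfsg.IsConnectedFamily (Cfsg.FAdj {A : Subgroup (Matrix.SpecialLinearGroup (Fin (n + 3)) k) |
        ∃ g : Matrix.SpecialLinearGroup (Fin (n + 3)) k,
          A = Cfsg.conjBy (Subgroup.closure {t : Matrix.SpecialLinearGroup (Fin (n + 3)) k |
            ∃ c : k, (t : Matrix (Fin (n + 3)) (Fin (n + 3)) k) = Matrix.transvection 0 1 c}) g})
      {A : Subgroup (Matrix.SpecialLinearGroup (Fin (n + 3)) k) |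
        ∃ g : Matrix.SpecialLinearGroup (Fin (n + 3)) k,
          A = Cfsg.conjBy (Subgroup.closure {t : Matrix.SpecialLinearGroup (Fin (n + 3)) k |
            ∃ c : k, (t : Matrix (Fin (n + 3)) (Fin (n + 3)) k) = Matrix.transvection 0 1 c}) g} := by
  obtain ⟨Sg, hSg⟩ : ∃ Sg : Set (Subgroup (Matrix.SpecialLinearGroup (Fin (n + 3)) k)),
      Sg = {A : Subgroup (Matrix.SpecialLinearGroup (Fin (n + 3)) k) |
        ∃ g : Matrix.SpecialLinearGroup (Fin (n + 3)) k,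
          A = Cfsg.conjBy (Subgroup.closure {t : Matrix.SpecialLinearGroup (Fin (n + 3)) k |
            ∃ c : k, (t : Matrix (Fin (n + 3)) (Fin (n + 3)) k) = Matrix.transvection 0 1 c}) g} :=
    ⟨_, rfl⟩
  rw [← hSg]
  have hmem : ∀ A, A ∈ Sg ↔ A ∈ rtSig8 k (Fin (n + 3)) := fun A => by
    rw [hSg]
    exact rt_sig_mem8 k n A
  have heq : Sg = rtSig8 k (Fin (n + 3)) := Set.ext hmem
  obtain ⟨h1, h2, h3, h4⟩ := rt_main_gen8 k n
  have hclass : Cfsg.IsConjClassOfSubgroups Sg := by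
    rw [hSg]
    refine ⟨⟨_, 1, rfl⟩, ?_⟩
    rintro A ⟨g₁, rfl⟩ B ⟨g₂, rfl⟩
    exact ⟨g₂ * g₁⁻¹, by rw [conjBy_mul8, inv_mul_cancel_right]⟩
  rw [heq] at hclass ⊢
  exact ⟨⟨h1, hclass⟩, h2, h3, h4⟩

end rt8f

end Cfsg.Agent.Lib.Helper8
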