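import Mathlib
import Cfsg.Prelude.Def_ClassicalGeometry

set_option autoImplicit false

namespace Cfsg.Agent.Lib.Helper8

open Matrix

/-- The polar vector of `v` pairs with `x` to the polar form. -/
theorem polarVec_dot {ι : Type} [Fintype ι] [DecidableEq ι] {F : Type*} [Field F]
    (Q : QuadraticForm F (ι → F)) (v x : ι → F) :
    Cfsg.polarVec (⇑Q) v ⬝ᵥ x = QuadraticMap.polar (⇑Q) v x := by
  have h1 : x = ∑ j, x j • (Pi.single j (1 : F) : ι → F) := by
    ext k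
    simp [Finset.sum_apply, Pi.single_apply]
  have h2 : QuadraticMap.polar (⇑Q) v x = QuadraticMap.polarBilin Q v x := rfl
  rw [h2]
  conv_rhs => rw [h1]
  rw [map_sum]
  simp only [map_smul, dotProduct, Cfsg.polarVec, smul_eq_mul]
  refine Finset.sum_congr rfl fun j _ => ?_
  rw [mul_comm]
  rfl

/-- Product of two reflection matrices. -/
theorem reflMat_mul {ι : Type} [Fintype ι] [DecidableEq ι] {F : Type*} [Field F]
    (Q : QuadraticForm F (ι → F)) (u v : ι → F) :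
    Cfsg.reflectionMatrix (⇑Q) u * Cfsg.reflectionMatrix (⇑Q) v =
      1 - (Q u)⁻¹ • vecMulVec u (Cfsg.polarVec (⇑Q) u)
        - (Q v)⁻¹ • vecMulVec v (Cfsg.polarVec (⇑Q) v)
        + ((Q u)⁻¹ * (Q v)⁻¹ * QuadraticMap.polar (⇑Q) u v) •
            vecMulVec u (Cfsg.polarVec (⇑Q) v) := by
  unfold Cfsg.reflectionMatrix
  have key : ((Q u)⁻¹ • vecMulVec u (Cfsg.polarVec (⇑Q) u)) *
      ((Q v)⁻¹ • vecMulVec v (Cfsg.polarVec (⇑Q) v)) =
      ((Q u)⁻¹ * (Q v)⁻¹ * QuadraticMap.polar (⇑Q) u v) •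
            vecMulVec u (Cfsg.polarVec (⇑Q) v) := by
    rw [Matrix.smul_mul, Matrix.mul_smul, vecMulVec_mul_vecMulVec, polarVec_dot, vecMulVec_smul,
      smul_smul, smul_smul]
  simp only [sub_mul, mul_sub, one_mul, mul_one, key]
  abel

/-- Two reflection matrices commute iff the "cross terms" agree. -/
theorem reflMat_commute_iff {ι : Type} [Fintype ι] [DecidableEq ι] {F : Type*} [Field F]
    (Q : QuadraticForm F (ι → F)) (u v : ι → F) :
    Commute (Cfsg.reflectionMatrix (⇑Q) u) (Cfsg.reflectionMatrix (⇑Q) v) ↔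
      ((Q u)⁻¹ * (Q v)⁻¹ * QuadraticMap.polar (⇑Q) u v) •
            vecMulVec u (Cfsg.polarVec (⇑Q) v) =
      ((Q u)⁻¹ * (Q v)⁻¹ * QuadraticMap.polar (⇑Q) u v) •
            vecMulVec v (Cfsg.polarVec (⇑Q) u) := by
  unfold Commute SemiconjBy
  rw [reflMat_mul, reflMat_mul, QuadraticMap.polar_comm (⇑Q) v u, mul_comm (Q v)⁻¹ (Q u)⁻¹]
  constructor
  · intro h
    have e : (1 : Matrix ι ι F) - (Q v)⁻¹ • vecMulVec v (Cfsg.polarVec (⇑Q) v)
        - (Q u)⁻¹ • vecMulVec u (Cfsg.polarVec (⇑Q) u) =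
        1 - (Q u)⁻¹ • vecMulVec u (Cfsg.polarVec (⇑Q) u)
        - (Q v)⁻¹ • vecMulVec v (Cfsg.polarVec (⇑Q) v) := sub_right_comm _ _ _
    rw [e] at h
    exact add_left_cancel h
  · intro h
    rw [h]
    abel

/-- S5358. -/
theorem refl3_commute_iff (n : ℕ) (Q : QuadraticForm (ZMod 3) (Fin n → ZMod 3))
    (u v : Fin n → ZMod 3) (hu : Q u ≠ 0) (huv : Q u = Q v) (h1 : v ≠ u) (h2 : v ≠ -u) :
    Commute (Cfsg.reflectionMatrix (⇑Q) u) (Cfsg.reflectionMatrix (⇑Q) v) ↔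
      QuadraticMap.polar (⇑Q) u v = 0 := by
  rw [reflMat_commute_iff]
  constructor
  · intro h
    by_contra hne
    have hv : Q v ≠ 0 := huv ▸ hu
    have hc : (Q u)⁻¹ * (Q v)⁻¹ * QuadraticMap.polar (⇑Q) u v ≠ 0 :=
      mul_ne_zero (mul_ne_zero (inv_ne_zero hu) (inv_ne_zero hv)) hne
    have h3 : vecMulVec u (Cfsg.polarVec (⇑Q) v) = vecMulVec v (Cfsg.polarVec (⇑Q) u) :=
      smul_right_injective _ hc h
    have h4 := congrArg (fun X => X *ᵥ u) h3
    simp only [vecMulVec_mulVec, polarVec_dot, op_smul_eq_smul] at h4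
    rw [QuadraticMap.polar_self] at h4
    rw [show (2 • Q u : ZMod 3) = 2 * Q u from by rw [two_smul, two_mul]] at h4
    have h20 : (2 : ZMod 3) * Q u ≠ 0 := mul_ne_zero (by decide) hu
    have h5 : v = ((2 * Q u)⁻¹ * QuadraticMap.polar (⇑Q) v u) • u := by
      rw [← smul_smul, h4, smul_smul, inv_mul_cancel₀ h20, one_smul]
    obtain ⟨lam, hlam⟩ : ∃ lam : ZMod 3, lam = (2 * Q u)⁻¹ * QuadraticMap.polar (⇑Q) v u :=
      ⟨_, rfl⟩
    rw [← hlam] at h5
    have h6 : lam = 0 ∨ lam = 1 ∨ lam = -1 := by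
      clear hlam h5
      revert lam
      decide
    rcases h6 with h6 | h6 | h6
    · rw [h6, zero_smul] at h5
      rw [h5, map_zero] at hv
      exact hv rfl
    · rw [h6, one_smul] at h5
      exact h1 h5
    · rw [h6, neg_smul, one_smul] at h5
      exact h2 h5
  · intro h
    rw [h, mul_zero, zero_smul, zero_smul]

end Cfsg.Agent.Lib.Helper8
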