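import Mathlib
import Cfsg.Prelude.Def_FischerSpaces
import Cfsg.Agent.Lib.Helper8.Refl3

set_option autoImplicit false

namespace Cfsg.Agent.Lib.Helper8

open Matrix

section general
variable {ι : Type} [Fintype ι] [DecidableEq ι] {F : Type*} [Field F]

/-- Action of a reflection matrix on a vector. -/
theorem reflMat_mulVec (Q : QuadraticForm F (ι → F)) (v x : ι → F) :
    Cfsg.reflectionMatrix (⇑Q) v *ᵥ x = x - ((Q v)⁻¹ * QuadraticMap.polar (⇑Q) v x) • v := by
  unfold Cfsg.reflectionMatrix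
  rw [Matrix.sub_mulVec, Matrix.one_mulVec, Matrix.smul_mulVec, vecMulVec_mulVec, polarVec_dot,
    op_smul_eq_smul, smul_smul]

/-- A reflection matrix squares to one. -/
theorem reflMat_sq (Q : QuadraticForm F (ι → F)) (v : ι → F) (hv : Q v ≠ 0) :
    Cfsg.reflectionMatrix (⇑Q) v * Cfsg.reflectionMatrix (⇑Q) v = 1 := by
  rw [reflMat_mul, QuadraticMap.polar_self]
  have h : (Q v)⁻¹ * (Q v)⁻¹ * (2 • Q v) = (Q v)⁻¹ + (Q v)⁻¹ := by
    rw [two_smul]
    field_simp
  rw [h, add_smul]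
  abel

/-- A reflection matrix preserves the form. -/
theorem reflMat_isom (Q : QuadraticForm F (ι → F)) (v x : ι → F) (hv : Q v ≠ 0) :
    Q (Cfsg.reflectionMatrix (⇑Q) v *ᵥ x) = Q x := by
  rw [reflMat_mulVec, sub_eq_add_neg, ← neg_smul, QuadraticMap.map_add Q, QuadraticMap.map_smul,
    QuadraticMap.polar_smul_right, QuadraticMap.polar_comm (⇑Q) x v]
  simp only [smul_eq_mul]
  field_simp
  ring

/-- An isometry preserves the polar form. -/
theorem polar_isom (Q : QuadraticForm F (ι → F)) (A : Matrix ι ι F)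
    (hA : ∀ z, Q (A *ᵥ z) = Q z) (x y : ι → F) :
    QuadraticMap.polar (⇑Q) (A *ᵥ x) (A *ᵥ y) = QuadraticMap.polar (⇑Q) x y := by
  unfold QuadraticMap.polar
  rw [← Matrix.mulVec_add, hA, hA, hA]

/-- Conjugating a reflection by an isometry. -/
theorem reflMat_conj (Q : QuadraticForm F (ι → F)) (A : Matrix ι ι F)
    (hA : ∀ z, Q (A *ᵥ z) = Q z) (v : ι → F) :
    A * Cfsg.reflectionMatrix (⇑Q) v = Cfsg.reflectionMatrix (⇑Q) (A *ᵥ v) * A := by
  apply Matrix.mulVec_injective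
  funext x
  rw [← Matrix.mulVec_mulVec, ← Matrix.mulVec_mulVec, reflMat_mulVec, reflMat_mulVec,
    Matrix.mulVec_sub, Matrix.mulVec_smul, hA, polar_isom Q A hA]

/-- The reflection in `-v` is the reflection in `v`. -/
theorem reflMat_neg (Q : QuadraticForm F (ι → F)) (v : ι → F) :
    Cfsg.reflectionMatrix (⇑Q) (-v) = Cfsg.reflectionMatrix (⇑Q) v := by
  apply Matrix.mulVec_injective
  funext x
  rw [reflMat_mulVec, reflMat_mulVec, QuadraticMap.map_neg, QuadraticMap.polar_neg_left, smul_neg,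
    mul_neg, neg_smul, neg_neg]

end general

section grp
variable {G : Type*} [Group G]

theorem sq_of_comm' {a b : G} (ha : a * a = 1) (hb : b * b = 1) (h : a * b = b * a) :
    (a * b) ^ 2 = 1 := by
  rw [pow_two, mul_assoc, ← mul_assoc b a b, ← h, mul_assoc a b b, hb, mul_one, ha]

theorem cube_of_braid {a b : G} (ha : a * a = 1) (hb : b * b = 1) (h : a * b * a = b * a * b) :
    (a * b) ^ 3 = 1 := by
  have hb' : ∀ x, b * (b * x) = x := fun x => by rw [← mul_assoc, hb, one_mul]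
  have ha' : ∀ x, a * (a * x) = x := fun x => by rw [← mul_assoc, ha, one_mul]
  have e : (a * b) ^ 3 = (a * b * a) * (b * a * b) := by
    rw [pow_succ, pow_two]
    simp only [mul_assoc]
  rw [e, h]
  simp only [mul_assoc, hb', ha', hb]

theorem conj_of_braid {a b : G} (ha : a * a = 1) (hb : b * b = 1) (h : a * b * a = b * a * b) :
    (a * b) * a * (a * b)⁻¹ = b := by
  have hb' : ∀ x, b * (b * x) = x := fun x => by rw [← mul_assoc, hb, one_mul]
  rw [_root_.mul_inv_rev, inv_eq_of_mul_eq_one_right ha, inv_eq_of_mul_eq_one_right hb]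
  calc a * b * a * (b * a) = (a * b * a) * b * a := by simp only [mul_assoc]
    _ = b * a * b * b * a := by rw [h]
    _ = b := by simp only [mul_assoc, hb', ha, mul_one]

end grp

/-- Braid relation for two non-orthogonal reflections of the same norm over `F₃`. -/
theorem reflMat_braid (n : ℕ) (Q : QuadraticForm (ZMod 3) (Fin n → ZMod 3))
    (u v : Fin n → ZMod 3) (hu : Q u ≠ 0) (huv : Q u = Q v)
    (h : QuadraticMap.polar (⇑Q) u v ≠ 0) :
    Cfsg.reflectionMatrix (⇑Q) u * Cfsg.reflectionMatrix (⇑Q) v * Cfsg.reflectionMatrix (⇑Q) u =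
      Cfsg.reflectionMatrix (⇑Q) v * Cfsg.reflectionMatrix (⇑Q) u *
        Cfsg.reflectionMatrix (⇑Q) v := by
  have hv : Q v ≠ 0 := huv ▸ hu
  have e1 : Cfsg.reflectionMatrix (⇑Q) u * Cfsg.reflectionMatrix (⇑Q) v *
      Cfsg.reflectionMatrix (⇑Q) u =
      Cfsg.reflectionMatrix (⇑Q) (Cfsg.reflectionMatrix (⇑Q) u *ᵥ v) := by
    rw [reflMat_conj Q (Cfsg.reflectionMatrix (⇑Q) u) (fun z => reflMat_isom Q u z hu) v,
      mul_assoc, reflMat_sq Q u hu, mul_one]
  have e2 : Cfsg.reflectionMatrix (⇑Q) v * Cfsg.reflectionMatrix (⇑Q) u *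
      Cfsg.reflectionMatrix (⇑Q) v =
      Cfsg.reflectionMatrix (⇑Q) (Cfsg.reflectionMatrix (⇑Q) v *ᵥ u) := by
    rw [reflMat_conj Q (Cfsg.reflectionMatrix (⇑Q) v) (fun z => reflMat_isom Q v z hv) u,
      mul_assoc, reflMat_sq Q v hv, mul_one]
  rw [e1, e2, reflMat_mulVec, reflMat_mulVec, QuadraticMap.polar_comm (⇑Q) v u, ← huv]
  obtain ⟨mu, hmu⟩ : ∃ mu : ZMod 3, mu = (Q u)⁻¹ * QuadraticMap.polar (⇑Q) u v := ⟨_, rfl⟩
  rw [← hmu]
  have hmu0 : mu ≠ 0 := hmu ▸ mul_ne_zero (inv_ne_zero hu) h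
  have h6 : ∀ m : ZMod 3, m ≠ 0 → m = 1 ∨ m = -1 := by decide
  rcases h6 mu hmu0 with h6 | h6
  · rw [h6, one_smul, one_smul, ← neg_sub u v, reflMat_neg]
  · rw [h6, neg_smul, one_smul, neg_smul, one_smul, sub_neg_eq_add, sub_neg_eq_add, add_comm]

/-- An anisotropic vector orthogonal to a small family of pairwise orthogonal anisotropic vectors. -/
theorem exists_aniso_perp (n : ℕ) (Q : QuadraticForm (ZMod 3) (Fin n → ZMod 3))
    (hQ : (QuadraticMap.polarBilin Q).Nondegenerate) {κ : Type} [Fintype κ] [DecidableEq κ]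
    (s : κ → Fin n → ZMod 3) (hs : ∀ i, Q (s i) ≠ 0)
    (hs2 : ∀ i j, i ≠ j → QuadraticMap.polar (⇑Q) (s i) (s j) = 0)
    (hk : Fintype.card κ < n) :
    ∃ y, Q y ≠ 0 ∧ ∀ i, QuadraticMap.polar (⇑Q) (s i) y = 0 := by
  classical
  obtain ⟨B, hB⟩ : ∃ B, B = QuadraticMap.polarBilin Q := ⟨_, rfl⟩
  rw [← hB] at hQ
  have hBp : ∀ x y, B x y = QuadraticMap.polar (⇑Q) x y := by
    intro x y
    rw [hB]
    rfl
  have hker : LinearMap.ker (LinearMap.pi (fun i => B (s i)) :
      (Fin n → ZMod 3) →ₗ[ZMod 3] (κ → ZMod 3)) ≠ ⊥ := by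
    apply LinearMap.ker_ne_bot_of_finrank_lt
    rw [Module.finrank_fintype_fun_eq_card, Module.finrank_fintype_fun_eq_card, Fintype.card_fin]
    exact hk
  obtain ⟨w, hw, hw0⟩ := (Submodule.ne_bot_iff _).mp hker
  have hwL : ∀ i, B (s i) w = 0 := by
    intro i
    have := congrFun (LinearMap.mem_ker.mp hw) i
    simpa using this
  by_contra hcon
  push Not at hcon
  have hiso : ∀ y, (∀ i, B (s i) y = 0) → Q y = 0 := by
    intro y hy
    by_contra h0
    obtain ⟨i, hi⟩ := hcon y h0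
    exact hi (by rw [← hBp]; exact hy i)
  have hpol : ∀ y1 y2, (∀ i, B (s i) y1 = 0) → (∀ i, B (s i) y2 = 0) → B y1 y2 = 0 := by
    intro y1 y2 h1 h2
    rw [hBp]
    unfold QuadraticMap.polar
    rw [hiso y1 h1, hiso y2 h2, hiso (y1 + y2) (fun i => by rw [map_add, h1, h2, add_zero])]
    simp
  apply hw0
  apply hQ.1 w
  intro x
  have hx' : ∀ j, B (s j) (x - ∑ i, ((B (s i) (s i))⁻¹ * B (s i) x) • s i) = 0 := by
    intro j
    have hjj : B (s j) (s j) ≠ 0 := by
      rw [hBp, QuadraticMap.polar_self]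
      rw [show (2 • Q (s j) : ZMod 3) = 2 * Q (s j) from by rw [two_smul, two_mul]]
      exact mul_ne_zero (by decide) (hs j)
    rw [map_sub, map_sum, Finset.sum_eq_single j]
    · rw [map_smul, smul_eq_mul]
      field_simp
      ring
    · intro i _ hij
      rw [map_smul, hBp (s j) (s i), hs2 j i (Ne.symm hij), smul_zero]
    · intro h
      exact absurd (Finset.mem_univ j) h
  have h3 := hpol w _ hwL hx'
  rw [map_sub, map_sum, sub_eq_zero] at h3
  rw [h3]
  apply Finset.sum_eq_zero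
  intro i _
  rw [map_smul, hBp w (s i), QuadraticMap.polar_comm, ← hBp, hwL i, smul_zero]

/-- A vector of prescribed non-zero norm orthogonal to a small family of pairwise orthogonal
anisotropic vectors. -/
theorem exists_norm_perp (n : ℕ) (Q : QuadraticForm (ZMod 3) (Fin n → ZMod 3))
    (hQ : (QuadraticMap.polarBilin Q).Nondegenerate) {κ : Type} [Fintype κ] [DecidableEq κ]
    (s : κ → Fin n → ZMod 3) (hs : ∀ i, Q (s i) ≠ 0)
    (hs2 : ∀ i j, i ≠ j → QuadraticMap.polar (⇑Q) (s i) (s j) = 0)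
    (hk : Fintype.card κ + 1 < n) (t : ZMod 3) (ht : t ≠ 0) :
    ∃ z, Q z = t ∧ ∀ i, QuadraticMap.polar (⇑Q) (s i) z = 0 := by
  have key : ∀ a t : ZMod 3, a ≠ 0 → t ≠ 0 → a ≠ t → a = -t := by decide
  obtain ⟨x, hx0, hx⟩ := exists_aniso_perp n Q hQ s hs hs2 (by omega)
  by_cases hxt : Q x = t
  · exact ⟨x, hxt, hx⟩
  have hxt' : Q x = -t := key _ _ hx0 ht hxt
  obtain ⟨y, hy0, hy⟩ := exists_aniso_perp n Q hQ (fun o : Option κ => o.elim x s) (by
      intro o
      cases o with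
      | none => exact hx0
      | some i => exact hs i) (by
      intro o1 o2 hne
      cases o1 with
      | none =>
        cases o2 with
        | none => exact absurd rfl hne
        | some j =>
          have := hx j
          rw [QuadraticMap.polar_comm] at this
          exact this
      | some i =>
        cases o2 with
        | none => exact hx i
        | some j => exact hs2 i j (fun h => hne (by rw [h]))) (by
      rw [Fintype.card_option]
      exact hk)
  by_cases hyt : Q y = t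
  · exact ⟨y, hyt, fun i => hy (some i)⟩
  have hyt' : Q y = -t := key _ _ hy0 ht hyt
  have hxy : QuadraticMap.polar (⇑Q) x y = 0 := hy none
  refine ⟨x + y, ?_, ?_⟩
  · rw [QuadraticMap.map_add Q, hxt', hyt', hxy, add_zero]
    have : ∀ t : ZMod 3, -t + -t = t := by decide
    exact this t
  · intro i
    have h1 : QuadraticMap.polar (⇑Q) (s i) y = 0 := hy (some i)
    rw [QuadraticMap.polar_add_right, hx i, h1, add_zero]

open scoped MatrixGroups

/-- The matrix of an element of the isometry group of a function on `F₃ⁿ`. -/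
def isoMat {n : ℕ} (Q : (Fin n → ZMod 3) → ZMod 3)
    (g : ↥(Cfsg.isometryGroup (ZMod 3) Q)) : Matrix (Fin n) (Fin n) (ZMod 3) :=
  ((g : GL (Fin n) (ZMod 3)) : Matrix (Fin n) (Fin n) (ZMod 3))

theorem isoMat_mul {n : ℕ} (Q : (Fin n → ZMod 3) → ZMod 3)
    (g h : ↥(Cfsg.isometryGroup (ZMod 3) Q)) : isoMat Q (g * h) = isoMat Q g * isoMat Q h := rfl

theorem isoMat_one {n : ℕ} (Q : (Fin n → ZMod 3) → ZMod 3) :
    isoMat Q (1 : ↥(Cfsg.isometryGroup (ZMod 3) Q)) = 1 := rfl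

theorem isoMat_inj {n : ℕ} (Q : (Fin n → ZMod 3) → ZMod 3)
    (g h : ↥(Cfsg.isometryGroup (ZMod 3) Q)) (e : isoMat Q g = isoMat Q h) : g = h :=
  Subtype.ext (Units.ext e)

theorem isoMat_isom {n : ℕ} (Q : (Fin n → ZMod 3) → ZMod 3)
    (g : ↥(Cfsg.isometryGroup (ZMod 3) Q)) (z : Fin n → ZMod 3) :
    Q (isoMat Q g *ᵥ z) = Q z := g.2 z z

section iso
variable {n : ℕ} (Q : QuadraticForm (ZMod 3) (Fin n → ZMod 3))

theorem refl_elt_exists (v : Fin n → ZMod 3) (hv : Q v ≠ 0) :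
    ∃ g : ↥(Cfsg.isometryGroup (ZMod 3) (⇑Q)), isoMat (⇑Q) g = Cfsg.reflectionMatrix (⇑Q) v :=
  ⟨⟨⟨_, _, reflMat_sq Q v hv, reflMat_sq Q v hv⟩, fun u _ => reflMat_isom Q v u hv⟩, rfl⟩

theorem refl_elt_sq (d : ↥(Cfsg.isometryGroup (ZMod 3) (⇑Q))) (v : Fin n → ZMod 3) (hv : Q v ≠ 0)
    (hd : isoMat (⇑Q) d = Cfsg.reflectionMatrix (⇑Q) v) : d * d = 1 := by
  apply isoMat_inj
  rw [isoMat_mul, hd, reflMat_sq Q v hv, isoMat_one]

theorem refl_elt_ne_one (d : ↥(Cfsg.isometryGroup (ZMod 3) (⇑Q))) (v : Fin n → ZMod 3)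
    (hv : Q v ≠ 0) (hd : isoMat (⇑Q) d = Cfsg.reflectionMatrix (⇑Q) v) : d ≠ 1 := by
  intro h1
  have hM : Cfsg.reflectionMatrix (⇑Q) v = 1 := by rw [← hd, h1, isoMat_one]
  have h2 := reflMat_mulVec Q v v
  rw [hM, Matrix.one_mulVec, QuadraticMap.polar_self] at h2
  have h3 : (Q v)⁻¹ * (2 • Q v) = 2 := by
    rw [two_smul]
    field_simp
    norm_num
  rw [h3] at h2
  have h4 : (2 : ZMod 3) • v = 0 := sub_eq_self.mp h2.symm
  have h5 : v = 0 := by
    have := congrArg (fun x => (2 : ZMod 3) • x) h4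
    simp only [smul_smul, smul_zero] at this
    rw [show (2 : ZMod 3) * 2 = 1 from by decide, one_smul] at this
    exact this
  rw [h5, map_zero] at hv
  exact hv rfl

theorem refl_elt_comm (d e : ↥(Cfsg.isometryGroup (ZMod 3) (⇑Q))) (u v : Fin n → ZMod 3)
    (hd : isoMat (⇑Q) d = Cfsg.reflectionMatrix (⇑Q) u)
    (he : isoMat (⇑Q) e = Cfsg.reflectionMatrix (⇑Q) v)
    (h : QuadraticMap.polar (⇑Q) u v = 0) : d * e = e * d := by
  apply isoMat_inj
  rw [isoMat_mul, isoMat_mul, hd, he]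
  exact (reflMat_commute_iff Q u v).mpr (by rw [h, mul_zero, zero_smul, zero_smul])

theorem refl_elt_braid (d e : ↥(Cfsg.isometryGroup (ZMod 3) (⇑Q))) (u v : Fin n → ZMod 3)
    (hu : Q u ≠ 0) (huv : Q u = Q v)
    (hd : isoMat (⇑Q) d = Cfsg.reflectionMatrix (⇑Q) u)
    (he : isoMat (⇑Q) e = Cfsg.reflectionMatrix (⇑Q) v)
    (h : QuadraticMap.polar (⇑Q) u v ≠ 0) : d * e * d = e * d * e := by
  apply isoMat_inj
  rw [isoMat_mul, isoMat_mul, isoMat_mul, isoMat_mul, hd, he]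
  exact reflMat_braid n Q u v hu huv h

theorem refl_elt_conj (g d : ↥(Cfsg.isometryGroup (ZMod 3) (⇑Q))) (v : Fin n → ZMod 3)
    (hd : isoMat (⇑Q) d = Cfsg.reflectionMatrix (⇑Q) v) :
    isoMat (⇑Q) (g * d * g⁻¹) = Cfsg.reflectionMatrix (⇑Q) (isoMat (⇑Q) g *ᵥ v) := by
  rw [isoMat_mul, isoMat_mul, hd, reflMat_conj Q (isoMat (⇑Q) g) (isoMat_isom (⇑Q) g) v, mul_assoc,
    ← isoMat_mul, mul_inv_cancel, isoMat_one, mul_one]

end iso

/-- S5357. -/
theorem refl3_class (n : ℕ) (hn : 5 ≤ n) (Q : QuadraticForm (ZMod 3) (Fin n → ZMod 3))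
    (hQ : (QuadraticMap.polarBilin Q).Nondegenerate) (c : ZMod 3) (hc : c ≠ 0) :
    Cfsg.IsThreeTranspositionClass {g : ↥(Cfsg.reflectionSubgroup (⇑Q) c) |
      (g : ↥(Cfsg.isometryGroup (ZMod 3) (⇑Q))) ∈ Cfsg.reflectionsOfNorm (⇑Q) c} := by
  have hc' : ∀ v, Q v = c → Q v ≠ 0 := fun v hv => by rw [hv]; exact hc
  have hbr : ∀ d e : ↥(Cfsg.isometryGroup (ZMod 3) (⇑Q)), ∀ u v, Q u = c → Q v = c →
      isoMat (⇑Q) d = Cfsg.reflectionMatrix (⇑Q) u →
      isoMat (⇑Q) e = Cfsg.reflectionMatrix (⇑Q) v →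
      QuadraticMap.polar (⇑Q) u v ≠ 0 → (d * e) * d * (d * e)⁻¹ = e := by
    intro d e u v hu hv hd he h
    exact conj_of_braid (refl_elt_sq Q d u (hc' u hu) hd) (refl_elt_sq Q e v (hc' v hv) he)
      (refl_elt_braid Q d e u v (hc' u hu) (hu.trans hv.symm) hd he h)
  have hconjR : ∀ d ∈ Cfsg.reflectionsOfNorm (⇑Q) c, ∀ e ∈ Cfsg.reflectionsOfNorm (⇑Q) c,
      ∃ g ∈ Cfsg.reflectionSubgroup (⇑Q) c, g * d * g⁻¹ = e := by
    rintro d ⟨u, hu, hd⟩ e ⟨v, hv, he⟩
    have hdR : d ∈ Cfsg.reflectionSubgroup (⇑Q) c := Subgroup.subset_closure ⟨u, hu, hd⟩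
    have heR : e ∈ Cfsg.reflectionSubgroup (⇑Q) c := Subgroup.subset_closure ⟨v, hv, he⟩
    by_cases h : QuadraticMap.polar (⇑Q) u v = 0
    · obtain ⟨z, hz, hzp⟩ := exists_norm_perp n Q hQ (fun b : Bool => cond b u v) (by
          intro b
          cases b
          · exact hc' v hv
          · exact hc' u hu) (by
          intro b1 b2 hne
          cases b1 <;> cases b2
          · exact absurd rfl hne
          · show QuadraticMap.polar (⇑Q) v u = 0
            rw [QuadraticMap.polar_comm]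
            exact h
          · exact h
          · exact absurd rfl hne) (by rw [Fintype.card_bool]; omega) (-c) (neg_ne_zero.mpr hc)
      have hzu : QuadraticMap.polar (⇑Q) u z = 0 := hzp true
      have hzv : QuadraticMap.polar (⇑Q) v z = 0 := hzp false
      have hw : Q (u + v + z) = c := by
        rw [QuadraticMap.map_add Q, QuadraticMap.map_add Q, QuadraticMap.polar_add_left, hu, hv, hz,
          h, hzu, hzv]
        ring
      have h2c : (2 • c : ZMod 3) ≠ 0 := by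
        rw [show (2 • c : ZMod 3) = 2 * c from by rw [two_smul, two_mul]]
        exact mul_ne_zero (by decide) hc
      have huw : QuadraticMap.polar (⇑Q) u (u + v + z) ≠ 0 := by
        rw [QuadraticMap.polar_add_right, QuadraticMap.polar_add_right, QuadraticMap.polar_self,
          hu, h, hzu, add_zero, add_zero]
        exact h2c
      have hwv : QuadraticMap.polar (⇑Q) (u + v + z) v ≠ 0 := by
        rw [QuadraticMap.polar_add_left, QuadraticMap.polar_add_left, QuadraticMap.polar_self,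
          hv, h, QuadraticMap.polar_comm (⇑Q) z v, hzv, zero_add, add_zero]
        exact h2c
      obtain ⟨f, hf⟩ := refl_elt_exists Q (u + v + z) (hc' _ hw)
      have hfR : f ∈ Cfsg.reflectionSubgroup (⇑Q) c := Subgroup.subset_closure ⟨_, hw, hf⟩
      refine ⟨(f * e) * (d * f), mul_mem (mul_mem hfR heR) (mul_mem hdR hfR), ?_⟩
      have e1 := hbr d f u _ hu hw hd hf huw
      have e2 := hbr f e _ v hw hv hf he hwv
      calc (f * e) * (d * f) * d * ((f * e) * (d * f))⁻¹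
          = (f * e) * ((d * f) * d * (d * f)⁻¹) * (f * e)⁻¹ := by
            rw [_root_.mul_inv_rev]
            simp only [mul_assoc]
        _ = e := by rw [e1, e2]
    · exact ⟨d * e, mul_mem hdR heR, hbr d e u v hu hv hd he h⟩
  refine ⟨⟨?_, ?_⟩, ?_, ?_⟩
  · rintro ⟨d, hdH⟩ ⟨v, hv, hd⟩
    apply orderOf_eq_prime
    · apply Subtype.ext
      rw [pow_two]
      exact refl_elt_sq Q d v (hc' v hv) hd
    · intro h1
      exact refl_elt_ne_one Q d v (hc' v hv) hd (congrArg Subtype.val h1)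
  · rintro ⟨d, hdH⟩ ⟨u, hu, hd⟩ ⟨e, heH⟩ ⟨v, hv, he⟩
    by_cases h : QuadraticMap.polar (⇑Q) u v = 0
    · left
      apply Subtype.ext
      exact sq_of_comm' (refl_elt_sq Q d u (hc' u hu) hd) (refl_elt_sq Q e v (hc' v hv) he)
        (refl_elt_comm Q d e u v hd he h)
    · right
      apply Subtype.ext
      exact cube_of_braid (refl_elt_sq Q d u (hc' u hu) hd) (refl_elt_sq Q e v (hc' v hv) he)
        (refl_elt_braid Q d e u v (hc' u hu) (hu.trans hv.symm) hd he h)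
  · obtain ⟨v0, hv0, -⟩ := exists_norm_perp n Q hQ (fun e : Empty => e.elim) (fun e => e.elim)
      (fun e => e.elim) (by rw [Fintype.card_eq_zero]; omega) c hc
    obtain ⟨g0, hg0⟩ := refl_elt_exists Q v0 (hc' v0 hv0)
    have hg0R : g0 ∈ Cfsg.reflectionsOfNorm (⇑Q) c := ⟨v0, hv0, hg0⟩
    refine ⟨⟨g0, Subgroup.subset_closure hg0R⟩, hg0R, ?_⟩
    ext ⟨e, heH⟩
    constructor
    · intro he
      obtain ⟨g, hgH, hg⟩ := hconjR g0 hg0R e he
      show IsConj _ _
      rw [isConj_iff]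
      exact ⟨⟨g, hgH⟩, Subtype.ext hg⟩
    · intro he
      have he' : IsConj (⟨g0, Subgroup.subset_closure hg0R⟩ :
          ↥(Cfsg.reflectionSubgroup (⇑Q) c)) ⟨e, heH⟩ := he
      rw [isConj_iff] at he'
      obtain ⟨⟨g, hgH⟩, hg⟩ := he'
      have hg' : g * g0 * g⁻¹ = e := congrArg Subtype.val hg
      show e ∈ Cfsg.reflectionsOfNorm (⇑Q) c
      rw [← hg']
      exact ⟨isoMat (⇑Q) g *ᵥ v0, (isoMat_isom (⇑Q) g v0).trans hv0, refl_elt_conj Q g g0 v0 hg0⟩
  · exact Subgroup.closure_closure_coe_preimage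

end Cfsg.Agent.Lib.Helper8
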