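import Mathlib
import Cfsg.Prelude

namespace Cfsg.Agent.Lib.Helper8

open Cfsg Matrix

variable (k : Type*) [Field k]

/-- upper unitriangular element -/
def uM (t : k) : SpecialLinearGroup (Fin 2) k := ⟨!![1, t; 0, 1], by simp [Matrix.det_fin_two]⟩
/-- lower unitriangular element -/
def lM (t : k) : SpecialLinearGroup (Fin 2) k := ⟨!![1, 0; t, 1], by simp [Matrix.det_fin_two]⟩

variable {k}

theorem uM_coe (t : k) : (uM k t : Matrix (Fin 2) (Fin 2) k) = !![1, t; 0, 1] := rfl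
theorem lM_coe (t : k) : (lM k t : Matrix (Fin 2) (Fin 2) k) = !![1, 0; t, 1] := rfl

theorem sl2_ext {g h : SpecialLinearGroup (Fin 2) k}
    (h00 : (g : Matrix (Fin 2) (Fin 2) k) 0 0 = (h : Matrix (Fin 2) (Fin 2) k) 0 0)
    (h01 : (g : Matrix (Fin 2) (Fin 2) k) 0 1 = (h : Matrix (Fin 2) (Fin 2) k) 0 1)
    (h10 : (g : Matrix (Fin 2) (Fin 2) k) 1 0 = (h : Matrix (Fin 2) (Fin 2) k) 1 0)
    (h11 : (g : Matrix (Fin 2) (Fin 2) k) 1 1 = (h : Matrix (Fin 2) (Fin 2) k) 1 1) : g = h := by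
  apply Subtype.ext
  ext i j
  fin_cases i <;> fin_cases j <;> assumption

theorem uM_mul (s t : k) : uM k s * uM k t = uM k (s + t) := by
  apply sl2_ext <;> simp [uM_coe, Matrix.mul_apply, Fin.sum_univ_two]
  ring

theorem lM_mul (s t : k) : lM k s * lM k t = lM k (s + t) := by
  apply sl2_ext <;> simp [lM_coe, Matrix.mul_apply, Fin.sum_univ_two]

theorem uM_zero : uM k 0 = 1 := by
  apply sl2_ext <;> simp [uM_coe]

theorem lM_zero : lM k 0 = 1 := by
  apply sl2_ext <;> simp [lM_coe]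

theorem uM_inv (t : k) : (uM k t)⁻¹ = uM k (-t) := by
  rw [inv_eq_iff_mul_eq_one, uM_mul, add_neg_cancel, uM_zero]

theorem lM_inv (t : k) : (lM k t)⁻¹ = lM k (-t) := by
  rw [inv_eq_iff_mul_eq_one, lM_mul, add_neg_cancel, lM_zero]

theorem uM_inj {s t : k} (h : uM k s = uM k t) : s = t := by
  have := congrArg (fun g : SpecialLinearGroup (Fin 2) k => (g : Matrix (Fin 2) (Fin 2) k) 0 1) h
  simpa [uM_coe] using this

theorem lM_inj {s t : k} (h : lM k s = lM k t) : s = t := by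
  have := congrArg (fun g : SpecialLinearGroup (Fin 2) k => (g : Matrix (Fin 2) (Fin 2) k) 1 0) h
  simpa [lM_coe] using this

theorem mem_upper {g : SpecialLinearGroup (Fin 2) k} :
    g ∈ upperUnipotentSL2 k ↔ ∃ t : k, g = uM k t := by
  constructor
  · intro h
    unfold upperUnipotentSL2 at h
    induction h using Subgroup.closure_induction with
    | mem x hx =>
      obtain ⟨h1, h2, h3⟩ := hx
      refine ⟨(x : Matrix (Fin 2) (Fin 2) k) 0 1, ?_⟩
      apply sl2_ext <;> simp [uM_coe, h1, h2, h3]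
    | one => exact ⟨0, uM_zero.symm⟩
    | mul x y _ _ hx hy =>
      obtain ⟨s, rfl⟩ := hx
      obtain ⟨t, rfl⟩ := hy
      exact ⟨s + t, uM_mul s t⟩
    | inv x _ hx =>
      obtain ⟨s, rfl⟩ := hx
      exact ⟨-s, uM_inv s⟩
  · rintro ⟨t, rfl⟩
    apply Subgroup.subset_closure
    show _ ∧ _ ∧ _
    simp [uM_coe]

theorem mem_lower {g : SpecialLinearGroup (Fin 2) k} :
    g ∈ lowerUnipotentSL2 k ↔ ∃ t : k, g = lM k t := by
  constructor
  · intro h
    unfold lowerUnipotentSL2 at h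
    induction h using Subgroup.closure_induction with
    | mem x hx =>
      obtain ⟨h1, h2, h3⟩ := hx
      refine ⟨(x : Matrix (Fin 2) (Fin 2) k) 1 0, ?_⟩
      apply sl2_ext <;> simp [lM_coe, h1, h2, h3]
    | one => exact ⟨0, lM_zero.symm⟩
    | mul x y _ _ hx hy =>
      obtain ⟨s, rfl⟩ := hx
      obtain ⟨t, rfl⟩ := hy
      exact ⟨s + t, lM_mul s t⟩
    | inv x _ hx =>
      obtain ⟨s, rfl⟩ := hx
      exact ⟨-s, lM_inv s⟩
  · rintro ⟨t, rfl⟩
    apply Subgroup.subset_closure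
    show _ ∧ _ ∧ _
    simp [lM_coe]

theorem uM_mem (t : k) : uM k t ∈ upperUnipotentSL2 k := mem_upper.mpr ⟨t, rfl⟩
theorem lM_mem (t : k) : lM k t ∈ lowerUnipotentSL2 k := mem_lower.mpr ⟨t, rfl⟩

theorem uM_ne_one {t : k} (ht : t ≠ 0) : uM k t ≠ 1 := by
  intro h
  rw [← uM_zero] at h
  exact ht (uM_inj h)

theorem lM_ne_one {t : k} (ht : t ≠ 0) : lM k t ≠ 1 := by
  intro h
  rw [← lM_zero] at h
  exact ht (lM_inj h)

theorem ne_zero_of_uM_ne_one {t : k} (h : uM k t ≠ 1) : t ≠ 0 := by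
  rintro rfl
  exact h uM_zero

theorem ne_zero_of_lM_ne_one {t : k} (h : lM k t ≠ 1) : t ≠ 0 := by
  rintro rfl
  exact h lM_zero

/-- the basic conjugation identity (lower conjugated by upper) -/
theorem conj_id1 {c : k} (hc : c ≠ 0) (s : k) :
    uM k (-c⁻¹) * lM k s * uM k c⁻¹ = lM k (-c) * uM k (-s / c ^ 2) * lM k c := by
  apply sl2_ext <;> simp [uM_coe, lM_coe, Matrix.mul_apply, Fin.sum_univ_two] <;> field_simp <;> ring

/-- the basic conjugation identity (upper conjugated by lower) -/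
theorem conj_id2 {c : k} (hc : c ≠ 0) (s : k) :
    lM k (-c⁻¹) * uM k s * lM k c⁻¹ = uM k (-c) * lM k (-s / c ^ 2) * uM k c := by
  apply sl2_ext <;> simp [uM_coe, lM_coe, Matrix.mul_apply, Fin.sum_univ_two] <;> field_simp <;> ring

theorem mem_conjBy {G : Type*} [Group G] {A : Subgroup G} {g x : G} :
    x ∈ conjBy A g ↔ ∃ a ∈ A, g * a * g⁻¹ = x := by
  unfold conjBy
  rw [Subgroup.mem_map]
  rfl

theorem cond_LU : RankOneCondition (lowerUnipotentSL2 k) (upperUnipotentSL2 k) := by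
  intro a ha ha1
  obtain ⟨c, rfl⟩ := mem_lower.mp ha
  have hc : c ≠ 0 := ne_zero_of_lM_ne_one ha1
  refine ⟨uM k c⁻¹, uM_mem _, uM_ne_one (inv_ne_zero hc), ?_⟩
  ext x
  rw [mem_conjBy, mem_conjBy]
  constructor
  · rintro ⟨l, hl, rfl⟩
    obtain ⟨s, rfl⟩ := mem_lower.mp hl
    refine ⟨uM k (-s / c ^ 2), uM_mem _, ?_⟩
    simp only [uM_inv, lM_inv, neg_neg]
    exact (conj_id1 hc s).symm
  · rintro ⟨u, hu, rfl⟩
    obtain ⟨s, rfl⟩ := mem_upper.mp hu
    refine ⟨lM k (-s * c ^ 2), lM_mem _, ?_⟩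
    simp only [uM_inv, lM_inv, neg_neg]
    have e : -(-s * c ^ 2) / c ^ 2 = s := by field_simp
    rw [conj_id1 hc, e]

theorem cond_UL : RankOneCondition (upperUnipotentSL2 k) (lowerUnipotentSL2 k) := by
  intro a ha ha1
  obtain ⟨c, rfl⟩ := mem_upper.mp ha
  have hc : c ≠ 0 := ne_zero_of_uM_ne_one ha1
  refine ⟨lM k c⁻¹, lM_mem _, lM_ne_one (inv_ne_zero hc), ?_⟩
  ext x
  rw [mem_conjBy, mem_conjBy]
  constructor
  · rintro ⟨l, hl, rfl⟩
    obtain ⟨s, rfl⟩ := mem_upper.mp hl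
    refine ⟨lM k (-s / c ^ 2), lM_mem _, ?_⟩
    simp only [uM_inv, lM_inv, neg_neg]
    exact (conj_id2 hc s).symm
  · rintro ⟨u, hu, rfl⟩
    obtain ⟨s, rfl⟩ := mem_lower.mp hu
    refine ⟨uM k (-s * c ^ 2), uM_mem _, ?_⟩
    simp only [uM_inv, lM_inv, neg_neg]
    have e : -(-s * c ^ 2) / c ^ 2 = s := by field_simp
    rw [conj_id2 hc, e]

theorem lower_comm : IsMulCommutative (lowerUnipotentSL2 k) := by
  refine ⟨⟨fun x y => ?_⟩⟩
  obtain ⟨s, hs⟩ := mem_lower.mp x.2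
  obtain ⟨t, ht⟩ := mem_lower.mp y.2
  apply Subtype.ext
  show (x : SpecialLinearGroup (Fin 2) k) * y = y * x
  rw [hs, ht, lM_mul, lM_mul, add_comm]

theorem upper_comm : IsMulCommutative (upperUnipotentSL2 k) := by
  refine ⟨⟨fun x y => ?_⟩⟩
  obtain ⟨s, hs⟩ := mem_upper.mp x.2
  obtain ⟨t, ht⟩ := mem_upper.mp y.2
  apply Subtype.ext
  show (x : SpecialLinearGroup (Fin 2) k) * y = y * x
  rw [hs, ht, uM_mul, uM_mul, add_comm]

theorem nilp_of_comm {A : Type*} [Group A] (h : IsMulCommutative A) : Group.IsNilpotent A :=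
  ⟨⟨1, Subgroup.upperCentralSeries_one_eq_top_iff.mpr h⟩⟩

theorem lower_ne_upper : lowerUnipotentSL2 k ≠ upperUnipotentSL2 k := by
  intro h
  have h1 : lM k 1 ∈ upperUnipotentSL2 k := h ▸ lM_mem 1
  obtain ⟨t, ht⟩ := mem_upper.mp h1
  have := congrArg (fun g : SpecialLinearGroup (Fin 2) k => (g : Matrix (Fin 2) (Fin 2) k) 1 0) ht
  simp [uM_coe, lM_coe] at this

theorem rankOnePair_LU : IsRankOnePair (lowerUnipotentSL2 k) (upperUnipotentSL2 k) :=
  ⟨lower_ne_upper, nilp_of_comm lower_comm, nilp_of_comm upper_comm, cond_LU, cond_UL⟩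

theorem gen_aux (g : SpecialLinearGroup (Fin 2) k)
    (hc : (g : Matrix (Fin 2) (Fin 2) k) 1 0 ≠ 0) :
    g ∈ lowerUnipotentSL2 k ⊔ upperUnipotentSL2 k := by
  have hdet : (g : Matrix (Fin 2) (Fin 2) k) 0 0 * (g : Matrix (Fin 2) (Fin 2) k) 1 1
      - (g : Matrix (Fin 2) (Fin 2) k) 0 1 * (g : Matrix (Fin 2) (Fin 2) k) 1 0 = 1 := by
    have := g.2
    rwa [Matrix.det_fin_two] at this
  set a := (g : Matrix (Fin 2) (Fin 2) k) 0 0 with ha
  set b := (g : Matrix (Fin 2) (Fin 2) k) 0 1 with hb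
  set c := (g : Matrix (Fin 2) (Fin 2) k) 1 0 with hc'
  set d := (g : Matrix (Fin 2) (Fin 2) k) 1 1 with hd
  have e : g = uM k ((a - 1) / c) * lM k c * uM k ((d - 1) / c) := by
    apply sl2_ext
    · rw [← ha]
      simp [uM_coe, lM_coe, Matrix.mul_apply, Fin.sum_univ_two]
      field_simp
      ring
    · rw [← hb]
      simp [uM_coe, lM_coe, Matrix.mul_apply, Fin.sum_univ_two]
      field_simp
      linear_combination (-1 : k) * hdet
    · rw [← hc']
      simp [uM_coe, lM_coe, Matrix.mul_apply, Fin.sum_univ_two]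
    · rw [← hd]
      simp [uM_coe, lM_coe, Matrix.mul_apply, Fin.sum_univ_two]
      field_simp
      ring
  rw [e]
  exact mul_mem (mul_mem (Subgroup.mem_sup_right (uM_mem _)) (Subgroup.mem_sup_left (lM_mem _)))
    (Subgroup.mem_sup_right (uM_mem _))

theorem gen_LU : lowerUnipotentSL2 k ⊔ upperUnipotentSL2 k = ⊤ := by
  rw [eq_top_iff]
  intro g _
  by_cases hc : (g : Matrix (Fin 2) (Fin 2) k) 1 0 = 0
  · have hdet : (g : Matrix (Fin 2) (Fin 2) k) 0 0 * (g : Matrix (Fin 2) (Fin 2) k) 1 1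
        - (g : Matrix (Fin 2) (Fin 2) k) 0 1 * (g : Matrix (Fin 2) (Fin 2) k) 1 0 = 1 := by
      have := g.2
      rwa [Matrix.det_fin_two] at this
    have ha : (g : Matrix (Fin 2) (Fin 2) k) 0 0 ≠ 0 := by
      intro h0
      rw [h0, hc] at hdet
      simp at hdet
    have h1 : lM k 1 * g ∈ lowerUnipotentSL2 k ⊔ upperUnipotentSL2 k := by
      apply gen_aux
      simp [lM_coe, Matrix.mul_apply, Fin.sum_univ_two, hc, ha]
    have h2 : g = (lM k 1)⁻¹ * (lM k 1 * g) := by group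
    rw [h2]
    exact mul_mem (inv_mem (Subgroup.mem_sup_left (lM_mem _))) h1
  · exact gen_aux g hc

theorem special_id {c t : k} (h : t * c = 1) :
    uM k (-t) * lM k c * uM k t = lM k (-c) * uM k (-t) * lM k c := by
  have h00 : ((uM k (-t) * lM k c * uM k t : SpecialLinearGroup (Fin 2) k) :
      Matrix (Fin 2) (Fin 2) k) 0 0 = 1 - t * c := by
    simp [uM_coe, lM_coe, Matrix.mul_apply, Fin.sum_univ_two]
    ring
  have h01 : ((uM k (-t) * lM k c * uM k t : SpecialLinearGroup (Fin 2) k) :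
      Matrix (Fin 2) (Fin 2) k) 0 1 = (1 - t * c) * t - t := by
    simp [uM_coe, lM_coe, Matrix.mul_apply, Fin.sum_univ_two]
    ring
  have h10 : ((uM k (-t) * lM k c * uM k t : SpecialLinearGroup (Fin 2) k) :
      Matrix (Fin 2) (Fin 2) k) 1 0 = c := by
    simp [uM_coe, lM_coe, Matrix.mul_apply, Fin.sum_univ_two]
  have h11 : ((uM k (-t) * lM k c * uM k t : SpecialLinearGroup (Fin 2) k) :
      Matrix (Fin 2) (Fin 2) k) 1 1 = c * t + 1 := by
    simp [uM_coe, lM_coe, Matrix.mul_apply, Fin.sum_univ_two]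
  have g00 : ((lM k (-c) * uM k (-t) * lM k c : SpecialLinearGroup (Fin 2) k) :
      Matrix (Fin 2) (Fin 2) k) 0 0 = 1 - t * c := by
    simp [uM_coe, lM_coe, Matrix.mul_apply, Fin.sum_univ_two]
    ring
  have g01 : ((lM k (-c) * uM k (-t) * lM k c : SpecialLinearGroup (Fin 2) k) :
      Matrix (Fin 2) (Fin 2) k) 0 1 = - t := by
    simp [uM_coe, lM_coe, Matrix.mul_apply, Fin.sum_univ_two]
  have g10 : ((lM k (-c) * uM k (-t) * lM k c : SpecialLinearGroup (Fin 2) k) :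
      Matrix (Fin 2) (Fin 2) k) 1 0 = -c + (c * t + 1) * c := by
    simp [uM_coe, lM_coe, Matrix.mul_apply, Fin.sum_univ_two]
  have g11 : ((lM k (-c) * uM k (-t) * lM k c : SpecialLinearGroup (Fin 2) k) :
      Matrix (Fin 2) (Fin 2) k) 1 1 = c * t + 1 := by
    simp [uM_coe, lM_coe, Matrix.mul_apply, Fin.sum_univ_two]
  apply sl2_ext
  · rw [h00, g00]
  · rw [h01, g01]
    linear_combination (-t) * h
  · rw [h10, g10]
    linear_combination (-c) * h
  · rw [h11, g11]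

theorem special_LU : IsSpecialRankOnePair (lowerUnipotentSL2 k) (upperUnipotentSL2 k) := by
  refine ⟨rankOnePair_LU, ?_⟩
  intro a ha ha1 b hb hb1 hconj
  obtain ⟨c, rfl⟩ := mem_lower.mp ha
  obtain ⟨t, rfl⟩ := mem_upper.mp hb
  have hc : c ≠ 0 := ne_zero_of_lM_ne_one ha1
  have ht : t ≠ 0 := ne_zero_of_uM_ne_one hb1
  have h1 : (uM k t)⁻¹ * lM k 1 * (uM k t)⁻¹⁻¹ ∈ conjBy (upperUnipotentSL2 k) (lM k c)⁻¹ := by
    rw [← hconj, mem_conjBy]
    exact ⟨lM k 1, lM_mem _, rfl⟩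
  rw [mem_conjBy] at h1
  obtain ⟨u, hu, hu2⟩ := h1
  obtain ⟨s, rfl⟩ := mem_upper.mp hu
  have e10 := congrArg (fun g : SpecialLinearGroup (Fin 2) k => (g : Matrix (Fin 2) (Fin 2) k) 1 0) hu2
  have e00 := congrArg (fun g : SpecialLinearGroup (Fin 2) k => (g : Matrix (Fin 2) (Fin 2) k) 0 0) hu2
  rw [inv_inv, uM_inv, lM_inv] at e10 e00
  simp [uM_coe, lM_coe, Matrix.mul_apply, Fin.sum_univ_two] at e10 e00
  have htc : t * c = 1 := by
    linear_combination e10 + c * e00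
  rw [uM_inv, lM_inv]
  exact special_id htc

theorem sl2_rankOne (k : Type*) [Field k] :
    IsRankOneGroup (Matrix.SpecialLinearGroup (Fin 2) k) (lowerUnipotentSL2 k) (upperUnipotentSL2 k) ∧
    IsSpecialRankOnePair (lowerUnipotentSL2 k) (upperUnipotentSL2 k) ∧
    HasAbelianUnipotents (lowerUnipotentSL2 k) (upperUnipotentSL2 k) :=
  ⟨⟨gen_LU, rankOnePair_LU⟩, special_LU, lower_comm, upper_comm⟩

end Cfsg.Agent.Lib.Helper8
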