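import Mathlib
import Cfsg.Prelude.Def_RootSubgroups
import Cfsg.Agent.Lib.Helper8.SP4

set_option autoImplicit false

namespace Cfsg.Agent.Lib.Helper8

open Matrix Cfsg.Agent.Lib.Lead

section sp8e

/-- The set of symplectic transvection groups. -/
def spSig8 (l : Type*) [DecidableEq l] [Fintype l] (F : Type*) [Field F] :
    Set (Subgroup (symplecticGroup l F)) :=
  {A | ∃ p : l ⊕ l → F, p ≠ 0 ∧ A = spTg8 p}

theorem sp_main_gen8 (l : Type*) [DecidableEq l] [Fintype l] [Nonempty l] (F : Type*) [Field F] :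
    Cfsg.IsRootSubgroupClass (spSig8 l F) ∧ Cfsg.IsDegenerateRootSet (spSig8 l F) ∧
      Cfsg.IsKRootSubgroupSet F (spSig8 l F) ∧
      Cfsg.IsConnectedFamily (Cfsg.FAdj (spSig8 l F)) (spSig8 l F) := by
  have hroot : Cfsg.IsRootSubgroupSet (spSig8 l F) := by
    refine ⟨?_, ?_, ?_, ?_, ?_⟩
    · rintro A ⟨p, hp, rfl⟩
      exact spTg_isComm8 p
    · rintro A ⟨p, hp, rfl⟩
      exact spTg_ne_bot8 p hp
    · apply sp_gen8
      intro u c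
      by_cases hu : u = 0
      · rw [hu, spg_zero_vec8]
        exact Subgroup.one_mem _
      · have h1 : spTg8 u ≤ ⨆ A ∈ spSig8 l F, A :=
          le_biSup (fun A => A) (⟨u, hu, rfl⟩ : spTg8 u ∈ spSig8 l F)
        exact h1 (spg_mem8 u c)
    · rintro A ⟨p, hp, rfl⟩ g
      refine ⟨(g : Matrix (l ⊕ l) (l ⊕ l) F) *ᵥ p, ?_, spTg_conj_eq8 p g⟩
      intro h0
      apply hp
      have h1 := sp_inv_mul_mulVec8 g p
      rw [h0, mulVec_zero] at h1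
      exact h1.symm
    · rintro A ⟨p, hp, rfl⟩ B ⟨r, hr, rfl⟩
      by_cases h : spB p r = 0
      · exact Or.inl (spTg_comm_bot8 p r h)
      · exact Or.inr (Or.inl (sp_rankOnePair8 p r hp hr h))
  refine ⟨⟨hroot, ?_, ?_⟩, ?_, ⟨hroot, ?_⟩, ?_⟩
  · obtain ⟨i⟩ := (inferInstance : Nonempty l)
    refine ⟨spTg8 (Pi.single (Sum.inl i) 1), Pi.single (Sum.inl i) 1, ?_, rfl⟩
    intro h
    have h1 := congrFun h (Sum.inl i)
    simp at h1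
  · rintro A ⟨p, hp, rfl⟩ B ⟨r, hr, rfl⟩
    exact sp_conj_class8 p r hp hr
  · rintro A ⟨p, hp, rfl⟩ B ⟨r, hr, rfl⟩ ⟨⟨q, hq, hcomm⟩, hcent, -, -⟩
    by_cases h : spB p r = 0
    · rw [spTg_comm_bot8 p r h] at hcomm
      exact spTg_ne_bot8 q hq hcomm.symm
    · exact sp_not_commCase8 p r q hp hq h hcomm hcent
  · rintro A ⟨p, hp, rfl⟩ B ⟨r, hr, rfl⟩ hpair
    have hε := sp_rankOne_ne8 p r hp hpair
    have e : spTg8 r = spTg8 ((spB p r)⁻¹ • r) := (spTg_smul8 r _ (inv_ne_zero hε)).symm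
    rw [e]
    exact sp_psl2pair8 p _ (by rw [spB_smul_right, inv_mul_cancel₀ hε])
  · rintro A ⟨p, hp, rfl⟩ B ⟨r, hr, rfl⟩
    obtain ⟨z, hz, h1, h2⟩ := sp_exists_mid8 p r hp hr
    exact Relation.ReflTransGen.head ⟨⟨p, hp, rfl⟩, ⟨z, hz, rfl⟩, sp_rankOnePair8 p z hp hz h1⟩
      (Relation.ReflTransGen.single ⟨⟨z, hz, rfl⟩, ⟨r, hr, rfl⟩, sp_rankOnePair8 z r hz hr h2⟩)

theorem sp_main8 (F : Type*) [Field F] (m : ℕ) :
    Cfsg.IsRootSubgroupClass {A : Subgroup ↥(Matrix.symplecticGroup (Fin (m + 1)) F) | ∃ p : Fin (m + 1) ⊕ Fin (m + 1) → F, p ≠ 0 ∧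
        A = Subgroup.closure {g : ↥(Matrix.symplecticGroup (Fin (m + 1)) F) | ∃ c : F, ∀ v : Fin (m + 1) ⊕ Fin (m + 1) → F,
          (g : Matrix (Fin (m + 1) ⊕ Fin (m + 1)) (Fin (m + 1) ⊕ Fin (m + 1)) F) *ᵥ v =
            v + (c * (v ⬝ᵥ (Matrix.J (Fin (m + 1)) F *ᵥ p))) • p}} ∧
    Cfsg.IsDegenerateRootSet {A : Subgroup ↥(Matrix.symplecticGroup (Fin (m + 1)) F) | ∃ p : Fin (m + 1) ⊕ Fin (m + 1) → F, p ≠ 0 ∧
        A = Subgroup.closure {g : ↥(Matrix.symplecticGroup (Fin (m + 1)) F) | ∃ c : F, ∀ v : Fin (m + 1) ⊕ Fin (m + 1) → F,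
          (g : Matrix (Fin (m + 1) ⊕ Fin (m + 1)) (Fin (m + 1) ⊕ Fin (m + 1)) F) *ᵥ v =
            v + (c * (v ⬝ᵥ (Matrix.J (Fin (m + 1)) F *ᵥ p))) • p}} ∧
    Cfsg.IsKRootSubgroupSet F {A : Subgroup ↥(Matrix.symplecticGroup (Fin (m + 1)) F) | ∃ p : Fin (m + 1) ⊕ Fin (m + 1) → F, p ≠ 0 ∧
        A = Subgroup.closure {g : ↥(Matrix.symplecticGroup (Fin (m + 1)) F) | ∃ c : F, ∀ v : Fin (m + 1) ⊕ Fin (m + 1) → F,
          (g : Matrix (Fin (m + 1) ⊕ Fin (m + 1)) (Fin (m + 1) ⊕ Fin (m + 1)) F) *ᵥ v =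
            v + (c * (v ⬝ᵥ (Matrix.J (Fin (m + 1)) F *ᵥ p))) • p}} ∧
    Cfsg.IsConnectedFamily (Cfsg.FAdj {A : Subgroup ↥(Matrix.symplecticGroup (Fin (m + 1)) F) | ∃ p : Fin (m + 1) ⊕ Fin (m + 1) → F, p ≠ 0 ∧
        A = Subgroup.closure {g : ↥(Matrix.symplecticGroup (Fin (m + 1)) F) | ∃ c : F, ∀ v : Fin (m + 1) ⊕ Fin (m + 1) → F,
          (g : Matrix (Fin (m + 1) ⊕ Fin (m + 1)) (Fin (m + 1) ⊕ Fin (m + 1)) F) *ᵥ v =
            v + (c * (v ⬝ᵥ (Matrix.J (Fin (m + 1)) F *ᵥ p))) • p}})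
      {A : Subgroup ↥(Matrix.symplecticGroup (Fin (m + 1)) F) | ∃ p : Fin (m + 1) ⊕ Fin (m + 1) → F, p ≠ 0 ∧
        A = Subgroup.closure {g : ↥(Matrix.symplecticGroup (Fin (m + 1)) F) | ∃ c : F, ∀ v : Fin (m + 1) ⊕ Fin (m + 1) → F,
          (g : Matrix (Fin (m + 1) ⊕ Fin (m + 1)) (Fin (m + 1) ⊕ Fin (m + 1)) F) *ᵥ v =
            v + (c * (v ⬝ᵥ (Matrix.J (Fin (m + 1)) F *ᵥ p))) • p}} :=
  sp_main_gen8 (Fin (m + 1)) F

end sp8e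

end Cfsg.Agent.Lib.Helper8
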