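import Mathlib

/-!
# Self-dual modules: the asymmetry operator of a nondegenerate bilinear form

For a nondegenerate bilinear form `B` on a finite-dimensional space there is an operator `T`
with `B x y = B (T y) x`.  It is an isometry commuting with every isometry group acting.
-/

namespace Cfsg.Agent.Lib.Helper8

section
variable {F : Type*} [Field F] {V : Type*} [AddCommGroup V] [Module F V]

theorem sd_T_exists8 [FiniteDimensional F V] (B : LinearMap.BilinForm F V)
    (hB : B.Nondegenerate) :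
    ∃ T : Module.End F V, ∀ x y, B x y = B (T y) x := by
  refine ⟨((B.toDual hB).symm : Module.Dual F V →ₗ[F] V) ∘ₗ B.flip, fun x y => ?_⟩
  rw [LinearMap.comp_apply]
  erw [LinearMap.BilinForm.apply_toDual_symm_apply]
  rfl

theorem sd_iso8 (B : LinearMap.BilinForm F V) (T : Module.End F V)
    (hT : ∀ x y, B x y = B (T y) x) (x y : V) :
    B (T x) (T y) = B x y := by
  rw [← hT (T y) x, ← hT x y]

theorem sd_rho_inv8 {G : Type*} [Group G] (ρ : Representation F G V) (g : G) (z : V) :
    ρ g (ρ g⁻¹ z) = z := by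
  rw [← Module.End.mul_apply, ← map_mul, mul_inv_cancel, map_one, Module.End.one_apply]

theorem sd_rho_inv'8 {G : Type*} [Group G] (ρ : Representation F G V) (g : G) (z : V) :
    ρ g⁻¹ (ρ g z) = z := by
  rw [← Module.End.mul_apply, ← map_mul, inv_mul_cancel, map_one, Module.End.one_apply]

theorem sd_adj8 {G : Type*} [Group G] (ρ : Representation F G V) (B : LinearMap.BilinForm F V)
    (hBinv : ∀ g : G, ∀ x y : V, B (ρ g x) (ρ g y) = B x y) (g : G) (x y : V) :
    B (ρ g x) y = B x (ρ g⁻¹ y) := by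
  rw [← hBinv g x (ρ g⁻¹ y), sd_rho_inv8]

theorem sd_adj'8 {G : Type*} [Group G] (ρ : Representation F G V) (B : LinearMap.BilinForm F V)
    (hBinv : ∀ g : G, ∀ x y : V, B (ρ g x) (ρ g y) = B x y) (g : G) (x y : V) :
    B x (ρ g y) = B (ρ g⁻¹ x) y := by
  rw [← hBinv g (ρ g⁻¹ x) y, sd_rho_inv8]

theorem sd_comm8 {G : Type*} [Group G] (ρ : Representation F G V) (B : LinearMap.BilinForm F V)
    (hBl : ∀ x, (∀ y, B x y = 0) → x = 0) (T : Module.End F V)
    (hT : ∀ x y, B x y = B (T y) x)
    (hBinv : ∀ g : G, ∀ x y : V, B (ρ g x) (ρ g y) = B x y) (g : G) (y : V) :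
    T (ρ g y) = ρ g (T y) := by
  have h : ∀ z, B (T (ρ g y) - ρ g (T y)) z = 0 := by
    intro z
    rw [map_sub, LinearMap.sub_apply, ← hT z (ρ g y), sd_adj8 ρ B hBinv g (T y) z,
      sd_adj'8 ρ B hBinv g z y, ← hT]
    exact sub_self _
  exact sub_eq_zero.mp (hBl _ h)

/-- The key adjointness relation for `N = T - 1`. -/
theorem sd_club8 (B : LinearMap.BilinForm F V) (T : Module.End F V)
    (hT : ∀ x y, B x y = B (T y) x) (a b : V) :
    B a ((T - 1) b) = - B ((T - 1) a) (T b) := by
  simp only [LinearMap.sub_apply, Module.End.one_apply, map_sub, sd_iso8 B T hT]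
  ring

theorem sd_orth_pow8 (B : LinearMap.BilinForm F V) (T : Module.End F V)
    (hT : ∀ x y, B x y = B (T y) x) (k : ℕ) (x y : V) :
    B x (((T - 1) ^ k) y) = (-1) ^ k * B (((T - 1) ^ k) x) ((T ^ k) y) := by
  induction k generalizing x y with
  | zero => simp
  | succ k ih =>
    have hc : Commute (T ^ k) (T - 1) :=
      ((Commute.refl T).sub_right (Commute.one_right T)).pow_left k
    have h1 : ((T - 1) ^ (k + 1)) y = ((T - 1) ^ k) ((T - 1) y) := by
      rw [pow_succ, Module.End.mul_apply]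
    have h2 : (T ^ k) ((T - 1) y) = (T - 1) ((T ^ k) y) := by
      rw [← Module.End.mul_apply, ← Module.End.mul_apply, hc.eq]
    have h3 : ((T - 1) ^ (k + 1)) x = (T - 1) (((T - 1) ^ k) x) := by
      rw [pow_succ', Module.End.mul_apply]
    have h4 : (T ^ (k + 1)) y = T ((T ^ k) y) := by
      rw [pow_succ', Module.End.mul_apply]
    rw [h1, ih, h2, sd_club8 B T hT, h3, h4, pow_succ]
    ring

/-- In a finite monoid every element has an idempotent power with positive exponent. -/
theorem sd_idem_pow8 {M : Type*} [Monoid M] [Finite M] (a : M) :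
    ∃ m : ℕ, 1 ≤ m ∧ a ^ m * a ^ m = a ^ m := by
  obtain ⟨i, j, hij, h⟩ := Finite.exists_ne_map_eq_of_infinite (fun n : ℕ => a ^ n)
  wlog hlt : i < j generalizing i j
  · exact this j i hij.symm h.symm (lt_of_le_of_ne (not_lt.mp hlt) hij.symm)
  obtain ⟨d, rfl⟩ : ∃ d, j = i + d := ⟨j - i, by omega⟩
  have hd : 1 ≤ d := by omega
  have h' : a ^ (i + d) = a ^ i := h.symm
  -- a^(b + d) = a^b for b ≥ i
  have hstep : ∀ b, i ≤ b → a ^ (b + d) = a ^ b := by
    intro b hb
    obtain ⟨c, rfl⟩ : ∃ c, b = i + c := ⟨b - i, by omega⟩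
    rw [show i + c + d = (i + d) + c by ring, pow_add, h', ← pow_add]
  have hmul : ∀ k b, i ≤ b → a ^ (b + k * d) = a ^ b := by
    intro k
    induction k with
    | zero => intro b _; simp
    | succ k ih =>
      intro b hb
      rw [show b + (k + 1) * d = (b + k * d) + d by ring, hstep _ (by omega), ih b hb]
  refine ⟨(i + 1) * d, ?_, ?_⟩
  · exact Nat.mul_pos (by omega) hd
  · rw [← pow_add]
    exact hmul (i + 1) ((i + 1) * d) (by nlinarith)

end

end Cfsg.Agent.Lib.Helper8
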