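import Cfsg.Agent.Lib.Helper8.SdForm1

/-!
# Self-dual modules: Fitting idempotent of the asymmetry operator, and the odd case
-/

namespace Cfsg.Agent.Lib.Helper8

section
variable {F : Type*} [Field F] {V : Type*} [AddCommGroup V] [Module F V]

theorem sd_pow_eigen8 (N : Module.End F V) (c : F) (x : V) (h : N x = c • x) (k : ℕ) :
    (N ^ k) x = c ^ k • x := by
  induction k with
  | zero => simp
  | succ k ih =>
    rw [pow_succ, Module.End.mul_apply, h, map_smul, ih, smul_smul, ← pow_succ']

end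

section
variable {F : Type*} [Field F] [Finite F] {V : Type*} [AddCommGroup V] [Module F V]
  [FiniteDimensional F V] {G : Type*} [Group G]

/-- Packaged setup: asymmetry operator `T`, `N = T - 1`, an idempotent power `E` of `N`. -/
theorem sd_setup8 (ρ : Representation F G V) (B : LinearMap.BilinForm F V)
    (hB : B.Nondegenerate)
    (hBinv : ∀ g : G, ∀ x y : V, B (ρ g x) (ρ g y) = B x y) :
    ∃ (T E : Module.End F V) (m : ℕ), 1 ≤ m ∧ E = (T - 1) ^ m ∧ E * E = E ∧
      (∀ x y, B x y = B (T y) x) ∧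
      (∀ g, Commute T (ρ g)) ∧
      (∀ a b, E b = 0 → B b (E a) = 0) ∧
      (∀ a b, E b = 0 → B (E a) b = 0) := by
  obtain ⟨T, hT⟩ := sd_T_exists8 B hB
  haveI : Finite V := Module.finite_of_finite F
  haveI : Finite (Module.End F V) := DFunLike.finite _
  obtain ⟨m, hm, hE⟩ := sd_idem_pow8 (T - 1 : Module.End F V)
  have hBl : ∀ x, (∀ y, B x y = 0) → x = 0 := hB.1
  have hTc : ∀ g y, T (ρ g y) = ρ g (T y) := sd_comm8 ρ B hBl T hT hBinv
  have hTc' : ∀ g, Commute T (ρ g) := by
    intro g
    apply LinearMap.ext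
    intro y
    rw [Module.End.mul_apply, Module.End.mul_apply, hTc]
  have hET : Commute ((T - 1) ^ m) T :=
    ((Commute.refl T).sub_left (Commute.one_left T)).pow_left m
  have h1 : ∀ a b, ((T - 1) ^ m) b = 0 → B b (((T - 1) ^ m) a) = 0 := by
    intro a b hb
    rw [sd_orth_pow8 B T hT, hb, map_zero, LinearMap.zero_apply, mul_zero]
  refine ⟨T, (T - 1) ^ m, m, hm, rfl, hE, hT, hTc', h1, ?_⟩
  intro a b hb
  rw [hT]
  apply h1
  have := congrArg (fun f : Module.End F V => f b) hET.eq
  simp only [Module.End.mul_apply] at this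
  rw [this, hb, map_zero]

theorem sd_odd8 (h2 : (2 : F) ≠ 0) (ρ : Representation F G V) (B : LinearMap.BilinForm F V)
    (hB : B.Nondegenerate) (hBinv : ∀ g : G, ∀ x y : V, B (ρ g x) (ρ g y) = B x y) :
    ∃ U W : Submodule F V, IsCompl U W ∧ (∀ g : G, ∀ u ∈ U, ρ g u ∈ U) ∧
      (∀ g : G, ∀ w ∈ W, ρ g w ∈ W) ∧
      (∃ A : LinearMap.BilinForm F V, (∀ x : V, A x x = 0) ∧
        (∀ g : G, ∀ x ∈ U, ∀ y ∈ U, A (ρ g x) (ρ g y) = A x y) ∧
        (∀ x ∈ U, (∀ y ∈ U, A x y = 0) → x = 0)) ∧
      (∃ S : LinearMap.BilinForm F V, (∀ x y : V, S x y = S y x) ∧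
        (∀ g : G, ∀ x ∈ W, ∀ y ∈ W, S (ρ g x) (ρ g y) = S x y) ∧
        (∀ x ∈ W, (∀ y ∈ W, S x y = 0) → x = 0)) := by
  obtain ⟨T, E, m, hm, hEdef, hEE, hT, hTc, ho1, ho2⟩ := sd_setup8 ρ B hB hBinv
  have hBl : ∀ x, (∀ y, B x y = 0) → x = 0 := hB.1
  have hidem : IsIdempotentElem E := hEE
  have hEc : ∀ g y, E (ρ g y) = ρ g (E y) := by
    intro g y
    have hc : Commute E (ρ g) := by
      rw [hEdef]
      exact ((hTc g).sub_left (Commute.one_left _)).pow_left m
    have := congrArg (fun f : Module.End F V => f y) hc.eq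
    simpa only [Module.End.mul_apply] using this
  have hsplit : ∀ y : V, y = E y + (y - E y) := fun y => by abel
  have hker : ∀ y : V, E (y - E y) = 0 := by
    intro y; rw [map_sub, ← Module.End.mul_apply, hEE, sub_self]
  have hEN : ∀ z, (T - 1) z = 0 → E z = 0 := by
    intro z hz
    obtain ⟨k, rfl⟩ : ∃ k, m = k + 1 := ⟨m - 1, by omega⟩
    rw [hEdef, pow_succ, Module.End.mul_apply, hz, map_zero]
  refine ⟨LinearMap.range E, LinearMap.ker E, LinearMap.IsIdempotentElem.isCompl hidem, ?_, ?_, ?_, ?_⟩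
  · rintro g u ⟨v, rfl⟩
    exact ⟨ρ g v, hEc g v⟩
  · intro g w hw
    rw [LinearMap.mem_ker] at hw ⊢
    rw [hEc, hw, map_zero]
  · refine ⟨B - B.flip, ?_, ?_, ?_⟩
    · intro x; simp
    · intro g x _ y _; simp [hBinv]
    · rintro x ⟨v, rfl⟩ hx
      have hall : ∀ y, B ((T - 1) (E v)) y = 0 := by
        intro y
        have hy1 : (B - B.flip) (E v) (E y) = 0 := hx (E y) ⟨y, rfl⟩
        have hy2 : (B - B.flip) (E v) (y - E y) = 0 := by
          simp only [LinearMap.sub_apply, LinearMap.BilinForm.flip_apply]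
          rw [ho2 v _ (hker y), ho1 v _ (hker y), sub_self]
        have hy : (B - B.flip) (E v) y = 0 := by
          rw [hsplit y, map_add, hy1, hy2, add_zero]
        simp only [LinearMap.sub_apply, LinearMap.BilinForm.flip_apply] at hy
        rw [LinearMap.sub_apply, Module.End.one_apply, map_sub, LinearMap.sub_apply, ← hT]
        linear_combination -hy
      have hN : (T - 1) (E v) = 0 := hBl _ hall
      have h0 : E (E v) = 0 := hEN _ hN
      rwa [← Module.End.mul_apply, hEE] at h0
  · refine ⟨B + B.flip, ?_, ?_, ?_⟩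
    · intro x y; simp [add_comm]
    · intro g x _ y _; simp [hBinv]
    · intro x hx0 hx
      rw [LinearMap.mem_ker] at hx0
      have hall : ∀ y, B ((T + 1) x) y = 0 := by
        intro y
        have hy1 : (B + B.flip) x (y - E y) = 0 := hx _ (LinearMap.mem_ker.mpr (hker y))
        have hy2 : (B + B.flip) x (E y) = 0 := by
          simp only [LinearMap.add_apply, LinearMap.BilinForm.flip_apply]
          rw [ho1 y x hx0, ho2 y x hx0, add_zero]
        have hy : (B + B.flip) x y = 0 := by
          rw [hsplit y, map_add, hy1, hy2, add_zero]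
        simp only [LinearMap.add_apply, LinearMap.BilinForm.flip_apply] at hy
        rw [LinearMap.add_apply, Module.End.one_apply, map_add, LinearMap.add_apply, ← hT]
        linear_combination hy
      have hN : (T + 1) x = 0 := hBl _ hall
      have hN' : (T - 1) x = (-2 : F) • x := by
        rw [LinearMap.add_apply, Module.End.one_apply] at hN
        rw [LinearMap.sub_apply, Module.End.one_apply, eq_neg_of_add_eq_zero_left hN]
        module
      have hpow := sd_pow_eigen8 (T - 1) (-2 : F) x hN' m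
      rw [← hEdef, hx0] at hpow
      have hne : ((-2 : F)) ^ m ≠ 0 := pow_ne_zero _ (neg_ne_zero.mpr h2)
      exact (smul_eq_zero.mp hpow.symm).resolve_left hne

end

end Cfsg.Agent.Lib.Helper8
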