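import Cfsg.Agent.Lib.Helper8.SdForm2

/-!
# Self-dual modules in characteristic 2: half-systems and the averaging operator
-/

namespace Cfsg.Agent.Lib.Helper8

section
variable {G : Type*} [Group G] [Fintype G]

/-- Half-system summation identity. -/
theorem sd_half_sum8 {A : Type*} [AddCommGroup A] (φ : G → ℕ) (hφ : Function.Injective φ)
    (hinv : ∀ g : G, g ≠ 1 → g ≠ g⁻¹) (f : G → A) :
    ∑ g : G, (if φ g < φ g⁻¹ then f g⁻¹ + f g else 0) = ∑ g : G, f g - f 1 := by
  classical
  have h1 : ∑ g : G, (if φ g < φ g⁻¹ then f g⁻¹ else 0)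
      = ∑ g : G, (if φ g⁻¹ < φ g then f g else 0) := by
    have := Equiv.sum_comp (Equiv.inv G) (fun g => if φ g⁻¹ < φ g then f g else 0)
    simpa using this
  have h2 : ∀ g : G, (if φ g⁻¹ < φ g then f g else 0) + (if φ g < φ g⁻¹ then f g else 0)
      = f g - (if g = 1 then f g else 0) := by
    intro g
    by_cases hg : g = 1
    · subst hg; simp
    · have hne : φ g ≠ φ g⁻¹ := fun h => hinv g hg (hφ h)
      rcases lt_or_gt_of_ne hne with hlt | hgt
      · simp [hlt, hg, not_lt.mpr hlt.le]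
      · simp [hgt, hg, not_lt.mpr hgt.le]
  calc ∑ g : G, (if φ g < φ g⁻¹ then f g⁻¹ + f g else 0)
      = ∑ g : G, ((if φ g < φ g⁻¹ then f g⁻¹ else 0)
          + (if φ g < φ g⁻¹ then f g else 0)) := by
        refine Finset.sum_congr rfl fun g _ => ?_
        split_ifs <;> simp
    _ = ∑ g : G, (if φ g⁻¹ < φ g then f g else 0)
          + ∑ g : G, (if φ g < φ g⁻¹ then f g else 0) := by
        rw [Finset.sum_add_distrib, h1]
    _ = ∑ g : G, (f g - (if g = 1 then f g else 0)) := by
        rw [← Finset.sum_add_distrib]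
        exact Finset.sum_congr rfl fun g _ => h2 g
    _ = ∑ g : G, f g - f 1 := by
        rw [Finset.sum_sub_distrib, Finset.sum_ite_eq']; simp

end

section
variable {F : Type*} [Field F] {V : Type*} [AddCommGroup V] [Module F V]
  {G : Type*} [Group G] [Fintype G]

theorem sd_avg_left8 (ρ : Representation F G V) (g : G) :
    ρ g * ∑ h : G, ρ h = ∑ h : G, ρ h := by
  rw [Finset.mul_sum]
  exact Fintype.sum_equiv (Equiv.mulLeft g) _ _ (fun h => by simp [map_mul])

theorem sd_avg_right8 (ρ : Representation F G V) (g : G) :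
    (∑ h : G, ρ h) * ρ g = ∑ h : G, ρ h := by
  rw [Finset.sum_mul]
  exact Fintype.sum_equiv (Equiv.mulRight g) _ _ (fun h => by simp [map_mul])

theorem sd_avg_sq8 (ρ : Representation F G V) :
    (∑ h : G, ρ h) * (∑ h : G, ρ h) = (Fintype.card G : F) • ∑ h : G, ρ h := by
  rw [Finset.sum_mul]
  simp_rw [sd_avg_left8]
  rw [Finset.sum_const, Finset.card_univ, Nat.cast_smul_eq_nsmul]

theorem sd_avg_adj8 (ρ : Representation F G V) (B : LinearMap.BilinForm F V)
    (hBinv : ∀ g : G, ∀ x y : V, B (ρ g x) (ρ g y) = B x y) (x y : V) :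
    B x ((∑ h : G, ρ h) y) = B ((∑ h : G, ρ h) x) y := by
  simp only [LinearMap.sum_apply, map_sum]
  exact Fintype.sum_equiv (Equiv.inv G) _ _ (fun h => by simp [sd_adj'8 ρ B hBinv])

/-- The key identity making the twisted form alternating on the kernel of the averaging
operator (characteristic 2, no involutions). -/
theorem sd_star8 [CharP F 2] (ρ : Representation F G V) (B : LinearMap.BilinForm F V)
    (hBinv : ∀ g : G, ∀ x y : V, B (ρ g x) (ρ g y) = B x y) (T : Module.End F V)
    (hT : ∀ x y, B x y = B (T y) x)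
    (φ : G → ℕ) (hφ : Function.Injective φ) (hinv : ∀ g : G, g ≠ 1 → g ≠ g⁻¹) (v : V)
    (hv : (∑ h : G, ρ h) v = 0) :
    B ((1 + (∑ g : G, if φ g < φ g⁻¹ then ρ g⁻¹ else 0) * (T - 1)) v) v = 0 := by
  have key : ∀ g : G, B ((if φ g < φ g⁻¹ then ρ g⁻¹ else 0) ((T - 1) v)) v
      = if φ g < φ g⁻¹ then B v (ρ g⁻¹ v) + B v (ρ g v) else 0 := by
    intro g
    split_ifs with h
    · rw [sd_adj8 ρ B hBinv g⁻¹, inv_inv, LinearMap.sub_apply, Module.End.one_apply, map_sub,
        LinearMap.sub_apply, ← hT, sd_adj8 ρ B hBinv g v v, CharTwo.sub_eq_add]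
    · simp
  have hsum := sd_half_sum8 φ hφ hinv (fun g => B v (ρ g v))
  have hs : ∑ g : G, B v (ρ g v) = 0 := by
    rw [← map_sum, ← LinearMap.sum_apply, hv, map_zero]
  rw [LinearMap.add_apply, Module.End.one_apply, Module.End.mul_apply, map_add,
    LinearMap.add_apply, LinearMap.sum_apply, map_sum, LinearMap.sum_apply]
  simp_rw [key]
  rw [hsum, hs, map_one, Module.End.one_apply]
  ring

end

end Cfsg.Agent.Lib.Helper8
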