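import Cfsg.Agent.Lib.Helper8.SdForm3

/-!
# Self-dual modules in characteristic 2: fixed points plus a symplectic complement
-/

namespace Cfsg.Agent.Lib.Helper8

theorem sd_two8 {F : Type*} [Field F] [Finite F] [CharP F 2] {V : Type*} [AddCommGroup V]
    [Module F V] [FiniteDimensional F V] {G : Type*} [Group G] [Finite G]
    (hodd : ¬ 2 ∣ Nat.card G) (ρ : Representation F G V) (B : LinearMap.BilinForm F V)
    (hB : B.Nondegenerate) (hBinv : ∀ g : G, ∀ x y : V, B (ρ g x) (ρ g y) = B x y) :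
    ∃ U W : Submodule F V, IsCompl U W ∧ (∀ g : G, ∀ u ∈ U, ρ g u ∈ U) ∧
      (∀ g : G, ∀ w ∈ W, ρ g w ∈ W) ∧
      (∃ A : LinearMap.BilinForm F V, (∀ x : V, A x x = 0) ∧
        (∀ g : G, ∀ x ∈ U, ∀ y ∈ U, A (ρ g x) (ρ g y) = A x y) ∧
        (∀ x ∈ U, (∀ y ∈ U, A x y = 0) → x = 0)) ∧
      (∃ S : LinearMap.BilinForm F V, (∀ x y : V, S x y = S y x) ∧
        (∀ g : G, ∀ x ∈ W, ∀ y ∈ W, S (ρ g x) (ρ g y) = S x y) ∧
        (∀ x ∈ W, (∀ y ∈ W, S x y = 0) → x = 0)) ∧
      (∀ g : G, ∀ w ∈ W, ρ g w = w) := by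
  classical
  cases nonempty_fintype G
  obtain ⟨T, E, m, hm, hEdef, hEE, hT, hTc, ho1, ho2⟩ := sd_setup8 ρ B hB hBinv
  have hBl : ∀ x, (∀ y, B x y = 0) → x = 0 := hB.1
  have hcard : (Fintype.card G : F) ≠ 0 := by
    rw [Ne, CharP.cast_eq_zero_iff F 2, ← Nat.card_eq_fintype_card]; exact hodd
  have hinv : ∀ g : G, g ≠ 1 → g ≠ g⁻¹ := by
    intro g hg h
    have h2 : g ^ 2 = 1 := by
      rw [pow_two]; nth_rewrite 2 [h]; exact mul_inv_cancel g
    have hd : orderOf g ∣ 2 := orderOf_dvd_of_pow_eq_one h2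
    have hd' : orderOf g ∣ Nat.card G := orderOf_dvd_natCard g
    rcases (Nat.dvd_prime Nat.prime_two).mp hd with h1 | h1
    · exact hg (orderOf_eq_one_iff.mp h1)
    · exact hodd (h1 ▸ hd')
  obtain ⟨φ, hφ⟩ : ∃ φ : G → ℕ, Function.Injective φ :=
    ⟨fun g => (Fintype.equivFin G g : ℕ), fun a b h =>
      (Fintype.equivFin G).injective (Fin.ext h)⟩
  obtain ⟨N, hN⟩ : ∃ N : Module.End F V, N = T - 1 := ⟨_, rfl⟩
  obtain ⟨s, hs⟩ : ∃ s : Module.End F V, s = ∑ h : G, ρ h := ⟨_, rfl⟩
  obtain ⟨z, hz⟩ : ∃ z : Module.End F V,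
      z = ∑ g : G, (if φ g < φ g⁻¹ then ρ g⁻¹ else 0) := ⟨_, rfl⟩
  obtain ⟨D, hD⟩ : ∃ D : Module.End F V, D = 1 + z * N := ⟨_, rfl⟩
  obtain ⟨M₀, hM₀⟩ : ∃ M₀ : Module.End F V, M₀ = ∑ h : G, ρ h⁻¹ * D * ρ h := ⟨_, rfl⟩
  obtain ⟨c, hc⟩ : ∃ c : F, c = (Fintype.card G : F)⁻¹ := ⟨_, rfl⟩
  obtain ⟨M', hM'⟩ : ∃ M' : Module.End F V, M' = M₀ * (1 - E) + N * E := ⟨_, rfl⟩
  obtain ⟨Q, hQ⟩ : ∃ Q : Module.End F V, Q = 1 - c • s := ⟨_, rfl⟩
  have hNm : N ^ m = E := by rw [hN, hEdef]
  -- commutation facts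
  have cNρ : ∀ g, Commute N (ρ g) := fun g => by
    rw [hN]; exact (hTc g).sub_left (Commute.one_left _)
  have cEρ : ∀ g, Commute E (ρ g) := fun g => by
    rw [← hNm]; exact (cNρ g).pow_left m
  have cEN : Commute E N := by rw [← hNm]; exact (Commute.refl N).pow_left m
  have cEs : Commute E s := by rw [hs]; exact Commute.sum_right _ _ _ (fun g _ => cEρ g)
  have cNz : Commute N z := by
    rw [hz]; refine Commute.sum_right _ _ _ (fun g _ => ?_)
    split_ifs
    · exact cNρ g⁻¹
    · exact Commute.zero_right _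
  have cEz : Commute E z := by
    rw [hz]; refine Commute.sum_right _ _ _ (fun g _ => ?_)
    split_ifs
    · exact cEρ g⁻¹
    · exact Commute.zero_right _
  have cED : Commute E D := by
    rw [hD]; exact (Commute.one_right _).add_right (cEz.mul_right cEN)
  have cEM₀ : Commute E M₀ := by
    rw [hM₀]
    exact Commute.sum_right _ _ _ (fun h _ => ((cEρ h⁻¹).mul_right cED).mul_right (cEρ h))
  -- facts on the averaging operator
  have sl : ∀ g, ρ g * s = s := fun g => by rw [hs]; exact sd_avg_left8 ρ g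
  have sr : ∀ g, s * ρ g = s := fun g => by rw [hs]; exact sd_avg_right8 ρ g
  have ss : s * s = (Fintype.card G : F) • s := by rw [hs]; exact sd_avg_sq8 ρ
  have sadj : ∀ x y, B x (s y) = B (s x) y := by rw [hs]; exact sd_avg_adj8 ρ B hBinv
  have cρs : ∀ g, Commute (ρ g) s := fun g => by
    show ρ g * s = s * ρ g
    rw [sl, sr]
  have cρM₀ : ∀ k, Commute (ρ k) M₀ := by
    intro k
    show ρ k * M₀ = M₀ * ρ k
    rw [hM₀, Finset.mul_sum, Finset.sum_mul]
    refine (Fintype.sum_equiv (Equiv.mulRight k) _ _ (fun h => ?_)).symm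
    have e1 : ρ k * ρ (h * k)⁻¹ = ρ h⁻¹ := by
      rw [← map_mul]; congr 1; group
    show ρ h⁻¹ * D * ρ h * ρ k = ρ k * (ρ (h * k)⁻¹ * D * ρ (h * k))
    calc ρ h⁻¹ * D * ρ h * ρ k = ρ h⁻¹ * D * ρ (h * k) := by rw [map_mul, mul_assoc]
      _ = ρ k * ρ (h * k)⁻¹ * D * ρ (h * k) := by rw [e1]
      _ = ρ k * (ρ (h * k)⁻¹ * D * ρ (h * k)) := by simp only [mul_assoc]
  have cρM' : ∀ k, Commute (ρ k) M' := fun k => by
    rw [hM']
    exact ((cρM₀ k).mul_right ((Commute.one_right _).sub_right (cEρ k).symm)).add_right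
      ((cNρ k).symm.mul_right (cEρ k).symm)
  have cρQ : ∀ k, Commute (ρ k) Q := fun k => by
    rw [hQ]
    exact (Commute.one_right _).sub_right ((cρs k).smul_right c)
  have csM' : Commute s M' := by
    rw [hs]; exact Commute.sum_left _ _ _ (fun g _ => cρM' g)
  -- vector-level facts
  have app : ∀ {X Y : Module.End F V}, Commute X Y → ∀ v, X (Y v) = Y (X v) := by
    intro X Y h v
    have := congrArg (fun f : Module.End F V => f v) h.eq
    simpa only [Module.End.mul_apply] using this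
  have Qdef : ∀ x, Q x = x - c • s x := by
    intro x; rw [hQ, LinearMap.sub_apply, Module.End.one_apply, LinearMap.smul_apply]
  have ssx : ∀ x, s (s x) = (Fintype.card G : F) • s x := by
    intro x; rw [← Module.End.mul_apply, ss, LinearMap.smul_apply]
  have sQ : ∀ x, s (Q x) = 0 := by
    intro x
    rw [Qdef, map_sub, map_smul, ssx, smul_smul, hc, inv_mul_cancel₀ hcard, one_smul, sub_self]
  have Qker : ∀ x, s x = 0 → Q x = x := by
    intro x hx; rw [Qdef, hx, smul_zero, sub_zero]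
  have sM : ∀ x, s (M' (Q x)) = 0 := by
    intro x; rw [app csM', sQ, map_zero]
  have hEN : ∀ y, N y = 0 → E y = 0 := by
    intro y hy
    obtain ⟨k, rfl⟩ : ∃ k, m = k + 1 := ⟨m - 1, by omega⟩
    rw [← hNm, pow_succ, Module.End.mul_apply, hy, map_zero]
  have hEEx : ∀ y, E (E y) = E y := by
    intro y; rw [← Module.End.mul_apply, hEE]
  have M'def : ∀ y, M' y = M₀ (y - E y) + N (E y) := by
    intro y
    rw [hM', LinearMap.add_apply, Module.End.mul_apply, Module.End.mul_apply,
      LinearMap.sub_apply, Module.End.one_apply]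
  have hBN : ∀ w, B (N w) w = 0 := by
    intro w
    rw [hN, LinearMap.sub_apply, Module.End.one_apply, map_sub, LinearMap.sub_apply, ← hT,
      sub_self]
  have hsplitQ : ∀ y : V, y = Q y + c • s y := by
    intro y; rw [Qdef]; abel
  refine ⟨LinearMap.ker s, LinearMap.range s, ?_, ?_, ?_, ?_, ?_, ?_⟩
  · constructor
    · rw [Submodule.disjoint_def]
      rintro x hx1 ⟨y, hy⟩
      rw [LinearMap.mem_ker] at hx1
      have : (Fintype.card G : F) • x = 0 := by
        rw [← hy, ← ssx, hy, hx1]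
      exact (smul_eq_zero.mp this).resolve_left hcard
    · rw [Submodule.codisjoint_iff_exists_add_eq]
      intro x
      refine ⟨Q x, s (c • x), LinearMap.mem_ker.mpr (sQ x), ⟨_, rfl⟩, ?_⟩
      rw [Qdef, map_smul]; abel
  · intro g u hu
    rw [LinearMap.mem_ker] at hu ⊢
    rw [← Module.End.mul_apply, sr, hu]
  · rintro g w ⟨y, rfl⟩
    refine ⟨y, ?_⟩
    show s y = (ρ g * s) y
    rw [sl]
  · refine ⟨B.comp (M' * Q) LinearMap.id, ?_, ?_, ?_⟩
    · intro x
      show B (M' (Q x)) x = 0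
      obtain ⟨u, hu⟩ : ∃ u, u = Q x := ⟨_, rfl⟩
      have hsu : s u = 0 := by rw [hu]; exact sQ x
      have h1 : B (M' u) (c • s x) = 0 := by
        rw [map_smul, sadj, hu, sM, map_zero, LinearMap.zero_apply, smul_zero]
      obtain ⟨u₀, hu₀⟩ : ∃ u₀, u₀ = u - E u := ⟨_, rfl⟩
      have hEu₀ : E u₀ = 0 := by rw [hu₀, map_sub, hEEx, sub_self]
      have hsu₀ : s u₀ = 0 := by rw [hu₀, map_sub, hsu, ← app cEs, hsu, map_zero, sub_self]
      have husplit : u = u₀ + E u := by rw [hu₀]; abel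
      have h2 : B (M₀ u₀) (E u) = 0 := by
        apply ho1
        rw [app cEM₀, hEu₀, map_zero]
      have h3 : B (M₀ u₀) u₀ = 0 := by
        rw [hM₀, LinearMap.sum_apply, map_sum, LinearMap.sum_apply]
        refine Finset.sum_eq_zero (fun h _ => ?_)
        rw [Module.End.mul_apply, Module.End.mul_apply, sd_adj8 ρ B hBinv h⁻¹, inv_inv, hD, hz,
          hN]
        apply sd_star8 ρ B hBinv T hT φ hφ hinv
        rw [← hs, ← Module.End.mul_apply, sr, hsu₀]
      have h4 : B (N (E u)) u₀ = 0 := by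
        rw [← app cEN]
        exact ho2 _ _ hEu₀
      have e1 : B (M₀ u₀) u = 0 := by
        have : B (M₀ u₀) (u₀ + E u) = 0 := by rw [map_add, h3, h2, add_zero]
        rwa [← husplit] at this
      have e2 : B (N (E u)) u = 0 := by
        have : B (N (E u)) (u₀ + E u) = 0 := by rw [map_add, h4, hBN, add_zero]
        rwa [← husplit] at this
      have h5 : B (M' u) u = 0 := by
        rw [M'def, ← hu₀, map_add, LinearMap.add_apply, e1, e2, add_zero]
      have hx' : B (M' u) (Q x + c • s x) = 0 := by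
        rw [map_add, ← hu, h5, h1, add_zero]
      rw [← hsplitQ x] at hx'
      rw [← hu]
      exact hx'
    · intro g x _ y _
      show B (M' (Q (ρ g x))) (ρ g y) = B (M' (Q x)) y
      rw [← app (cρQ g), ← app (cρM' g), hBinv]
    · intro x hx hall
      rw [LinearMap.mem_ker] at hx
      have h0 : ∀ y, B (M' (Q x)) y = 0 := by
        intro y
        have h1 : B (M' (Q x)) (Q y) = 0 := hall (Q y) (LinearMap.mem_ker.mpr (sQ y))
        have h2 : B (M' (Q x)) (c • s y) = 0 := by
          rw [map_smul, sadj, sM, map_zero, LinearMap.zero_apply, smul_zero]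
        rw [hsplitQ y, map_add, h1, h2, add_zero]
      have hM : M' (Q x) = 0 := hBl _ h0
      rw [Qker x hx] at hM
      have hEx : E x = 0 := by
        have h1 : E (M' x) = N (E x) := by
          rw [M'def, map_add, app cEM₀, map_sub, hEEx, sub_self, map_zero, zero_add, app cEN,
            hEEx]
        rw [hM, map_zero] at h1
        have h2 := hEN (E x) h1.symm
        rwa [hEEx] at h2
      have hM₀x : M₀ x = 0 := by
        rw [M'def, hEx, sub_zero, map_zero, add_zero] at hM
        exact hM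
      obtain ⟨Z, hZ⟩ : ∃ Z : Module.End F V, Z = ∑ h : G, ρ h⁻¹ * z * ρ h := ⟨_, rfl⟩
      have hM₀eq : M₀ = (Fintype.card G : F) • (1 : Module.End F V) + N * Z := by
        rw [hM₀, hZ, Finset.mul_sum, hD]
        have hterm : ∀ h : G, ρ h⁻¹ * (1 + z * N) * ρ h = 1 + N * (ρ h⁻¹ * z * ρ h) := by
          intro h
          rw [mul_add, add_mul, mul_one, ← map_mul, inv_mul_cancel, map_one]
          congr 1
          rw [← cNz.eq, ← mul_assoc, ← (cNρ h⁻¹).eq]
          simp only [mul_assoc]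
        simp_rw [hterm]
        rw [Finset.sum_add_distrib, Finset.sum_const, Finset.card_univ,
          Nat.cast_smul_eq_nsmul]
      have cNZ : Commute N Z := by
        rw [hZ]
        exact Commute.sum_right _ _ _ (fun h _ => ((cNρ h⁻¹).mul_right cNz).mul_right (cNρ h))
      have hfix : (N * ((-c) • Z)) x = (1 : F) • x := by
        have h1 : (Fintype.card G : F) • x + N (Z x) = 0 := by
          have := hM₀x
          rw [hM₀eq] at this
          simpa [Module.End.mul_apply] using this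
        have h2 : N (Z x) = -((Fintype.card G : F) • x) := eq_neg_of_add_eq_zero_right h1
        rw [Module.End.mul_apply, LinearMap.smul_apply, map_smul, one_smul, h2, hc, neg_smul,
          smul_neg, neg_neg, smul_smul, inv_mul_cancel₀ hcard, one_smul]
      have hpow := sd_pow_eigen8 (N * ((-c) • Z)) 1 x hfix m
      rw [(cNZ.smul_right (-c)).mul_pow, ((cNZ.smul_right (-c)).pow_pow m m).eq, one_pow,
        one_smul, Module.End.mul_apply, hNm, hEx, map_zero] at hpow
      exact hpow.symm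
  · obtain ⟨b⟩ : Nonempty (Module.Basis (Fin (Module.finrank F (LinearMap.range s))) F
        (LinearMap.range s)) := ⟨Module.finBasis F _⟩
    have hmem : ∀ x, (c • s) x ∈ LinearMap.range s := fun x =>
      ⟨c • x, by rw [map_smul, LinearMap.smul_apply]⟩
    obtain ⟨π, hπ⟩ : ∃ π : V →ₗ[F] LinearMap.range s,
        π = LinearMap.codRestrict (LinearMap.range s) (c • s) hmem := ⟨_, rfl⟩
    have hπW : ∀ w : LinearMap.range s, π (w : V) = w := by
      rintro ⟨w, y, rfl⟩
      apply Subtype.ext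
      rw [hπ, LinearMap.codRestrict_apply, LinearMap.smul_apply, ssx, smul_smul, hc,
        inv_mul_cancel₀ hcard, one_smul]
    refine ⟨LinearMap.mk₂ F (fun x y => ∑ i, b.repr (π x) i * b.repr (π y) i) ?_ ?_ ?_ ?_,
      ?_, ?_, ?_⟩
    · intro x x' y; simp [add_mul, Finset.sum_add_distrib]
    · intro a x y; simp [Finset.mul_sum, mul_assoc]
    · intro x y y'; simp [mul_add, Finset.sum_add_distrib]
    · intro a x y; simp [Finset.mul_sum, mul_left_comm]
    · intro x y
      simp only [LinearMap.mk₂_apply]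
      exact Finset.sum_congr rfl fun i _ => mul_comm _ _
    · rintro g x ⟨x', rfl⟩ y ⟨y', rfl⟩
      have e1 : ρ g (s x') = s x' := by rw [← Module.End.mul_apply, sl]
      have e2 : ρ g (s y') = s y' := by rw [← Module.End.mul_apply, sl]
      rw [e1, e2]
    · intro x hx hall
      have hrepr : b.repr (π x) = 0 := by
        ext i
        have := hall (b i : V) (b i).2
        rw [LinearMap.mk₂_apply, hπW (b i)] at this
        simp only [Module.Basis.repr_self, Finsupp.single_apply] at this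
        simpa using this
      have hπx : π x = 0 := by simpa using hrepr
      have := hπW ⟨x, hx⟩
      rw [hπx] at this
      exact (congrArg Subtype.val this).symm
  · rintro g w ⟨y, rfl⟩
    rw [← Module.End.mul_apply, sl]

end Cfsg.Agent.Lib.Helper8
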