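import Mathlib
import Cfsg.Prelude.Def_SporadicB

set_option autoImplicit false

namespace Cfsg.Agent.Lib.Helper8

open Equiv

/-- Coset representatives for the chain `1 < S₂ < S₃ < S₄`. -/
def s4A : Fin 2 → Perm (Fin 4) := ![1, swap 0 1]
def s4B : Fin 3 → Perm (Fin 4) := ![1, swap 1 2, swap 1 2 * swap 0 1]
def s4C : Fin 4 → Perm (Fin 4) :=
  ![1, swap 2 3, swap 2 3 * swap 1 2, swap 2 3 * swap 1 2 * swap 0 1]
def s4P (x : Fin 2 × Fin 3 × Fin 4) : Perm (Fin 4) := s4A x.1 * s4B x.2.1 * s4C x.2.2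
def s4S : Fin 3 → Perm (Fin 4) := ![swap 0 1, swap 1 2, swap 2 3]

section words
variable {G : Type*} [Group G] (a b c : G)
def s4wA : Fin 2 → G := ![1, a]
def s4wB : Fin 3 → G := ![1, b, b * a]
def s4wC : Fin 4 → G := ![1, c, c * b, c * b * a]
def s4W (x : Fin 2 × Fin 3 × Fin 4) : G := s4wA a x.1 * s4wB a b x.2.1 * s4wC a b c x.2.2
def s4g : Fin 3 → G := ![a, b, c]
end words

theorem s4P_inj : Function.Injective s4P := by decide

theorem s4P_bij : Function.Bijective s4P := by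
  rw [Fintype.bijective_iff_injective_and_card]
  refine ⟨s4P_inj, ?_⟩
  simp [Fintype.card_perm, Nat.factorial]

set_option linter.unusedSimpArgs false in
set_option maxHeartbeats 1600000 in
theorem s4_step {G : Type*} [Group G] (a b c : G) (ha : a * a = 1) (hb : b * b = 1)
    (hc : c * c = 1) (hbab : b * (a * b) = a * (b * a)) (hcbc : c * (b * c) = b * (c * b))
    (hca : c * a = a * c) (x : Fin 2 × Fin 3 × Fin 4) (s : Fin 3) :
    ∃ y, s4P y = s4P x * s4S s ∧ s4W a b c y = s4W a b c x * s4g a b c s := by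
  have ha' : ∀ x : G, a * (a * x) = x := fun x => by rw [← mul_assoc, ha, one_mul]
  have hb' : ∀ x : G, b * (b * x) = x := fun x => by rw [← mul_assoc, hb, one_mul]
  have hc' : ∀ x : G, c * (c * x) = x := fun x => by rw [← mul_assoc, hc, one_mul]
  have hca' : ∀ x : G, c * (a * x) = a * (c * x) := fun x => by
    rw [← mul_assoc, hca, mul_assoc]
  have hbab' : ∀ x : G, b * (a * (b * x)) = a * (b * (a * x)) := fun x => by
    rw [← mul_assoc a, ← mul_assoc b, hbab]; simp only [mul_assoc]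
  have hcbc' : ∀ x : G, c * (b * (c * x)) = b * (c * (b * x)) := fun x => by
    rw [← mul_assoc b, ← mul_assoc c, hcbc]; simp only [mul_assoc]
  have hcbac : c * (b * (a * c)) = b * (c * (b * a)) := by
    rw [← hca, hcbc']
  have hcbac' : ∀ x : G, c * (b * (a * (c * x))) = b * (c * (b * (a * x))) := fun x => by
    rw [← hca', hcbc']
  obtain ⟨i, j, k⟩ := x
  fin_cases i <;> fin_cases j <;> fin_cases k <;> fin_cases s
  · refine ⟨(1, 0, 0), by decide, ?_⟩
    show a * (1) * (1) = 1 * (1) * (1) * a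
    simp only [mul_assoc, one_mul, mul_one, ha, ha', hb, hb', hc, hc', hca, hca', hbab, hbab', hcbc, hcbc', hcbac, hcbac']
  · refine ⟨(0, 1, 0), by decide, ?_⟩
    show 1 * (b) * (1) = 1 * (1) * (1) * b
    simp only [mul_assoc, one_mul, mul_one, ha, ha', hb, hb', hc, hc', hca, hca', hbab, hbab', hcbc, hcbc', hcbac, hcbac']
  · refine ⟨(0, 0, 1), by decide, ?_⟩
    show 1 * (1) * (c) = 1 * (1) * (1) * c
    simp only [mul_assoc, one_mul, mul_one, ha, ha', hb, hb', hc, hc', hca, hca', hbab, hbab', hcbc, hcbc', hcbac, hcbac']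
  · refine ⟨(1, 0, 1), by decide, ?_⟩
    show a * (1) * (c) = 1 * (1) * (c) * a
    simp only [mul_assoc, one_mul, mul_one, ha, ha', hb, hb', hc, hc', hca, hca', hbab, hbab', hcbc, hcbc', hcbac, hcbac']
  · refine ⟨(0, 0, 2), by decide, ?_⟩
    show 1 * (1) * (c * b) = 1 * (1) * (c) * b
    simp only [mul_assoc, one_mul, mul_one, ha, ha', hb, hb', hc, hc', hca, hca', hbab, hbab', hcbc, hcbc', hcbac, hcbac']
  · refine ⟨(0, 0, 0), by decide, ?_⟩
    show 1 * (1) * (1) = 1 * (1) * (c) * c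
    simp only [mul_assoc, one_mul, mul_one, ha, ha', hb, hb', hc, hc', hca, hca', hbab, hbab', hcbc, hcbc', hcbac, hcbac']
  · refine ⟨(0, 0, 3), by decide, ?_⟩
    show 1 * (1) * (c * b * a) = 1 * (1) * (c * b) * a
    simp only [mul_assoc, one_mul, mul_one, ha, ha', hb, hb', hc, hc', hca, hca', hbab, hbab', hcbc, hcbc', hcbac, hcbac']
  · refine ⟨(0, 0, 1), by decide, ?_⟩
    show 1 * (1) * (c) = 1 * (1) * (c * b) * b
    simp only [mul_assoc, one_mul, mul_one, ha, ha', hb, hb', hc, hc', hca, hca', hbab, hbab', hcbc, hcbc', hcbac, hcbac']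
  · refine ⟨(0, 1, 2), by decide, ?_⟩
    show 1 * (b) * (c * b) = 1 * (1) * (c * b) * c
    simp only [mul_assoc, one_mul, mul_one, ha, ha', hb, hb', hc, hc', hca, hca', hbab, hbab', hcbc, hcbc', hcbac, hcbac']
  · refine ⟨(0, 0, 2), by decide, ?_⟩
    show 1 * (1) * (c * b) = 1 * (1) * (c * b * a) * a
    simp only [mul_assoc, one_mul, mul_one, ha, ha', hb, hb', hc, hc', hca, hca', hbab, hbab', hcbc, hcbc', hcbac, hcbac']
  · refine ⟨(1, 0, 3), by decide, ?_⟩
    show a * (1) * (c * b * a) = 1 * (1) * (c * b * a) * b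
    simp only [mul_assoc, one_mul, mul_one, ha, ha', hb, hb', hc, hc', hca, hca', hbab, hbab', hcbc, hcbc', hcbac, hcbac']
  · refine ⟨(0, 1, 3), by decide, ?_⟩
    show 1 * (b) * (c * b * a) = 1 * (1) * (c * b * a) * c
    simp only [mul_assoc, one_mul, mul_one, ha, ha', hb, hb', hc, hc', hca, hca', hbab, hbab', hcbc, hcbc', hcbac, hcbac']
  · refine ⟨(0, 2, 0), by decide, ?_⟩
    show 1 * (b * a) * (1) = 1 * (b) * (1) * a
    simp only [mul_assoc, one_mul, mul_one, ha, ha', hb, hb', hc, hc', hca, hca', hbab, hbab', hcbc, hcbc', hcbac, hcbac']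
  · refine ⟨(0, 0, 0), by decide, ?_⟩
    show 1 * (1) * (1) = 1 * (b) * (1) * b
    simp only [mul_assoc, one_mul, mul_one, ha, ha', hb, hb', hc, hc', hca, hca', hbab, hbab', hcbc, hcbc', hcbac, hcbac']
  · refine ⟨(0, 1, 1), by decide, ?_⟩
    show 1 * (b) * (c) = 1 * (b) * (1) * c
    simp only [mul_assoc, one_mul, mul_one, ha, ha', hb, hb', hc, hc', hca, hca', hbab, hbab', hcbc, hcbc', hcbac, hcbac']
  · refine ⟨(0, 2, 1), by decide, ?_⟩
    show 1 * (b * a) * (c) = 1 * (b) * (c) * a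
    simp only [mul_assoc, one_mul, mul_one, ha, ha', hb, hb', hc, hc', hca, hca', hbab, hbab', hcbc, hcbc', hcbac, hcbac']
  · refine ⟨(0, 1, 2), by decide, ?_⟩
    show 1 * (b) * (c * b) = 1 * (b) * (c) * b
    simp only [mul_assoc, one_mul, mul_one, ha, ha', hb, hb', hc, hc', hca, hca', hbab, hbab', hcbc, hcbc', hcbac, hcbac']
  · refine ⟨(0, 1, 0), by decide, ?_⟩
    show 1 * (b) * (1) = 1 * (b) * (c) * c
    simp only [mul_assoc, one_mul, mul_one, ha, ha', hb, hb', hc, hc', hca, hca', hbab, hbab', hcbc, hcbc', hcbac, hcbac']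
  · refine ⟨(0, 1, 3), by decide, ?_⟩
    show 1 * (b) * (c * b * a) = 1 * (b) * (c * b) * a
    simp only [mul_assoc, one_mul, mul_one, ha, ha', hb, hb', hc, hc', hca, hca', hbab, hbab', hcbc, hcbc', hcbac, hcbac']
  · refine ⟨(0, 1, 1), by decide, ?_⟩
    show 1 * (b) * (c) = 1 * (b) * (c * b) * b
    simp only [mul_assoc, one_mul, mul_one, ha, ha', hb, hb', hc, hc', hca, hca', hbab, hbab', hcbc, hcbc', hcbac, hcbac']
  · refine ⟨(0, 0, 2), by decide, ?_⟩
    show 1 * (1) * (c * b) = 1 * (b) * (c * b) * c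
    simp only [mul_assoc, one_mul, mul_one, ha, ha', hb, hb', hc, hc', hca, hca', hbab, hbab', hcbc, hcbc', hcbac, hcbac']
  · refine ⟨(0, 1, 2), by decide, ?_⟩
    show 1 * (b) * (c * b) = 1 * (b) * (c * b * a) * a
    simp only [mul_assoc, one_mul, mul_one, ha, ha', hb, hb', hc, hc', hca, hca', hbab, hbab', hcbc, hcbc', hcbac, hcbac']
  · refine ⟨(0, 2, 3), by decide, ?_⟩
    show 1 * (b * a) * (c * b * a) = 1 * (b) * (c * b * a) * b
    simp only [mul_assoc, one_mul, mul_one, ha, ha', hb, hb', hc, hc', hca, hca', hbab, hbab', hcbc, hcbc', hcbac, hcbac']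
  · refine ⟨(0, 0, 3), by decide, ?_⟩
    show 1 * (1) * (c * b * a) = 1 * (b) * (c * b * a) * c
    simp only [mul_assoc, one_mul, mul_one, ha, ha', hb, hb', hc, hc', hca, hca', hbab, hbab', hcbc, hcbc', hcbac, hcbac']
  · refine ⟨(0, 1, 0), by decide, ?_⟩
    show 1 * (b) * (1) = 1 * (b * a) * (1) * a
    simp only [mul_assoc, one_mul, mul_one, ha, ha', hb, hb', hc, hc', hca, hca', hbab, hbab', hcbc, hcbc', hcbac, hcbac']
  · refine ⟨(1, 2, 0), by decide, ?_⟩
    show a * (b * a) * (1) = 1 * (b * a) * (1) * b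
    simp only [mul_assoc, one_mul, mul_one, ha, ha', hb, hb', hc, hc', hca, hca', hbab, hbab', hcbc, hcbc', hcbac, hcbac']
  · refine ⟨(0, 2, 1), by decide, ?_⟩
    show 1 * (b * a) * (c) = 1 * (b * a) * (1) * c
    simp only [mul_assoc, one_mul, mul_one, ha, ha', hb, hb', hc, hc', hca, hca', hbab, hbab', hcbc, hcbc', hcbac, hcbac']
  · refine ⟨(0, 1, 1), by decide, ?_⟩
    show 1 * (b) * (c) = 1 * (b * a) * (c) * a
    simp only [mul_assoc, one_mul, mul_one, ha, ha', hb, hb', hc, hc', hca, hca', hbab, hbab', hcbc, hcbc', hcbac, hcbac']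
  · refine ⟨(0, 2, 2), by decide, ?_⟩
    show 1 * (b * a) * (c * b) = 1 * (b * a) * (c) * b
    simp only [mul_assoc, one_mul, mul_one, ha, ha', hb, hb', hc, hc', hca, hca', hbab, hbab', hcbc, hcbc', hcbac, hcbac']
  · refine ⟨(0, 2, 0), by decide, ?_⟩
    show 1 * (b * a) * (1) = 1 * (b * a) * (c) * c
    simp only [mul_assoc, one_mul, mul_one, ha, ha', hb, hb', hc, hc', hca, hca', hbab, hbab', hcbc, hcbc', hcbac, hcbac']
  · refine ⟨(0, 2, 3), by decide, ?_⟩
    show 1 * (b * a) * (c * b * a) = 1 * (b * a) * (c * b) * a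
    simp only [mul_assoc, one_mul, mul_one, ha, ha', hb, hb', hc, hc', hca, hca', hbab, hbab', hcbc, hcbc', hcbac, hcbac']
  · refine ⟨(0, 2, 1), by decide, ?_⟩
    show 1 * (b * a) * (c) = 1 * (b * a) * (c * b) * b
    simp only [mul_assoc, one_mul, mul_one, ha, ha', hb, hb', hc, hc', hca, hca', hbab, hbab', hcbc, hcbc', hcbac, hcbac']
  · refine ⟨(1, 2, 2), by decide, ?_⟩
    show a * (b * a) * (c * b) = 1 * (b * a) * (c * b) * c
    simp only [mul_assoc, one_mul, mul_one, ha, ha', hb, hb', hc, hc', hca, hca', hbab, hbab', hcbc, hcbc', hcbac, hcbac']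
  · refine ⟨(0, 2, 2), by decide, ?_⟩
    show 1 * (b * a) * (c * b) = 1 * (b * a) * (c * b * a) * a
    simp only [mul_assoc, one_mul, mul_one, ha, ha', hb, hb', hc, hc', hca, hca', hbab, hbab', hcbc, hcbc', hcbac, hcbac']
  · refine ⟨(0, 1, 3), by decide, ?_⟩
    show 1 * (b) * (c * b * a) = 1 * (b * a) * (c * b * a) * b
    simp only [mul_assoc, one_mul, mul_one, ha, ha', hb, hb', hc, hc', hca, hca', hbab, hbab', hcbc, hcbc', hcbac, hcbac']
  · refine ⟨(1, 2, 3), by decide, ?_⟩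
    show a * (b * a) * (c * b * a) = 1 * (b * a) * (c * b * a) * c
    simp only [mul_assoc, one_mul, mul_one, ha, ha', hb, hb', hc, hc', hca, hca', hbab, hbab', hcbc, hcbc', hcbac, hcbac']
  · refine ⟨(0, 0, 0), by decide, ?_⟩
    show 1 * (1) * (1) = a * (1) * (1) * a
    simp only [mul_assoc, one_mul, mul_one, ha, ha', hb, hb', hc, hc', hca, hca', hbab, hbab', hcbc, hcbc', hcbac, hcbac']
  · refine ⟨(1, 1, 0), by decide, ?_⟩
    show a * (b) * (1) = a * (1) * (1) * b
    simp only [mul_assoc, one_mul, mul_one, ha, ha', hb, hb', hc, hc', hca, hca', hbab, hbab', hcbc, hcbc', hcbac, hcbac']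
  · refine ⟨(1, 0, 1), by decide, ?_⟩
    show a * (1) * (c) = a * (1) * (1) * c
    simp only [mul_assoc, one_mul, mul_one, ha, ha', hb, hb', hc, hc', hca, hca', hbab, hbab', hcbc, hcbc', hcbac, hcbac']
  · refine ⟨(0, 0, 1), by decide, ?_⟩
    show 1 * (1) * (c) = a * (1) * (c) * a
    simp only [mul_assoc, one_mul, mul_one, ha, ha', hb, hb', hc, hc', hca, hca', hbab, hbab', hcbc, hcbc', hcbac, hcbac']
  · refine ⟨(1, 0, 2), by decide, ?_⟩
    show a * (1) * (c * b) = a * (1) * (c) * b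
    simp only [mul_assoc, one_mul, mul_one, ha, ha', hb, hb', hc, hc', hca, hca', hbab, hbab', hcbc, hcbc', hcbac, hcbac']
  · refine ⟨(1, 0, 0), by decide, ?_⟩
    show a * (1) * (1) = a * (1) * (c) * c
    simp only [mul_assoc, one_mul, mul_one, ha, ha', hb, hb', hc, hc', hca, hca', hbab, hbab', hcbc, hcbc', hcbac, hcbac']
  · refine ⟨(1, 0, 3), by decide, ?_⟩
    show a * (1) * (c * b * a) = a * (1) * (c * b) * a
    simp only [mul_assoc, one_mul, mul_one, ha, ha', hb, hb', hc, hc', hca, hca', hbab, hbab', hcbc, hcbc', hcbac, hcbac']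
  · refine ⟨(1, 0, 1), by decide, ?_⟩
    show a * (1) * (c) = a * (1) * (c * b) * b
    simp only [mul_assoc, one_mul, mul_one, ha, ha', hb, hb', hc, hc', hca, hca', hbab, hbab', hcbc, hcbc', hcbac, hcbac']
  · refine ⟨(1, 1, 2), by decide, ?_⟩
    show a * (b) * (c * b) = a * (1) * (c * b) * c
    simp only [mul_assoc, one_mul, mul_one, ha, ha', hb, hb', hc, hc', hca, hca', hbab, hbab', hcbc, hcbc', hcbac, hcbac']
  · refine ⟨(1, 0, 2), by decide, ?_⟩
    show a * (1) * (c * b) = a * (1) * (c * b * a) * a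
    simp only [mul_assoc, one_mul, mul_one, ha, ha', hb, hb', hc, hc', hca, hca', hbab, hbab', hcbc, hcbc', hcbac, hcbac']
  · refine ⟨(0, 0, 3), by decide, ?_⟩
    show 1 * (1) * (c * b * a) = a * (1) * (c * b * a) * b
    simp only [mul_assoc, one_mul, mul_one, ha, ha', hb, hb', hc, hc', hca, hca', hbab, hbab', hcbc, hcbc', hcbac, hcbac']
  · refine ⟨(1, 1, 3), by decide, ?_⟩
    show a * (b) * (c * b * a) = a * (1) * (c * b * a) * c
    simp only [mul_assoc, one_mul, mul_one, ha, ha', hb, hb', hc, hc', hca, hca', hbab, hbab', hcbc, hcbc', hcbac, hcbac']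
  · refine ⟨(1, 2, 0), by decide, ?_⟩
    show a * (b * a) * (1) = a * (b) * (1) * a
    simp only [mul_assoc, one_mul, mul_one, ha, ha', hb, hb', hc, hc', hca, hca', hbab, hbab', hcbc, hcbc', hcbac, hcbac']
  · refine ⟨(1, 0, 0), by decide, ?_⟩
    show a * (1) * (1) = a * (b) * (1) * b
    simp only [mul_assoc, one_mul, mul_one, ha, ha', hb, hb', hc, hc', hca, hca', hbab, hbab', hcbc, hcbc', hcbac, hcbac']
  · refine ⟨(1, 1, 1), by decide, ?_⟩
    show a * (b) * (c) = a * (b) * (1) * c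
    simp only [mul_assoc, one_mul, mul_one, ha, ha', hb, hb', hc, hc', hca, hca', hbab, hbab', hcbc, hcbc', hcbac, hcbac']
  · refine ⟨(1, 2, 1), by decide, ?_⟩
    show a * (b * a) * (c) = a * (b) * (c) * a
    simp only [mul_assoc, one_mul, mul_one, ha, ha', hb, hb', hc, hc', hca, hca', hbab, hbab', hcbc, hcbc', hcbac, hcbac']
  · refine ⟨(1, 1, 2), by decide, ?_⟩
    show a * (b) * (c * b) = a * (b) * (c) * b
    simp only [mul_assoc, one_mul, mul_one, ha, ha', hb, hb', hc, hc', hca, hca', hbab, hbab', hcbc, hcbc', hcbac, hcbac']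
  · refine ⟨(1, 1, 0), by decide, ?_⟩
    show a * (b) * (1) = a * (b) * (c) * c
    simp only [mul_assoc, one_mul, mul_one, ha, ha', hb, hb', hc, hc', hca, hca', hbab, hbab', hcbc, hcbc', hcbac, hcbac']
  · refine ⟨(1, 1, 3), by decide, ?_⟩
    show a * (b) * (c * b * a) = a * (b) * (c * b) * a
    simp only [mul_assoc, one_mul, mul_one, ha, ha', hb, hb', hc, hc', hca, hca', hbab, hbab', hcbc, hcbc', hcbac, hcbac']
  · refine ⟨(1, 1, 1), by decide, ?_⟩
    show a * (b) * (c) = a * (b) * (c * b) * b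
    simp only [mul_assoc, one_mul, mul_one, ha, ha', hb, hb', hc, hc', hca, hca', hbab, hbab', hcbc, hcbc', hcbac, hcbac']
  · refine ⟨(1, 0, 2), by decide, ?_⟩
    show a * (1) * (c * b) = a * (b) * (c * b) * c
    simp only [mul_assoc, one_mul, mul_one, ha, ha', hb, hb', hc, hc', hca, hca', hbab, hbab', hcbc, hcbc', hcbac, hcbac']
  · refine ⟨(1, 1, 2), by decide, ?_⟩
    show a * (b) * (c * b) = a * (b) * (c * b * a) * a
    simp only [mul_assoc, one_mul, mul_one, ha, ha', hb, hb', hc, hc', hca, hca', hbab, hbab', hcbc, hcbc', hcbac, hcbac']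
  · refine ⟨(1, 2, 3), by decide, ?_⟩
    show a * (b * a) * (c * b * a) = a * (b) * (c * b * a) * b
    simp only [mul_assoc, one_mul, mul_one, ha, ha', hb, hb', hc, hc', hca, hca', hbab, hbab', hcbc, hcbc', hcbac, hcbac']
  · refine ⟨(1, 0, 3), by decide, ?_⟩
    show a * (1) * (c * b * a) = a * (b) * (c * b * a) * c
    simp only [mul_assoc, one_mul, mul_one, ha, ha', hb, hb', hc, hc', hca, hca', hbab, hbab', hcbc, hcbc', hcbac, hcbac']
  · refine ⟨(1, 1, 0), by decide, ?_⟩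
    show a * (b) * (1) = a * (b * a) * (1) * a
    simp only [mul_assoc, one_mul, mul_one, ha, ha', hb, hb', hc, hc', hca, hca', hbab, hbab', hcbc, hcbc', hcbac, hcbac']
  · refine ⟨(0, 2, 0), by decide, ?_⟩
    show 1 * (b * a) * (1) = a * (b * a) * (1) * b
    simp only [mul_assoc, one_mul, mul_one, ha, ha', hb, hb', hc, hc', hca, hca', hbab, hbab', hcbc, hcbc', hcbac, hcbac']
  · refine ⟨(1, 2, 1), by decide, ?_⟩
    show a * (b * a) * (c) = a * (b * a) * (1) * c
    simp only [mul_assoc, one_mul, mul_one, ha, ha', hb, hb', hc, hc', hca, hca', hbab, hbab', hcbc, hcbc', hcbac, hcbac']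
  · refine ⟨(1, 1, 1), by decide, ?_⟩
    show a * (b) * (c) = a * (b * a) * (c) * a
    simp only [mul_assoc, one_mul, mul_one, ha, ha', hb, hb', hc, hc', hca, hca', hbab, hbab', hcbc, hcbc', hcbac, hcbac']
  · refine ⟨(1, 2, 2), by decide, ?_⟩
    show a * (b * a) * (c * b) = a * (b * a) * (c) * b
    simp only [mul_assoc, one_mul, mul_one, ha, ha', hb, hb', hc, hc', hca, hca', hbab, hbab', hcbc, hcbc', hcbac, hcbac']
  · refine ⟨(1, 2, 0), by decide, ?_⟩
    show a * (b * a) * (1) = a * (b * a) * (c) * c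
    simp only [mul_assoc, one_mul, mul_one, ha, ha', hb, hb', hc, hc', hca, hca', hbab, hbab', hcbc, hcbc', hcbac, hcbac']
  · refine ⟨(1, 2, 3), by decide, ?_⟩
    show a * (b * a) * (c * b * a) = a * (b * a) * (c * b) * a
    simp only [mul_assoc, one_mul, mul_one, ha, ha', hb, hb', hc, hc', hca, hca', hbab, hbab', hcbc, hcbc', hcbac, hcbac']
  · refine ⟨(1, 2, 1), by decide, ?_⟩
    show a * (b * a) * (c) = a * (b * a) * (c * b) * b
    simp only [mul_assoc, one_mul, mul_one, ha, ha', hb, hb', hc, hc', hca, hca', hbab, hbab', hcbc, hcbc', hcbac, hcbac']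
  · refine ⟨(0, 2, 2), by decide, ?_⟩
    show 1 * (b * a) * (c * b) = a * (b * a) * (c * b) * c
    simp only [mul_assoc, one_mul, mul_one, ha, ha', hb, hb', hc, hc', hca, hca', hbab, hbab', hcbc, hcbc', hcbac, hcbac']
  · refine ⟨(1, 2, 2), by decide, ?_⟩
    show a * (b * a) * (c * b) = a * (b * a) * (c * b * a) * a
    simp only [mul_assoc, one_mul, mul_one, ha, ha', hb, hb', hc, hc', hca, hca', hbab, hbab', hcbc, hcbc', hcbac, hcbac']
  · refine ⟨(1, 1, 3), by decide, ?_⟩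
    show a * (b) * (c * b * a) = a * (b * a) * (c * b * a) * b
    simp only [mul_assoc, one_mul, mul_one, ha, ha', hb, hb', hc, hc', hca, hca', hbab, hbab', hcbc, hcbc', hcbac, hcbac']
  · refine ⟨(0, 2, 3), by decide, ?_⟩
    show 1 * (b * a) * (c * b * a) = a * (b * a) * (c * b * a) * c
    simp only [mul_assoc, one_mul, mul_one, ha, ha', hb, hb', hc, hc', hca, hca', hbab, hbab', hcbc, hcbc', hcbac, hcbac']
/-- A function out of `S₄` respecting right multiplication by the three generators. -/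
theorem s4_hom_exists {G : Type*} [Group G] (a b c : G) (ha : a * a = 1) (hb : b * b = 1)
    (hc : c * c = 1) (hbab : b * (a * b) = a * (b * a)) (hcbc : c * (b * c) = b * (c * b))
    (hca : c * a = a * c) :
    ∃ φ : Perm (Fin 4) →* G, φ (swap 0 1) = a ∧ φ (swap 1 2) = b ∧ φ (swap 2 3) = c := by
  obtain ⟨f, hfdef⟩ : ∃ f : Perm (Fin 4) → G, f = fun x => s4W a b c (Function.surjInv s4P_bij.2 x) :=
    ⟨_, rfl⟩
  have hfP : ∀ y, f (s4P y) = s4W a b c y := by
    intro y
    rw [hfdef]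
    show s4W a b c (Function.surjInv s4P_bij.2 (s4P y)) = s4W a b c y
    rw [s4P_inj (Function.surjInv_eq s4P_bij.2 (s4P y))]
  have hstep : ∀ x s, f (x * s4S s) = f x * s4g a b c s := by
    intro x s
    obtain ⟨y, rfl⟩ := s4P_bij.2 x
    obtain ⟨y', h1, h2⟩ := s4_step a b c ha hb hc hbab hcbc hca y s
    rw [← h1, hfP, hfP, h2]
  have hP1 : s4P (0, 0, 0) = 1 := by decide
  have hW1 : s4W a b c (0, 0, 0) = 1 := by
    show (1 : G) * 1 * 1 = 1
    simp only [mul_one]
  have hf1 : f 1 = 1 := by rw [← hP1, hfP, hW1]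
  have hfS : ∀ s, f (s4S s) = s4g a b c s := by
    intro s
    have := hstep 1 s
    rwa [one_mul, hf1, one_mul] at this
  obtain ⟨T, hTdef⟩ : ∃ T : Submonoid (Perm (Fin 4)), T =
      { carrier := {t | ∀ x, f (x * t) = f x * f t}
        one_mem' := fun x => by rw [mul_one, hf1, mul_one]
        mul_mem' := fun {t u} ht hu x => by
          rw [← mul_assoc, hu (x * t), ht x, hu t, mul_assoc] } := ⟨_, rfl⟩
  have hT : ∀ t, t ∈ T ↔ ∀ x, f (x * t) = f x * f t := by
    intro t; rw [hTdef]; rfl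
  have hST : ∀ s, s4S s ∈ T := by
    intro s
    rw [hT]
    intro x
    rw [hstep, hfS]
  have h01 : swap (0 : Fin 4) 1 ∈ T := hST 0
  have h12 : swap (1 : Fin 4) 2 ∈ T := hST 1
  have h23 : swap (2 : Fin 4) 3 ∈ T := hST 2
  have hA : ∀ i, s4A i ∈ T := by
    intro i
    fin_cases i
    · exact T.one_mem
    · exact h01
  have hB : ∀ i, s4B i ∈ T := by
    intro i
    fin_cases i
    · exact T.one_mem
    · exact h12
    · exact T.mul_mem h12 h01
  have hC : ∀ i, s4C i ∈ T := by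
    intro i
    fin_cases i
    · exact T.one_mem
    · exact h23
    · exact T.mul_mem h23 h12
    · exact T.mul_mem (T.mul_mem h23 h12) h01
  have hall : ∀ t, t ∈ T := by
    intro t
    obtain ⟨y, rfl⟩ := s4P_bij.2 t
    exact T.mul_mem (T.mul_mem (hA _) (hB _)) (hC _)
  have hmul : ∀ x y, f (x * y) = f x * f y := fun x y => (hT y).mp (hall y) x
  refine ⟨MonoidHom.mk' f hmul, ?_, ?_, ?_⟩
  · exact hfS 0
  · exact hfS 1
  · exact hfS 2

set_option maxRecDepth 8000 in
/-- Every nontrivial element of `S₄` has two conjugates with product `(0 1)(2 3)`. -/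
theorem s4_normal_gen (x : Perm (Fin 4)) (hx : x ≠ 1) :
    ∃ g h : Perm (Fin 4), g * x * g⁻¹ * (h * x * h⁻¹) = swap 0 1 * swap 2 3 := by
  obtain ⟨y, rfl⟩ := s4P_bij.2 x
  obtain ⟨i, j, k⟩ := y
  fin_cases i <;> fin_cases j <;> fin_cases k
  · exact absurd (by decide) hx
  · exact ⟨s4P (0, 0, 0), s4P (0, 2, 2), by decide⟩
  · exact ⟨s4P (0, 0, 0), s4P (0, 0, 3), by decide⟩
  · exact ⟨s4P (0, 0, 2), s4P (0, 0, 2), by decide⟩
  · exact ⟨s4P (0, 0, 3), s4P (0, 1, 1), by decide⟩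
  · exact ⟨s4P (0, 0, 0), s4P (0, 2, 1), by decide⟩
  · exact ⟨s4P (0, 0, 2), s4P (0, 1, 3), by decide⟩
  · exact ⟨s4P (0, 0, 0), s4P (0, 0, 3), by decide⟩
  · exact ⟨s4P (0, 0, 0), s4P (0, 1, 2), by decide⟩
  · exact ⟨s4P (0, 0, 3), s4P (0, 0, 3), by decide⟩
  · exact ⟨s4P (0, 0, 0), s4P (0, 0, 1), by decide⟩
  · exact ⟨s4P (0, 0, 0), s4P (0, 0, 0), by decide⟩
  · exact ⟨s4P (0, 0, 0), s4P (0, 2, 2), by decide⟩
  · exact ⟨s4P (0, 0, 2), s4P (0, 1, 0), by decide⟩
  · exact ⟨s4P (0, 0, 3), s4P (0, 0, 3), by decide⟩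
  · exact ⟨s4P (0, 0, 0), s4P (0, 1, 2), by decide⟩
  · exact ⟨s4P (0, 0, 0), s4P (1, 1, 1), by decide⟩
  · exact ⟨s4P (0, 0, 2), s4P (0, 0, 2), by decide⟩
  · exact ⟨s4P (0, 0, 0), s4P (0, 2, 3), by decide⟩
  · exact ⟨s4P (0, 0, 3), s4P (0, 1, 1), by decide⟩
  · exact ⟨s4P (0, 0, 2), s4P (0, 1, 3), by decide⟩
  · exact ⟨s4P (0, 0, 0), s4P (0, 1, 0), by decide⟩
  · exact ⟨s4P (0, 0, 0), s4P (0, 0, 0), by decide⟩
  · exact ⟨s4P (0, 0, 0), s4P (0, 0, 1), by decide⟩
/-- S5344. -/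
theorem three_string_sym4 {G : Type*} [Group G] {D : Set G}
    (hD : Cfsg.IsThreeTranspositionSet D) {a b c : G} (ha : a ∈ D) (hb : b ∈ D) (hc : c ∈ D)
    (hac : a ≠ c) (hac' : Commute a c) (hab : ¬ Commute a b) (hbc : ¬ Commute b c) :
    ∃ φ : Equiv.Perm (Fin 4) →* G, Function.Injective φ ∧ φ (Equiv.swap 0 1) = a ∧
      φ (Equiv.swap 1 2) = b ∧ φ (Equiv.swap 2 3) = c := by
  have sq : ∀ d ∈ D, d * d = 1 := by
    intro d hd
    have := pow_orderOf_eq_one d
    rwa [hD.1 d hd, pow_two] at this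
  have ha2 := sq a ha
  have hb2 := sq b hb
  have hc2 := sq c hc
  have braid : ∀ x ∈ D, ∀ y ∈ D, ¬ Commute x y → y * (x * y) = x * (y * x) := by
    intro x hx y hy hxy
    have hx2 := sq x hx
    have hy2 := sq y hy
    rcases hD.2 x hx y hy with h | h
    · exfalso
      apply hxy
      rw [pow_two] at h
      show x * y = y * x
      calc x * y = x * y * (x * y * (y * x)) := by
            rw [show x * y * (y * x) = x * (y * y) * x from by group, hy2, mul_one, hx2, mul_one]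
        _ = (x * y * (x * y)) * (y * x) := by group
        _ = y * x := by rw [h, one_mul]
    · have h3 : x * y * (x * y) * (x * y) = 1 := by
        rw [← h, pow_succ, pow_two]
      calc y * (x * y) = (x * x) * (y * (x * y)) * ((x * (y * y) * x)) := by
            rw [hx2, hy2, mul_one, hx2, one_mul, mul_one]
        _ = x * (x * y * (x * y) * (x * y)) * (y * x) := by group
        _ = x * (y * x) := by rw [h3, mul_one]
  have hbab : b * (a * b) = a * (b * a) := braid a ha b hb hab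
  have hcbc : c * (b * c) = b * (c * b) := braid b hb c hc hbc
  have hca : c * a = a * c := hac'.eq.symm
  obtain ⟨φ, h1, h2, h3⟩ := s4_hom_exists a b c ha2 hb2 hc2 hbab hcbc hca
  refine ⟨φ, ?_, h1, h2, h3⟩
  rw [injective_iff_map_eq_one]
  intro x hx
  by_contra hne
  obtain ⟨g, h, hgh⟩ := s4_normal_gen x hne
  have h4 := congrArg φ hgh
  simp only [map_mul, map_inv, hx, h1, h3, mul_one, one_mul, mul_inv_cancel] at h4
  apply hac
  have h5 : c = a⁻¹ := (inv_eq_of_mul_eq_one_right h4.symm).symm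
  rw [h5]
  exact (inv_eq_of_mul_eq_one_right ha2).symm

end Cfsg.Agent.Lib.Helper8
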