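import Mathlib
import Cfsg.Prelude.Def_SporadicB
import Cfsg.Agent.Lib.Helper8.Sym4Hom

set_option autoImplicit false

namespace Cfsg.Agent.Lib.Helper8

open Equiv

theorem commute_of_conj {G : Type*} [Group G] {g a y : G} (h : Commute (g * a * g⁻¹) y) :
    Commute a (g⁻¹ * y * g) := by
  have h' : g * a * g⁻¹ * y = y * (g * a * g⁻¹) := h
  show a * (g⁻¹ * y * g) = g⁻¹ * y * g * a
  calc a * (g⁻¹ * y * g) = g⁻¹ * (g * a * g⁻¹ * y) * g := by group
    _ = g⁻¹ * (y * (g * a * g⁻¹)) * g := by rw [h']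
    _ = g⁻¹ * y * g * a := by group

theorem commute_conj {G : Type*} [Group G] {g a y : G} (h : Commute a y) :
    Commute (g * a * g⁻¹) (g * y * g⁻¹) := by
  have h' : a * y = y * a := h
  show g * a * g⁻¹ * (g * y * g⁻¹) = g * y * g⁻¹ * (g * a * g⁻¹)
  calc g * a * g⁻¹ * (g * y * g⁻¹) = g * (a * y) * g⁻¹ := by group
    _ = g * (y * a) * g⁻¹ := by rw [h']
    _ = g * y * g⁻¹ * (g * a * g⁻¹) := by group

/-- In a 3-string `a - b - c`, the product `a c` conjugates `b` to a member of `D` commuting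
with `b` and different from it. -/
theorem three_string_swap {G : Type*} [Group G] {D : Set G}
    (hD : Cfsg.IsThreeTranspositionSet D) (hconj : ∀ g : G, ∀ y ∈ D, g * y * g⁻¹ ∈ D)
    {a b c : G} (ha : a ∈ D) (hb : b ∈ D) (hc : c ∈ D) (hac : a ≠ c) (hac' : Commute a c)
    (hab : ¬ Commute a b) (hbc : ¬ Commute b c) :
    (a * c) * b * (a * c)⁻¹ ∈ D ∧ Commute b ((a * c) * b * (a * c)⁻¹) ∧
      (a * c) * b * (a * c)⁻¹ ≠ b := by
  obtain ⟨φ, hinj, h1, h2, h3⟩ := three_string_sym4 hD ha hb hc hac hac' hab hbc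
  have e1 : (a * c) * b * (a * c)⁻¹ = φ (swap 0 3) := by
    have : (swap (0 : Fin 4) 1 * swap 2 3) * swap 1 2 * (swap (0 : Fin 4) 1 * swap 2 3)⁻¹ =
        swap 0 3 := by decide
    rw [← this, map_mul, map_mul, map_inv, map_mul, h1, h2, h3]
  refine ⟨hconj _ b hb, ?_, ?_⟩
  · rw [e1]
    have : swap (1 : Fin 4) 2 * swap 0 3 = swap 0 3 * swap 1 2 := by decide
    have h4 := congrArg φ this
    rw [map_mul, map_mul, h2] at h4
    exact h4
  · rw [e1]
    intro h
    rw [← h2] at h
    exact absurd (hinj h) (by decide)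

/-- S5355. -/
theorem three_tr_sym4 {G : Type*} [Group G] {D : Set G}
    (hD : Cfsg.IsThreeTranspositionClass D) {d : G} (hd : d ∈ D)
    (hV : {y : G | y ∈ D ∧ Commute d y} = {v : G | v ∈ D ∧ ∀ e ∈ D, Commute v e ↔ Commute d e})
    (hm : {y : G | y ∈ D ∧ Commute d y}.ncard = 2) : Nonempty (G ≃* Equiv.Perm (Fin 4)) := by
  obtain ⟨hTS, ⟨d0, hd0, hDc⟩, hgen⟩ := hD
  have hconj : ∀ g : G, ∀ y ∈ D, g * y * g⁻¹ ∈ D := by
    intro g y hy
    rw [hDc] at hy ⊢
    have hy' : IsConj d0 y := hy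
    rw [isConj_iff] at hy'
    obtain ⟨c, rfl⟩ := hy'
    show IsConj d0 _
    rw [isConj_iff]
    exact ⟨g * c, by group⟩
  have htrans : ∀ y ∈ D, ∃ g : G, y = g * d * g⁻¹ := by
    intro y hy
    have hd' := hd
    rw [hDc] at hy hd'
    have hy' : IsConj d0 y := hy
    have hd'' : IsConj d0 d := hd'
    rw [isConj_iff] at hy' hd''
    obtain ⟨c, rfl⟩ := hy'
    obtain ⟨c', rfl⟩ := hd''
    exact ⟨c * c'⁻¹, by group⟩
  -- the partner of `d`
  obtain ⟨v, hv, hvd, hcomm, hCd⟩ : ∃ v ∈ D, v ≠ d ∧ Commute d v ∧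
      ∀ y ∈ D, Commute d y → y = d ∨ y = v := by
    obtain ⟨x, y, hxy, hset⟩ := Set.ncard_eq_two.mp hm
    have hdmem : d ∈ {y : G | y ∈ D ∧ Commute d y} := ⟨hd, Commute.refl d⟩
    have hxmem : x ∈ {y : G | y ∈ D ∧ Commute d y} := by rw [hset]; simp
    have hymem : y ∈ {y : G | y ∈ D ∧ Commute d y} := by rw [hset]; simp
    rw [hset] at hdmem
    rcases hdmem with h | h
    · refine ⟨y, hymem.1, fun h' => hxy (h'.trans h).symm, hymem.2, fun z hz hdz => ?_⟩
      have : z ∈ ({x, y} : Set G) := hset ▸ (⟨hz, hdz⟩ : z ∈ {y : G | y ∈ D ∧ Commute d y})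
      rcases this with h1 | h1
      · left; rw [h1, h]
      · right; exact h1
    · rw [Set.mem_singleton_iff] at h
      refine ⟨x, hxmem.1, fun h' => hxy (h'.trans h), hxmem.2, fun z hz hdz => ?_⟩
      have : z ∈ ({x, y} : Set G) := hset ▸ (⟨hz, hdz⟩ : z ∈ {y : G | y ∈ D ∧ Commute d y})
      rcases this with h1 | h1
      · right; exact h1
      · left; rw [h1, h]
  have hvV : ∀ e ∈ D, Commute v e ↔ Commute d e := by
    have : v ∈ {v : G | v ∈ D ∧ ∀ e ∈ D, Commute v e ↔ Commute d e} := by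
      rw [← hV]; exact ⟨hv, hcomm⟩
    exact this.2
  have hCv : ∀ y ∈ D, Commute v y → y = d ∨ y = v := fun y hy h =>
    hCd y hy ((hvV y hy).mp h)
  -- partners in general
  have hpart : ∀ e ∈ D, ∃ e' ∈ D, e' ≠ e ∧ Commute e e' ∧
      (∀ y ∈ D, Commute e y → y = e ∨ y = e') ∧ (∀ y ∈ D, Commute e' y → y = e ∨ y = e') := by
    intro e he
    obtain ⟨g, rfl⟩ := htrans e he
    refine ⟨g * v * g⁻¹, hconj g v hv, ?_, commute_conj hcomm, ?_, ?_⟩
    · intro h
      exact hvd (mul_left_cancel (mul_right_cancel h))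
    · intro y hy h
      have h1 := commute_of_conj h
      have h2 := hCd _ (by simpa using hconj g⁻¹ y hy) h1
      rcases h2 with h2 | h2
      · left; rw [← h2]; group
      · right; rw [← h2]; group
    · intro y hy h
      have h1 := commute_of_conj h
      have h2 := hCv _ (by simpa using hconj g⁻¹ y hy) h1
      rcases h2 with h2 | h2
      · left; rw [← h2]; group
      · right; rw [← h2]; group
  have huniq : ∀ e ∈ D, ∀ e1 ∈ D, e1 ≠ e → Commute e e1 →
      (∀ y ∈ D, Commute e y → y = e ∨ y = e1) ∧ (∀ y ∈ D, Commute e1 y → y = e ∨ y = e1) := by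
    intro e he e1 he1 hne hc
    obtain ⟨e', he', hne', hc', h1, h2⟩ := hpart e he
    have : e1 = e' := by
      rcases h1 e1 he1 hc with h | h
      · exact absurd h hne
      · exact h
    rw [this]
    exact ⟨h1, h2⟩
  -- an element not commuting with `d`
  obtain ⟨e, he, hde⟩ : ∃ e ∈ D, ¬ Commute d e := by
    by_contra hcon
    push Not at hcon
    obtain ⟨g, hg⟩ := htrans v hv
    have hle : Subgroup.closure D ≤ Subgroup.centralizer {d} := by
      rw [Subgroup.closure_le]
      intro y hy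
      rw [SetLike.mem_coe, Subgroup.mem_centralizer_iff]
      intro h hh
      rw [Set.mem_singleton_iff] at hh
      subst hh
      exact (hcon y hy).eq
    have hg' : g ∈ Subgroup.centralizer {d} := hle (hgen ▸ Subgroup.mem_top g)
    rw [Subgroup.mem_centralizer_iff] at hg'
    have h1 := hg' d rfl
    apply hvd
    rw [hg, ← h1]; group
  have hev : ¬ Commute e v := by
    intro h
    rcases hCv e he h.symm with h1 | h1
    · exact hde (h1 ▸ Commute.refl d)
    · exact hde (h1 ▸ hcomm)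
  obtain ⟨φ, hinj, h1, h2, h3⟩ := three_string_sym4 hTS hd he hv (Ne.symm hvd) hcomm hde hev
  have hswapD : ∀ i j : Fin 4, i ≠ j → φ (swap i j) ∈ D := by
    intro i j hij
    have hc : IsConj (swap (0 : Fin 4) 1) (swap i j) :=
      Equiv.Perm.isConj_swap (by decide) hij
    rw [isConj_iff] at hc
    obtain ⟨c, hc⟩ := hc
    rw [← hc, map_mul, map_mul, map_inv, h1]
    exact hconj _ d hd
  have hcommS : ∀ s t : Perm (Fin 4), s * t = t * s → Commute (φ s) (φ t) := by
    intro s t hst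
    show φ s * φ t = φ t * φ s
    rw [← map_mul, ← map_mul, hst]
  -- the three pairs
  have hP2 := huniq e he (φ (swap 0 3)) (hswapD 0 3 (by decide))
    (by rw [← h2]; intro h; exact absurd (hinj h) (by decide))
    (by rw [← h2]; exact hcommS _ _ (by decide))
  have hPx := huniq (φ (swap 0 2)) (hswapD 0 2 (by decide)) (φ (swap 1 3))
    (hswapD 1 3 (by decide)) (by intro h; exact absurd (hinj h) (by decide))
    (hcommS _ _ (by decide))
  have hrel : (e * φ (swap 0 3)) * (d * v) = φ (swap 0 2) * φ (swap 1 3) := by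
    have : swap (1 : Fin 4) 2 * swap 0 3 * (swap 0 1 * swap 2 3) = swap 0 2 * swap 1 3 := by
      decide
    have h4 := congrArg φ this
    rw [map_mul, map_mul, map_mul, map_mul, h1, h2, h3] at h4
    exact h4
  have hsub : ∀ f ∈ D, f ∈ φ.range := by
    intro f hf
    by_contra hfr
    have hfd : f ≠ d := fun h => hfr ⟨_, h1.trans h.symm⟩
    have hfv : f ≠ v := fun h => hfr ⟨_, h3.trans h.symm⟩
    have hfe : f ≠ e := fun h => hfr ⟨_, h2.trans h.symm⟩
    have hfe' : f ≠ φ (swap 0 3) := fun h => hfr ⟨_, h.symm⟩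
    have hfx : f ≠ φ (swap 0 2) := fun h => hfr ⟨_, h.symm⟩
    have hfx' : f ≠ φ (swap 1 3) := fun h => hfr ⟨_, h.symm⟩
    obtain ⟨f', hf', hne', hc', hCf, hCf'⟩ := hpart f hf
    -- (a)
    have ha := three_string_swap hTS hconj hd hf hv (Ne.symm hvd) hcomm
      (fun h => (hCd f hf h).elim hfd hfv) (fun h => (hCv f hf h.symm).elim hfd hfv)
    have ha' : (d * v) * f * (d * v)⁻¹ = f' := by
      rcases hCf _ ha.1 ha.2.1 with h | h
      · exact absurd h ha.2.2
      · exact h
    -- (b)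
    have hf'e : ¬ Commute e f' := by
      intro h
      rcases hP2.1 f' hf' h with h4 | h4
      · rcases hP2.1 f hf (h4 ▸ hc'.symm) with h5 | h5
        · exact hfe h5
        · exact hfe' h5
      · rcases hP2.2 f hf (h4 ▸ hc'.symm) with h5 | h5
        · exact hfe h5
        · exact hfe' h5
    have hf'e' : ¬ Commute f' (φ (swap 0 3)) := by
      intro h
      rcases hP2.2 f' hf' h.symm with h4 | h4
      · rcases hP2.1 f hf (h4 ▸ hc'.symm) with h5 | h5
        · exact hfe h5
        · exact hfe' h5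
      · rcases hP2.2 f hf (h4 ▸ hc'.symm) with h5 | h5
        · exact hfe h5
        · exact hfe' h5
    have hb := three_string_swap hTS hconj he hf' (hswapD 0 3 (by decide))
      (by rw [← h2]; intro h; exact absurd (hinj h) (by decide))
      (by rw [← h2]; exact hcommS _ _ (by decide)) hf'e hf'e'
    have hb' : (e * φ (swap 0 3)) * f' * (e * φ (swap 0 3))⁻¹ = f := by
      rcases hCf' _ hb.1 hb.2.1 with h | h
      · exact h
      · exact absurd h hb.2.2
    -- (c)
    have hc := three_string_swap hTS hconj (hswapD 0 2 (by decide)) hf (hswapD 1 3 (by decide))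
      (by intro h; exact absurd (hinj h) (by decide)) (hcommS _ _ (by decide))
      (fun h => (hPx.1 f hf h).elim hfx hfx') (fun h => (hPx.2 f hf h.symm).elim hfx hfx')
    have hc'' : (φ (swap 0 2) * φ (swap 1 3)) * f * (φ (swap 0 2) * φ (swap 1 3))⁻¹ = f' := by
      rcases hCf _ hc.1 hc.2.1 with h | h
      · exact absurd h hc.2.2
      · exact h
    apply hne'
    rw [← hc'', ← hrel]
    calc e * φ (swap 0 3) * (d * v) * f * (e * φ (swap 0 3) * (d * v))⁻¹
        = (e * φ (swap 0 3)) * ((d * v) * f * (d * v)⁻¹) * (e * φ (swap 0 3))⁻¹ := by group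
      _ = f := by rw [ha', hb']
  have hsurj : Function.Surjective φ := by
    rw [← MonoidHom.range_eq_top, eq_top_iff, ← hgen, Subgroup.closure_le]
    exact fun f hf => hsub f hf
  exact ⟨(MulEquiv.ofBijective φ ⟨hinj, hsurj⟩).symm⟩

end Cfsg.Agent.Lib.Helper8
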