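import Mathlib
import Cfsg.Prelude.Def_SporadicB
import Cfsg.Agent.Lib.Helper8.PCore
import Cfsg.Agent.Lib.Helper8.TrSym4
import Cfsg.Agent.Lib.Lead.BaerSuzuki

set_option autoImplicit false

namespace Cfsg.Agent.Lib.Helper8

open Equiv

theorem tr_sq {G : Type*} [Group G] {D : Set G} (hD : Cfsg.IsThreeTranspositionSet D)
    {d : G} (hd : d ∈ D) : d * d = 1 := by
  have := pow_orderOf_eq_one d
  rwa [hD.1 d hd, pow_two] at this

theorem tr_inv {G : Type*} [Group G] {D : Set G} (hD : Cfsg.IsThreeTranspositionSet D)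
    {d : G} (hd : d ∈ D) : d⁻¹ = d :=
  inv_eq_of_mul_eq_one_right (tr_sq hD hd)

theorem comm_of_sq_one' {G : Type*} [Group G] {a b : G} (ha : a * a = 1) (hb : b * b = 1)
    (h : (a * b) ^ 2 = 1) : a * b = b * a := by
  rw [pow_two] at h
  calc a * b = a * b * (a * b * (b * a)) := by
        rw [show a * b * (b * a) = a * (b * b) * a from by group, hb, mul_one, ha, mul_one]
    _ = (a * b * (a * b)) * (b * a) := by group
    _ = b * a := by rw [h, one_mul]

/-- Two involutions whose product has `2`-power order generate a `2`-group. -/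
theorem isPGroup_two_pair {G : Type*} [Group G] [Finite G] {a b : G} (ha : a * a = 1)
    (hb : b * b = 1) (k : ℕ) (h : (a * b) ^ 2 ^ k = 1) :
    IsPGroup 2 (Subgroup.closure ({a, b} : Set G)) := by
  haveI : Fact (Nat.Prime 2) := ⟨Nat.prime_two⟩
  have hai : a⁻¹ = a := inv_eq_of_mul_eq_one_right ha
  have hbi : b⁻¹ = b := inv_eq_of_mul_eq_one_right hb
  have hU : IsPGroup 2 (Subgroup.zpowers (a * b)) := by
    obtain ⟨j, -, hj⟩ := (Nat.dvd_prime_pow Nat.prime_two).mp (orderOf_dvd_of_pow_eq_one h)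
    exact IsPGroup.of_card (n := j) (by rw [Nat.card_zpowers, hj])
  have hT : IsPGroup 2 (Subgroup.zpowers a) := by
    have h2 : a ^ 2 ^ 1 = 1 := by rw [pow_one, pow_two, ha]
    obtain ⟨j, -, hj⟩ := (Nat.dvd_prime_pow Nat.prime_two).mp (orderOf_dvd_of_pow_eq_one h2)
    exact IsPGroup.of_card (n := j) (by rw [Nat.card_zpowers, hj])
  have hconj : a * (a * b) * a⁻¹ = (a * b)⁻¹ := by
    rw [mul_inv_rev, hai, hbi, ← mul_assoc, ha, one_mul]
  have hTN : Subgroup.zpowers a ≤ Subgroup.normalizer (Subgroup.zpowers (a * b) : Set G) := by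
    rw [Subgroup.zpowers_le]
    apply Cfsg.Agent.Lib.Lead.mem_normalizer_of_conj_le
    intro d hd
    obtain ⟨j, rfl⟩ := Subgroup.mem_zpowers_iff.mp hd
    have h2 : a * (a * b) ^ j * a⁻¹ = (a * (a * b) * a⁻¹) ^ j := conj_zpow.symm
    rw [h2, hconj]
    exact Subgroup.zpow_mem _ (Subgroup.inv_mem _ (Subgroup.mem_zpowers (a * b))) j
  have hsup := IsPGroup.to_sup_of_normal_right' hT hU hTN
  apply hsup.to_le
  rw [Subgroup.closure_le]
  intro y hy
  rw [Set.mem_insert_iff, Set.mem_singleton_iff] at hy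
  have h1 : a ∈ Subgroup.zpowers a ⊔ Subgroup.zpowers (a * b) :=
    Subgroup.mem_sup_left (Subgroup.mem_zpowers a)
  have h2 : a * b ∈ Subgroup.zpowers a ⊔ Subgroup.zpowers (a * b) :=
    Subgroup.mem_sup_right (Subgroup.mem_zpowers (a * b))
  rcases hy with h | h
  · rw [h]; exact h1
  · rw [h]
    have h4 : a⁻¹ * (a * b) ∈ Subgroup.zpowers a ⊔ Subgroup.zpowers (a * b) :=
      Subgroup.mul_mem _ (Subgroup.inv_mem _ h1) h2
    rwa [inv_mul_cancel_left] at h4

/-- Members of `D` congruent modulo `O₂(G)` commute with the same members of `D`. -/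
theorem tr_comm_of_mod {G : Type*} [Group G] {D : Set G}
    (hD : Cfsg.IsThreeTranspositionSet D) {d v e : G} (hd : d ∈ D) (hv : v ∈ D) (he : e ∈ D)
    (ht : d⁻¹ * v ∈ Cfsg.pCore 2 G) (hde : Commute d e) : Commute v e := by
  haveI := pCore_normal 2 G
  have hd2 := tr_sq hD hd
  have hv2 := tr_sq hD hv
  have he2 := tr_sq hD he
  have hdi := tr_inv hD hd
  have hei := tr_inv hD he
  rcases hD.2 v hv e he with h | h
  · exact comm_of_sq_one' hv2 he2 h
  · obtain ⟨t', ht'def⟩ : ∃ t', t' = e⁻¹ * (d⁻¹ * v) * e⁻¹⁻¹ := ⟨_, rfl⟩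
    have ht' : t' ∈ Cfsg.pCore 2 G := ht'def ▸ ‹(Cfsg.pCore 2 G).Normal›.conj_mem _ ht e⁻¹
    have h1 : v * e = (d * e) * t' := by
      rw [ht'def]; group
    have hde' : d * e = e * d := hde
    have h2 : (d * e)⁻¹ = d * e := by
      rw [mul_inv_rev, hdi, hei, hde']
    have h3 : (v * e) ^ 2 = ((d * e) * t' * (d * e)⁻¹) * t' := by
      rw [h1, h2, pow_two]; group
    have h4 : (v * e) ^ 2 ∈ Cfsg.pCore 2 G := by
      rw [h3]
      exact Subgroup.mul_mem _ (‹(Cfsg.pCore 2 G).Normal›.conj_mem _ ht' _) ht'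
    obtain ⟨k, hk⟩ := (pCore_isPGroup 2 G) ⟨_, h4⟩
    have hk' : ((v * e) ^ 2) ^ (2 ^ k) = 1 := by
      have := congrArg Subtype.val hk
      simpa using this
    rw [← pow_mul, ← pow_succ'] at hk'
    have h5 : orderOf (v * e) ∣ 2 ^ (k + 1) := orderOf_dvd_of_pow_eq_one hk'
    have h6 : orderOf (v * e) ∣ 3 := orderOf_dvd_of_pow_eq_one h
    have h7 : orderOf (v * e) ∣ Nat.gcd (2 ^ (k + 1)) 3 := Nat.dvd_gcd h5 h6
    have h8 : Nat.gcd (2 ^ (k + 1)) 3 = 1 := Nat.Coprime.pow_left _ (by decide)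
    rw [h8, Nat.dvd_one, orderOf_eq_one_iff] at h7
    have h9 : e = v⁻¹ := (inv_eq_of_mul_eq_one_right h7).symm
    rw [h9]
    exact (Commute.refl v).inv_right

/-- The products `d v` with `v` in the same commuting class as `d` generate a `2`-group. -/
theorem tr_vclass_mem_pCore {G : Type*} [Group G] [Finite G] {D : Set G}
    (hD : Cfsg.IsThreeTranspositionSet D) (hconj : ∀ g : G, ∀ y ∈ D, g * y * g⁻¹ ∈ D)
    {d v : G} (hd : d ∈ D) (hv : v ∈ D) (hV : ∀ e ∈ D, Commute v e ↔ Commute d e) :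
    d * v ∈ Cfsg.pCore 2 G := by
  haveI : Fact (Nat.Prime 2) := ⟨Nat.prime_two⟩
  obtain ⟨K, hKdef⟩ : ∃ K : Set G, K = {k | ∃ d ∈ D, ∃ v ∈ D,
      (∀ e ∈ D, Commute v e ↔ Commute d e) ∧ k = d * v} := ⟨_, rfl⟩
  have hKn : ∀ k ∈ K, ∀ g : G, g * k * g⁻¹ ∈ K := by
    intro k hk g
    rw [hKdef] at hk ⊢
    obtain ⟨d, hd, v, hv, hV, rfl⟩ := hk
    refine ⟨g * d * g⁻¹, hconj g d hd, g * v * g⁻¹, hconj g v hv, fun e he => ?_, by group⟩
    have he' : g⁻¹ * e * g ∈ D := by simpa using hconj g⁻¹ e he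
    constructor
    · intro h
      have h1 := (hV _ he').mp (commute_of_conj h)
      have h2 := commute_conj (g := g) h1
      have e1 : g * (g⁻¹ * e * g) * g⁻¹ = e := by group
      rwa [e1] at h2
    · intro h
      have h1 := (hV _ he').mpr (commute_of_conj h)
      have h2 := commute_conj (g := g) h1
      have e1 : g * (g⁻¹ * e * g) * g⁻¹ = e := by group
      rwa [e1] at h2
  have hK2 : ∀ a ∈ K, ∀ b ∈ K, IsPGroup 2 (Subgroup.closure ({a, b} : Set G)) := by
    intro a ha b hb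
    rw [hKdef] at ha hb
    obtain ⟨d, hd, v, hv, hV, rfl⟩ := ha
    obtain ⟨e, he, w, hw, hW, rfl⟩ := hb
    have hd2 := tr_sq hD hd
    have hv2 := tr_sq hD hv
    have he2 := tr_sq hD he
    have hw2 := tr_sq hD hw
    have hdv : d * v = v * d := ((hV d hd).mpr (Commute.refl d)).eq.symm
    have hew : e * w = w * e := ((hW e he).mpr (Commute.refl e)).eq.symm
    have ha2 : (d * v) * (d * v) = 1 := by
      calc d * v * (d * v) = d * (v * d) * v := by group
        _ = d * (d * v) * v := by rw [hdv]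
        _ = (d * d) * (v * v) := by group
        _ = 1 := by rw [hd2, hv2, one_mul]
    have hb2 : (e * w) * (e * w) = 1 := by
      calc e * w * (e * w) = e * (w * e) * w := by group
        _ = e * (e * w) * w := by rw [hew]
        _ = (e * e) * (w * w) := by group
        _ = 1 := by rw [he2, hw2, one_mul]
    apply isPGroup_two_pair ha2 hb2 2
    by_cases hdveq : d = v
    · rw [← hdveq, hd2, one_mul]
      have : (e * w) ^ 2 ^ 2 = ((e * w) * (e * w)) * ((e * w) * (e * w)) := by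
        rw [show (2 : ℕ) ^ 2 = 4 from rfl, pow_succ, pow_succ, pow_succ, pow_one]
        group
      rw [this, hb2, one_mul]
    by_cases heweq : e = w
    · rw [← heweq, he2, mul_one]
      have : (d * v) ^ 2 ^ 2 = ((d * v) * (d * v)) * ((d * v) * (d * v)) := by
        rw [show (2 : ℕ) ^ 2 = 4 from rfl, pow_succ, pow_succ, pow_succ, pow_one]
        group
      rw [this, ha2, one_mul]
    have hpow4 : ∀ x : G, x ^ 2 ^ 2 = (x * x) * (x * x) := by
      intro x
      rw [show (2 : ℕ) ^ 2 = 4 from rfl, pow_succ, pow_succ, pow_succ, pow_one]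
      group
    by_cases hde : Commute d e
    · -- everything commutes
      have hve : Commute v e := (hV e he).mpr hde
      have hwd : Commute w d := (hW d hd).mpr hde.symm
      have hwv : Commute w v := (hW v hv).mpr hve.symm
      have hc : Commute (d * v) (e * w) :=
        (hde.mul_right hwd.symm).mul_left (hve.mul_right hwv.symm)
      have h1 : (d * v * (e * w)) * (d * v * (e * w)) = 1 := by
        calc d * v * (e * w) * (d * v * (e * w))
            = (d * v) * ((e * w) * (d * v)) * (e * w) := by group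
          _ = (d * v) * ((d * v) * (e * w)) * (e * w) := by rw [hc.eq]
          _ = ((d * v) * (d * v)) * ((e * w) * (e * w)) := by group
          _ = 1 := by rw [ha2, hb2, one_mul]
      rw [hpow4, h1, one_mul]
    · have hve : ¬ Commute v e := fun h => hde ((hV e he).mp h)
      have hwd : ¬ Commute w d := fun h => hde ((hW d hd).mp h).symm
      have hwv : ¬ Commute w v := fun h => hve ((hW v hv).mp h).symm
      have cdv : Commute d v := hdv
      obtain ⟨hs1, hs2, -⟩ := three_string_swap hD hconj hd he hv hdveq cdv hde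
        (fun h => hve h.symm)
      obtain ⟨ht1, ht2, -⟩ := three_string_swap hD hconj hd hw hv hdveq cdv
        (fun h => hwd h.symm) hwv
      obtain ⟨es, hesdef⟩ : ∃ es, es = (d * v) * e * (d * v)⁻¹ := ⟨_, rfl⟩
      obtain ⟨ws, hwsdef⟩ : ∃ ws, ws = (d * v) * w * (d * v)⁻¹ := ⟨_, rfl⟩
      rw [← hesdef] at hs1 hs2
      rw [← hwsdef] at ht1 ht2
      have hes2 := tr_sq hD hs1
      have hws2 := tr_sq hD ht1
      have c1 : Commute e w := hew
      have c2 : Commute es ws := by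
        rw [hesdef, hwsdef]
        exact commute_conj c1
      have c3 : Commute e es := hs2
      have c4 : Commute w ws := ht2
      have c5 : Commute w es := (hW es hs1).mpr c3
      have c6 : Commute e ws := (hW ws ht1).mp c4
      have hinv : (d * v)⁻¹ = d * v := inv_eq_of_mul_eq_one_right ha2
      have h1 : (d * v * (e * w)) * (d * v * (e * w)) = es * ws * (e * w) := by
        rw [hesdef, hwsdef, hinv]
        calc d * v * (e * w) * (d * v * (e * w))
            = (d * v * e * ((d * v) * (d * v)) * w * (d * v)) * (e * w) := by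
              rw [ha2]; group
          _ = d * v * e * (d * v) * (d * v * w * (d * v)) * (e * w) := by group
      have c7 : Commute (es * ws) (e * w) :=
        (c3.symm.mul_right c5.symm).mul_left (c6.symm.mul_right c4.symm)
      have h2 : (es * ws) * (es * ws) = 1 := by
        calc es * ws * (es * ws) = es * (ws * es) * ws := by group
          _ = es * (es * ws) * ws := by rw [c2.eq]
          _ = (es * es) * (ws * ws) := by group
          _ = 1 := by rw [hes2, hws2, one_mul]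
      have h3 : (es * ws * (e * w)) * (es * ws * (e * w)) = 1 := by
        calc es * ws * (e * w) * (es * ws * (e * w))
            = (es * ws) * ((e * w) * (es * ws)) * (e * w) := by group
          _ = (es * ws) * ((es * ws) * (e * w)) * (e * w) := by rw [c7.eq]
          _ = ((es * ws) * (es * ws)) * ((e * w) * (e * w)) := by group
          _ = 1 := by rw [h2, hb2, one_mul]
      rw [hpow4, h1, h3]
  have hKp := Cfsg.Agent.Lib.Lead.baer_suzuki_elt K hKn hK2
  have hKnorm := Cfsg.Agent.Lib.Lead.closure_normal_of_conj_invariant K hKn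
  apply le_pCore hKnorm hKp
  apply Subgroup.subset_closure
  rw [hKdef]
  exact ⟨d, hd, v, hv, hV, rfl⟩

/-- S5349. -/
theorem tr_vclass_eq {G : Type*} [Group G] [Finite G] {D : Set G}
    (hD : Cfsg.IsThreeTranspositionClass D) (hD2 : ∃ a ∈ D, ∃ b ∈ D, a ≠ b) {d : G}
    (hd : d ∈ D) :
    {v : G | v ∈ D ∧ ∀ e ∈ D, Commute v e ↔ Commute d e} =
      {v : G | v ∈ D ∧ d⁻¹ * v ∈ Cfsg.pCore 2 G} ∧
    {v : G | v ∈ D ∧ ∀ e ∈ D, Commute v e ↔ Commute d e} =
      {v : G | ∃ g ∈ Cfsg.pCore 2 G, v = g * d * g⁻¹} := by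
  haveI := pCore_normal 2 G
  obtain ⟨hTS, ⟨d0, hd0, hDc⟩, hgen⟩ := hD
  have hconj : ∀ g : G, ∀ y ∈ D, g * y * g⁻¹ ∈ D := by
    intro g y hy
    rw [hDc] at hy ⊢
    have hy' : IsConj d0 y := hy
    rw [isConj_iff] at hy'
    obtain ⟨c, rfl⟩ := hy'
    show IsConj d0 _
    rw [isConj_iff]
    exact ⟨g * c, by group⟩
  have htrans : ∀ x ∈ D, ∀ y ∈ D, ∃ g : G, y = g * x * g⁻¹ := by
    intro x hx y hy
    rw [hDc] at hy hx
    have hy' : IsConj d0 y := hy
    have hx' : IsConj d0 x := hx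
    rw [isConj_iff] at hy' hx'
    obtain ⟨c, rfl⟩ := hy'
    obtain ⟨c', rfl⟩ := hx'
    exact ⟨c * c'⁻¹, by group⟩
  have hdi := tr_inv hTS hd
  -- an element not commuting with `d`
  have hex : ∃ e ∈ D, ¬ Commute d e := by
    by_contra hcon
    push Not at hcon
    have hle : Subgroup.closure D ≤ Subgroup.centralizer {d} := by
      rw [Subgroup.closure_le]
      intro y hy
      rw [SetLike.mem_coe, Subgroup.mem_centralizer_iff]
      intro h hh
      rw [Set.mem_singleton_iff] at hh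
      subst hh
      exact (hcon y hy).eq
    have hall : ∀ y ∈ D, y = d := by
      intro y hy
      obtain ⟨g, rfl⟩ := htrans d hd y hy
      have hg' : g ∈ Subgroup.centralizer {d} := hle (hgen ▸ Subgroup.mem_top g)
      rw [Subgroup.mem_centralizer_iff] at hg'
      have h1 := hg' d rfl
      rw [← h1]; group
    obtain ⟨a, ha, b, hb, hab⟩ := hD2
    exact hab ((hall a ha).trans (hall b hb).symm)
  have hAC : {v : G | v ∈ D ∧ ∀ e ∈ D, Commute v e ↔ Commute d e} ⊆
      {v : G | ∃ g ∈ Cfsg.pCore 2 G, v = g * d * g⁻¹} := by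
    rintro v ⟨hv, hV⟩
    by_cases hvd : v = d
    · exact ⟨1, Subgroup.one_mem _, by rw [hvd]; group⟩
    have hz := tr_vclass_mem_pCore hTS hconj hd hv hV
    obtain ⟨e, he, hde⟩ := hex
    have hve : ¬ Commute v e := fun h => hde ((hV e he).mp h)
    have hdv : Commute d v := ((hV d hd).mpr (Commute.refl d)).symm
    obtain ⟨φ, hinj, h1, h2, h3⟩ := three_string_sym4 hTS hd he hv (Ne.symm hvd) hdv hde
      (fun h => hve h.symm)
    refine ⟨e * (d * v) * e⁻¹, ‹(Cfsg.pCore 2 G).Normal›.conj_mem _ hz e, ?_⟩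
    have : swap (1 : Fin 4) 2 * (swap 0 1 * swap 2 3) * (swap 1 2)⁻¹ * swap 0 1 *
        (swap (1 : Fin 4) 2 * (swap 0 1 * swap 2 3) * (swap 1 2)⁻¹)⁻¹ = swap 2 3 := by decide
    have h4 := congrArg φ this
    simp only [map_mul, map_inv, h1, h2, h3] at h4
    exact h4.symm
  have hCB : {v : G | ∃ g ∈ Cfsg.pCore 2 G, v = g * d * g⁻¹} ⊆
      {v : G | v ∈ D ∧ d⁻¹ * v ∈ Cfsg.pCore 2 G} := by
    rintro v ⟨g, hg, rfl⟩
    refine ⟨hconj g d hd, ?_⟩
    have : d⁻¹ * (g * d * g⁻¹) = (d⁻¹ * g * d⁻¹⁻¹) * g⁻¹ := by group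
    rw [this]
    exact Subgroup.mul_mem _ (‹(Cfsg.pCore 2 G).Normal›.conj_mem _ hg _) (Subgroup.inv_mem _ hg)
  have hBA : {v : G | v ∈ D ∧ d⁻¹ * v ∈ Cfsg.pCore 2 G} ⊆
      {v : G | v ∈ D ∧ ∀ e ∈ D, Commute v e ↔ Commute d e} := by
    rintro v ⟨hv, ht⟩
    refine ⟨hv, fun e he => ⟨fun h => ?_, fun h => tr_comm_of_mod hTS hd hv he ht h⟩⟩
    have ht' : v⁻¹ * d ∈ Cfsg.pCore 2 G := by
      have : v⁻¹ * d = (d⁻¹ * v)⁻¹ := by group
      rw [this]
      exact Subgroup.inv_mem _ ht
    exact tr_comm_of_mod hTS hv hd he ht' h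
  exact ⟨Set.Subset.antisymm (hAC.trans hCB) hBA, Set.Subset.antisymm hAC (hCB.trans hBA)⟩

end Cfsg.Agent.Lib.Helper8
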