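import Mathlib
import Cfsg.Prelude.Def_FischerSpaces

set_option autoImplicit false
open Cfsg Cfsg.LineSystem

namespace Cfsg.Agent.Lib.Helper8

/-- conjugation structure of a set of 3-transpositions -/
structure IsTT8 {X : Type*} (τ : X → X → X) : Prop where
  inv : ∀ x y, τ x (τ x y) = y
  idem : ∀ x, τ x x = x
  dist : ∀ x y z, τ x (τ y z) = τ (τ x y) (τ x z)
  braid : ∀ x y, τ x y ≠ y → τ x y = τ y x
  symm : ∀ x y, τ x y = y → τ y x = x

/-- the line system of a conjugation structure -/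
def ttLines8 {X : Type*} (τ : X → X → X) : Set (Set X) :=
  {l | ∃ x y, τ x y ≠ y ∧ l = {x, y, τ y x}}

/-- three points of a line -/
structure IsTri8 {X : Type*} (τ : X → X → X) (x y z : X) : Prop where
  nxy : x ≠ y
  nxz : x ≠ z
  nyz : y ≠ z
  xy : τ x y = z
  yx : τ y x = z
  xz : τ x z = y
  zx : τ z x = y
  yz : τ y z = x
  zy : τ z y = x

variable {X : Type*} {τ : X → X → X}

theorem tt_nc_symm8 (h : IsTT8 τ) {x y : X} (hxy : τ x y ≠ y) : τ y x ≠ x :=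
  fun h1 => hxy (h.symm y x h1)

theorem tri_of_nc8 (h : IsTT8 τ) {x y : X} (hxy : τ x y ≠ y) : IsTri8 τ x y (τ y x) := by
  have hyx : τ y x ≠ x := tt_nc_symm8 h hxy
  have hb : τ x y = τ y x := h.braid x y hxy
  have hne : x ≠ y := by
    intro e
    subst e
    exact hxy (h.idem x)
  have h1 : τ x (τ y x) = y := by rw [← hb, h.inv]
  have h2 : τ y (τ y x) = x := h.inv y x
  have hzy : τ y x ≠ y := by rw [← hb]; exact hxy
  have hxz : τ x (τ y x) ≠ τ y x := by rw [h1]; exact fun e => hzy e.symm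
  have hyz : τ y (τ y x) ≠ τ y x := by rw [h2]; exact fun e => hyx e.symm
  refine ⟨hne, fun e => hyx e.symm, fun e => hzy e.symm, hb, rfl, h1, ?_, h2, ?_⟩
  · rw [← h.braid x (τ y x) hxz, h1]
  · rw [← h.braid y (τ y x) hyz, h2]

theorem IsTri8.swap12 {x y z : X} (t : IsTri8 τ x y z) : IsTri8 τ y x z :=
  ⟨t.nxy.symm, t.nyz, t.nxz, t.yx, t.xy, t.yz, t.zy, t.xz, t.zx⟩

theorem IsTri8.swap23 {x y z : X} (t : IsTri8 τ x y z) : IsTri8 τ x z y :=
  ⟨t.nxz, t.nxy, t.nyz.symm, t.xz, t.zx, t.xy, t.yx, t.zy, t.yz⟩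

theorem IsTri8.nc {x y z : X} (t : IsTri8 τ x y z) : τ x y ≠ y := by
  rw [t.xy]; exact fun e => t.nyz e.symm

theorem IsTri8.mem {x y z : X} (t : IsTri8 τ x y z) : ({x, y, z} : Set X) ∈ ttLines8 τ :=
  ⟨x, y, t.nc, by rw [t.yx]⟩

theorem tri_unique8 {x y z z' : X} (t : IsTri8 τ x y z) (t' : IsTri8 τ x y z') : z = z' := by
  rw [← t.xy, t'.xy]

/-- a line is determined by two of its points -/
theorem tt_line_two8 (h : IsTT8 τ) {l : Set X} (hl : l ∈ ttLines8 τ) {p q : X} (hp : p ∈ l)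
    (hq : q ∈ l) (hpq : p ≠ q) : ∃ r, IsTri8 τ p q r ∧ l = {p, q, r} := by
  obtain ⟨x, y, hxy, rfl⟩ := hl
  have t := tri_of_nc8 h hxy
  obtain ⟨z, hz⟩ : ∃ z, z = τ y x := ⟨_, rfl⟩
  rw [← hz] at t hp hq ⊢
  simp only [Set.mem_insert_iff, Set.mem_singleton_iff] at hp hq
  rcases hp with rfl | rfl | rfl <;> rcases hq with rfl | rfl | rfl
  · exact absurd rfl hpq
  · exact ⟨_, t, rfl⟩
  · refine ⟨_, t.swap23, ?_⟩
    ext w; simp only [Set.mem_insert_iff, Set.mem_singleton_iff]; tauto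
  · refine ⟨_, t.swap12, ?_⟩
    ext w; simp only [Set.mem_insert_iff, Set.mem_singleton_iff]; tauto
  · exact absurd rfl hpq
  · refine ⟨_, t.swap12.swap23, ?_⟩
    ext w; simp only [Set.mem_insert_iff, Set.mem_singleton_iff]; tauto
  · refine ⟨_, t.swap23.swap12, ?_⟩
    ext w; simp only [Set.mem_insert_iff, Set.mem_singleton_iff]; tauto
  · refine ⟨_, t.swap12.swap23.swap12, ?_⟩
    ext w; simp only [Set.mem_insert_iff, Set.mem_singleton_iff]; tauto
  · exact absurd rfl hpq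

theorem tt_partial8 (h : IsTT8 τ) : IsPartialLinear (ttLines8 τ) := by
  intro l hl m hm p q hpq hpl hql hpm hqm
  obtain ⟨r, t, rfl⟩ := tt_line_two8 h hl hpl hql hpq
  obtain ⟨r', t', rfl⟩ := tt_line_two8 h hm hpm hqm hpq
  rw [tri_unique8 t t']

theorem tt_three8 (h : IsTT8 τ) : ∀ l ∈ ttLines8 τ, l.ncard = 3 := by
  rintro l ⟨x, y, hxy, rfl⟩
  have t := tri_of_nc8 h hxy
  rw [Set.ncard_eq_three]
  exact ⟨x, y, τ y x, t.nxy, t.nxz, t.nyz, rfl⟩

theorem tt_line_through8 (h : IsTT8 τ) {l : Set X} (hl : l ∈ ttLines8 τ) {a : X} (ha : a ∈ l) :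
    ∃ b c, IsTri8 τ a b c ∧ l = {a, b, c} := by
  obtain ⟨x, y, hxy, rfl⟩ := hl
  have t := tri_of_nc8 h hxy
  simp only [Set.mem_insert_iff, Set.mem_singleton_iff] at ha
  rcases ha with rfl | rfl | ha
  · exact ⟨_, _, t, rfl⟩
  · refine ⟨_, _, t.swap12, ?_⟩
    ext w; simp only [Set.mem_insert_iff, Set.mem_singleton_iff]; tauto
  · refine ⟨x, y, ?_, ?_⟩
    · rw [ha]; exact t.swap23.swap12
    · rw [ha]
      ext w; simp only [Set.mem_insert_iff, Set.mem_singleton_iff]; tauto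

theorem tt_subspace_iff8 (h : IsTT8 τ) (T : Set X) :
    IsSubspace (ttLines8 τ) T ↔ ∀ p ∈ T, ∀ q ∈ T, τ p q ∈ T := by
  constructor
  · intro hT p hp q hq
    by_cases hpq : τ p q = q
    · rw [hpq]; exact hq
    · have t := tri_of_nc8 h hpq
      have hsub := hT _ t.mem p hp q hq t.nxy (by simp) (by simp)
      have h3 : τ q p ∈ ({p, q, τ q p} : Set X) := by simp
      rw [t.xy]
      exact hsub h3
  · intro hT l hl p hp q hq hpq hpl hql
    obtain ⟨r, t, rfl⟩ := tt_line_two8 h hl hpl hql hpq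
    intro w hw
    simp only [Set.mem_insert_iff, Set.mem_singleton_iff] at hw
    rcases hw with rfl | rfl | rfl
    · exact hp
    · exact hq
    · rw [← t.xy]; exact hT p hp q hq

theorem tt_span_eq8 (h : IsTT8 τ) (A P : Set X) (hAP : A ⊆ P)
    (hP : ∀ p ∈ P, ∀ q ∈ P, τ p q ∈ P)
    (hmin : ∀ T : Set X, A ⊆ T → (∀ p ∈ T, ∀ q ∈ T, τ p q ∈ T) → P ⊆ T) :
    span (ttLines8 τ) A = P := by
  apply Set.Subset.antisymm
  · apply Set.sInter_subset_of_mem
    exact ⟨hAP, (tt_subspace_iff8 h P).mpr hP⟩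
  · apply Set.subset_sInter
    rintro T ⟨hAT, hT⟩
    exact hmin T hAT ((tt_subspace_iff8 h T).mp hT)

/-- an injective parametrisation matching lines gives an isomorphism of line systems -/
theorem iso_of_inj8 {X Y : Type*} (L : Set (Set X)) (M : Set (Set Y)) (φ : Y → X)
    (hinj : Function.Injective φ) (hc : ∀ n' ∈ M, φ '' n' ∈ L)
    (hd : ∀ n ∈ L, n ⊆ Set.range φ → ∃ n' ∈ M, n = φ '' n') :
    Isomorphic (restrict L (Set.range φ)) M := by
  obtain ⟨e, he⟩ : ∃ e : ↥(Set.range φ) ≃ Y, ∀ x, φ (e x) = (x : X) :=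
    ⟨(Equiv.ofInjective φ hinj).symm, fun x => Equiv.apply_ofInjective_symm hinj x⟩
  refine ⟨e, fun n => ?_⟩
  constructor
  · rintro ⟨lam, hlam, hsub, rfl⟩
    obtain ⟨n', hn', rfl⟩ := hd lam hlam hsub
    have e1 : e '' {x : ↥(Set.range φ) | (x : X) ∈ φ '' n'} = n' := by
      ext y
      constructor
      · rintro ⟨x, hx, rfl⟩
        obtain ⟨y', hy', hy'e⟩ := hx
        have e2 : e x = y' := hinj ((he x).trans hy'e.symm)
        rw [e2]; exact hy'
      · intro hy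
        refine ⟨⟨φ y, ⟨y, rfl⟩⟩, ⟨y, hy, rfl⟩, ?_⟩
        exact hinj (he _)
    rw [e1]; exact hn'
  · intro hn
    refine ⟨φ '' (e '' n), hc _ hn, ?_, ?_⟩
    · rintro _ ⟨y, _, rfl⟩
      exact ⟨y, rfl⟩
    · ext x
      constructor
      · intro hx
        exact ⟨e x, ⟨x, hx, rfl⟩, he x⟩
      · rintro ⟨_, ⟨x', hx', rfl⟩, hxe⟩
        have e2 : x' = x := Subtype.ext ((he x').symm.trans hxe)
        rw [← e2]; exact hx'

theorem img_three8 {Y J X : Type*} (κ : Y → J) (pts : J → X) (A : Set Y) (j₁ j₂ j₃ : J)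
    (hA : ∀ s, s ∈ A ↔ κ s = j₁ ∨ κ s = j₂ ∨ κ s = j₃) (hsurj : Function.Surjective κ) :
    (pts ∘ κ) '' A = {pts j₁, pts j₂, pts j₃} := by
  ext x
  simp only [Set.mem_image, Set.mem_insert_iff, Set.mem_singleton_iff, Function.comp_apply]
  constructor
  · rintro ⟨s, hs, rfl⟩
    rcases (hA s).mp hs with e | e | e
    · left; rw [e]
    · right; left; rw [e]
    · right; right; rw [e]
  · rintro (rfl | rfl | rfl)
    · obtain ⟨s, hs⟩ := hsurj j₁
      exact ⟨s, (hA s).mpr (Or.inl hs), by rw [hs]⟩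
    · obtain ⟨s, hs⟩ := hsurj j₂
      exact ⟨s, (hA s).mpr (Or.inr (Or.inl hs)), by rw [hs]⟩
    · obtain ⟨s, hs⟩ := hsurj j₃
      exact ⟨s, (hA s).mpr (Or.inr (Or.inr hs)), by rw [hs]⟩

/-- index of a point of the dual affine plane -/
def dualIdx8 (s : DualAffinePoint) : Fin 6 :=
  if 0 ∈ s.1 then (if 1 ∈ s.1 then 0 else if 2 ∈ s.1 then 1 else 2)
  else if 1 ∈ s.1 then (if 2 ∈ s.1 then 3 else 4) else 5

set_option maxRecDepth 100000 in
theorem dualIdx_inj8 : ∀ s t : DualAffinePoint, dualIdx8 s = dualIdx8 t → s = t := by decide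

set_option maxRecDepth 100000 in
theorem dualIdx_surj8 : ∀ j : Fin 6, ∃ s : DualAffinePoint, dualIdx8 s = j := by decide

set_option maxRecDepth 100000 in
theorem dualIdx_l0_8 : ∀ s : DualAffinePoint,
    (0 : Fin 4) ∉ s.1 ↔ dualIdx8 s = 3 ∨ dualIdx8 s = 4 ∨ dualIdx8 s = 5 := by decide

set_option maxRecDepth 100000 in
theorem dualIdx_l1_8 : ∀ s : DualAffinePoint,
    (1 : Fin 4) ∉ s.1 ↔ dualIdx8 s = 1 ∨ dualIdx8 s = 2 ∨ dualIdx8 s = 5 := by decide

set_option maxRecDepth 100000 in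
theorem dualIdx_l2_8 : ∀ s : DualAffinePoint,
    (2 : Fin 4) ∉ s.1 ↔ dualIdx8 s = 0 ∨ dualIdx8 s = 2 ∨ dualIdx8 s = 4 := by decide

set_option maxRecDepth 100000 in
theorem dualIdx_l3_8 : ∀ s : DualAffinePoint,
    (3 : Fin 4) ∉ s.1 ↔ dualIdx8 s = 0 ∨ dualIdx8 s = 1 ∨ dualIdx8 s = 3 := by decide

theorem six_iso8 {X : Type*} (L : Set (Set X)) (pts : Fin 6 → X) (hinj : Function.Injective pts)
    (h0 : {pts 3, pts 4, pts 5} ∈ L) (h1 : {pts 1, pts 2, pts 5} ∈ L)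
    (h2 : {pts 0, pts 2, pts 4} ∈ L) (h3 : {pts 0, pts 1, pts 3} ∈ L)
    (hd : ∀ n ∈ L, n ⊆ Set.range pts → n = {pts 3, pts 4, pts 5} ∨ n = {pts 1, pts 2, pts 5} ∨
      n = {pts 0, pts 2, pts 4} ∨ n = {pts 0, pts 1, pts 3}) :
    Isomorphic (restrict L (Set.range pts)) dualAffinePlaneTwo := by
  have hsurj : Function.Surjective dualIdx8 := dualIdx_surj8
  have hκinj : Function.Injective dualIdx8 := fun s t => dualIdx_inj8 s t
  have hr : Set.range (pts ∘ dualIdx8) = Set.range pts := hsurj.range_comp pts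
  have i0 := img_three8 dualIdx8 pts {s : DualAffinePoint | (0 : Fin 4) ∉ s.1} 3 4 5
    dualIdx_l0_8 hsurj
  have i1 := img_three8 dualIdx8 pts {s : DualAffinePoint | (1 : Fin 4) ∉ s.1} 1 2 5
    dualIdx_l1_8 hsurj
  have i2 := img_three8 dualIdx8 pts {s : DualAffinePoint | (2 : Fin 4) ∉ s.1} 0 2 4
    dualIdx_l2_8 hsurj
  have i3 := img_three8 dualIdx8 pts {s : DualAffinePoint | (3 : Fin 4) ∉ s.1} 0 1 3
    dualIdx_l3_8 hsurj
  rw [← hr]
  apply iso_of_inj8 L dualAffinePlaneTwo (pts ∘ dualIdx8) (hinj.comp hκinj)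
  · rintro n' ⟨i, rfl⟩
    fin_cases i
    · have h0' := h0
      rw [← i0] at h0'
      exact h0'
    · have h1' := h1
      rw [← i1] at h1'
      exact h1'
    · have h2' := h2
      rw [← i2] at h2'
      exact h2'
    · have h3' := h3
      rw [← i3] at h3'
      exact h3'
  · intro n hn hsub
    rw [hr] at hsub
    rcases hd n hn hsub with e | e | e | e
    · exact ⟨_, ⟨0, rfl⟩, by rw [i0, e]⟩
    · exact ⟨_, ⟨1, rfl⟩, by rw [i1, e]⟩
    · exact ⟨_, ⟨2, rfl⟩, by rw [i2, e]⟩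
    · exact ⟨_, ⟨3, rfl⟩, by rw [i3, e]⟩

theorem aff_img8 {X : Type*} (pts : (Fin 2 → ZMod 3) → X) (v w : Fin 2 → ZMod 3) :
    pts '' {x | ∃ c : ZMod 3, x = v + c • w} = {pts v, pts (v + w), pts (-v - (v + w))} := by
  have e2 : v + (2 : ZMod 3) • w = -v - (v + w) := by
    funext i
    simp only [Pi.sub_apply, Pi.neg_apply, Pi.add_apply, Pi.smul_apply, smul_eq_mul]
    exact (by decide : ∀ s t : ZMod 3, s + 2 * t = -s - (s + t)) _ _
  ext x
  simp only [Set.mem_image, Set.mem_insert_iff, Set.mem_singleton_iff, Set.mem_setOf_eq]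
  constructor
  · rintro ⟨y, ⟨c, rfl⟩, rfl⟩
    have hc3 : c = 0 ∨ c = 1 ∨ c = 2 :=
      (by decide : ∀ k : ZMod 3, k = 0 ∨ k = 1 ∨ k = 2) c
    rcases hc3 with rfl | rfl | rfl
    · left; rw [zero_smul, add_zero]
    · right; left; rw [one_smul]
    · right; right; rw [e2]
  · rintro (rfl | rfl | rfl)
    · exact ⟨v, ⟨0, by rw [zero_smul, add_zero]⟩, rfl⟩
    · exact ⟨v + w, ⟨1, by rw [one_smul]⟩, rfl⟩
    · exact ⟨_, ⟨2, rfl⟩, by rw [e2]⟩

theorem nine_iso8 {X : Type*} (L : Set (Set X)) (pts : (Fin 2 → ZMod 3) → X)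
    (hinj : Function.Injective pts)
    (hc : ∀ u v : Fin 2 → ZMod 3, u ≠ v → {pts u, pts v, pts (-u - v)} ∈ L)
    (hd : ∀ n ∈ L, n ⊆ Set.range pts →
      ∃ u v : Fin 2 → ZMod 3, u ≠ v ∧ n = {pts u, pts v, pts (-u - v)}) :
    Isomorphic (restrict L (Set.range pts)) affinePlaneThree := by
  apply iso_of_inj8 L affinePlaneThree pts hinj
  · rintro n' ⟨v, w, hw, rfl⟩
    rw [aff_img8]
    apply hc
    intro e
    apply hw
    have e' : v + 0 = v + w := by rw [add_zero]; exact e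
    exact (add_left_cancel e').symm
  · intro n hn hsub
    obtain ⟨u, v, huv, rfl⟩ := hd n hn hsub
    refine ⟨_, ⟨u, v - u, sub_ne_zero.mpr (Ne.symm huv), rfl⟩, ?_⟩
    rw [aff_img8, add_sub_cancel]

end Cfsg.Agent.Lib.Helper8
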