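import Mathlib
import Cfsg.Prelude.Def_FischerSpaces
import Cfsg.Agent.Lib.Helper8.Tt1

set_option autoImplicit false
open Cfsg Cfsg.LineSystem

namespace Cfsg.Agent.Lib.Helper8

variable {X : Type*} {τ : X → X → X}

theorem inj6_8 {X : Type*} (x0 x1 x2 x3 x4 x5 : X)
    (h01 : x0 ≠ x1) (h02 : x0 ≠ x2) (h03 : x0 ≠ x3) (h04 : x0 ≠ x4) (h05 : x0 ≠ x5)
    (h12 : x1 ≠ x2) (h13 : x1 ≠ x3) (h14 : x1 ≠ x4) (h15 : x1 ≠ x5)
    (h23 : x2 ≠ x3) (h24 : x2 ≠ x4) (h25 : x2 ≠ x5)
    (h34 : x3 ≠ x4) (h35 : x3 ≠ x5) (h45 : x4 ≠ x5) :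
    Function.Injective ![x0, x1, x2, x3, x4, x5] := by
  intro i j hij
  fin_cases i <;> fin_cases j <;>
    first
    | rfl
    | exact absurd hij h01 | exact absurd hij.symm h01
    | exact absurd hij h02 | exact absurd hij.symm h02
    | exact absurd hij h03 | exact absurd hij.symm h03
    | exact absurd hij h04 | exact absurd hij.symm h04
    | exact absurd hij h05 | exact absurd hij.symm h05
    | exact absurd hij h12 | exact absurd hij.symm h12
    | exact absurd hij h13 | exact absurd hij.symm h13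
    | exact absurd hij h14 | exact absurd hij.symm h14
    | exact absurd hij h15 | exact absurd hij.symm h15
    | exact absurd hij h23 | exact absurd hij.symm h23
    | exact absurd hij h24 | exact absurd hij.symm h24
    | exact absurd hij h25 | exact absurd hij.symm h25
    | exact absurd hij h34 | exact absurd hij.symm h34
    | exact absurd hij h35 | exact absurd hij.symm h35
    | exact absurd hij h45 | exact absurd hij.symm h45

theorem caseA_core8 (h : IsTT8 τ) (a b c d e f : X) (t1 : IsTri8 τ a b c)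
    (t2 : IsTri8 τ a d e) (t3 : IsTri8 τ b d f) (t4 : IsTri8 τ c e f) (c1 : τ b e = e)
    (c2 : τ c d = d) (c3 : τ a f = f) (hbe : b ≠ e) (hcd : c ≠ d) (haf : a ≠ f) :
    Isomorphic (restrict (ttLines8 τ) (span (ttLines8 τ) ({a, b, c} ∪ {a, d, e})))
      dualAffinePlaneTwo := by
  have c1' := h.symm _ _ c1
  have c2' := h.symm _ _ c2
  have c3' := h.symm _ _ c3
  have hrange : Set.range ![b, c, f, a, d, e] = ({a, b, c, d, e, f} : Set X) := by
    ext x
    simp only [Set.mem_range, Set.mem_insert_iff, Set.mem_singleton_iff]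
    constructor
    · rintro ⟨i, rfl⟩
      fin_cases i <;> simp
    · rintro (rfl | rfl | rfl | rfl | rfl | rfl)
      · exact ⟨3, rfl⟩
      · exact ⟨0, rfl⟩
      · exact ⟨1, rfl⟩
      · exact ⟨4, rfl⟩
      · exact ⟨5, rfl⟩
      · exact ⟨2, rfl⟩
  have hclosed : ∀ p ∈ ({a, b, c, d, e, f} : Set X), ∀ q ∈ ({a, b, c, d, e, f} : Set X),
      τ p q ∈ ({a, b, c, d, e, f} : Set X) := by
    intro p hp q hq
    simp only [Set.mem_insert_iff, Set.mem_singleton_iff] at hp hq
    rcases hp with rfl | rfl | rfl | rfl | rfl | rfl <;>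
      rcases hq with rfl | rfl | rfl | rfl | rfl | rfl <;>
      simp [t1.xy, t1.yx, t1.xz, t1.zx, t1.yz, t1.zy, t2.xy, t2.yx, t2.xz, t2.zx, t2.yz, t2.zy,
        t3.xy, t3.yx, t3.xz, t3.zx, t3.yz, t3.zy, t4.xy, t4.yx, t4.xz, t4.zx, t4.yz, t4.zy,
        c1, c2, c3, c1', c2', c3', h.idem]
  have hspan : span (ttLines8 τ) ({a, b, c} ∪ {a, d, e}) = Set.range ![b, c, f, a, d, e] := by
    rw [hrange]
    apply tt_span_eq8 h
    · intro x hx
      simp only [Set.mem_union, Set.mem_insert_iff, Set.mem_singleton_iff] at hx ⊢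
      tauto
    · exact hclosed
    · intro T hAT hT x hx
      have hb : b ∈ T := hAT (by simp)
      have hd : d ∈ T := hAT (by simp)
      have hf : f ∈ T := by rw [← t3.xy]; exact hT b hb d hd
      simp only [Set.mem_insert_iff, Set.mem_singleton_iff] at hx
      rcases hx with rfl | rfl | rfl | rfl | rfl | rfl
      · exact hAT (by simp)
      · exact hb
      · exact hAT (by simp)
      · exact hd
      · exact hAT (by simp)
      · exact hf
  rw [hspan]
  apply six_iso8
  · exact inj6_8 b c f a d e t1.nyz t3.nxz t1.nxy.symm t3.nxy hbe t4.nxz t1.nxz.symm hcd t4.nxy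
      haf.symm t3.nyz.symm t4.nyz.symm t2.nxy t2.nxz t2.nyz
  · exact t2.mem
  · exact t4.swap23.mem
  · exact t3.swap23.mem
  · exact t1.swap12.swap23.mem
  · intro n hn hsub
    rw [hrange] at hsub
    obtain ⟨x, y, hxy, rfl⟩ := hn
    have hx : x ∈ ({a, b, c, d, e, f} : Set X) := hsub (by simp)
    have hy : y ∈ ({a, b, c, d, e, f} : Set X) := hsub (by simp)
    have tt := tri_of_nc8 h hxy
    have key : (x ∈ ({a, d, e} : Set X) ∧ y ∈ ({a, d, e} : Set X)) ∨
        (x ∈ ({c, f, e} : Set X) ∧ y ∈ ({c, f, e} : Set X)) ∨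
        (x ∈ ({b, f, d} : Set X) ∧ y ∈ ({b, f, d} : Set X)) ∨
        (x ∈ ({b, c, a} : Set X) ∧ y ∈ ({b, c, a} : Set X)) := by
      simp only [Set.mem_insert_iff, Set.mem_singleton_iff] at hx hy
      rcases hx with rfl | rfl | rfl | rfl | rfl | rfl <;>
        rcases hy with rfl | rfl | rfl | rfl | rfl | rfl <;>
        first
        | exact absurd (h.idem _) hxy
        | exact absurd c1 hxy | exact absurd c2 hxy | exact absurd c3 hxy
        | exact absurd c1' hxy | exact absurd c2' hxy | exact absurd c3' hxy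
        | simp
    have fin : ∀ lam : Set X, lam ∈ ttLines8 τ → x ∈ lam → y ∈ lam →
        ({x, y, τ y x} : Set X) = lam := by
      intro lam hlam hxl hyl
      exact tt_partial8 h _ tt.mem _ hlam x y tt.nxy (by simp) (by simp) hxl hyl
    rcases key with ⟨k1, k2⟩ | ⟨k1, k2⟩ | ⟨k1, k2⟩ | ⟨k1, k2⟩
    · left; exact fin _ t2.mem k1 k2
    · right; left; exact fin _ t4.swap23.mem k1 k2
    · right; right; left; exact fin _ t3.swap23.mem k1 k2
    · right; right; right; exact fin _ t1.swap12.swap23.mem k1 k2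

theorem caseA8 (h : IsTT8 τ) (a b c d e : X) (t1 : IsTri8 τ a b c) (t2 : IsTri8 τ a d e)
    (hbe : b ≠ e) (c1 : τ b e = e) :
    Isomorphic (restrict (ttLines8 τ) (span (ttLines8 τ) ({a, b, c} ∪ {a, d, e})))
      dualAffinePlaneTwo := by
  have hbd : τ b d ≠ d := by
    intro hcon
    have e1 : τ b a = a := by
      calc τ b a = τ b (τ d e) := by rw [t2.yz]
        _ = τ (τ b d) (τ b e) := h.dist b d e
        _ = τ d e := by rw [hcon, c1]
        _ = a := t2.yz
    rw [t1.yx] at e1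
    exact t1.nxz e1.symm
  have t3 := tri_of_nc8 h hbd
  obtain ⟨f, hf⟩ : ∃ f, f = τ d b := ⟨_, rfl⟩
  rw [← hf] at t3
  have c2 : τ c d = d := by
    calc τ c d = τ (τ a b) (τ a e) := by rw [t1.xy, t2.xz]
      _ = τ a (τ b e) := (h.dist a b e).symm
      _ = τ a e := by rw [c1]
      _ = d := t2.xz
  have hce : τ c e = f := by
    calc τ c e = τ (τ b a) (τ b e) := by rw [t1.yx, c1]
      _ = τ b (τ a e) := (h.dist b a e).symm
      _ = τ b d := by rw [t2.xz]
      _ = f := t3.xy
  have hnce : τ c e ≠ e := by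
    intro hcon
    have e1 : τ c a = a := by
      calc τ c a = τ c (τ d e) := by rw [t2.yz]
        _ = τ (τ c d) (τ c e) := h.dist c d e
        _ = τ d e := by rw [c2, hcon]
        _ = a := t2.yz
    rw [t1.zx] at e1
    exact t1.nxy e1.symm
  have t4 := tri_of_nc8 h hnce
  have hf' : τ e c = f := by rw [← t4.xy]; exact hce
  rw [hf'] at t4
  have c3 : τ a f = f := by
    calc τ a f = τ a (τ c e) := by rw [hce]
      _ = τ (τ a c) (τ a e) := h.dist a c e
      _ = τ b d := by rw [t1.xz, t2.xz]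
      _ = f := t3.xy
  have hcd : c ≠ d := by
    intro e1
    apply hbe
    rw [← t1.zx, e1, t2.yx]
  have haf : a ≠ f := by
    intro e1
    apply hcd
    rw [← t1.yx, e1, ← t3.xy, h.inv]
  exact caseA_core8 h a b c d e f t1 t2 t3 t4 c1 c2 c3 hbe hcd haf

/-- the nine points of the affine case -/
def pts9_8 {X : Type*} (a b c d e f g hh k : X) (v : Fin 2 → ZMod 3) : X :=
  ![![a, d, e], ![b, g, k], ![c, hh, f]] (show Fin 3 from v 0) (show Fin 3 from v 1)

theorem enum9_8 : ∀ v : Fin 2 → ZMod 3, v = ![0,0] ∨ v = ![1,0] ∨ v = ![2,0] ∨ v = ![0,1] ∨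
    v = ![1,1] ∨ v = ![2,1] ∨ v = ![0,2] ∨ v = ![1,2] ∨ v = ![2,2] := by decide

theorem gen9_8 (U : Set (Fin 2 → ZMod 3)) (h0 : ![0,0] ∈ U) (h1 : ![1,0] ∈ U)
    (h2 : ![0,1] ∈ U) (hU : ∀ u ∈ U, ∀ w ∈ U, -u - w ∈ U) : ∀ v, v ∈ U := by
  have e20 : ![2,0] ∈ U := by
    have h3 := hU _ h0 _ h1
    have e : -(![0,0] : Fin 2 → ZMod 3) - ![1,0] = ![2,0] := by decide
    rwa [e] at h3
  have e02 : ![0,2] ∈ U := by
    have h3 := hU _ h0 _ h2
    have e : -(![0,0] : Fin 2 → ZMod 3) - ![0,1] = ![0,2] := by decide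
    rwa [e] at h3
  have e22 : ![2,2] ∈ U := by
    have h3 := hU _ h1 _ h2
    have e : -(![1,0] : Fin 2 → ZMod 3) - ![0,1] = ![2,2] := by decide
    rwa [e] at h3
  have e11 : ![1,1] ∈ U := by
    have h3 := hU _ h0 _ e22
    have e : -(![0,0] : Fin 2 → ZMod 3) - ![2,2] = ![1,1] := by decide
    rwa [e] at h3
  have e12 : ![1,2] ∈ U := by
    have h3 := hU _ e20 _ h2
    have e : -(![2,0] : Fin 2 → ZMod 3) - ![0,1] = ![1,2] := by decide
    rwa [e] at h3
  have e21 : ![2,1] ∈ U := by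
    have h3 := hU _ e02 _ h1
    have e : -(![0,2] : Fin 2 → ZMod 3) - ![1,0] = ![2,1] := by decide
    rwa [e] at h3
  intro v
  rcases enum9_8 v with rfl | rfl | rfl | rfl | rfl | rfl | rfl | rfl | rfl
  · exact h0
  · exact h1
  · exact e20
  · exact h2
  · exact e11
  · exact e21
  · exact e02
  · exact e12
  · exact e22

theorem tt_conj8 (h : IsTT8 τ) (x y q : X) : τ (τ x y) q = τ x (τ y (τ x q)) := by
  rw [h.dist x y (τ x q), h.inv]

theorem caseB_core8 (h : IsTT8 τ) (a b c d e f g hh k : X) (t1 : IsTri8 τ a b c)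
    (t2 : IsTri8 τ a d e) (t3 : IsTri8 τ b d f) (t4 : IsTri8 τ c e g) (t5 : IsTri8 τ b e hh)
    (t6 : IsTri8 τ c d k) :
    Isomorphic (restrict (ttLines8 τ) (span (ttLines8 τ) ({a, b, c} ∪ {a, d, e})))
      affinePlaneThree := by
  have af : τ a f = g := by
    calc τ a f = τ a (τ b d) := by rw [t3.xy]
      _ = τ (τ a b) (τ a d) := h.dist a b d
      _ = g := by rw [t1.xy, t2.xy, t4.xy]
  have ag : τ a g = f := by rw [← af, h.inv]
  have ah : τ a hh = k := by
    calc τ a hh = τ a (τ b e) := by rw [t5.xy]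
      _ = τ (τ a b) (τ a e) := h.dist a b e
      _ = k := by rw [t1.xy, t2.xz, t6.xy]
  have ak : τ a k = hh := by rw [← ah, h.inv]
  have bg : τ b g = k := by
    calc τ b g = τ b (τ c e) := by rw [t4.xy]
      _ = τ (τ b c) (τ b e) := h.dist b c e
      _ = k := by rw [t1.yz, t5.xy, ah]
  have bk : τ b k = g := by rw [← bg, h.inv]
  have dg : τ d g = hh := by
    calc τ d g = τ d (τ e c) := by rw [t4.yx]
      _ = τ (τ d e) (τ d c) := h.dist d e c
      _ = hh := by rw [t2.yz, t6.yx, ak]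
  have dh : τ d hh = g := by rw [← dg, h.inv]
  obtain ⟨P, hP⟩ : ∃ P : (Fin 2 → ZMod 3) → X, P = pts9_8 a b c d e f g hh k := ⟨_, rfl⟩
  have g0 : ∀ v, τ (P ![0,0]) (P v) = P (-![0,0] - v) := by
    intro v
    rw [hP]
    rcases enum9_8 v with rfl | rfl | rfl | rfl | rfl | rfl | rfl | rfl | rfl
    · exact h.idem a
    · exact t1.xy
    · exact t1.xz
    · exact t2.xy
    · exact ag
    · exact ah
    · exact t2.xz
    · exact ak
    · exact af
  have g1 : ∀ v, τ (P ![1,0]) (P v) = P (-![1,0] - v) := by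
    intro v
    rw [hP]
    rcases enum9_8 v with rfl | rfl | rfl | rfl | rfl | rfl | rfl | rfl | rfl
    · exact t1.yx
    · exact h.idem b
    · exact t1.yz
    · exact t3.xy
    · exact bg
    · exact t5.xz
    · exact t5.xy
    · exact bk
    · exact t3.xz
  have g2 : ∀ v, τ (P ![0,1]) (P v) = P (-![0,1] - v) := by
    intro v
    rw [hP]
    rcases enum9_8 v with rfl | rfl | rfl | rfl | rfl | rfl | rfl | rfl | rfl
    · exact t2.yx
    · exact t3.yx
    · exact t6.yx
    · exact h.idem d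
    · exact dg
    · exact dh
    · exact t2.yz
    · exact t6.yz
    · exact t3.yz
  have hall : ∀ u v, τ (P u) (P v) = P (-u - v) := by
    apply gen9_8 {u | ∀ v, τ (P u) (P v) = P (-u - v)} g0 g1 g2
    intro u hu w hw v
    have hu' : ∀ v, τ (P u) (P v) = P (-u - v) := hu
    have hw' : ∀ v, τ (P w) (P v) = P (-w - v) := hw
    rw [← hu' w, tt_conj8 h, hu' v, hw', hu']
    congr 1
    funext i
    simp only [Pi.sub_apply, Pi.neg_apply]
    exact (by decide : ∀ s t r : ZMod 3, -s - (-t - (-s - r)) = -(-s - t) - r) _ _ _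
  have hstep : ∀ u v, P u = P v → ∀ w, P (-w - u) = P (-w - v) := by
    intro u v huv w
    rw [← hall w u, ← hall w v, huv]
  have hinj : Function.Injective P := by
    intro u v huv
    by_contra hne
    have key : ∀ s, P s = P (s + (v - u)) := by
      intro s
      have h1 := hstep _ _ (hstep u v huv 0) (-(s - u))
      have e1 : -(-(s - u)) - (-0 - u) = s := by abel
      have e2 : -(-(s - u)) - (-0 - v) = s + (v - u) := by abel
      rw [e1, e2] at h1
      exact h1
    rw [hP] at key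
    rcases enum9_8 (v - u) with e | e | e | e | e | e | e | e | e
    · apply hne
      have e0 : v - u = 0 := by rw [e]; decide
      exact (sub_eq_zero.mp e0).symm
    · have h1 := key ![0,0]
      rw [e] at h1
      exact t1.nxy h1
    · have h1 := key ![0,0]
      rw [e] at h1
      exact t1.nxz h1
    · have h1 := key ![0,0]
      rw [e] at h1
      exact t2.nxy h1
    · have h1 := key ![0,2]
      rw [e] at h1
      exact t5.nxy h1.symm
    · have h1 := key ![1,0]
      rw [e] at h1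
      exact t3.nxy h1
    · have h1 := key ![0,0]
      rw [e] at h1
      exact t2.nxz h1
    · have h1 := key ![0,1]
      rw [e] at h1
      exact t3.nxy h1.symm
    · have h1 := key ![1,0]
      rw [e] at h1
      exact t5.nxy h1
  have hspan : span (ttLines8 τ) ({a, b, c} ∪ {a, d, e}) = Set.range P := by
    apply tt_span_eq8 h
    · rintro x (hx | hx) <;> simp only [Set.mem_insert_iff, Set.mem_singleton_iff] at hx <;>
        rcases hx with rfl | rfl | rfl
      · exact ⟨![0,0], by rw [hP]; rfl⟩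
      · exact ⟨![1,0], by rw [hP]; rfl⟩
      · exact ⟨![2,0], by rw [hP]; rfl⟩
      · exact ⟨![0,0], by rw [hP]; rfl⟩
      · exact ⟨![0,1], by rw [hP]; rfl⟩
      · exact ⟨![0,2], by rw [hP]; rfl⟩
    · rintro _ ⟨u, rfl⟩ _ ⟨v, rfl⟩
      exact ⟨_, (hall u v).symm⟩
    · intro T hAT hT
      have ha : P ![0,0] ∈ T := by
        rw [hP]
        exact hAT (Or.inl (Set.mem_insert a _))
      have hb : P ![1,0] ∈ T := by
        rw [hP]
        exact hAT (Or.inl (Set.mem_insert_of_mem a (Set.mem_insert b _)))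
      have hd : P ![0,1] ∈ T := by
        rw [hP]
        exact hAT (Or.inr (Set.mem_insert_of_mem a (Set.mem_insert d _)))
      have hU := gen9_8 {u | P u ∈ T} ha hb hd (by
        intro u hu w hw
        show P (-u - w) ∈ T
        rw [← hall u w]
        exact hT _ hu _ hw)
      rintro _ ⟨u, rfl⟩
      exact hU u
  rw [hspan]
  apply nine_iso8 _ P hinj
  · intro u v huv
    have hnc : τ (P u) (P v) ≠ P v := by
      rw [hall]
      intro e1
      have e2 := hinj e1
      exact (by decide : ∀ u v : Fin 2 → ZMod 3, u ≠ v → -u - v ≠ v) u v huv e2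
    have hmem := (tri_of_nc8 h hnc).mem
    rw [hall v u] at hmem
    have e3 : -v - u = -u - v := by abel
    rw [e3] at hmem
    exact hmem
  · intro n hn hsub
    obtain ⟨x, y, hxy, rfl⟩ := hn
    obtain ⟨u, hu⟩ := hsub (show x ∈ ({x, y, τ y x} : Set X) by simp)
    obtain ⟨v, hv⟩ := hsub (show y ∈ ({x, y, τ y x} : Set X) by simp)
    subst hu
    subst hv
    refine ⟨u, v, ?_, ?_⟩
    · rintro rfl
      exact hxy (h.idem _)
    · rw [hall v u]
      have e3 : -v - u = -u - v := by abel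
      rw [e3]

theorem caseB8 (h : IsTT8 τ) (a b c d e : X) (t1 : IsTri8 τ a b c) (t2 : IsTri8 τ a d e)
    (n1 : τ b d ≠ d) (n2 : τ b e ≠ e) (n3 : τ c d ≠ d) (n4 : τ c e ≠ e) :
    Isomorphic (restrict (ttLines8 τ) (span (ttLines8 τ) ({a, b, c} ∪ {a, d, e})))
      affinePlaneThree :=
  caseB_core8 h a b c d e (τ d b) (τ e c) (τ e b) (τ d c) t1 t2 (tri_of_nc8 h n1)
    (tri_of_nc8 h n4) (tri_of_nc8 h n2) (tri_of_nc8 h n3)

theorem tt_fischer8 (h : IsTT8 τ) : IsFischerSpace (ttLines8 τ) := by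
  refine ⟨tt_partial8 h, tt_three8 h, ?_⟩
  rintro l hl m hm hlm ⟨a, hal, ham⟩
  obtain ⟨b, c, t1, rfl⟩ := tt_line_through8 h hl hal
  obtain ⟨d, e, t2, rfl⟩ := tt_line_through8 h hm ham
  have hbm : b ∉ ({a, d, e} : Set X) := by
    intro hb
    exact hlm (tt_partial8 h _ hl _ hm a b t1.nxy (by simp) (by simp) (by simp) hb)
  have hcm : c ∉ ({a, d, e} : Set X) := by
    intro hc
    exact hlm (tt_partial8 h _ hl _ hm a c t1.nxz (by simp) (by simp) (by simp) hc)
  have hbd : b ≠ d := fun e1 => hbm (by rw [e1]; simp)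
  have hbe : b ≠ e := fun e1 => hbm (by rw [e1]; simp)
  have hcd : c ≠ d := fun e1 => hcm (by rw [e1]; simp)
  have hce : c ≠ e := fun e1 => hcm (by rw [e1]; simp)
  have sw1 : ({a, b, c} : Set X) = {a, c, b} := by rw [Set.pair_comm b c]
  have sw2 : ({a, d, e} : Set X) = {a, e, d} := by rw [Set.pair_comm d e]
  by_cases c1 : τ b e = e
  · left; exact caseA8 h a b c d e t1 t2 hbe c1
  by_cases c2 : τ b d = d
  · left; rw [sw2]; exact caseA8 h a b c e d t1 t2.swap23 hbd c2
  by_cases c3 : τ c e = e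
  · left; rw [sw1]; exact caseA8 h a c b d e t1.swap23 t2 hce c3
  by_cases c4 : τ c d = d
  · left; rw [sw1, sw2]; exact caseA8 h a c b e d t1.swap23 t2.swap23 hcd c4
  right
  exact caseB8 h a b c d e t1 t2 c2 c1 c4 c3

end Cfsg.Agent.Lib.Helper8
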