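import Mathlib
import Cfsg.Prelude.Def_FischerSpaces
import Cfsg.Agent.Lib.Helper8.Tt2

set_option autoImplicit false
open Cfsg Cfsg.LineSystem

namespace Cfsg.Agent.Lib.Helper8

theorem tt_of_group8 {G : Type*} [Group G] {D : Set G} (hD : IsThreeTranspositionGroup D) :
    IsFischerSpace (threeTranspositionLines D) := by
  obtain ⟨⟨hord, h23⟩, hconj, -⟩ := hD
  have hsq : ∀ x : D, (x : G) * (x : G) = 1 := by
    intro x
    have h1 := pow_orderOf_eq_one (x : G)
    rw [hord x x.2, pow_two] at h1
    exact h1
  have hinv : ∀ x : D, (x : G)⁻¹ = (x : G) := by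
    intro x
    exact (eq_inv_of_mul_eq_one_left (hsq x)).symm
  obtain ⟨τ, hτ⟩ : ∃ τ : D → D → D, ∀ x y : D, ((τ x y : D) : G) = (x : G) * y * (x : G)⁻¹ :=
    ⟨fun x y => ⟨(x : G) * y * (x : G)⁻¹, hconj x y y.2⟩, fun x y => rfl⟩
  have hTT : IsTT8 τ := by
    refine ⟨?_, ?_, ?_, ?_, ?_⟩
    · intro x y
      apply Subtype.ext
      rw [hτ, hτ]
      have key : (x : G) * ((x : G) * y * (x : G)⁻¹) * (x : G)⁻¹ =
          ((x : G) * x) * y * ((x : G) * x)⁻¹ := by group
      rw [key, hsq, one_mul, inv_one, mul_one]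
    · intro x
      apply Subtype.ext
      rw [hτ, mul_inv_cancel_right]
    · intro x y z
      apply Subtype.ext
      rw [hτ, hτ, hτ, hτ, hτ]
      group
    · intro x y hne
      apply Subtype.ext
      rw [hτ, hτ, hinv, hinv]
      rcases h23 x x.2 y y.2 with h2 | h3
      · exfalso
        apply hne
        apply Subtype.ext
        rw [hτ, hinv]
        have e1 : ((x : G) * y * x) * y = 1 := by
          rw [← h2, pow_two]; simp only [mul_assoc]
        have e2 := eq_inv_of_mul_eq_one_left e1
        rw [e2, hinv]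
      · have e1 : ((x : G) * y * x) * ((y : G) * x * y) = 1 := by
          rw [← h3, pow_succ, pow_two]; simp only [mul_assoc]
        have e2 := eq_inv_of_mul_eq_one_left e1
        rw [e2]
        simp only [mul_inv_rev, hinv, mul_assoc]
    · intro x y hxy
      apply Subtype.ext
      rw [hτ]
      have h1 : (x : G) * y * (x : G)⁻¹ = y := by rw [← hτ, hxy]
      have h2 : (x : G) * y = y * x := mul_inv_eq_iff_eq_mul.mp h1
      rw [← h2, mul_inv_cancel_right]
  have hL : threeTranspositionLines D = ttLines8 τ := by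
    ext l
    constructor
    · rintro ⟨x, y, hnc, rfl⟩
      refine ⟨x, y, ?_, ?_⟩
      · intro hxy
        apply hnc
        have h1 : (x : G) * y * (x : G)⁻¹ = y := by rw [← hτ, hxy]
        exact mul_inv_eq_iff_eq_mul.mp h1
      · ext z
        simp only [Set.mem_setOf_eq, Set.mem_insert_iff, Set.mem_singleton_iff,
          Subtype.ext_iff, hτ]
    · rintro ⟨x, y, hxy, rfl⟩
      refine ⟨x, y, ?_, ?_⟩
      · intro hc
        apply hxy
        apply Subtype.ext
        rw [hτ]
        have h2 : (x : G) * y = y * x := hc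
        rw [h2, mul_inv_cancel_right]
      · ext z
        simp only [Set.mem_setOf_eq, Set.mem_insert_iff, Set.mem_singleton_iff,
          Subtype.ext_iff, hτ]
  rw [hL]
  exact tt_fischer8 hTT

end Cfsg.Agent.Lib.Helper8
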