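import Mathlib

set_option autoImplicit false

namespace Cfsg.Agent.Lib.Helper8

/-- `x ↦ x ^ q` is an involutive additive map of the field `F`. -/
structure FrobInv8 (F : Type*) [Field F] (q : ℕ) : Prop where
  add : ∀ x y : F, (x + y) ^ q = x ^ q + y ^ q
  inv : ∀ x : F, (x ^ q) ^ q = x

section fi8

variable {F : Type*} [Field F] {q : ℕ}

theorem fi_zero8 (hσ : FrobInv8 F q) : (0 : F) ^ q = 0 := by
  have h := hσ.add 0 0
  rw [add_zero] at h
  have h2 : (0 : F) ^ q + 0 = (0 : F) ^ q + (0 : F) ^ q := by rw [add_zero]; exact h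
  exact (add_left_cancel h2).symm

theorem fi_neg8 (hσ : FrobInv8 F q) (x : F) : (-x) ^ q = -(x ^ q) := by
  have h := hσ.add x (-x)
  rw [add_neg_cancel, fi_zero8 hσ] at h
  exact eq_neg_of_add_eq_zero_right h.symm

theorem fi_sub8 (hσ : FrobInv8 F q) (x y : F) : (x - y) ^ q = x ^ q - y ^ q := by
  rw [sub_eq_add_neg, hσ.add, fi_neg8 hσ, ← sub_eq_add_neg]

theorem fi_sum8 (hσ : FrobInv8 F q) {ι : Type*} (s : Finset ι) (f : ι → F) :
    (∑ i ∈ s, f i) ^ q = ∑ i ∈ s, (f i) ^ q := by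
  classical
  induction s using Finset.induction_on with
  | empty => simp [fi_zero8 hσ]
  | insert a s ha ih => rw [Finset.sum_insert ha, Finset.sum_insert ha, hσ.add, ih]

end fi8

section un8a

variable {F : Type*} [Field F] [Fintype F] {q : ℕ}

theorem un_q_two8 (hF : Fintype.card F = q ^ 2) : 2 ≤ q := by
  by_contra h
  push Not at h
  have h1 : 1 < Fintype.card F := Fintype.one_lt_card
  have h2 : q ^ 2 ≤ 1 := by
    interval_cases q <;> simp
  omega

theorem un_hinv8 (hF : Fintype.card F = q ^ 2) (x : F) : (x ^ q) ^ q = x := by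
  rw [← pow_mul, ← sq, ← hF, FiniteField.pow_card]

theorem un_hadd8 (hF : Fintype.card F = q ^ 2) (x y : F) : (x + y) ^ q = x ^ q + y ^ q := by
  obtain ⟨p, hp⟩ := CharP.exists F
  haveI := hp
  obtain ⟨m, hpp, hm⟩ := FiniteField.card F p
  haveI : Fact p.Prime := ⟨hpp⟩
  have hq : q ∣ p ^ (m : ℕ) := by
    rw [← hm, hF]
    exact dvd_pow_self q two_ne_zero
  obtain ⟨a, -, rfl⟩ := (Nat.dvd_prime_pow hpp).mp hq
  exact add_pow_char_pow x y p a

theorem un_frob8 (hF : Fintype.card F = q ^ 2) : FrobInv8 F q := ⟨un_hadd8 hF, un_hinv8 hF⟩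

theorem un_exists_nonfixed8 (hF : Fintype.card F = q ^ 2) : ∃ b : F, b ^ q ≠ b := by
  classical
  have hq := un_q_two8 hF
  obtain ⟨g, hg⟩ := IsCyclic.exists_generator (α := Fˣ)
  have hord : orderOf g = q ^ 2 - 1 := by
    rw [orderOf_eq_card_of_forall_mem_zpowers hg, Nat.card_eq_fintype_card, Fintype.card_units, hF]
  refine ⟨(g : F), fun h => ?_⟩
  have h1 : g ^ (q - 1) ≠ 1 := by
    apply pow_ne_one_of_lt_orderOf (by omega)
    rw [hord]
    have : q < q ^ 2 := by nlinarith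
    omega
  apply h1
  apply Units.ext
  rw [Units.val_pow_eq_pow_val, Units.val_one]
  have h2 : (g : F) ^ (q - 1) * (g : F) = (g : F) := by
    rw [← pow_succ, Nat.sub_add_cancel (by omega), h]
  have hg0 : (g : F) ≠ 0 := g.ne_zero
  exact mul_right_cancel₀ hg0 (by rw [h2, one_mul])

theorem un_exists_eps8 (hF : Fintype.card F = q ^ 2) : ∃ ε : F, ε ≠ 0 ∧ ε ^ q = -ε := by
  obtain ⟨b, hb⟩ := un_exists_nonfixed8 hF
  have hσ := un_frob8 hF
  refine ⟨b - b ^ q, sub_ne_zero.mpr (Ne.symm hb), ?_⟩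
  rw [fi_sub8 hσ, hσ.inv]
  ring

theorem un_exists_tr8 (hF : Fintype.card F = q ^ 2) : ∃ θ : F, θ + θ ^ q = 1 := by
  obtain ⟨b, hb⟩ := un_exists_nonfixed8 hF
  have hσ := un_frob8 hF
  have hd : b - b ^ q ≠ 0 := sub_ne_zero.mpr (Ne.symm hb)
  refine ⟨b / (b - b ^ q), ?_⟩
  have e : (b - b ^ q) ^ q = -(b - b ^ q) := by
    rw [fi_sub8 hσ, hσ.inv]
    ring
  rw [div_pow, e]
  field_simp
  ring

theorem un_exists_norm8 (hF : Fintype.card F = q ^ 2) : ∃ ω : F, ω ^ (q + 1) = -1 := by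
  classical
  by_cases h2 : (-1 : F) = 1
  · exact ⟨1, by rw [one_pow, h2]⟩
  · have hq := un_q_two8 hF
    have hodd : q % 2 = 1 := by
      by_contra hne
      have he : q % 2 = 0 := by omega
      have h3 : Fintype.card F % 2 = 0 := by
        rw [hF, sq, Nat.mul_mod, he]
      have hc := FiniteField.even_card_iff_char_two.mpr h3
      have h4 : ((ringChar F : ℕ) : F) = 0 := CharP.cast_eq_zero F (ringChar F)
      rw [hc] at h4
      apply h2
      have h5 : (1 : F) + 1 = 0 := by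
        rw [one_add_one_eq_two]
        exact_mod_cast h4
      linear_combination -h5
    obtain ⟨g, hg⟩ := IsCyclic.exists_generator (α := Fˣ)
    have hord : orderOf g = q ^ 2 - 1 := by
      rw [orderOf_eq_card_of_forall_mem_zpowers hg, Nat.card_eq_fintype_card, Fintype.card_units,
        hF]
    obtain ⟨k, hk⟩ : ∃ k, q = 2 * k + 1 := ⟨q / 2, by omega⟩
    have hk0 : 0 < k := by omega
    obtain ⟨kk, hkk⟩ : ∃ kk, kk = k * k := ⟨_, rfl⟩
    have hkk0 : 0 < kk := by rw [hkk]; positivity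
    have e1 : q ^ 2 = 4 * kk + 4 * k + 1 := by rw [hk, hkk]; ring
    have e2 : k * (q + 1) = 2 * kk + 2 * k := by rw [hk, hkk]; ring
    have hu : g ^ (k * (q + 1)) ≠ 1 := by
      apply pow_ne_one_of_lt_orderOf
      · rw [e2]
        omega
      · rw [hord, e1, e2]
        omega
    have hsq : g ^ (k * (q + 1)) * g ^ (k * (q + 1)) = 1 := by
      rw [← pow_add]
      have e3 : k * (q + 1) + k * (q + 1) = orderOf g := by
        rw [hord, e1, e2]
        omega
      rw [e3, pow_orderOf_eq_one]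
    refine ⟨((g ^ k : Fˣ) : F), ?_⟩
    have hF1 : (((g ^ k : Fˣ) : F)) ^ (q + 1) = ((g ^ (k * (q + 1)) : Fˣ) : F) := by
      rw [← Units.val_pow_eq_pow_val, ← pow_mul]
    rw [hF1]
    have h5 : ((g ^ (k * (q + 1)) : Fˣ) : F) * ((g ^ (k * (q + 1)) : Fˣ) : F) = 1 := by
      rw [← Units.val_mul, hsq, Units.val_one]
    rcases mul_self_eq_one_iff.mp h5 with h6 | h6
    · exact absurd (Units.ext h6) hu
    · exact h6

/-- The fixed field of `x ↦ x ^ q`. -/
def fixSub8 (F : Type*) [Field F] (q : ℕ) (hσ : FrobInv8 F q) : Subfield F where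
  carrier := {x | x ^ q = x}
  mul_mem' := by
    intro a b ha hb
    have ha' : a ^ q = a := ha
    have hb' : b ^ q = b := hb
    show (a * b) ^ q = a * b
    rw [mul_pow, ha', hb']
  one_mem' := one_pow q
  add_mem' := by
    intro a b ha hb
    have ha' : a ^ q = a := ha
    have hb' : b ^ q = b := hb
    show (a + b) ^ q = a + b
    rw [hσ.add, ha', hb']
  zero_mem' := fi_zero8 hσ
  neg_mem' := by
    intro a ha
    have ha' : a ^ q = a := ha
    show (-a) ^ q = -a
    rw [fi_neg8 hσ, ha']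
  inv_mem' := by
    intro a ha
    have ha' : a ^ q = a := ha
    show (a⁻¹) ^ q = a⁻¹
    rw [inv_pow, ha']

theorem mem_fixSub8 (hσ : FrobInv8 F q) (x : F) : x ∈ fixSub8 F q hσ ↔ x ^ q = x := Iff.rfl

theorem fixSub_card8 (hF : Fintype.card F = q ^ 2) (hσ : FrobInv8 F q)
    [Fintype (fixSub8 F q hσ)] : Fintype.card (fixSub8 F q hσ) = q := by
  obtain ⟨η, hη⟩ := un_exists_nonfixed8 hF
  have hd : η - η ^ q ≠ 0 := sub_ne_zero.mpr (Ne.symm hη)
  have hbij : Function.Bijective
      (fun uv : (fixSub8 F q hσ) × (fixSub8 F q hσ) => (uv.1 : F) + (uv.2 : F) * η) := by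
    constructor
    · rintro ⟨u, v⟩ ⟨u', v'⟩ h
      have hu : (u : F) ^ q = u := u.2
      have hv : (v : F) ^ q = v := v.2
      have hu' : (u' : F) ^ q = u' := u'.2
      have hv' : (v' : F) ^ q = v' := v'.2
      have h1 : (u : F) + (v : F) * η = (u' : F) + (v' : F) * η := h
      have h2 : ((u : F) + (v : F) * η) ^ q = ((u' : F) + (v' : F) * η) ^ q := by rw [h1]
      rw [hσ.add, hσ.add, mul_pow, mul_pow, hu, hv, hu', hv'] at h2
      have h3 : ((v : F) - v') * (η - η ^ q) = 0 := by linear_combination h1 - h2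
      have h4 : (v : F) = v' := by
        rcases mul_eq_zero.mp h3 with h5 | h5
        · exact sub_eq_zero.mp h5
        · exact absurd h5 hd
      have h6 : (u : F) = u' := by
        rw [h4] at h1
        exact add_right_cancel h1
      exact Prod.ext (Subtype.ext h6) (Subtype.ext h4)
    · intro x
      have hd' : η ^ q - η ≠ 0 := by
        intro h0
        apply hd
        linear_combination -h0
      have hv : ((x - x ^ q) / (η - η ^ q)) ^ q = (x - x ^ q) / (η - η ^ q) := by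
        rw [div_pow, fi_sub8 hσ, fi_sub8 hσ, hσ.inv, hσ.inv, div_eq_div_iff hd' hd]
        ring
      have hu : (x - (x - x ^ q) / (η - η ^ q) * η) ^ q =
          x - (x - x ^ q) / (η - η ^ q) * η := by
        rw [fi_sub8 hσ, mul_pow, hv]
        field_simp
        ring
      have hv' : (x - x ^ q) / (η - η ^ q) ∈ fixSub8 F q hσ := hv
      have hu' : x - (x - x ^ q) / (η - η ^ q) * η ∈ fixSub8 F q hσ := hu
      refine ⟨(⟨_, hu'⟩, ⟨_, hv'⟩), ?_⟩
      show x - (x - x ^ q) / (η - η ^ q) * η + (x - x ^ q) / (η - η ^ q) * η = x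
      ring
  have h1 := Fintype.card_congr (Equiv.ofBijective _ hbij)
  rw [Fintype.card_prod, hF] at h1
  have h2 : (Fintype.card (fixSub8 F q hσ)) ^ 2 = q ^ 2 := by rw [sq, h1]
  exact Nat.pow_left_injective (by norm_num : (2 : ℕ) ≠ 0) h2

end un8a

end Cfsg.Agent.Lib.Helper8
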