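import Mathlib
import Cfsg.Prelude.Def_Classical
import Cfsg.Prelude.Def_RootSubgroups
import Cfsg.Agent.Lib.Helper8.SP1
import Cfsg.Agent.Lib.Helper8.UN1

set_option autoImplicit false

namespace Cfsg.Agent.Lib.Helper8

open Matrix

/-- Data for the unitary setting: the Frobenius involution and a non-zero trace-zero element. -/
structure UnData8 (F : Type*) [Field F] (q : ℕ) (ε : F) : Prop where
  frob : FrobInv8 F q
  ne : ε ≠ 0
  eps : ε ^ q = -ε

section un8b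

variable {F : Type*} [Field F] {q n : ℕ} {ε : F}

/-- The skew-hermitian form `ε · h`. -/
def suB8 (q : ℕ) (ε : F) (u v : Fin n → F) : F := ε * Cfsg.hermForm n F q u v

theorem suB_add_left8 (u u' v : Fin n → F) :
    suB8 q ε (u + u') v = suB8 q ε u v + suB8 q ε u' v := by
  unfold suB8 Cfsg.hermForm
  simp only [Pi.add_apply, add_mul, Finset.sum_add_distrib, mul_add]

theorem suB_smul_left8 (c : F) (u v : Fin n → F) : suB8 q ε (c • u) v = c * suB8 q ε u v := by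
  unfold suB8 Cfsg.hermForm
  simp only [Pi.smul_apply, smul_eq_mul, mul_assoc]
  rw [← Finset.mul_sum]
  ring

theorem suB_add_right8 (hσ : FrobInv8 F q) (u v v' : Fin n → F) :
    suB8 q ε u (v + v') = suB8 q ε u v + suB8 q ε u v' := by
  unfold suB8 Cfsg.hermForm
  simp only [Pi.add_apply, hσ.add, mul_add, Finset.sum_add_distrib]

theorem suB_smul_right8 (c : F) (u v : Fin n → F) :
    suB8 q ε u (c • v) = c ^ q * suB8 q ε u v := by
  unfold suB8 Cfsg.hermForm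
  simp only [Pi.smul_apply, smul_eq_mul, mul_pow]
  rw [Finset.mul_sum, Finset.mul_sum, Finset.mul_sum]
  apply Finset.sum_congr rfl
  intro i _
  ring

theorem hf_swap8 (hσ : FrobInv8 F q) (u v : Fin n → F) :
    Cfsg.hermForm n F q v u = (Cfsg.hermForm n F q u v) ^ q := by
  unfold Cfsg.hermForm
  rw [fi_sum8 hσ]
  apply Finset.sum_congr rfl
  intro i _
  rw [mul_pow, hσ.inv, mul_comm]

theorem suB_swap8 (hd : UnData8 F q ε) (u v : Fin n → F) :
    suB8 q ε u v = -(suB8 q ε v u) ^ q := by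
  unfold suB8
  rw [mul_pow, hd.eps, ← hf_swap8 hd.frob v u]
  ring

theorem suB_neg_left8 (u v : Fin n → F) : suB8 q ε (-u) v = - suB8 q ε u v := by
  have h := suB_smul_left8 (q := q) (ε := ε) (-1) u v
  rw [neg_one_smul] at h
  rw [h]
  ring

theorem suB_sub_left8 (u u' v : Fin n → F) :
    suB8 q ε (u - u') v = suB8 q ε u v - suB8 q ε u' v := by
  rw [sub_eq_add_neg, suB_add_left8, suB_neg_left8, ← sub_eq_add_neg]

theorem suB_neg_right8 (hσ : FrobInv8 F q) (u v : Fin n → F) :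
    suB8 q ε u (-v) = - suB8 q ε u v := by
  have h := suB_smul_right8 (q := q) (ε := ε) (-1) u v
  rw [neg_one_smul, fi_neg8 hσ, one_pow] at h
  rw [h]
  ring

theorem suB_sub_right8 (hσ : FrobInv8 F q) (u v v' : Fin n → F) :
    suB8 q ε u (v - v') = suB8 q ε u v - suB8 q ε u v' := by
  rw [sub_eq_add_neg, suB_add_right8 hσ, suB_neg_right8 hσ, ← sub_eq_add_neg]

theorem suB_dot8 (r v : Fin n → F) : (fun i => ε * (r i) ^ q) ⬝ᵥ v = suB8 q ε v r := by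
  unfold suB8 Cfsg.hermForm
  simp only [dotProduct]
  rw [Finset.mul_sum]
  apply Finset.sum_congr rfl
  intro i _
  ring

theorem exists_suB_ne8 (hd : UnData8 F q ε) (p : Fin n → F) (hp : p ≠ 0) :
    ∃ x : Fin n → F, suB8 q ε x p ≠ 0 := by
  obtain ⟨i, hi⟩ : ∃ i, p i ≠ 0 := by
    by_contra h
    push Not at h
    exact hp (funext h)
  refine ⟨Pi.single i 1, ?_⟩
  unfold suB8 Cfsg.hermForm
  have e : ∑ k, (Pi.single i (1 : F) : Fin n → F) k * p k ^ q = p i ^ q := by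
    rw [Finset.sum_eq_single i]
    · rw [Pi.single_eq_same, one_mul]
    · intro b _ hb
      rw [Pi.single_eq_of_ne hb, zero_mul]
    · intro h
      exact absurd (Finset.mem_univ i) h
  rw [e]
  exact mul_ne_zero hd.ne (pow_ne_zero q hi)

theorem su_ext8 (g h : Cfsg.SU n F q) (hv : ∀ v, g.1.1 *ᵥ v = h.1.1 *ᵥ v) : g = h :=
  Subtype.ext (Subtype.ext (mat_ext_mulVec8 _ _ hv))

theorem su_mul_mulVec8 (a b : Cfsg.SU n F q) (v : Fin n → F) :
    (a * b).1.1 *ᵥ v = a.1.1 *ᵥ (b.1.1 *ᵥ v) := by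
  show (a.1.1 * b.1.1) *ᵥ v = _
  rw [mulVec_mulVec]

theorem su_one_mulVec8 (v : Fin n → F) : (1 : Cfsg.SU n F q).1.1 *ᵥ v = v := by
  show (1 : Matrix (Fin n) (Fin n) F) *ᵥ v = v
  rw [one_mulVec]

theorem su_mul_inv_mulVec8 (g : Cfsg.SU n F q) (v : Fin n → F) :
    g.1.1 *ᵥ ((g⁻¹).1.1 *ᵥ v) = v := by
  rw [← su_mul_mulVec8, mul_inv_cancel, su_one_mulVec8]

theorem su_inv_mul_mulVec8 (g : Cfsg.SU n F q) (v : Fin n → F) :
    (g⁻¹).1.1 *ᵥ (g.1.1 *ᵥ v) = v := by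
  rw [← su_mul_mulVec8, inv_mul_cancel, su_one_mulVec8]

theorem su_herm_map8 (g : Cfsg.SU n F q) (v w : Fin n → F) :
    Cfsg.hermForm n F q (g.1.1 *ᵥ v) (g.1.1 *ᵥ w) = Cfsg.hermForm n F q v w := g.2 v w

theorem suB_map8 (g : Cfsg.SU n F q) (v w : Fin n → F) :
    suB8 q ε (g.1.1 *ᵥ v) (g.1.1 *ᵥ w) = suB8 q ε v w := by
  unfold suB8
  rw [su_herm_map8]

theorem suB_inv_left8 (g : Cfsg.SU n F q) (v w : Fin n → F) :
    suB8 q ε ((g⁻¹).1.1 *ᵥ v) w = suB8 q ε v (g.1.1 *ᵥ w) := by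
  have h := suB_map8 (ε := ε) g ((g⁻¹).1.1 *ᵥ v) w
  rw [su_mul_inv_mulVec8] at h
  exact h.symm

/-- The matrix of the unitary transvection `v ↦ v + c B(v,p) p`. -/
def suTmat8 (q : ℕ) (ε : F) (p : Fin n → F) (c : F) : Matrix (Fin n) (Fin n) F :=
  1 + vecMulVec (c • p) (fun i => ε * (p i) ^ q)

theorem suTmat_mulVec8 (p : Fin n → F) (c : F) (v : Fin n → F) :
    suTmat8 q ε p c *ᵥ v = v + (c * suB8 q ε v p) • p := by
  unfold suTmat8
  rw [add_mulVec, one_mulVec, vecMulVec_mulVec, op_smul_eq_smul, suB_dot8, smul_smul, mul_comm]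

theorem suTmat_det8 (p : Fin n → F) (c : F) (hp : suB8 q ε p p = 0) :
    (suTmat8 q ε p c).det = 1 := by
  unfold suTmat8
  rw [Matrix.vecMulVec_eq Unit, Matrix.det_one_add_replicateCol_mul_replicateRow, suB_dot8,
    suB_smul_left8, hp, mul_zero, add_zero]

theorem suTmat_pres8 (hd : UnData8 F q ε) (p : Fin n → F) (c : F) (hc : c ^ q = c)
    (hp : suB8 q ε p p = 0) (u v : Fin n → F) :
    Cfsg.hermForm n F q (suTmat8 q ε p c *ᵥ u) (suTmat8 q ε p c *ᵥ v) =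
      Cfsg.hermForm n F q u v := by
  have key : suB8 q ε (suTmat8 q ε p c *ᵥ u) (suTmat8 q ε p c *ᵥ v) = suB8 q ε u v := by
    simp only [suTmat_mulVec8, suB_add_left8, suB_add_right8 hd.frob, suB_smul_left8,
      suB_smul_right8, hp, mul_pow, hc]
    rw [suB_swap8 hd p v]
    ring
  unfold suB8 at key
  exact mul_left_cancel₀ hd.ne key

open Classical in
/-- The unitary transvection `v ↦ v + c B(v,p) p` as an element of `SU`. -/
noncomputable def sug8 (q : ℕ) (ε : F) (p : Fin n → F) (c : F) : Cfsg.SU n F q :=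
  if h : UnData8 F q ε ∧ c ^ q = c ∧ suB8 q ε p p = 0 then
    ⟨⟨suTmat8 q ε p c, suTmat_det8 p c h.2.2⟩,
      fun u v => suTmat_pres8 h.1 p c h.2.1 h.2.2 u v⟩
  else 1

theorem sug_mulVec8 (hd : UnData8 F q ε) (p : Fin n → F) (hp : suB8 q ε p p = 0) (c : F)
    (hc : c ^ q = c) (v : Fin n → F) :
    (sug8 q ε p c).1.1 *ᵥ v = v + (c * suB8 q ε v p) • p := by
  unfold sug8
  rw [dif_pos ⟨hd, hc, hp⟩]
  exact suTmat_mulVec8 p c v

theorem sug_mul8 (hd : UnData8 F q ε) (p : Fin n → F) (hp : suB8 q ε p p = 0) (c c' : F)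
    (hc : c ^ q = c) (hc' : c' ^ q = c') :
    sug8 q ε p c * sug8 q ε p c' = sug8 q ε p (c + c') := by
  have hcc : (c + c') ^ q = c + c' := by rw [hd.frob.add, hc, hc']
  apply su_ext8
  intro v
  rw [su_mul_mulVec8, sug_mulVec8 hd p hp c hc, sug_mulVec8 hd p hp c' hc',
    sug_mulVec8 hd p hp _ hcc, suB_add_left8, suB_smul_left8, hp, mul_zero, add_zero, add_assoc,
    ← add_smul]
  congr 2
  ring

theorem sug_zero8 (hd : UnData8 F q ε) (p : Fin n → F) (hp : suB8 q ε p p = 0) :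
    sug8 q ε p 0 = 1 := by
  apply su_ext8
  intro v
  rw [sug_mulVec8 hd p hp 0 (fi_zero8 hd.frob), su_one_mulVec8, zero_mul, zero_smul, add_zero]

theorem sug_inv8 (hd : UnData8 F q ε) (p : Fin n → F) (hp : suB8 q ε p p = 0) (c : F)
    (hc : c ^ q = c) : (sug8 q ε p c)⁻¹ = sug8 q ε p (-c) := by
  have hnc : (-c) ^ q = -c := by rw [fi_neg8 hd.frob, hc]
  apply inv_eq_of_mul_eq_one_right
  rw [sug_mul8 hd p hp c (-c) hc hnc, add_neg_cancel, sug_zero8 hd p hp]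

theorem sug_ne_one8 (hd : UnData8 F q ε) (p : Fin n → F) (hp0 : p ≠ 0)
    (hp : suB8 q ε p p = 0) (c : F) (hc0 : c ≠ 0) (hc : c ^ q = c) : sug8 q ε p c ≠ 1 := by
  intro h
  obtain ⟨x, hx⟩ := exists_suB_ne8 hd p hp0
  have h1 : (sug8 q ε p c).1.1 *ᵥ x = (1 : Cfsg.SU n F q).1.1 *ᵥ x := by rw [h]
  rw [sug_mulVec8 hd p hp c hc, su_one_mulVec8] at h1
  have h2 : (c * suB8 q ε x p) • p = 0 := by
    have h3 : x + (c * suB8 q ε x p) • p = x + 0 := by rw [h1, add_zero]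
    exact add_left_cancel h3
  rcases smul_eq_zero.mp h2 with h4 | h4
  · exact (mul_ne_zero hc0 hx) h4
  · exact hp0 h4

/-- The generating set of the unitary transvection group with centre `p`. -/
def suS8 (q : ℕ) (p : Fin n → F) : Set (Cfsg.SU n F q) :=
  {g | (∀ v : Fin n → F, ∃ c : F, g.1.1 *ᵥ v = v + c • p) ∧
    ∀ v : Fin n → F, Cfsg.hermForm n F q v p = 0 → g.1.1 *ᵥ v = v}

/-- The unitary transvection group with centre `p`. -/
def suTg8 (q : ℕ) (p : Fin n → F) : Subgroup (Cfsg.SU n F q) := Subgroup.closure (suS8 q p)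

theorem mem_suTg8 (hd : UnData8 F q ε) (p : Fin n → F) (hp0 : p ≠ 0) (hp : suB8 q ε p p = 0)
    (g : Cfsg.SU n F q) :
    g ∈ suTg8 q p ↔ ∃ c : F, c ^ q = c ∧ ∀ v, g.1.1 *ᵥ v = v + (c * suB8 q ε v p) • p := by
  constructor
  · intro hg
    have hg' : g ∈ Subgroup.closure (suS8 q p) := hg
    refine Subgroup.closure_induction (p := fun (g : Cfsg.SU n F q) _ => ∃ c : F, c ^ q = c ∧
      ∀ v, g.1.1 *ᵥ v = v + (c * suB8 q ε v p) • p) ?_ ?_ ?_ ?_ hg'
    · rintro x ⟨h1, h2⟩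
      obtain ⟨x₀, hx₀⟩ := exists_suB_ne8 hd p hp0
      obtain ⟨v₀, hv₀⟩ : ∃ v₀ : Fin n → F, suB8 q ε v₀ p = 1 :=
        ⟨(suB8 q ε x₀ p)⁻¹ • x₀, by rw [suB_smul_left8, inv_mul_cancel₀ hx₀]⟩
      obtain ⟨c, hc⟩ := h1 v₀
      have hpv : suB8 q ε p v₀ = -1 := by rw [suB_swap8 hd, hv₀, one_pow]
      have hcq : c ^ q = c := by
        have h3 := suB_map8 (ε := ε) x v₀ v₀
        simp only [hc, suB_add_left8, suB_add_right8 hd.frob, suB_smul_left8, suB_smul_right8, hp,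
          hv₀, hpv] at h3
        linear_combination h3
      refine ⟨c, hcq, fun v => ?_⟩
      have hw : Cfsg.hermForm n F q (v - suB8 q ε v p • v₀) p = 0 := by
        have h4 : suB8 q ε (v - suB8 q ε v p • v₀) p = 0 := by
          rw [suB_sub_left8, suB_smul_left8, hv₀, mul_one, sub_self]
        unfold suB8 at h4
        rcases mul_eq_zero.mp h4 with h5 | h5
        · exact absurd h5 hd.ne
        · exact h5
      have h6 := h2 _ hw
      rw [mulVec_sub, mulVec_smul, hc] at h6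
      have h7 : x.1.1 *ᵥ v = v - suB8 q ε v p • v₀ + suB8 q ε v p • (v₀ + c • p) :=
        eq_add_of_sub_eq h6
      rw [h7, smul_add, smul_smul, mul_comm c]
      abel
    · exact ⟨0, fi_zero8 hd.frob, fun v => by
        rw [zero_mul, zero_smul, add_zero, su_one_mulVec8]⟩
    · rintro x y _ _ ⟨c, hcq, hc⟩ ⟨c', hcq', hc'⟩
      refine ⟨c + c', by rw [hd.frob.add, hcq, hcq'], fun v => ?_⟩
      rw [su_mul_mulVec8, hc', hc, suB_add_left8, suB_smul_left8, hp, mul_zero, add_zero,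
        add_assoc, ← add_smul]
      congr 2
      ring
    · rintro x _ ⟨c, hcq, hc⟩
      refine ⟨-c, by rw [fi_neg8 hd.frob, hcq], fun v => ?_⟩
      obtain ⟨w, hw⟩ : ∃ w, w = (x⁻¹).1.1 *ᵥ v := ⟨_, rfl⟩
      have h1 : x.1.1 *ᵥ w = v := by rw [hw, su_mul_inv_mulVec8]
      rw [hc] at h1
      have h2 : suB8 q ε w p = suB8 q ε v p := by
        have h3 : suB8 q ε (w + (c * suB8 q ε w p) • p) p = suB8 q ε v p := by rw [h1]
        rw [suB_add_left8, suB_smul_left8, hp, mul_zero, add_zero] at h3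
        exact h3
      rw [← hw]
      rw [h2] at h1
      have h4 : w = v - (c * suB8 q ε v p) • p := eq_sub_of_add_eq h1
      rw [h4, neg_mul, neg_smul, sub_eq_add_neg]
  · rintro ⟨c, hcq, hc⟩
    refine Subgroup.subset_closure ⟨fun v => ⟨c * suB8 q ε v p, hc v⟩, fun v hv => ?_⟩
    rw [hc v]
    unfold suB8
    rw [hv, mul_zero, mul_zero, zero_smul, add_zero]

theorem sug_mem8 (hd : UnData8 F q ε) (p : Fin n → F) (hp0 : p ≠ 0) (hp : suB8 q ε p p = 0)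
    (c : F) (hc : c ^ q = c) : sug8 q ε p c ∈ suTg8 q p :=
  (mem_suTg8 hd p hp0 hp _).mpr ⟨c, hc, sug_mulVec8 hd p hp c hc⟩

theorem eq_sug_of_mem8 (hd : UnData8 F q ε) (p : Fin n → F) (hp0 : p ≠ 0)
    (hp : suB8 q ε p p = 0) (g : Cfsg.SU n F q) (hg : g ∈ suTg8 q p) :
    ∃ c : F, c ^ q = c ∧ g = sug8 q ε p c := by
  obtain ⟨c, hcq, hc⟩ := (mem_suTg8 hd p hp0 hp g).mp hg
  exact ⟨c, hcq, su_ext8 _ _ (fun v => by rw [hc, sug_mulVec8 hd p hp c hcq])⟩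

theorem suTg_smul8 (hd : UnData8 F q ε) (p : Fin n → F) (hp0 : p ≠ 0) (hp : suB8 q ε p p = 0)
    (a : F) (ha : a ≠ 0) : suTg8 q (a • p) = suTg8 q p := by
  have hap0 : a • p ≠ 0 := smul_ne_zero ha hp0
  have hap : suB8 q ε (a • p) (a • p) = 0 := by
    rw [suB_smul_left8, suB_smul_right8, hp, mul_zero, mul_zero]
  have haq : a ^ q ≠ 0 := pow_ne_zero q ha
  ext g
  rw [mem_suTg8 hd (a • p) hap0 hap, mem_suTg8 hd p hp0 hp]
  constructor
  · rintro ⟨c, hcq, hc⟩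
    refine ⟨c * a ^ q * a, by rw [mul_pow, mul_pow, hd.frob.inv, hcq]; ring, fun v => ?_⟩
    rw [hc, suB_smul_right8, smul_smul]
    congr 2
    ring
  · rintro ⟨c, hcq, hc⟩
    refine ⟨c / (a ^ q * a), by rw [div_pow, mul_pow, hd.frob.inv, hcq, mul_comm], fun v => ?_⟩
    rw [hc, suB_smul_right8, smul_smul]
    congr 2
    field_simp

theorem su_iso_map8 (p : Fin n → F) (hp0 : p ≠ 0) (hp : suB8 q ε p p = 0)
    (g : Cfsg.SU n F q) :
    g.1.1 *ᵥ p ≠ 0 ∧ suB8 q ε (g.1.1 *ᵥ p) (g.1.1 *ᵥ p) = 0 := by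
  refine ⟨fun h0 => hp0 ?_, by rw [suB_map8, hp]⟩
  have h1 := su_inv_mul_mulVec8 g p
  rw [h0, mulVec_zero] at h1
  exact h1.symm

theorem suTg_conj8 (hd : UnData8 F q ε) (p : Fin n → F) (hp0 : p ≠ 0) (hp : suB8 q ε p p = 0)
    (g : Cfsg.SU n F q) :
    Cfsg.conjBy (suTg8 q p) g = suTg8 q (g.1.1 *ᵥ p) := by
  obtain ⟨hgp0, hgp⟩ := su_iso_map8 (ε := ε) p hp0 hp g
  ext h
  rw [Subgroup.mem_map, mem_suTg8 hd _ hgp0 hgp]
  constructor
  · rintro ⟨x, hx, rfl⟩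
    obtain ⟨c, hcq, hc⟩ := (mem_suTg8 hd p hp0 hp x).mp hx
    refine ⟨c, hcq, fun v => ?_⟩
    show (g * x * g⁻¹).1.1 *ᵥ v = _
    rw [su_mul_mulVec8, su_mul_mulVec8, hc, mulVec_add, mulVec_smul, su_mul_inv_mulVec8,
      suB_inv_left8]
  · rintro ⟨c, hcq, hc⟩
    refine ⟨g⁻¹ * h * g, (mem_suTg8 hd p hp0 hp _).mpr ⟨c, hcq, fun v => ?_⟩, ?_⟩
    · rw [su_mul_mulVec8, su_mul_mulVec8, hc, mulVec_add, mulVec_smul, su_inv_mul_mulVec8,
        su_inv_mul_mulVec8, suB_map8]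
    · show g * (g⁻¹ * h * g) * g⁻¹ = h
      group

theorem suTg_comm8 (hd : UnData8 F q ε) (p : Fin n → F) (hp0 : p ≠ 0) (hp : suB8 q ε p p = 0)
    (a b : Cfsg.SU n F q) (ha : a ∈ suTg8 q p) (hb : b ∈ suTg8 q p) : a * b = b * a := by
  obtain ⟨c, hc, rfl⟩ := eq_sug_of_mem8 hd p hp0 hp a ha
  obtain ⟨c', hc', rfl⟩ := eq_sug_of_mem8 hd p hp0 hp b hb
  rw [sug_mul8 hd p hp c c' hc hc', sug_mul8 hd p hp c' c hc' hc, add_comm]

theorem suTg_ne_bot8 (hd : UnData8 F q ε) (p : Fin n → F) (hp0 : p ≠ 0)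
    (hp : suB8 q ε p p = 0) : suTg8 q p ≠ ⊥ := by
  intro h
  have h1 : sug8 q ε p 1 ∈ suTg8 q p := sug_mem8 hd p hp0 hp 1 (one_pow q)
  rw [h, Subgroup.mem_bot] at h1
  exact sug_ne_one8 hd p hp0 hp 1 one_ne_zero (one_pow q) h1

end un8b

end Cfsg.Agent.Lib.Helper8
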