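import Mathlib
import Cfsg.Prelude.Def_RootSubgroups
import Cfsg.Agent.Lib.Helper8.UN2

set_option autoImplicit false

namespace Cfsg.Agent.Lib.Helper8

open Matrix

open scoped commutatorElement

section un8c

variable {F : Type*} [Field F] {q n : ℕ} {ε : F}

theorem sug_comm_of8 (hd : UnData8 F q ε) (p r : Fin n → F) (hp : suB8 q ε p p = 0)
    (hr : suB8 q ε r r = 0) (h : suB8 q ε p r = 0) (c c' : F) (hc : c ^ q = c)
    (hc' : c' ^ q = c') :
    sug8 q ε p c * sug8 q ε r c' = sug8 q ε r c' * sug8 q ε p c := by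
  have h' : suB8 q ε r p = 0 := by rw [suB_swap8 hd, h, fi_zero8 hd.frob, neg_zero]
  apply su_ext8
  intro v
  simp only [su_mul_mulVec8, sug_mulVec8 hd p hp c hc, sug_mulVec8 hd r hr c' hc', suB_add_left8,
    suB_smul_left8, h, h', mul_zero, add_zero]
  abel

theorem suTg_comm_bot8 (hd : UnData8 F q ε) (p r : Fin n → F) (hp0 : p ≠ 0)
    (hp : suB8 q ε p p = 0) (hr0 : r ≠ 0) (hr : suB8 q ε r r = 0) (h : suB8 q ε p r = 0) :
    ⁅suTg8 q p, suTg8 q r⁆ = ⊥ := by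
  rw [Subgroup.commutator_eq_bot_iff_le_centralizer]
  intro a ha
  rw [Subgroup.mem_centralizer_iff]
  intro b hb
  obtain ⟨c, hc, rfl⟩ := eq_sug_of_mem8 hd p hp0 hp a ha
  obtain ⟨c', hc', rfl⟩ := eq_sug_of_mem8 hd r hr0 hr b hb
  exact (sug_comm_of8 hd p r hp hr h c c' hc hc').symm

theorem suTg_ne8 (hd : UnData8 F q ε) (p r : Fin n → F) (hp0 : p ≠ 0)
    (hp : suB8 q ε p p = 0) (hr0 : r ≠ 0) (hr : suB8 q ε r r = 0) (h : suB8 q ε p r ≠ 0) :
    suTg8 q p ≠ suTg8 q r := by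
  intro heq
  have h1 : sug8 q ε p 1 ∈ suTg8 q r := heq ▸ sug_mem8 hd p hp0 hp 1 (one_pow q)
  obtain ⟨c', -, hc'⟩ := (mem_suTg8 hd r hr0 hr _).mp h1
  have h2 := hc' p
  rw [sug_mulVec8 hd p hp 1 (one_pow q), hp, mul_zero, zero_smul, add_zero] at h2
  have h3 : (c' * suB8 q ε p r) • r = 0 := by
    have h4 : p + 0 = p + (c' * suB8 q ε p r) • r := by
      rw [add_zero]
      exact h2
    exact (add_left_cancel h4).symm
  have hc0 : c' = 0 := by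
    rcases smul_eq_zero.mp h3 with h4 | h4
    · rcases mul_eq_zero.mp h4 with h5 | h5
      · exact h5
      · exact absurd h5 h
    · exact absurd h4 hr0
  apply sug_ne_one8 hd p hp0 hp 1 one_ne_zero (one_pow q)
  apply su_ext8
  intro v
  rw [hc' v, hc0, zero_mul, zero_smul, add_zero, su_one_mulVec8]

theorem su_rankOneCond8 (hd : UnData8 F q ε) (p r : Fin n → F) (hp0 : p ≠ 0)
    (hp : suB8 q ε p p = 0) (hr0 : r ≠ 0) (hr : suB8 q ε r r = 0) (h : suB8 q ε p r ≠ 0) :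
    Cfsg.RankOneCondition (suTg8 q p) (suTg8 q r) := by
  intro a ha ha1
  obtain ⟨c, hcq, rfl⟩ := eq_sug_of_mem8 hd p hp0 hp a ha
  have hc : c ≠ 0 := by
    intro h0
    apply ha1
    rw [h0, sug_zero8 hd p hp]
  obtain ⟨e₁, he₁⟩ : ∃ e₁, e₁ = suB8 q ε p r := ⟨_, rfl⟩
  rw [← he₁] at h
  have he₁' : suB8 q ε r p = -e₁ ^ q := by rw [suB_swap8 hd, he₁]
  have he₁q : e₁ ^ q ≠ 0 := pow_ne_zero q h
  obtain ⟨c', hc'⟩ : ∃ c', c' = -(c * e₁ ^ q * e₁)⁻¹ := ⟨_, rfl⟩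
  have hc'0 : c' ≠ 0 := by
    rw [hc']
    exact neg_ne_zero.mpr (inv_ne_zero (mul_ne_zero (mul_ne_zero hc he₁q) h))
  have hc'q : c' ^ q = c' := by
    rw [hc', fi_neg8 hd.frob, inv_pow, mul_pow, mul_pow, hd.frob.inv, hcq]
    ring
  refine ⟨sug8 q ε r c', sug_mem8 hd r hr0 hr c' hc'q, sug_ne_one8 hd r hr0 hr c' hc'0 hc'q, ?_⟩
  rw [suTg_conj8 hd p hp0 hp, suTg_conj8 hd r hr0 hr, sug_inv8 hd r hr c' hc'q,
    sug_inv8 hd p hp c hcq]
  have hnc' : (-c') ^ q = -c' := by rw [fi_neg8 hd.frob, hc'q]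
  have hnc : (-c) ^ q = -c := by rw [fi_neg8 hd.frob, hcq]
  obtain ⟨hu0, hu⟩ := su_iso_map8 (ε := ε) p hp0 hp (sug8 q ε r (-c'))
  have e : (sug8 q ε p (-c)).1.1 *ᵥ r = (c * e₁ ^ q) • ((sug8 q ε r (-c')).1.1 *ᵥ p) := by
    rw [sug_mulVec8 hd p hp (-c) hnc, sug_mulVec8 hd r hr (-c') hnc', ← he₁, he₁', smul_add,
      smul_smul, hc']
    have h5 : c * e₁ ^ q * (- -(c * e₁ ^ q * e₁)⁻¹ * e₁) = 1 := by
      field_simp
    rw [h5, one_smul, neg_mul_neg, add_comm]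
  rw [e, suTg_smul8 hd _ hu0 hu _ (mul_ne_zero hc he₁q)]

theorem suTg_nilp8 (hd : UnData8 F q ε) (p : Fin n → F) (hp0 : p ≠ 0)
    (hp : suB8 q ε p p = 0) : Group.IsNilpotent (suTg8 q p) := by
  letI : CommGroup (suTg8 q p) := { (inferInstance : Group (suTg8 q p)) with
    mul_comm := fun a b => Subtype.ext (suTg_comm8 hd p hp0 hp a.1 b.1 a.2 b.2) }
  exact CommGroup.isNilpotent

theorem su_rankOnePair8 (hd : UnData8 F q ε) (p r : Fin n → F) (hp0 : p ≠ 0)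
    (hp : suB8 q ε p p = 0) (hr0 : r ≠ 0) (hr : suB8 q ε r r = 0) (h : suB8 q ε p r ≠ 0) :
    Cfsg.IsRankOnePair (suTg8 q p) (suTg8 q r) := by
  have h' : suB8 q ε r p ≠ 0 := by
    rw [suB_swap8 hd]
    exact neg_ne_zero.mpr (pow_ne_zero q h)
  exact ⟨suTg_ne8 hd p r hp0 hp hr0 hr h, suTg_nilp8 hd p hp0 hp, suTg_nilp8 hd r hr0 hr,
    su_rankOneCond8 hd p r hp0 hp hr0 hr h, su_rankOneCond8 hd r p hr0 hr hp0 hp h'⟩

theorem su_exists_mid8 (hd : UnData8 F q ε) (θ : F) (hθ : θ + θ ^ q = 1) (p r : Fin n → F)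
    (hp0 : p ≠ 0) (hp : suB8 q ε p p = 0) (hr0 : r ≠ 0) (hr : suB8 q ε r r = 0) :
    ∃ z : Fin n → F, z ≠ 0 ∧ suB8 q ε z z = 0 ∧ suB8 q ε p z ≠ 0 ∧ suB8 q ε z r ≠ 0 := by
  have hσ := hd.frob
  have hz0 : ∀ z : Fin n → F, suB8 q ε z r ≠ 0 → z ≠ 0 := by
    intro z hz h0
    rw [h0] at hz
    apply hz
    unfold suB8 Cfsg.hermForm
    simp
  by_cases h : suB8 q ε p r = 0
  · obtain ⟨x, hx⟩ := exists_suB_ne8 hd p hp0
    obtain ⟨y, hy⟩ := exists_suB_ne8 hd r hr0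
    have key : ∃ v, suB8 q ε v p ≠ 0 ∧ suB8 q ε v r ≠ 0 := by
      by_cases h1 : suB8 q ε x r ≠ 0
      · exact ⟨x, hx, h1⟩
      · by_cases h2 : suB8 q ε y p ≠ 0
        · exact ⟨y, h2, hy⟩
        · push Not at h1 h2
          refine ⟨x + y, ?_, ?_⟩
          · rw [suB_add_left8, h2, add_zero]
            exact hx
          · rw [suB_add_left8, h1, zero_add]
            exact hy
    obtain ⟨v, hv1, hv2⟩ := key
    obtain ⟨d, hd'⟩ : ∃ d, d = suB8 q ε v p := ⟨_, rfl⟩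
    rw [← hd'] at hv1
    have hdq : d ^ q ≠ 0 := pow_ne_zero q hv1
    have hpv : suB8 q ε p v = -d ^ q := by rw [suB_swap8 hd, hd']
    have hvv : (suB8 q ε v v) ^ q = - suB8 q ε v v := by
      have h3 := suB_swap8 hd v v
      linear_combination h3
    obtain ⟨c, hc⟩ : ∃ c, c = suB8 q ε v v * θ / d ^ q := ⟨_, rfl⟩
    have hcq : c ^ q = - suB8 q ε v v * θ ^ q / d := by
      rw [hc, div_pow, mul_pow, hvv, hσ.inv]
    have h_a : c ^ q * d = - suB8 q ε v v * θ ^ q := by rw [hcq, div_mul_cancel₀ _ hv1]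
    have h_b : c * d ^ q = suB8 q ε v v * θ := by rw [hc, div_mul_cancel₀ _ hdq]
    refine ⟨v + c • p, ?_, ?_, ?_, ?_⟩
    · apply hz0
      rw [suB_add_left8, suB_smul_left8, h, mul_zero, add_zero]
      exact hv2
    · simp only [suB_add_left8, suB_add_right8 hσ, suB_smul_left8, suB_smul_right8, hp, ← hd', hpv]
      linear_combination h_a - h_b - suB8 q ε v v * hθ
    · rw [suB_add_right8 hσ, suB_smul_right8, hp, mul_zero, add_zero, hpv]
      exact neg_ne_zero.mpr hdq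
    · rw [suB_add_left8, suB_smul_left8, h, mul_zero, add_zero]
      exact hv2
  · obtain ⟨e₁, he₁⟩ : ∃ e₁, e₁ = suB8 q ε p r := ⟨_, rfl⟩
    rw [← he₁] at h
    have he₁q : e₁ ^ q ≠ 0 := pow_ne_zero q h
    have hrp : suB8 q ε r p = -e₁ ^ q := by rw [suB_swap8 hd, he₁]
    refine ⟨p + e₁ • r, ?_, ?_, ?_, ?_⟩
    · apply hz0
      rw [suB_add_left8, suB_smul_left8, hr, mul_zero, add_zero, ← he₁]
      exact h
    · simp only [suB_add_left8, suB_add_right8 hσ, suB_smul_left8, suB_smul_right8, hp, hr, ← he₁,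
        hrp]
      ring
    · rw [suB_add_right8 hσ, suB_smul_right8, hp, zero_add, ← he₁]
      exact mul_ne_zero he₁q h
    · rw [suB_add_left8, suB_smul_left8, hr, mul_zero, add_zero, ← he₁]
      exact h

end un8c

end Cfsg.Agent.Lib.Helper8
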