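import Mathlib
import Cfsg.Prelude.Def_RootSubgroups
import Cfsg.Agent.Lib.Helper3.SLGen2
import Cfsg.Agent.Lib.Helper8.SP4
import Cfsg.Agent.Lib.Helper8.UN3

set_option autoImplicit false

namespace Cfsg.Agent.Lib.Helper8

open Matrix

section un8d

variable {F : Type*} [Field F] {q n : ℕ} {ε : F}

/-- The matrix of the action of a `2 × 2` matrix on the hyperbolic plane `⟨p, r⟩`. -/
def suPhi8 (q : ℕ) (ε : F) (p r : Fin n → F) (M : Matrix (Fin 2) (Fin 2) F) :
    Matrix (Fin n) (Fin n) F :=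
  1 + vecMulVec ((M 0 0 - 1) • p + M 1 0 • r) (fun i => ε * (r i) ^ q) -
    vecMulVec (M 0 1 • p + (M 1 1 - 1) • r) (fun i => ε * (p i) ^ q)

theorem suPhi_mulVec8 (p r : Fin n → F) (M : Matrix (Fin 2) (Fin 2) F) (v : Fin n → F) :
    suPhi8 q ε p r M *ᵥ v = v + suB8 q ε v r • ((M 0 0 - 1) • p + M 1 0 • r) -
      suB8 q ε v p • (M 0 1 • p + (M 1 1 - 1) • r) := by
  unfold suPhi8
  rw [sub_mulVec, add_mulVec, one_mulVec, vecMulVec_mulVec, vecMulVec_mulVec, op_smul_eq_smul,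
    op_smul_eq_smul, suB_dot8, suB_dot8]

theorem suPhi_mul8 (hd : UnData8 F q ε) (p r : Fin n → F) (hpr : suB8 q ε p r = 1)
    (hp : suB8 q ε p p = 0) (hr : suB8 q ε r r = 0) (M N : Matrix (Fin 2) (Fin 2) F) :
    suPhi8 q ε p r (M * N) = suPhi8 q ε p r M * suPhi8 q ε p r N := by
  have hrp : suB8 q ε r p = -1 := by rw [suB_swap8 hd, hpr, one_pow]
  apply mat_ext_mulVec8
  intro v
  rw [← mulVec_mulVec, suPhi_mulVec8, suPhi_mulVec8, suPhi_mulVec8]
  simp only [suB_add_left8, suB_sub_left8, suB_smul_left8, hp, hr, hpr, hrp, Matrix.mul_apply,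
    Fin.sum_univ_two]
  module

theorem suPhi_one8 (p r : Fin n → F) : suPhi8 q ε p r 1 = 1 := by
  apply mat_ext_mulVec8
  intro v
  rw [suPhi_mulVec8, one_mulVec]
  simp

theorem suPhi_suB8 (hd : UnData8 F q ε) (p r : Fin n → F) (hpr : suB8 q ε p r = 1)
    (hp : suB8 q ε p p = 0) (hr : suB8 q ε r r = 0) (M : Matrix (Fin 2) (Fin 2) F)
    (hK : ∀ i j, (M i j) ^ q = M i j) (hM : M 0 0 * M 1 1 - M 0 1 * M 1 0 = 1)
    (v w : Fin n → F) :
    suB8 q ε (suPhi8 q ε p r M *ᵥ v) (suPhi8 q ε p r M *ᵥ w) = suB8 q ε v w := by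
  have hσ := hd.frob
  have hrp : suB8 q ε r p = -1 := by rw [suB_swap8 hd, hpr, one_pow]
  have e1 : suB8 q ε p w = -(suB8 q ε w p) ^ q := suB_swap8 hd p w
  have e2 : suB8 q ε r w = -(suB8 q ε w r) ^ q := suB_swap8 hd r w
  have k00 := hK 0 0
  have k01 := hK 0 1
  have k10 := hK 1 0
  have k11 := hK 1 1
  rw [suPhi_mulVec8, suPhi_mulVec8]
  simp only [suB_add_left8, suB_sub_left8, suB_smul_left8, suB_add_right8 hσ, suB_sub_right8 hσ,
    suB_smul_right8, hp, hr, hpr, hrp, e1, e2, fi_sub8 hσ, one_pow, k00, k01, k10, k11]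
  linear_combination ((suB8 q ε w r) ^ q * suB8 q ε v p - (suB8 q ε w p) ^ q * suB8 q ε v r) * hM

theorem suPhi_pres8 (hd : UnData8 F q ε) (p r : Fin n → F) (hpr : suB8 q ε p r = 1)
    (hp : suB8 q ε p p = 0) (hr : suB8 q ε r r = 0) (M : Matrix (Fin 2) (Fin 2) F)
    (hK : ∀ i j, (M i j) ^ q = M i j) (hM : M 0 0 * M 1 1 - M 0 1 * M 1 0 = 1)
    (v w : Fin n → F) :
    Cfsg.hermForm n F q (suPhi8 q ε p r M *ᵥ v) (suPhi8 q ε p r M *ᵥ w) =
      Cfsg.hermForm n F q v w := by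
  have key := suPhi_suB8 hd p r hpr hp hr M hK hM v w
  unfold suB8 at key
  exact mul_left_cancel₀ hd.ne key

theorem suPhi_det8 (hd : UnData8 F q ε) (p r : Fin n → F) (hpr : suB8 q ε p r = 1)
    (hp : suB8 q ε p p = 0) (hr : suB8 q ε r r = 0) (M : Matrix (Fin 2) (Fin 2) F)
    (hM : M 0 0 * M 1 1 - M 0 1 * M 1 0 = 1) : (suPhi8 q ε p r M).det = 1 := by
  have hrp : suB8 q ε r p = -1 := by rw [suB_swap8 hd, hpr, one_pow]
  obtain ⟨x, hx⟩ : ∃ x, x = (M 0 0 - 1) • p + M 1 0 • r := ⟨_, rfl⟩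
  obtain ⟨y, hy⟩ : ∃ y, y = M 0 1 • p + (M 1 1 - 1) • r := ⟨_, rfl⟩
  have hxr : suB8 q ε x r = M 0 0 - 1 := by
    rw [hx, suB_add_left8, suB_smul_left8, suB_smul_left8, hpr, hr]
    ring
  have hxp : suB8 q ε x p = - M 1 0 := by
    rw [hx, suB_add_left8, suB_smul_left8, suB_smul_left8, hp, hrp]
    ring
  have hyr : suB8 q ε y r = M 0 1 := by
    rw [hy, suB_add_left8, suB_smul_left8, suB_smul_left8, hpr, hr]
    ring
  have hyp : suB8 q ε y p = -(M 1 1 - 1) := by
    rw [hy, suB_add_left8, suB_smul_left8, suB_smul_left8, hp, hrp]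
    ring
  obtain ⟨X, hX⟩ : ∃ X : Matrix (Fin n) (Fin 2) F,
      X = Matrix.of (fun i j => if j = 0 then x i else - y i) := ⟨_, rfl⟩
  obtain ⟨Y, hY⟩ : ∃ Y : Matrix (Fin 2) (Fin n) F,
      Y = Matrix.of (fun j i => if j = 0 then ε * (r i) ^ q else ε * (p i) ^ q) := ⟨_, rfl⟩
  have e : suPhi8 q ε p r M = 1 + X * Y := by
    unfold suPhi8
    rw [← hx, ← hy, hX, hY]
    ext i k
    rw [Matrix.sub_apply, Matrix.add_apply, Matrix.add_apply, Matrix.mul_apply, Fin.sum_univ_two]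
    simp only [vecMulVec_apply, Matrix.of_apply, if_true, Fin.isValue, one_ne_zero, if_false]
    ring
  have h00 : (Y * X) 0 0 = suB8 q ε x r := by
    rw [← suB_dot8, hX, hY]
    simp [Matrix.mul_apply, dotProduct]
  have h01 : (Y * X) 0 1 = - suB8 q ε y r := by
    rw [← suB_dot8, hX, hY]
    simp [Matrix.mul_apply, dotProduct]
  have h10 : (Y * X) 1 0 = suB8 q ε x p := by
    rw [← suB_dot8, hX, hY]
    simp [Matrix.mul_apply, dotProduct]
  have h11 : (Y * X) 1 1 = - suB8 q ε y p := by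
    rw [← suB_dot8, hX, hY]
    simp [Matrix.mul_apply, dotProduct]
  have d00 : (1 + Y * X : Matrix (Fin 2) (Fin 2) F) 0 0 = M 0 0 := by
    rw [Matrix.add_apply, h00, hxr, Matrix.one_apply_eq]
    ring
  have d01 : (1 + Y * X : Matrix (Fin 2) (Fin 2) F) 0 1 = - M 0 1 := by
    rw [Matrix.add_apply, h01, hyr, Matrix.one_apply_ne (by decide)]
    ring
  have d10 : (1 + Y * X : Matrix (Fin 2) (Fin 2) F) 1 0 = - M 1 0 := by
    rw [Matrix.add_apply, h10, hxp, Matrix.one_apply_ne (by decide)]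
    ring
  have d11 : (1 + Y * X : Matrix (Fin 2) (Fin 2) F) 1 1 = M 1 1 := by
    rw [Matrix.add_apply, h11, hyp, Matrix.one_apply_eq]
    ring
  rw [e, Matrix.det_one_add_mul_comm, Matrix.det_fin_two, d00, d01, d10, d11]
  linear_combination hM

variable {L : Type*} [Field L]

theorem sl_det_map8 (j : L →+* F) (M : Matrix.SpecialLinearGroup (Fin 2) L) :
    (M.1.map j) 0 0 * (M.1.map j) 1 1 - (M.1.map j) 0 1 * (M.1.map j) 1 0 = 1 := by
  have h := M.2
  rw [Matrix.det_fin_two] at h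
  simp only [Matrix.map_apply]
  rw [← map_mul, ← map_mul, ← map_sub, h, map_one]

/-- The homomorphism from `SL₂(L)` attached to a hyperbolic pair. -/
noncomputable def suHom8 (hd : UnData8 F q ε) (p r : Fin n → F) (hpr : suB8 q ε p r = 1)
    (hp : suB8 q ε p p = 0) (hr : suB8 q ε r r = 0) (j : L →+* F)
    (hj : ∀ l, (j l) ^ q = j l) : Matrix.SpecialLinearGroup (Fin 2) L →* Cfsg.SU n F q where
  toFun M := ⟨⟨suPhi8 q ε p r (M.1.map j),
      suPhi_det8 hd p r hpr hp hr _ (sl_det_map8 j M)⟩,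
    fun u v => suPhi_pres8 hd p r hpr hp hr _ (fun _ _ => hj _) (sl_det_map8 j M) u v⟩
  map_one' := Subtype.ext (Subtype.ext (by
    show suPhi8 q ε p r ((1 : Matrix (Fin 2) (Fin 2) L).map j) = 1
    rw [Matrix.map_one j (map_zero j) (map_one j), suPhi_one8]))
  map_mul' M N := Subtype.ext (Subtype.ext (by
    show suPhi8 q ε p r ((M.1 * N.1).map j) =
      suPhi8 q ε p r (M.1.map j) * suPhi8 q ε p r (N.1.map j)
    rw [Matrix.map_mul, suPhi_mul8 hd p r hpr hp hr]))

theorem suHom_mulVec8 (hd : UnData8 F q ε) (p r : Fin n → F) (hpr : suB8 q ε p r = 1)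
    (hp : suB8 q ε p p = 0) (hr : suB8 q ε r r = 0) (j : L →+* F)
    (hj : ∀ l, (j l) ^ q = j l) (M : Matrix.SpecialLinearGroup (Fin 2) L) (v : Fin n → F) :
    (suHom8 hd p r hpr hp hr j hj M).1.1 *ᵥ v =
      v + suB8 q ε v r • ((j (M.1 0 0) - 1) • p + j (M.1 1 0) • r) -
      suB8 q ε v p • (j (M.1 0 1) • p + (j (M.1 1 1) - 1) • r) :=
  suPhi_mulVec8 p r _ v

theorem suHom_upper8 (hd : UnData8 F q ε) (p r : Fin n → F) (hpr : suB8 q ε p r = 1)
    (hp : suB8 q ε p p = 0) (hr : suB8 q ε r r = 0) (j : L →+* F)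
    (hj : ∀ l, (j l) ^ q = j l) (g : Matrix.SpecialLinearGroup (Fin 2) L)
    (h10 : g.1 1 0 = 0) (h00 : g.1 0 0 = 1) (h11 : g.1 1 1 = 1) :
    suHom8 hd p r hpr hp hr j hj g = sug8 q ε p (-(j (g.1 0 1))) := by
  apply su_ext8
  intro v
  rw [suHom_mulVec8, sug_mulVec8 hd p hp _ (by rw [fi_neg8 hd.frob, hj]), h10, h00, h11,
    map_zero, map_one]
  module

theorem suHom_lower8 (hd : UnData8 F q ε) (p r : Fin n → F) (hpr : suB8 q ε p r = 1)
    (hp : suB8 q ε p p = 0) (hr : suB8 q ε r r = 0) (j : L →+* F)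
    (hj : ∀ l, (j l) ^ q = j l) (g : Matrix.SpecialLinearGroup (Fin 2) L)
    (h01 : g.1 0 1 = 0) (h00 : g.1 0 0 = 1) (h11 : g.1 1 1 = 1) :
    suHom8 hd p r hpr hp hr j hj g = sug8 q ε r (j (g.1 1 0)) := by
  apply su_ext8
  intro v
  rw [suHom_mulVec8, sug_mulVec8 hd r hr _ (hj _), h01, h00, h11, map_zero, map_one]
  module

theorem suHom_slU8 (hd : UnData8 F q ε) (p r : Fin n → F) (hpr : suB8 q ε p r = 1)
    (hp : suB8 q ε p p = 0) (hr : suB8 q ε r r = 0) (j : L →+* F)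
    (hj : ∀ l, (j l) ^ q = j l) (c : L) :
    suHom8 hd p r hpr hp hr j hj (slU8 c) = sug8 q ε p (-(j c)) :=
  suHom_upper8 hd p r hpr hp hr j hj (slU8 c) rfl rfl rfl

theorem suHom_slL8 (hd : UnData8 F q ε) (p r : Fin n → F) (hpr : suB8 q ε p r = 1)
    (hp : suB8 q ε p p = 0) (hr : suB8 q ε r r = 0) (j : L →+* F)
    (hj : ∀ l, (j l) ^ q = j l) (c : L) :
    suHom8 hd p r hpr hp hr j hj (slL8 c) = sug8 q ε r (j c) :=
  suHom_lower8 hd p r hpr hp hr j hj (slL8 c) rfl rfl rfl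

theorem suHom_ker8 (hd : UnData8 F q ε) (p r : Fin n → F) (hpr : suB8 q ε p r = 1)
    (hp : suB8 q ε p p = 0) (hr : suB8 q ε r r = 0) (j : L →+* F)
    (hj : ∀ l, (j l) ^ q = j l) (M : Matrix.SpecialLinearGroup (Fin 2) L)
    (hM : suHom8 hd p r hpr hp hr j hj M = 1) : M = 1 := by
  have hrp : suB8 q ε r p = -1 := by rw [suB_swap8 hd, hpr, one_pow]
  have h1 := suHom_mulVec8 hd p r hpr hp hr j hj M p
  have h2 := suHom_mulVec8 hd p r hpr hp hr j hj M r
  rw [hM, su_one_mulVec8, hpr, hp, one_smul, zero_smul, sub_zero] at h1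
  rw [hM, su_one_mulVec8, hrp, hr, zero_smul, add_zero, neg_smul, one_smul,
    sub_neg_eq_add] at h2
  have e1 : (j (M.1 0 0) - 1) • p + j (M.1 1 0) • r = 0 := by
    have e : p + 0 = p + ((j (M.1 0 0) - 1) • p + j (M.1 1 0) • r) := by
      rw [add_zero]
      exact h1
    exact (add_left_cancel e).symm
  have e2 : j (M.1 0 1) • p + (j (M.1 1 1) - 1) • r = 0 := by
    have e : r + 0 = r + (j (M.1 0 1) • p + (j (M.1 1 1) - 1) • r) := by
      rw [add_zero]
      exact h2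
    exact (add_left_cancel e).symm
  have a1 := congrArg (fun z => suB8 q ε z r) e1
  have a2 := congrArg (fun z => suB8 q ε z p) e1
  have a3 := congrArg (fun z => suB8 q ε z r) e2
  have a4 := congrArg (fun z => suB8 q ε z p) e2
  have z0 : ∀ y : Fin n → F, suB8 q ε 0 y = 0 := fun y => by
    unfold suB8 Cfsg.hermForm
    simp
  simp only [suB_add_left8, suB_smul_left8, hp, hr, hpr, hrp, z0, mul_zero, mul_one, add_zero,
    zero_add, mul_neg, neg_eq_zero] at a1 a2 a3 a4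
  have hinj := j.injective
  have h00 : M.1 0 0 = 1 := hinj (by rw [map_one]; exact sub_eq_zero.mp a1)
  have h10 : M.1 1 0 = 0 := hinj (by rw [map_zero]; exact a2)
  have h01 : M.1 0 1 = 0 := hinj (by rw [map_zero]; exact a3)
  have h11 : M.1 1 1 = 1 := hinj (by rw [map_one]; exact sub_eq_zero.mp a4)
  ext i k
  fin_cases i <;> fin_cases k <;> simp [h00, h11, h10, h01]

theorem su_psl2pair8 (hd : UnData8 F q ε) (p r : Fin n → F) (hp0 : p ≠ 0) (hr0 : r ≠ 0)
    (hpr : suB8 q ε p r = 1) (hp : suB8 q ε p p = 0) (hr : suB8 q ε r r = 0) (j : L →+* F)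
    (hj : ∀ l, (j l) ^ q = j l) (hj' : ∀ x : F, x ^ q = x → ∃ l, j l = x) :
    Cfsg.IsPSL2PairOver L (suTg8 q p) (suTg8 q r) := by
  have hjn : ∀ l : L, (-(j l)) ^ q = -(j l) := fun l => by rw [fi_neg8 hd.frob, hj]
  refine ⟨suHom8 hd p r hpr hp hr j hj, ?_, ?_, ?_, ?_⟩
  · apply le_antisymm
    · rintro _ ⟨M, rfl⟩
      have htop : (suTg8 q p ⊔ suTg8 q r).comap (suHom8 hd p r hpr hp hr j hj) = ⊤ := by
        apply Cfsg.Agent.Lib.Helper3.slg_top_gen
        intro i k hik c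
        rw [Subgroup.mem_comap]
        fin_cases i <;> fin_cases k
        · exact absurd rfl hik
        · apply Subgroup.mem_sup_left
          rw [suHom_upper8 hd p r hpr hp hr j hj _
            (by simp [Matrix.SpecialLinearGroup.transvection_coe, Matrix.one_apply,
              Matrix.single_apply])
            (by simp [Matrix.SpecialLinearGroup.transvection_coe, Matrix.one_apply,
              Matrix.single_apply])
            (by simp [Matrix.SpecialLinearGroup.transvection_coe, Matrix.one_apply,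
              Matrix.single_apply])]
          exact sug_mem8 hd p hp0 hp _ (hjn _)
        · apply Subgroup.mem_sup_right
          rw [suHom_lower8 hd p r hpr hp hr j hj _
            (by simp [Matrix.SpecialLinearGroup.transvection_coe, Matrix.one_apply,
              Matrix.single_apply])
            (by simp [Matrix.SpecialLinearGroup.transvection_coe, Matrix.one_apply,
              Matrix.single_apply])
            (by simp [Matrix.SpecialLinearGroup.transvection_coe, Matrix.one_apply,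
              Matrix.single_apply])]
          exact sug_mem8 hd r hr0 hr _ (hj _)
        · exact absurd rfl hik
      have hM : M ∈ (suTg8 q p ⊔ suTg8 q r).comap (suHom8 hd p r hpr hp hr j hj) := by
        rw [htop]
        exact Subgroup.mem_top M
      exact hM
    · apply sup_le
      · intro g hg
        obtain ⟨c, hcq, rfl⟩ := eq_sug_of_mem8 hd p hp0 hp g hg
        obtain ⟨l, hl⟩ := hj' c hcq
        exact ⟨slU8 (-l), by rw [suHom_slU8, map_neg, neg_neg, hl]⟩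
      · intro g hg
        obtain ⟨c, hcq, rfl⟩ := eq_sug_of_mem8 hd r hr0 hr g hg
        obtain ⟨l, hl⟩ := hj' c hcq
        exact ⟨slL8 l, by rw [suHom_slL8, hl]⟩
  · intro M hM
    rw [suHom_ker8 hd p r hpr hp hr j hj M hM]
    exact Subgroup.one_mem _
  · apply le_antisymm
    · rw [Subgroup.map_le_iff_le_comap]
      unfold Cfsg.upperUnipotentSL2
      rw [Subgroup.closure_le]
      rintro g ⟨h10, h00, h11⟩
      show suHom8 hd p r hpr hp hr j hj g ∈ suTg8 q p
      rw [suHom_upper8 hd p r hpr hp hr j hj g h10 h00 h11]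
      exact sug_mem8 hd p hp0 hp _ (hjn _)
    · intro g hg
      obtain ⟨c, hcq, rfl⟩ := eq_sug_of_mem8 hd p hp0 hp g hg
      obtain ⟨l, hl⟩ := hj' c hcq
      exact ⟨slU8 (-l), Subgroup.subset_closure ⟨rfl, rfl, rfl⟩, by
        show suHom8 hd p r hpr hp hr j hj (slU8 (-l)) = _
        rw [suHom_slU8, map_neg, neg_neg, hl]⟩
  · apply le_antisymm
    · rw [Subgroup.map_le_iff_le_comap]
      unfold Cfsg.lowerUnipotentSL2
      rw [Subgroup.closure_le]
      rintro g ⟨h01, h00, h11⟩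
      show suHom8 hd p r hpr hp hr j hj g ∈ suTg8 q r
      rw [suHom_lower8 hd p r hpr hp hr j hj g h01 h00 h11]
      exact sug_mem8 hd r hr0 hr _ (hj _)
    · intro g hg
      obtain ⟨c, hcq, rfl⟩ := eq_sug_of_mem8 hd r hr0 hr g hg
      obtain ⟨l, hl⟩ := hj' c hcq
      exact ⟨slL8 l, Subgroup.subset_closure ⟨rfl, rfl, rfl⟩, by
        show suHom8 hd p r hpr hp hr j hj (slL8 l) = _
        rw [suHom_slL8, hl]⟩

end un8d

end Cfsg.Agent.Lib.Helper8
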