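import Mathlib
import Cfsg.Prelude.Def_Classical
import Cfsg.Prelude.Def_RootSubgroups
import Cfsg.Agent.Lib.Helper8.RK1
import Cfsg.Agent.Lib.Helper8.UN4

set_option autoImplicit false

namespace Cfsg.Agent.Lib.Helper8

open Matrix

section un8e

/-- The set of unitary transvection groups. -/
def suSig8 (F : Type*) [Field F] (q n : ℕ) : Set (Subgroup (Cfsg.SU n F q)) :=
  {A | ∃ p : Fin n → F, p ≠ 0 ∧ Cfsg.hermForm n F q p p = 0 ∧ A = suTg8 q p}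

theorem un_core8 (F : Type*) [Field F] [Fintype F] (q n : ℕ) (hF : Fintype.card F = q ^ 2) :
    ∃ (L : Type) (_ : Field L) (_ : Fintype L), Fintype.card L = q ∧
      (suSig8 F q (n + 2)).Nonempty ∧
      (∀ A ∈ suSig8 F q (n + 2), ∀ x ∈ A, ∀ y ∈ A, x * y = y * x) ∧
      (∀ A ∈ suSig8 F q (n + 2), A ≠ ⊥) ∧
      (∀ A ∈ suSig8 F q (n + 2), ∀ g, Cfsg.conjBy A g ∈ suSig8 F q (n + 2)) ∧
      (∀ A ∈ suSig8 F q (n + 2), ∀ B ∈ suSig8 F q (n + 2), ⁅A, B⁆ = ⊥ ∨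
        (Cfsg.IsRankOnePair A B ∧ Cfsg.IsPSL2PairOver L A B)) ∧
      (∀ A ∈ suSig8 F q (n + 2), ∀ B ∈ suSig8 F q (n + 2), ∃ C ∈ suSig8 F q (n + 2),
        Cfsg.IsRankOnePair A C ∧ Cfsg.IsRankOnePair C B) := by
  classical
  have hσ := un_frob8 hF
  obtain ⟨ε, hε0, hεq⟩ := un_exists_eps8 hF
  have hd : UnData8 F q ε := ⟨hσ, hε0, hεq⟩
  obtain ⟨θ, hθ⟩ := un_exists_tr8 hF
  obtain ⟨ω, hω⟩ := un_exists_norm8 hF
  have hiso : ∀ p : Fin (n + 2) → F,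
      Cfsg.hermForm (n + 2) F q p p = 0 ↔ suB8 q ε p p = 0 := by
    intro p
    unfold suB8
    constructor
    · intro h
      rw [h, mul_zero]
    · intro h
      rcases mul_eq_zero.mp h with h1 | h1
      · exact absurd h1 hε0
      · exact h1
  letI : Fintype (fixSub8 F q hσ) := Fintype.ofFinite _
  have hK := fixSub_card8 hF hσ
  refine ⟨Shrink.{0} (fixSub8 F q hσ), inferInstance, Fintype.ofEquiv _ (equivShrink _), ?_, ?_⟩
  · rw [Fintype.ofEquiv_card]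
    exact hK
  obtain ⟨j, hj, hj'⟩ : ∃ j : Shrink.{0} (fixSub8 F q hσ) →+* F,
      (∀ l, (j l) ^ q = j l) ∧ (∀ x : F, x ^ q = x → ∃ l, j l = x) := by
    refine ⟨(fixSub8 F q hσ).subtype.comp (Shrink.ringEquiv.{0} (fixSub8 F q hσ)).toRingHom, ?_, ?_⟩
    · intro l
      exact ((Shrink.ringEquiv.{0} (fixSub8 F q hσ)) l).2
    · intro x hx
      refine ⟨(Shrink.ringEquiv.{0} (fixSub8 F q hσ)).symm ⟨x, hx⟩, ?_⟩
      show (((Shrink.ringEquiv.{0} (fixSub8 F q hσ))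
        ((Shrink.ringEquiv.{0} (fixSub8 F q hσ)).symm ⟨x, hx⟩) : fixSub8 F q hσ) : F) = x
      rw [RingEquiv.apply_symm_apply]
  refine ⟨?_, ?_, ?_, ?_, ?_, ?_⟩
  · obtain ⟨p₀, hp₀⟩ : ∃ p₀ : Fin (n + 2) → F,
        p₀ = Fin.cons 1 (Fin.cons ω (fun _ => 0)) := ⟨_, rfl⟩
    have h0 : p₀ 0 = 1 := by rw [hp₀, Fin.cons_zero]
    have h1 : p₀ (Fin.succ 0) = ω := by rw [hp₀, Fin.cons_succ, Fin.cons_zero]
    have h2 : ∀ i : Fin n, p₀ i.succ.succ = 0 := fun i => by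
      rw [hp₀, Fin.cons_succ, Fin.cons_succ]
    have e : Cfsg.hermForm (n + 2) F q p₀ p₀ = 0 := by
      unfold Cfsg.hermForm
      rw [Fin.sum_univ_succ, Fin.sum_univ_succ]
      simp only [h0, h1, h2]
      rw [one_pow, one_mul, ← pow_succ', hω]
      simp
    refine ⟨suTg8 q p₀, p₀, ?_, e, rfl⟩
    intro h
    rw [h] at h0
    exact zero_ne_one h0
  · rintro A ⟨p, hp0, hp, rfl⟩ x hx y hy
    exact suTg_comm8 hd p hp0 ((hiso p).mp hp) x y hx hy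
  · rintro A ⟨p, hp0, hp, rfl⟩
    exact suTg_ne_bot8 hd p hp0 ((hiso p).mp hp)
  · rintro A ⟨p, hp0, hp, rfl⟩ g
    obtain ⟨h1, h2⟩ := su_iso_map8 (ε := ε) p hp0 ((hiso p).mp hp) g
    exact ⟨g.1.1 *ᵥ p, h1, (hiso _).mpr h2, suTg_conj8 hd p hp0 ((hiso p).mp hp) g⟩
  · rintro A ⟨p, hp0, hp, rfl⟩ B ⟨r, hr0, hr, rfl⟩
    have hp' := (hiso p).mp hp
    have hr' := (hiso r).mp hr
    by_cases h : suB8 q ε p r = 0
    · exact Or.inl (suTg_comm_bot8 hd p r hp0 hp' hr0 hr' h)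
    · refine Or.inr ⟨su_rankOnePair8 hd p r hp0 hp' hr0 hr' h, ?_⟩
      obtain ⟨a, ha⟩ : ∃ a, a = ((suB8 q ε p r)⁻¹) ^ q := ⟨_, rfl⟩
      have ha0 : a ≠ 0 := by
        rw [ha]
        exact pow_ne_zero q (inv_ne_zero h)
      have haq : a ^ q = (suB8 q ε p r)⁻¹ := by rw [ha, hσ.inv]
      have e : suTg8 q r = suTg8 q (a • r) := (suTg_smul8 hd r hr0 hr' a ha0).symm
      rw [e]
      exact su_psl2pair8 hd p (a • r) hp0 (smul_ne_zero ha0 hr0)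
        (by rw [suB_smul_right8, haq, inv_mul_cancel₀ h]) hp'
        (by rw [suB_smul_left8, suB_smul_right8, hr', mul_zero, mul_zero]) j hj hj'
  · rintro A ⟨p, hp0, hp, rfl⟩ B ⟨r, hr0, hr, rfl⟩
    have hp' := (hiso p).mp hp
    have hr' := (hiso r).mp hr
    obtain ⟨z, hz0, hz, h1, h2⟩ := su_exists_mid8 hd θ hθ p r hp0 hp' hr0 hr'
    exact ⟨suTg8 q z, ⟨z, hz0, (hiso z).mpr hz, rfl⟩,
      su_rankOnePair8 hd p z hp0 hp' hz0 hz h1, su_rankOnePair8 hd z r hz0 hz hr0 hr' h2⟩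

theorem un_main8 (F : Type*) [Field F] [Fintype F] (q n : ℕ) (hF : Fintype.card F = q ^ 2) :
    Cfsg.IsRootSubgroupClass ((fun A : Subgroup ↥(Cfsg.SU (n + 2) F q) => A.subgroupOf (⨆ B ∈ {A : Subgroup ↥(Cfsg.SU (n + 2) F q) | ∃ p : Fin (n + 2) → F, p ≠ 0 ∧ Cfsg.hermForm (n + 2) F q p p = 0 ∧
          A = Subgroup.closure {g : ↥(Cfsg.SU (n + 2) F q) |
            (∀ v : Fin (n + 2) → F, ∃ c : F, ((g : Matrix.SpecialLinearGroup (Fin (n + 2)) F) : Matrix (Fin (n + 2)) (Fin (n + 2)) F) *ᵥ v = v + c • p) ∧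
            ∀ v : Fin (n + 2) → F, Cfsg.hermForm (n + 2) F q v p = 0 →
              ((g : Matrix.SpecialLinearGroup (Fin (n + 2)) F) : Matrix (Fin (n + 2)) (Fin (n + 2)) F) *ᵥ v = v}}, B)) ''
      {A : Subgroup ↥(Cfsg.SU (n + 2) F q) | ∃ p : Fin (n + 2) → F, p ≠ 0 ∧ Cfsg.hermForm (n + 2) F q p p = 0 ∧
          A = Subgroup.closure {g : ↥(Cfsg.SU (n + 2) F q) |
            (∀ v : Fin (n + 2) → F, ∃ c : F, ((g : Matrix.SpecialLinearGroup (Fin (n + 2)) F) : Matrix (Fin (n + 2)) (Fin (n + 2)) F) *ᵥ v = v + c • p) ∧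
            ∀ v : Fin (n + 2) → F, Cfsg.hermForm (n + 2) F q v p = 0 →
              ((g : Matrix.SpecialLinearGroup (Fin (n + 2)) F) : Matrix (Fin (n + 2)) (Fin (n + 2)) F) *ᵥ v = v}}) ∧
    Cfsg.IsDegenerateRootSet ((fun A : Subgroup ↥(Cfsg.SU (n + 2) F q) => A.subgroupOf (⨆ B ∈ {A : Subgroup ↥(Cfsg.SU (n + 2) F q) | ∃ p : Fin (n + 2) → F, p ≠ 0 ∧ Cfsg.hermForm (n + 2) F q p p = 0 ∧
          A = Subgroup.closure {g : ↥(Cfsg.SU (n + 2) F q) |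
            (∀ v : Fin (n + 2) → F, ∃ c : F, ((g : Matrix.SpecialLinearGroup (Fin (n + 2)) F) : Matrix (Fin (n + 2)) (Fin (n + 2)) F) *ᵥ v = v + c • p) ∧
            ∀ v : Fin (n + 2) → F, Cfsg.hermForm (n + 2) F q v p = 0 →
              ((g : Matrix.SpecialLinearGroup (Fin (n + 2)) F) : Matrix (Fin (n + 2)) (Fin (n + 2)) F) *ᵥ v = v}}, B)) ''
      {A : Subgroup ↥(Cfsg.SU (n + 2) F q) | ∃ p : Fin (n + 2) → F, p ≠ 0 ∧ Cfsg.hermForm (n + 2) F q p p = 0 ∧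
          A = Subgroup.closure {g : ↥(Cfsg.SU (n + 2) F q) |
            (∀ v : Fin (n + 2) → F, ∃ c : F, ((g : Matrix.SpecialLinearGroup (Fin (n + 2)) F) : Matrix (Fin (n + 2)) (Fin (n + 2)) F) *ᵥ v = v + c • p) ∧
            ∀ v : Fin (n + 2) → F, Cfsg.hermForm (n + 2) F q v p = 0 →
              ((g : Matrix.SpecialLinearGroup (Fin (n + 2)) F) : Matrix (Fin (n + 2)) (Fin (n + 2)) F) *ᵥ v = v}}) ∧
    (∃ (L : Type) (_ : Field L) (_ : Fintype L), Fintype.card L = q ∧ Cfsg.IsKRootSubgroupSet L ((fun A : Subgroup ↥(Cfsg.SU (n + 2) F q) => A.subgroupOf (⨆ B ∈ {A : Subgroup ↥(Cfsg.SU (n + 2) F q) | ∃ p : Fin (n + 2) → F, p ≠ 0 ∧ Cfsg.hermForm (n + 2) F q p p = 0 ∧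
          A = Subgroup.closure {g : ↥(Cfsg.SU (n + 2) F q) |
            (∀ v : Fin (n + 2) → F, ∃ c : F, ((g : Matrix.SpecialLinearGroup (Fin (n + 2)) F) : Matrix (Fin (n + 2)) (Fin (n + 2)) F) *ᵥ v = v + c • p) ∧
            ∀ v : Fin (n + 2) → F, Cfsg.hermForm (n + 2) F q v p = 0 →
              ((g : Matrix.SpecialLinearGroup (Fin (n + 2)) F) : Matrix (Fin (n + 2)) (Fin (n + 2)) F) *ᵥ v = v}}, B)) ''
      {A : Subgroup ↥(Cfsg.SU (n + 2) F q) | ∃ p : Fin (n + 2) → F, p ≠ 0 ∧ Cfsg.hermForm (n + 2) F q p p = 0 ∧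
          A = Subgroup.closure {g : ↥(Cfsg.SU (n + 2) F q) |
            (∀ v : Fin (n + 2) → F, ∃ c : F, ((g : Matrix.SpecialLinearGroup (Fin (n + 2)) F) : Matrix (Fin (n + 2)) (Fin (n + 2)) F) *ᵥ v = v + c • p) ∧
            ∀ v : Fin (n + 2) → F, Cfsg.hermForm (n + 2) F q v p = 0 →
              ((g : Matrix.SpecialLinearGroup (Fin (n + 2)) F) : Matrix (Fin (n + 2)) (Fin (n + 2)) F) *ᵥ v = v}})) ∧
    Cfsg.IsConnectedFamily (Cfsg.FAdj ((fun A : Subgroup ↥(Cfsg.SU (n + 2) F q) => A.subgroupOf (⨆ B ∈ {A : Subgroup ↥(Cfsg.SU (n + 2) F q) | ∃ p : Fin (n + 2) → F, p ≠ 0 ∧ Cfsg.hermForm (n + 2) F q p p = 0 ∧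
          A = Subgroup.closure {g : ↥(Cfsg.SU (n + 2) F q) |
            (∀ v : Fin (n + 2) → F, ∃ c : F, ((g : Matrix.SpecialLinearGroup (Fin (n + 2)) F) : Matrix (Fin (n + 2)) (Fin (n + 2)) F) *ᵥ v = v + c • p) ∧
            ∀ v : Fin (n + 2) → F, Cfsg.hermForm (n + 2) F q v p = 0 →
              ((g : Matrix.SpecialLinearGroup (Fin (n + 2)) F) : Matrix (Fin (n + 2)) (Fin (n + 2)) F) *ᵥ v = v}}, B)) ''
      {A : Subgroup ↥(Cfsg.SU (n + 2) F q) | ∃ p : Fin (n + 2) → F, p ≠ 0 ∧ Cfsg.hermForm (n + 2) F q p p = 0 ∧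
          A = Subgroup.closure {g : ↥(Cfsg.SU (n + 2) F q) |
            (∀ v : Fin (n + 2) → F, ∃ c : F, ((g : Matrix.SpecialLinearGroup (Fin (n + 2)) F) : Matrix (Fin (n + 2)) (Fin (n + 2)) F) *ᵥ v = v + c • p) ∧
            ∀ v : Fin (n + 2) → F, Cfsg.hermForm (n + 2) F q v p = 0 →
              ((g : Matrix.SpecialLinearGroup (Fin (n + 2)) F) : Matrix (Fin (n + 2)) (Fin (n + 2)) F) *ᵥ v = v}})) ((fun A : Subgroup ↥(Cfsg.SU (n + 2) F q) => A.subgroupOf (⨆ B ∈ {A : Subgroup ↥(Cfsg.SU (n + 2) F q) | ∃ p : Fin (n + 2) → F, p ≠ 0 ∧ Cfsg.hermForm (n + 2) F q p p = 0 ∧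
          A = Subgroup.closure {g : ↥(Cfsg.SU (n + 2) F q) |
            (∀ v : Fin (n + 2) → F, ∃ c : F, ((g : Matrix.SpecialLinearGroup (Fin (n + 2)) F) : Matrix (Fin (n + 2)) (Fin (n + 2)) F) *ᵥ v = v + c • p) ∧
            ∀ v : Fin (n + 2) → F, Cfsg.hermForm (n + 2) F q v p = 0 →
              ((g : Matrix.SpecialLinearGroup (Fin (n + 2)) F) : Matrix (Fin (n + 2)) (Fin (n + 2)) F) *ᵥ v = v}}, B)) ''
      {A : Subgroup ↥(Cfsg.SU (n + 2) F q) | ∃ p : Fin (n + 2) → F, p ≠ 0 ∧ Cfsg.hermForm (n + 2) F q p p = 0 ∧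
          A = Subgroup.closure {g : ↥(Cfsg.SU (n + 2) F q) |
            (∀ v : Fin (n + 2) → F, ∃ c : F, ((g : Matrix.SpecialLinearGroup (Fin (n + 2)) F) : Matrix (Fin (n + 2)) (Fin (n + 2)) F) *ᵥ v = v + c • p) ∧
            ∀ v : Fin (n + 2) → F, Cfsg.hermForm (n + 2) F q v p = 0 →
              ((g : Matrix.SpecialLinearGroup (Fin (n + 2)) F) : Matrix (Fin (n + 2)) (Fin (n + 2)) F) *ᵥ v = v}}) := by
  obtain ⟨L, iL, iF, hcard, hne, hcomm, hbot, hconj, hpair, hlink⟩ := un_core8 F q n hF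
  letI : Field L := iL
  obtain ⟨h1, h2, h3, h4⟩ := subOf_main8 L (suSig8 F q (n + 2))
    (⨆ B ∈ suSig8 F q (n + 2), B) rfl hne hcomm hbot hconj hpair hlink
  exact ⟨h1, h2, ⟨L, iL, iF, hcard, h3⟩, h4⟩

end un8e

end Cfsg.Agent.Lib.Helper8
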