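import Mathlib

/-!
# Nilpotent sets of endomorphisms: the upper series and its filtration of `End M`
-/

namespace Cfsg.Agent.Lib.Helper8

section
variable {k : Type*} [Field k] {M : Type*} [AddCommGroup M] [Module k M]

/-- The upper series of a set of endomorphisms: `Z₀ = 0`, `Z_{n+1} = {m | T m ⊆ Z_n}`. -/
def zser8 (T : Set (Module.End k M)) : ℕ → Submodule k M
  | 0 => ⊥
  | (n + 1) => ⨅ t ∈ T, (zser8 T n).comap t

theorem zser8_zero (T : Set (Module.End k M)) : zser8 T 0 = ⊥ := rfl

theorem mem_zser8_succ (T : Set (Module.End k M)) (n : ℕ) (m : M) :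
    m ∈ zser8 T (n + 1) ↔ ∀ t ∈ T, t m ∈ zser8 T n := by
  simp only [zser8, Submodule.mem_iInf, Submodule.mem_comap]

theorem zser8_mono_succ (T : Set (Module.End k M)) (n : ℕ) : zser8 T n ≤ zser8 T (n + 1) := by
  induction n with
  | zero => rw [zser8_zero]; exact bot_le
  | succ n ih =>
    intro m hm
    rw [mem_zser8_succ] at hm ⊢
    intro t ht
    exact ih (hm t ht)

theorem zser8_mono (T : Set (Module.End k M)) : Monotone (zser8 T) :=
  monotone_nat_of_le_succ (zser8_mono_succ T)

theorem zser8_inv (T : Set (Module.End k M)) (n : ℕ) (t : Module.End k M) (ht : t ∈ T) (m : M)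
    (hm : m ∈ zser8 T n) : t m ∈ zser8 T n := by
  cases n with
  | zero =>
    rw [zser8_zero, Submodule.mem_bot] at hm
    rw [hm, map_zero]
    exact Submodule.zero_mem _
  | succ n => exact zser8_mono_succ T n ((mem_zser8_succ T n m).mp hm t ht)

theorem zser8_anti_set {T T' : Set (Module.End k M)} (h : T ⊆ T') (n : ℕ) :
    zser8 T' n ≤ zser8 T n := by
  induction n with
  | zero => rw [zser8_zero]; exact bot_le
  | succ n ih =>
    intro m hm
    rw [mem_zser8_succ] at hm ⊢
    intro t ht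
    exact ih (hm t (h ht))

/-- List characterization of the upper series. -/
theorem mem_zser8_iff_lists (T : Set (Module.End k M)) (n : ℕ) (m : M) :
    m ∈ zser8 T n ↔ ∀ l : List (Module.End k M), (∀ x ∈ l, x ∈ T) → l.length = n →
      l.prod m = 0 := by
  induction n generalizing m with
  | zero =>
    constructor
    · intro hm l _ hl
      have : l = [] := List.length_eq_zero_iff.mp hl
      subst this
      rw [zser8_zero, Submodule.mem_bot] at hm
      simpa using hm
    · intro h
      have := h [] (by simp) rfl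
      rw [zser8_zero, Submodule.mem_bot]
      simpa using this
  | succ n ih =>
    rw [mem_zser8_succ]
    constructor
    · intro hm l hl hlen
      have hne : l ≠ [] := by
        intro h
        rw [h] at hlen
        simp at hlen
      obtain ⟨l', t, rfl⟩ : ∃ l' t, l = l' ++ [t] :=
        ⟨l.dropLast, l.getLast hne, (List.dropLast_append_getLast hne).symm⟩
      rw [List.prod_append, List.prod_singleton, Module.End.mul_apply]
      refine (ih (t m)).mp (hm t (hl t (by simp))) l' (fun x hx => hl x (by simp [hx])) ?_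
      simpa using hlen
    · intro h t ht
      rw [ih]
      intro l hl hlen
      have h1 := h (l ++ [t]) (by
        intro x hx
        rcases List.mem_append.mp hx with h1 | h1
        · exact hl x h1
        · rw [List.mem_singleton] at h1
          rw [h1]
          exact ht) (by simp [hlen])
      rwa [List.prod_append, List.prod_singleton, Module.End.mul_apply] at h1

/-- The endomorphisms lowering a chain by `j` steps. -/
def nfil8 (Z : ℕ → Submodule k M) (j : ℕ) : Submodule k (Module.End k M) where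
  carrier := {x | ∀ i, ∀ m ∈ Z (i + j), x m ∈ Z i}
  add_mem' := by
    intro x y hx hy i m hm
    rw [LinearMap.add_apply]
    exact (Z i).add_mem (hx i m hm) (hy i m hm)
  zero_mem' := by
    intro i m _
    rw [LinearMap.zero_apply]
    exact (Z i).zero_mem
  smul_mem' := by
    intro c x hx i m hm
    rw [LinearMap.smul_apply]
    exact (Z i).smul_mem c (hx i m hm)

theorem mem_nfil8 (Z : ℕ → Submodule k M) (j : ℕ) (x : Module.End k M) :
    x ∈ nfil8 Z j ↔ ∀ i, ∀ m ∈ Z (i + j), x m ∈ Z i := Iff.rfl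

theorem nfil8_mul (Z : ℕ → Submodule k M) {i j : ℕ} {x y : Module.End k M}
    (hx : x ∈ nfil8 Z i) (hy : y ∈ nfil8 Z j) : x * y ∈ nfil8 Z (i + j) := by
  intro l m hm
  rw [Module.End.mul_apply]
  apply hx l
  apply hy (l + i)
  rwa [add_assoc]

theorem nfil8_anti (Z : ℕ → Submodule k M) (hZ : Monotone Z) {i j : ℕ} (h : i ≤ j) :
    nfil8 Z j ≤ nfil8 Z i := by
  intro x hx l m hm
  exact hx l m (hZ (by omega) hm)

theorem nfil8_eq_bot (Z : ℕ → Submodule k M) (h0 : Z 0 = ⊥) {d : ℕ} (hd : Z d = ⊤) :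
    nfil8 Z d = ⊥ := by
  rw [eq_bot_iff]
  intro x hx
  rw [Submodule.mem_bot]
  ext m
  have h1 := hx 0 m (by rw [zero_add, hd]; trivial)
  rw [h0, Submodule.mem_bot] at h1
  rw [h1, LinearMap.zero_apply]

theorem subset_nfil8_zser (T : Set (Module.End k M)) (t : Module.End k M) (ht : t ∈ T) :
    t ∈ nfil8 (zser8 T) 1 := by
  intro i m hm
  exact (mem_zser8_succ T i m).mp hm t ht

theorem list_prod_mem_nfil8 (Z : ℕ → Submodule k M) (l : List (Module.End k M))
    (hl : ∀ x ∈ l, x ∈ nfil8 Z 1) : l.prod ∈ nfil8 Z l.length := by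
  induction l with
  | nil =>
    intro i m hm
    simpa using hm
  | cons a l ih =>
    rw [List.prod_cons, List.length_cons, add_comm]
    exact nfil8_mul Z (hl a (by simp)) (ih (fun x hx => hl x (by simp [hx])))

/-- A chain starting at `0`, monotone, reaching the whole space. -/
def IsCoflag8 (Z : ℕ → Submodule k M) : Prop :=
  Z 0 = ⊥ ∧ Monotone Z ∧ ∃ d, Z d = ⊤

theorem isCoflag8_zser (T : Set (Module.End k M)) (h : ∃ n, zser8 T n = ⊤) :
    IsCoflag8 (zser8 T) := ⟨rfl, zser8_mono T, h⟩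

/-- Relative fixed points for a set of endomorphisms strictly lowering a co-flag. -/
theorem fp_coflag8 (Z₁ : ℕ → Submodule k M) (h1 : IsCoflag8 Z₁) (T : Set (Module.End k M))
    (hT : ∀ t ∈ T, t ∈ nfil8 Z₁ 1) (C Z : Submodule k M)
    (hC : ∀ t ∈ T, ∀ m ∈ C, t m ∈ C) (hCZ : ¬ C ≤ Z) :
    ∃ m ∈ C, m ∉ Z ∧ ∀ t ∈ T, t m ∈ Z := by
  classical
  obtain ⟨h0, -, d, hd⟩ := h1
  have hex : ∃ i, ¬ (C ⊓ Z₁ i ≤ Z) := ⟨d, by rw [hd, inf_top_eq]; exact hCZ⟩
  obtain ⟨i, hi, hmin⟩ : ∃ i, ¬ (C ⊓ Z₁ i ≤ Z) ∧ ∀ j < i, C ⊓ Z₁ j ≤ Z :=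
    ⟨Nat.find hex, Nat.find_spec hex, fun j hj => not_not.mp (Nat.find_min hex hj)⟩
  have hi0 : i ≠ 0 := by
    rintro rfl
    apply hi
    rw [h0, inf_bot_eq]
    exact bot_le
  obtain ⟨i', rfl⟩ : ∃ i', i = i' + 1 := ⟨i - 1, by omega⟩
  obtain ⟨m, hm, hmZ⟩ := SetLike.not_le_iff_exists.mp hi
  exact ⟨m, hm.1, hmZ, fun t ht => hmin i' (by omega) ⟨hC t ht m hm.1, hT t ht i' m hm.2⟩⟩

/-- If every proper invariant subspace has a relative fixed vector, the set is nilpotent. -/
theorem asc_nil8 [FiniteDimensional k M] (T : Set (Module.End k M))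
    (h : ∀ Z : Submodule k M, Z ≠ ⊤ → (∀ t ∈ T, ∀ m ∈ Z, t m ∈ Z) →
      ∃ m, m ∉ Z ∧ ∀ t ∈ T, t m ∈ Z) :
    ∃ n, zser8 T n = ⊤ := by
  by_contra hne
  push Not at hne
  have hlt : ∀ n, zser8 T n < zser8 T (n + 1) := by
    intro n
    obtain ⟨m, hm, hmt⟩ := h (zser8 T n) (hne n) (fun t ht m hm => zser8_inv T n t ht m hm)
    refine lt_of_le_of_ne (zser8_mono_succ T n) ?_
    intro heq
    apply hm
    rw [heq, mem_zser8_succ]
    exact hmt
  have hrk : ∀ n, n ≤ Module.finrank k (zser8 T n) := by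
    intro n
    induction n with
    | zero => exact Nat.zero_le _
    | succ n ih =>
      have := Submodule.finrank_lt_finrank_of_lt (hlt n)
      omega
  have h1 := hrk (Module.finrank k M + 1)
  have h2 := Submodule.finrank_le (zser8 T (Module.finrank k M + 1))
  omega

end

end Cfsg.Agent.Lib.Helper8
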