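import Cfsg.Agent.Lib.Helper8.Unip1
import Cfsg.Prelude.Def_RootSubgroups

/-!
# Families of pairwise unipotent subgroups: closed sets attached to co-flags
-/

set_option autoImplicit false
open Cfsg

namespace Cfsg.Agent.Lib.Helper8

section
variable {k : Type*} [Field k] {M : Type*} [AddCommGroup M] [Module k M]

theorem zser_of_unip8 (H : Subgroup (LinearMap.GeneralLinearGroup k M))
    (h : Cfsg.IsUnipotentOn H) :
    ∃ n, zser8 {x : Module.End k M | ∃ g ∈ H, x = (g : M →ₗ[k] M) - 1} n = ⊤ := by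
  obtain ⟨n, hn⟩ := h
  refine ⟨n, ?_⟩
  rw [eq_top_iff]
  intro m _
  rw [mem_zser8_iff_lists]
  intro l hl hlen
  have hlift : ∀ l : List (Module.End k M),
      (∀ x ∈ l, ∃ g ∈ H, x = (g : M →ₗ[k] M) - 1) →
      ∃ l' : List (LinearMap.GeneralLinearGroup k M), (∀ g ∈ l', g ∈ H) ∧
        l'.map (fun g => (g : M →ₗ[k] M) - 1) = l := by
    intro l
    induction l with
    | nil => intro _; exact ⟨[], by simp, rfl⟩
    | cons x l ih =>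
      intro h
      obtain ⟨g, hg, rfl⟩ := h x (by simp)
      obtain ⟨l', hl', rfl⟩ := ih (fun y hy => h y (by simp [hy]))
      refine ⟨g :: l', ?_, rfl⟩
      intro g' hg'
      rcases List.mem_cons.mp hg' with rfl | h'
      · exact hg
      · exact hl' g' h'
  obtain ⟨l', hl', rfl⟩ := hlift l hl
  have h0 := hn l' hl' (by simpa using hlen)
  rw [h0, LinearMap.zero_apply]

/-- The members of `W` acting trivially on the factors of a chain. -/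
def gam8 (W : Set (Subgroup (LinearMap.GeneralLinearGroup k M))) (Z : ℕ → Submodule k M) :
    Set (Subgroup (LinearMap.GeneralLinearGroup k M)) :=
  {A | A ∈ W ∧ ∀ a ∈ A, (a : M →ₗ[k] M) - 1 ∈ nfil8 Z 1}

/-- The span of the differences `a - 1` for the members of a family. -/
def dspan8 (Θ : Set (Subgroup (LinearMap.GeneralLinearGroup k M))) :
    Submodule k (Module.End k M) :=
  Submodule.span k {x | ∃ A ∈ Θ, ∃ a ∈ A, x = (a : M →ₗ[k] M) - 1}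

theorem dspan8_le_nfil (W : Set (Subgroup (LinearMap.GeneralLinearGroup k M)))
    (Z : ℕ → Submodule k M) {Θ : Set (Subgroup (LinearMap.GeneralLinearGroup k M))}
    (h : Θ ⊆ gam8 W Z) : dspan8 Θ ≤ nfil8 Z 1 := by
  apply Submodule.span_le.mpr
  rintro x ⟨A, hA, a, ha, rfl⟩
  exact (h hA).2 a ha

theorem dspan8_mono {Θ Θ' : Set (Subgroup (LinearMap.GeneralLinearGroup k M))} (h : Θ ⊆ Θ') :
    dspan8 Θ ≤ dspan8 Θ' :=
  Submodule.span_mono (by rintro x ⟨A, hA, a, ha, rfl⟩; exact ⟨A, h hA, a, ha, rfl⟩)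

theorem mem_dspan8 {Θ : Set (Subgroup (LinearMap.GeneralLinearGroup k M))}
    {A : Subgroup (LinearMap.GeneralLinearGroup k M)} (hA : A ∈ Θ)
    {a : LinearMap.GeneralLinearGroup k M} (ha : a ∈ A) : (a : M →ₗ[k] M) - 1 ∈ dspan8 Θ :=
  Submodule.subset_span ⟨A, hA, a, ha, rfl⟩

/-- Co-flags whose closed set is maximal. -/
def IsMaxCoflag8 (W : Set (Subgroup (LinearMap.GeneralLinearGroup k M)))
    (Z : ℕ → Submodule k M) : Prop :=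
  IsCoflag8 Z ∧ ∀ Z' : ℕ → Submodule k M, IsCoflag8 Z' → gam8 W Z ⊆ gam8 W Z' →
    gam8 W Z' ⊆ gam8 W Z

theorem dspan8_lt (W : Set (Subgroup (LinearMap.GeneralLinearGroup k M)))
    (Z₂ : ℕ → Submodule k M) {Θ Θ' : Set (Subgroup (LinearMap.GeneralLinearGroup k M))}
    (hΘ : Θ ⊆ gam8 W Z₂) (hsub : Θ ⊆ Θ')
    {A : Subgroup (LinearMap.GeneralLinearGroup k M)} (hA : A ∈ Θ') (hAW : A ∈ W)
    (hA2 : A ∉ gam8 W Z₂) : dspan8 Θ < dspan8 Θ' := by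
  refine lt_of_le_of_ne (dspan8_mono hsub) ?_
  intro heq
  apply hA2
  refine ⟨hAW, fun a ha => ?_⟩
  have h1 : (a : M →ₗ[k] M) - 1 ∈ dspan8 Θ' := mem_dspan8 hA ha
  rw [← heq] at h1
  exact dspan8_le_nfil W Z₂ hΘ h1

theorem exists_max8 [FiniteDimensional k M]
    (W : Set (Subgroup (LinearMap.GeneralLinearGroup k M))) (Z : ℕ → Submodule k M)
    (hZ : IsCoflag8 Z) : ∃ Z', IsMaxCoflag8 W Z' ∧ gam8 W Z ⊆ gam8 W Z' := by
  induction' hn : Module.finrank k (Module.End k M) - Module.finrank k (dspan8 (gam8 W Z))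
    using Nat.strong_induction_on with n ih generalizing Z
  by_cases hmax : ∀ Z' : ℕ → Submodule k M, IsCoflag8 Z' → gam8 W Z ⊆ gam8 W Z' →
      gam8 W Z' ⊆ gam8 W Z
  · exact ⟨Z, ⟨hZ, hmax⟩, subset_rfl⟩
  · push Not at hmax
    obtain ⟨Z', hZ', hsub, hnot⟩ := hmax
    obtain ⟨A, hA, hA2⟩ := Set.not_subset.mp hnot
    have hlt : dspan8 (gam8 W Z) < dspan8 (gam8 W Z') :=
      dspan8_lt W Z subset_rfl hsub hA hA.1 hA2
    have hrk := Submodule.finrank_lt_finrank_of_lt hlt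
    have hle := Submodule.finrank_le (dspan8 (gam8 W Z'))
    obtain ⟨Z'', hmax'', hsub''⟩ := ih
      (Module.finrank k (Module.End k M) - Module.finrank k (dspan8 (gam8 W Z'))) (by omega)
      Z' hZ' rfl
    exact ⟨Z'', hmax'', hsub.trans hsub''⟩

/-- Normalizer growth inside a closed set. -/
theorem step1_8 {G : Subgroup (LinearMap.GeneralLinearGroup k M)}
    {W : Set (Subgroup (LinearMap.GeneralLinearGroup k M))} (hWG : ∀ A ∈ W, A ≤ G)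
    (hWconj : ∀ A ∈ W, ∀ g ∈ G, Cfsg.conjBy A g ∈ W)
    (Z₁ Z₂ : ℕ → Submodule k M) (h1 : IsCoflag8 Z₁) (h2 : IsCoflag8 Z₂)
    (hne : ¬ gam8 W Z₁ ⊆ gam8 W Z₂) :
    ∃ A₁ ∈ gam8 W Z₁, A₁ ∉ gam8 W Z₂ ∧ ∀ a ∈ A₁, ∀ A ∈ gam8 W Z₁ ∩ gam8 W Z₂,
      Cfsg.conjBy A a ∈ gam8 W Z₁ ∩ gam8 W Z₂ := by
  classical
  obtain ⟨h10, h1m, d, h1d⟩ := h1
  obtain ⟨-, h2m, -⟩ := h2
  obtain ⟨𝔡, h𝔡⟩ : ∃ 𝔡 : Submodule k (Module.End k M), 𝔡 = nfil8 Z₁ 1 ⊓ nfil8 Z₂ 1 :=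
    ⟨_, rfl⟩
  have h𝔡1 : 𝔡 ≤ nfil8 Z₁ 1 := h𝔡 ▸ inf_le_left
  have h𝔡2 : 𝔡 ≤ nfil8 Z₂ 1 := h𝔡 ▸ inf_le_right
  have h𝔡mul : ∀ x ∈ 𝔡, ∀ y ∈ 𝔡, x * y ∈ 𝔡 := by
    intro x hx y hy
    rw [h𝔡] at hx hy ⊢
    exact ⟨nfil8_anti Z₁ h1m (by norm_num) (nfil8_mul Z₁ hx.1 hy.1),
      nfil8_anti Z₂ h2m (by norm_num) (nfil8_mul Z₂ hx.2 hy.2)⟩
  obtain ⟨P, hP⟩ : ∃ P : ℕ → Prop, P = fun j => ∃ A ∈ gam8 W Z₁, A ∉ gam8 W Z₂ ∧
      ∀ a ∈ A, (a : M →ₗ[k] M) - 1 ∈ 𝔡 ⊔ nfil8 Z₁ j := ⟨_, rfl⟩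
  have hP1 : P 1 := by
    rw [hP]
    obtain ⟨A, hA, hA2⟩ := Set.not_subset.mp hne
    exact ⟨A, hA, hA2, fun a ha => Submodule.mem_sup_right (hA.2 a ha)⟩
  have hPd : ¬ P (d + 1) := by
    rw [hP]
    rintro ⟨A, hA, hA2, h⟩
    apply hA2
    refine ⟨hA.1, fun a ha => ?_⟩
    have h3 := h a ha
    have hbot : nfil8 Z₁ (d + 1) = ⊥ :=
      le_bot_iff.mp ((nfil8_eq_bot Z₁ h10 h1d) ▸ nfil8_anti Z₁ h1m (Nat.le_succ d))
    rw [hbot, sup_bot_eq] at h3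
    exact h𝔡2 h3
  obtain ⟨j, hj1, hPj, hnPj⟩ : ∃ j, 1 ≤ j ∧ P j ∧ ¬ P (j + 1) := by
    by_contra hcon
    push Not at hcon
    have hall : ∀ j, 1 ≤ j → P j := by
      intro j hj
      induction j, hj using Nat.le_induction with
      | base => exact hP1
      | succ j hj ih => exact hcon j hj ih
    exact hPd (hall (d + 1) (by omega))
  rw [hP] at hPj hnPj
  obtain ⟨A₁, hA₁, hA₁2, hA₁j⟩ := hPj
  refine ⟨A₁, hA₁, hA₁2, ?_⟩
  intro a ha A hA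
  have hconjW : Cfsg.conjBy A a ∈ W := hWconj A hA.1.1 a (hWG A₁ hA₁.1 ha)
  have key : ∀ c ∈ Cfsg.conjBy A a, (c : M →ₗ[k] M) - 1 ∈ 𝔡 ⊔ nfil8 Z₁ (j + 1) := by
    rintro c ⟨b, hb, rfl⟩
    obtain ⟨x, hx⟩ : ∃ x : Module.End k M, x = (a : M →ₗ[k] M) - 1 := ⟨_, rfl⟩
    obtain ⟨x', hx'⟩ : ∃ x' : Module.End k M,
        x' = ((a⁻¹ : LinearMap.GeneralLinearGroup k M) : M →ₗ[k] M) - 1 := ⟨_, rfl⟩
    obtain ⟨y, hy⟩ : ∃ y : Module.End k M, y = (b : M →ₗ[k] M) - 1 := ⟨_, rfl⟩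
    have hxm : x ∈ 𝔡 ⊔ nfil8 Z₁ j := hx ▸ hA₁j a ha
    have hx'm : x' ∈ 𝔡 ⊔ nfil8 Z₁ j := hx' ▸ hA₁j a⁻¹ (A₁.inv_mem ha)
    have hym : y ∈ 𝔡 := by
      rw [hy, h𝔡]
      exact ⟨hA.1.2 b hb, hA.2.2 b hb⟩
    have e1 : (a : M →ₗ[k] M) = 1 + x := by rw [hx]; abel
    have e2 : ((a⁻¹ : LinearMap.GeneralLinearGroup k M) : M →ₗ[k] M) = 1 + x' := by
      rw [hx']; abel
    have e3 : (b : M →ₗ[k] M) = 1 + y := by rw [hy]; abel
    have hinv : (1 + x) * (1 + x') = 1 := by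
      rw [← e1, ← e2, ← Units.val_mul, mul_inv_cancel, Units.val_one]
    have h0 : x + x' + x * x' = 0 := by
      calc x + x' + x * x' = (1 + x) * (1 + x') - 1 := by noncomm_ring
        _ = 0 := by rw [hinv, sub_self]
    have hc : ((MulAut.conj a b : LinearMap.GeneralLinearGroup k M) : M →ₗ[k] M)
        = (1 + x) * (1 + y) * (1 + x') := by
      rw [MulAut.conj_apply, Units.val_mul, Units.val_mul, e1, e2, e3]
    have hexp : (1 + x) * (1 + y) * (1 + x') - 1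
        = y + (x * y - y * x) + (x * y - y * x) * x' := by
      calc (1 + x) * (1 + y) * (1 + x') - 1
          = y + (x * y - y * x) + (x * y - y * x) * x' + (1 + y) * (x + x' + x * x') := by
            noncomm_ring
        _ = y + (x * y - y * x) + (x * y - y * x) * x' := by rw [h0, mul_zero, add_zero]
    have L1 : x * y - y * x ∈ 𝔡 ⊔ nfil8 Z₁ (j + 1) := by
      obtain ⟨u, hu, z, hz, rfl⟩ := Submodule.mem_sup.mp hxm
      have e : (u + z) * y - y * (u + z) = (u * y - y * u) + (z * y - y * z) := by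
        noncomm_ring
      rw [e]
      refine Submodule.add_mem _ (Submodule.mem_sup_left
        (𝔡.sub_mem (h𝔡mul u hu y hym) (h𝔡mul y hym u hu))) (Submodule.mem_sup_right ?_)
      have hz1 : z * y ∈ nfil8 Z₁ (j + 1) := nfil8_mul Z₁ hz (h𝔡1 hym)
      have hz2 : y * z ∈ nfil8 Z₁ (j + 1) := by
        have := nfil8_mul Z₁ (h𝔡1 hym) hz
        rwa [add_comm] at this
      exact Submodule.sub_mem _ hz1 hz2
    have L2 : (x * y - y * x) * x' ∈ 𝔡 ⊔ nfil8 Z₁ (j + 1) := by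
      obtain ⟨u₁, hu₁, z₁, hz₁, hw⟩ := Submodule.mem_sup.mp L1
      obtain ⟨u₂, hu₂, z₂, hz₂, rfl⟩ := Submodule.mem_sup.mp hx'm
      rw [← hw]
      have e : (u₁ + z₁) * (u₂ + z₂) = u₁ * u₂ + (u₁ * z₂ + z₁ * u₂ + z₁ * z₂) := by
        noncomm_ring
      rw [e]
      refine Submodule.add_mem _ (Submodule.mem_sup_left (h𝔡mul u₁ hu₁ u₂ hu₂))
        (Submodule.mem_sup_right ?_)
      have t1 : u₁ * z₂ ∈ nfil8 Z₁ (j + 1) := by
        have := nfil8_mul Z₁ (h𝔡1 hu₁) hz₂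
        rwa [add_comm] at this
      have t2 : z₁ * u₂ ∈ nfil8 Z₁ (j + 1) :=
        nfil8_anti Z₁ h1m (by omega) (nfil8_mul Z₁ hz₁ (h𝔡1 hu₂))
      have t3 : z₁ * z₂ ∈ nfil8 Z₁ (j + 1) :=
        nfil8_anti Z₁ h1m (by omega) (nfil8_mul Z₁ hz₁ hz₂)
      exact Submodule.add_mem _ (Submodule.add_mem _ t1 t2) t3
    show ((MulAut.conj a b : LinearMap.GeneralLinearGroup k M) : M →ₗ[k] M) - 1
      ∈ 𝔡 ⊔ nfil8 Z₁ (j + 1)
    rw [hc, hexp]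
    exact Submodule.add_mem _ (Submodule.add_mem _ (Submodule.mem_sup_left hym) L1) L2
  have hle : 𝔡 ⊔ nfil8 Z₁ (j + 1) ≤ nfil8 Z₁ 1 :=
    sup_le h𝔡1 (nfil8_anti Z₁ h1m (by omega))
  have hg1 : Cfsg.conjBy A a ∈ gam8 W Z₁ := ⟨hconjW, fun c hc => hle (key c hc)⟩
  refine ⟨hg1, ?_⟩
  by_contra hnot
  exact hnPj ⟨Cfsg.conjBy A a, hg1, hnot, key⟩

end

end Cfsg.Agent.Lib.Helper8
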