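import Cfsg.Agent.Lib.Helper8.Unip2

/-!
# A conjugation-invariant family of pairwise unipotent subgroups generates a unipotent group
-/

set_option autoImplicit false
open Cfsg

namespace Cfsg.Agent.Lib.Helper8

section
variable {k : Type*} [Field k] {M : Type*} [AddCommGroup M] [Module k M]

/-- Two members normalizing a good family can be added to it. -/
theorem step2_8 [FiniteDimensional k M]
    {W : Set (Subgroup (LinearMap.GeneralLinearGroup k M))}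
    (hWW : ∀ A ∈ W, ∀ B ∈ W, Cfsg.IsUnipotentOn (A ⊔ B))
    (Z₁ : ℕ → Submodule k M) (h1 : IsCoflag8 Z₁)
    (Θ : Set (Subgroup (LinearMap.GeneralLinearGroup k M))) (hΘ : Θ ⊆ gam8 W Z₁)
    (A₁ A₂ : Subgroup (LinearMap.GeneralLinearGroup k M)) (hA₁ : A₁ ∈ W) (hA₂ : A₂ ∈ W)
    (hn₁ : ∀ a ∈ A₁, ∀ A ∈ Θ, Cfsg.conjBy A a ∈ Θ)
    (hn₂ : ∀ a ∈ A₂, ∀ A ∈ Θ, Cfsg.conjBy A a ∈ Θ) :
    ∃ Z₃ : ℕ → Submodule k M, IsCoflag8 Z₃ ∧ Θ ⊆ gam8 W Z₃ ∧ A₁ ∈ gam8 W Z₃ ∧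
      A₂ ∈ gam8 W Z₃ := by
  obtain ⟨TΘ, hTΘ⟩ : ∃ TΘ : Set (Module.End k M),
      TΘ = {x | ∃ A ∈ Θ, ∃ a ∈ A, x = (a : M →ₗ[k] M) - 1} := ⟨_, rfl⟩
  obtain ⟨TH, hTH⟩ : ∃ TH : Set (Module.End k M),
      TH = {x | ∃ c : LinearMap.GeneralLinearGroup k M, (c ∈ A₁ ∨ c ∈ A₂) ∧
        x = (c : M →ₗ[k] M) - 1} := ⟨_, rfl⟩
  have memΘ : ∀ A ∈ Θ, ∀ a ∈ A, (a : M →ₗ[k] M) - 1 ∈ TΘ := by
    intro A hA a ha
    rw [hTΘ]
    exact ⟨A, hA, a, ha, rfl⟩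
  have memH : ∀ c : LinearMap.GeneralLinearGroup k M, (c ∈ A₁ ∨ c ∈ A₂) →
      (c : M →ₗ[k] M) - 1 ∈ TH := by
    intro c hc
    rw [hTH]
    exact ⟨c, hc, rfl⟩
  have hHn : ∃ n, zser8 TH n = ⊤ := by
    obtain ⟨n, hn⟩ := zser_of_unip8 (A₁ ⊔ A₂) (hWW A₁ hA₁ A₂ hA₂)
    refine ⟨n, top_le_iff.mp (hn ▸ zser8_anti_set ?_ n)⟩
    rw [hTH]
    rintro x ⟨c, hc, rfl⟩
    rcases hc with hc | hc
    · exact ⟨c, Subgroup.mem_sup_left hc, rfl⟩
    · exact ⟨c, Subgroup.mem_sup_right hc, rfl⟩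
  have hHco := isCoflag8_zser TH hHn
  have hTΘ1 : ∀ t ∈ TΘ, t ∈ nfil8 Z₁ 1 := by
    rw [hTΘ]
    rintro t ⟨A, hA, a, ha, rfl⟩
    exact (hΘ hA).2 a ha
  have hn : ∀ c : LinearMap.GeneralLinearGroup k M, (c ∈ A₁ ∨ c ∈ A₂) → ∀ A ∈ Θ,
      Cfsg.conjBy A c⁻¹ ∈ Θ := by
    rintro c (hc | hc) A hA
    · exact hn₁ c⁻¹ (A₁.inv_mem hc) A hA
    · exact hn₂ c⁻¹ (A₂.inv_mem hc) A hA
  have hasc : ∃ n, zser8 (TΘ ∪ TH) n = ⊤ := by
    apply asc_nil8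
    intro Z hZtop hZinv
    obtain ⟨C, hC⟩ : ∃ C : Submodule k M, C = ⨅ t ∈ TΘ, Z.comap t := ⟨_, rfl⟩
    have hCmem : ∀ m, m ∈ C ↔ ∀ t ∈ TΘ, t m ∈ Z := by
      intro m
      rw [hC]
      simp only [Submodule.mem_iInf, Submodule.mem_comap]
    obtain ⟨m₀, -, hm₀Z, hm₀⟩ := fp_coflag8 Z₁ h1 TΘ hTΘ1 ⊤ Z (fun _ _ _ _ => trivial)
      (by rw [top_le_iff]; exact hZtop)
    have hCZ : ¬ C ≤ Z := fun hle => hm₀Z (hle ((hCmem m₀).mpr hm₀))
    have hCinv : ∀ t ∈ TH, ∀ m ∈ C, t m ∈ C := by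
      intro t ht m hm
      rw [hTH] at ht
      obtain ⟨c, hc, rfl⟩ := ht
      rw [hCmem] at hm ⊢
      intro s hs
      rw [hTΘ] at hs
      obtain ⟨A, hA, a, ha, rfl⟩ := hs
      have hcZ : ∀ z ∈ Z, (c : M →ₗ[k] M) z ∈ Z := by
        intro z hz
        have h3 := hZinv ((c : M →ₗ[k] M) - 1) (Or.inr (memH c hc)) z hz
        rw [LinearMap.sub_apply, Module.End.one_apply] at h3
        have h4 := Z.add_mem h3 hz
        rwa [sub_add_cancel] at h4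
      have h1' : ((a : M →ₗ[k] M) - 1) m ∈ Z := hm _ (memΘ A hA a ha)
      have hconj : c⁻¹ * a * c ∈ Cfsg.conjBy A c⁻¹ := ⟨a, ha, by simp [MulAut.conj_apply]⟩
      have h2' : (((c⁻¹ * a * c : LinearMap.GeneralLinearGroup k M) : M →ₗ[k] M) - 1) m ∈ Z :=
        hm _ (memΘ _ (hn c hc A hA) _ hconj)
      have h3' := hcZ _ h2'
      have eE : ((a : M →ₗ[k] M) - 1) * ((c : M →ₗ[k] M) - 1)
          = (c : M →ₗ[k] M) * (((c⁻¹ * a * c : LinearMap.GeneralLinearGroup k M) :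
              M →ₗ[k] M) - 1) - ((a : M →ₗ[k] M) - 1) := by
        have hcc : (c : M →ₗ[k] M) * ((c⁻¹ * a * c : LinearMap.GeneralLinearGroup k M) :
            M →ₗ[k] M) = (a : M →ₗ[k] M) * (c : M →ₗ[k] M) := by
          rw [← Units.val_mul, ← Units.val_mul]
          congr 1
          group
        have hcc' : (c : M →ₗ[k] M) * (((c⁻¹ * a * c : LinearMap.GeneralLinearGroup k M) :
            M →ₗ[k] M) - 1) = (a : M →ₗ[k] M) * (c : M →ₗ[k] M) - (c : M →ₗ[k] M) := by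
          rw [mul_sub, hcc, mul_one]
        rw [hcc']
        noncomm_ring
      have e : ((a : M →ₗ[k] M) - 1) (((c : M →ₗ[k] M) - 1) m)
          = (c : M →ₗ[k] M) ((((c⁻¹ * a * c : LinearMap.GeneralLinearGroup k M) :
              M →ₗ[k] M) - 1) m) - ((a : M →ₗ[k] M) - 1) m := by
        have h5 := congrArg (fun f : Module.End k M => f m) eE
        simpa only [Module.End.mul_apply, LinearMap.sub_apply] using h5
      rw [e]
      exact Z.sub_mem h3' h1'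
    obtain ⟨m, hmC, hmZ, hmT⟩ := fp_coflag8 (zser8 TH) hHco TH (subset_nfil8_zser TH) C Z
      hCinv hCZ
    refine ⟨m, hmZ, ?_⟩
    rintro t (ht | ht)
    · exact (hCmem m).mp hmC t ht
    · exact hmT t ht
  refine ⟨zser8 (TΘ ∪ TH), isCoflag8_zser _ hasc, ?_, ?_, ?_⟩
  · intro A hA
    exact ⟨(hΘ hA).1, fun a ha => subset_nfil8_zser _ _ (Or.inl (memΘ A hA a ha))⟩
  · exact ⟨hA₁, fun a ha => subset_nfil8_zser _ _ (Or.inr (memH a (Or.inl ha)))⟩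
  · exact ⟨hA₂, fun a ha => subset_nfil8_zser _ _ (Or.inr (memH a (Or.inr ha)))⟩

/-- Any two maximal co-flags have the same closed set. -/
theorem max_unique8 [FiniteDimensional k M]
    {G : Subgroup (LinearMap.GeneralLinearGroup k M)}
    {W : Set (Subgroup (LinearMap.GeneralLinearGroup k M))} (hWG : ∀ A ∈ W, A ≤ G)
    (hWW : ∀ A ∈ W, ∀ B ∈ W, Cfsg.IsUnipotentOn (A ⊔ B))
    (hWconj : ∀ A ∈ W, ∀ g ∈ G, Cfsg.conjBy A g ∈ W) :
    ∀ (n : ℕ) (Z₁ Z₂ : ℕ → Submodule k M), IsMaxCoflag8 W Z₁ → IsMaxCoflag8 W Z₂ →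
      Module.finrank k (Module.End k M)
        - Module.finrank k (dspan8 (gam8 W Z₁ ∩ gam8 W Z₂)) = n →
      gam8 W Z₁ = gam8 W Z₂ := by
  intro n
  induction n using Nat.strong_induction_on with
  | _ n ih =>
    intro Z₁ Z₂ hm₁ hm₂ hn
    by_contra hneq
    have hne12 : ¬ gam8 W Z₁ ⊆ gam8 W Z₂ := fun h =>
      hneq (Set.Subset.antisymm h (hm₁.2 Z₂ hm₂.1 h))
    have hne21 : ¬ gam8 W Z₂ ⊆ gam8 W Z₁ := fun h =>
      hneq (Set.Subset.antisymm (hm₂.2 Z₁ hm₁.1 h) h)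
    obtain ⟨A₁, hA₁, hA₁2, hnorm₁⟩ := step1_8 hWG hWconj Z₁ Z₂ hm₁.1 hm₂.1 hne12
    obtain ⟨A₂, hA₂, hA₂1, hnorm₂⟩ := step1_8 hWG hWconj Z₂ Z₁ hm₂.1 hm₁.1 hne21
    rw [Set.inter_comm] at hnorm₂
    obtain ⟨Z₃', hZ₃', hΘ3, hA₁3, hA₂3⟩ := step2_8 hWW Z₁ hm₁.1
      (gam8 W Z₁ ∩ gam8 W Z₂) Set.inter_subset_left A₁ A₂ hA₁.1 hA₂.1 hnorm₁ hnorm₂
    obtain ⟨Z₃, hm₃, hsub3⟩ := exists_max8 W Z₃' hZ₃'
    have hlt1 : dspan8 (gam8 W Z₁ ∩ gam8 W Z₂) < dspan8 (gam8 W Z₃ ∩ gam8 W Z₁) :=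
      dspan8_lt W Z₂ Set.inter_subset_right
        (fun A hA => ⟨hsub3 (hΘ3 hA), hA.1⟩) (A := A₁) ⟨hsub3 hA₁3, hA₁⟩ hA₁.1 hA₁2
    have hlt2 : dspan8 (gam8 W Z₁ ∩ gam8 W Z₂) < dspan8 (gam8 W Z₃ ∩ gam8 W Z₂) :=
      dspan8_lt W Z₁ Set.inter_subset_left
        (fun A hA => ⟨hsub3 (hΘ3 hA), hA.2⟩) (A := A₂) ⟨hsub3 hA₂3, hA₂⟩ hA₂.1 hA₂1
    have hrk1 := Submodule.finrank_lt_finrank_of_lt hlt1
    have hrk2 := Submodule.finrank_lt_finrank_of_lt hlt2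
    have hle1 := Submodule.finrank_le (dspan8 (gam8 W Z₃ ∩ gam8 W Z₁))
    have hle2 := Submodule.finrank_le (dspan8 (gam8 W Z₃ ∩ gam8 W Z₂))
    have e1 := ih _ (by omega) Z₃ Z₁ hm₃ hm₁ rfl
    have e2 := ih _ (by omega) Z₃ Z₂ hm₃ hm₂ rfl
    exact hneq (e1.symm.trans e2)

/-- A single co-flag stabilized by every member of the family. -/
theorem unip_coflag8 [FiniteDimensional k M]
    {G : Subgroup (LinearMap.GeneralLinearGroup k M)}
    {W : Set (Subgroup (LinearMap.GeneralLinearGroup k M))} (hWG : ∀ A ∈ W, A ≤ G)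
    (hWW : ∀ A ∈ W, ∀ B ∈ W, Cfsg.IsUnipotentOn (A ⊔ B))
    (hWconj : ∀ A ∈ W, ∀ g ∈ G, Cfsg.conjBy A g ∈ W) :
    ∃ Z : ℕ → Submodule k M, IsCoflag8 Z ∧ ∀ A ∈ W, ∀ a ∈ A,
      (a : M →ₗ[k] M) - 1 ∈ nfil8 Z 1 := by
  have h0 : IsCoflag8 (zser8 (∅ : Set (Module.End k M))) := by
    refine isCoflag8_zser _ ⟨1, ?_⟩
    rw [eq_top_iff]
    intro m _
    rw [mem_zser8_succ]
    intro t ht
    exact absurd ht (Set.notMem_empty t)
  obtain ⟨Zs, hms, -⟩ := exists_max8 W _ h0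
  refine ⟨Zs, hms.1, ?_⟩
  intro A hA
  obtain ⟨n, hn⟩ := zser_of_unip8 (A ⊔ A) (hWW A hA A hA)
  have hco : IsCoflag8 (zser8 {x : Module.End k M | ∃ g ∈ A ⊔ A, x = (g : M →ₗ[k] M) - 1}) :=
    isCoflag8_zser _ ⟨n, hn⟩
  have hAg : A ∈ gam8 W (zser8 {x : Module.End k M | ∃ g ∈ A ⊔ A, x = (g : M →ₗ[k] M) - 1}) :=
    ⟨hA, fun a ha => subset_nfil8_zser _ _ ⟨a, Subgroup.mem_sup_left ha, rfl⟩⟩
  obtain ⟨Z', hm', hsub'⟩ := exists_max8 W _ hco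
  have e := max_unique8 hWG hWW hWconj _ Z' Zs hm' hms rfl
  have hA' : A ∈ gam8 W Zs := e ▸ hsub' hAg
  exact hA'.2

theorem unip_result8 [FiniteDimensional k M]
    {G : Subgroup (LinearMap.GeneralLinearGroup k M)}
    {W : Set (Subgroup (LinearMap.GeneralLinearGroup k M))} (hWG : ∀ A ∈ W, A ≤ G)
    (hWW : ∀ A ∈ W, ∀ B ∈ W, Cfsg.IsUnipotentOn (A ⊔ B))
    (hWconj : ∀ A ∈ W, ∀ g ∈ G, Cfsg.conjBy A g ∈ W) :
    Cfsg.IsUnipotentOn (⨆ A ∈ W, A) ∧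
      ∀ g ∈ G, Cfsg.conjBy (⨆ A ∈ W, A) g = ⨆ A ∈ W, A := by
  constructor
  · obtain ⟨Z, ⟨h0, hmono, d, hd⟩, hall⟩ := unip_coflag8 hWG hWW hWconj
    have hX : ∀ g ∈ (⨆ A ∈ W, A : Subgroup (LinearMap.GeneralLinearGroup k M)),
        (g : M →ₗ[k] M) - 1 ∈ nfil8 Z 1 := by
      intro g hg
      refine Subgroup.iSup_induction (C := fun g : LinearMap.GeneralLinearGroup k M => (g : M →ₗ[k] M) - 1 ∈ nfil8 Z 1) _ hg
        ?_ ?_ ?_
      · intro A x hx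
        refine Subgroup.iSup_induction (C := fun g : LinearMap.GeneralLinearGroup k M => (g : M →ₗ[k] M) - 1 ∈ nfil8 Z 1) _ hx
          ?_ ?_ ?_
        · intro hA y hy
          exact hall A hA y hy
        · show ((1 : LinearMap.GeneralLinearGroup k M) : M →ₗ[k] M) - 1 ∈ nfil8 Z 1
          rw [Units.val_one, sub_self]
          exact Submodule.zero_mem _
        · intro x y hx hy
          show ((x * y : LinearMap.GeneralLinearGroup k M) : M →ₗ[k] M) - 1 ∈ nfil8 Z 1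
          have e : ((x * y : LinearMap.GeneralLinearGroup k M) : M →ₗ[k] M) - 1
              = ((x : M →ₗ[k] M) - 1) * ((y : M →ₗ[k] M) - 1) + ((x : M →ₗ[k] M) - 1)
                + ((y : M →ₗ[k] M) - 1) := by
            rw [Units.val_mul]
            noncomm_ring
          rw [e]
          exact Submodule.add_mem _ (Submodule.add_mem _
            (nfil8_anti Z hmono (by norm_num) (nfil8_mul Z hx hy)) hx) hy
      · show ((1 : LinearMap.GeneralLinearGroup k M) : M →ₗ[k] M) - 1 ∈ nfil8 Z 1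
        rw [Units.val_one, sub_self]
        exact Submodule.zero_mem _
      · intro x y hx hy
        show ((x * y : LinearMap.GeneralLinearGroup k M) : M →ₗ[k] M) - 1 ∈ nfil8 Z 1
        have e : ((x * y : LinearMap.GeneralLinearGroup k M) : M →ₗ[k] M) - 1
            = ((x : M →ₗ[k] M) - 1) * ((y : M →ₗ[k] M) - 1) + ((x : M →ₗ[k] M) - 1)
              + ((y : M →ₗ[k] M) - 1) := by
          rw [Units.val_mul]
          noncomm_ring
        rw [e]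
        exact Submodule.add_mem _ (Submodule.add_mem _
          (nfil8_anti Z hmono (by norm_num) (nfil8_mul Z hx hy)) hx) hy
    refine ⟨d, ?_⟩
    intro l hl hlen
    have h1 := list_prod_mem_nfil8 Z
      (l.map fun g : LinearMap.GeneralLinearGroup k M => (g : M →ₗ[k] M) - 1) (by
      intro x hx
      obtain ⟨g, hg, rfl⟩ := List.mem_map.mp hx
      exact hX g (hl g hg))
    rw [List.length_map, hlen, nfil8_eq_bot Z h0 hd, Submodule.mem_bot] at h1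
    have hcoe : ∀ l : List (LinearMap.GeneralLinearGroup k M),
        (l.map fun g => (g : M →ₗ[k] M) - 1)
          = List.map (fun g : LinearMap.GeneralLinearGroup k M => (g : M →ₗ[k] M) - 1) l := by
      intro l
      induction l with
      | nil => rfl
      | cons a l ih =>
        simp only [List.map_cons]
        rw [← ih]
        rfl
    rw [hcoe l]
    exact h1
  · have hle : ∀ g ∈ G, Cfsg.conjBy (⨆ A ∈ W, A) g ≤ ⨆ A ∈ W, A := by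
      intro g hg
      show (⨆ A ∈ W, A : Subgroup (LinearMap.GeneralLinearGroup k M)).map
        (MulAut.conj g).toMonoidHom ≤ _
      rw [Subgroup.map_iSup]
      apply iSup_le
      intro A
      rw [Subgroup.map_iSup]
      apply iSup_le
      intro hA
      exact le_iSup₂ (f := fun (A : Subgroup (LinearMap.GeneralLinearGroup k M))
        (_ : A ∈ W) => A) (Cfsg.conjBy A g) (hWconj A hA g hg)
    intro g hg
    apply le_antisymm (hle g hg)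
    intro x hx
    have h1 : g⁻¹ * x * g ∈ Cfsg.conjBy (⨆ A ∈ W, A) g⁻¹ := ⟨x, hx, by simp [MulAut.conj_apply]⟩
    have h2 := hle g⁻¹ (G.inv_mem hg) h1
    exact ⟨g⁻¹ * x * g, h2, by simp [MulAut.conj_apply, mul_assoc]⟩

end

end Cfsg.Agent.Lib.Helper8
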